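import Cfsg.Agent.H27.TenGeo

/-!
# Tensor power structures on a space with a bilinear form
-/

set_option autoImplicit false

namespace Cfsg.Agent.H30

open Module Function Matrix

section Abstract

variable {F U V : Type*} [Field F] [AddCommGroup U] [Module F U] [AddCommGroup V] [Module F V]

/-- `V` with the form `B` is a tensor power, indexed by `τ`, of `U` with the form `f`. -/
structure TPow (τ : Type*) [Fintype τ] [DecidableEq τ] (f : LinearMap.BilinForm F U)
    (B : LinearMap.BilinForm F V) where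
  /-- pure tensors -/
  pt : MultilinearMap F (fun _ : τ => U) V
  span : Submodule.span F (Set.range pt) = ⊤
  /-- the factor algebras -/
  fac : τ → (End F U →ₐ[F] End F V)
  fac_pt : ∀ s a u, fac s a (pt u) = pt (update u s (a (u s)))
  /-- the multiplier -/
  c : F
  c_ne : c ≠ 0
  form : ∀ u v, B (pt u) (pt v) = c * ∏ s, f (u s) (v s)

theorem prod_eq_mul_erase {τ M : Type*} [Fintype τ] [DecidableEq τ] [CommMonoid M] (g : τ → M)
    (s : τ) : ∏ i, g i = g s * ∏ i ∈ Finset.univ.erase s, g i :=
  (Finset.mul_prod_erase _ g (Finset.mem_univ s)).symm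

theorem prod_eq_mul_mul_erase {τ M : Type*} [Fintype τ] [DecidableEq τ] [CommMonoid M] (g : τ → M)
    {s s' : τ} (h : s' ≠ s) :
    ∏ i, g i = g s * g s' * ∏ i ∈ (Finset.univ.erase s).erase s', g i := by
  rw [prod_eq_mul_erase g s, mul_assoc,
    Finset.mul_prod_erase _ g (Finset.mem_erase.2 ⟨h, Finset.mem_univ _⟩)]

namespace TPow

variable {τ : Type*} [Fintype τ] [DecidableEq τ] {f : LinearMap.BilinForm F U}
  {B : LinearMap.BilinForm F V} (S : TPow τ f B)

theorem induction {p : V → Prop} (h0 : p 0) (hadd : ∀ x y, p x → p y → p (x + y))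
    (hsmul : ∀ (a : F) x, p x → p (a • x)) (hp : ∀ u, p (S.pt u)) (v : V) : p v := by
  have hv : v ∈ Submodule.span F (Set.range S.pt) := S.span ▸ Submodule.mem_top
  induction hv using Submodule.span_induction with
  | mem x hx => obtain ⟨u, rfl⟩ := hx; exact hp u
  | zero => exact h0
  | add x y _ _ hx hy => exact hadd x y hx hy
  | smul a x _ hx => exact hsmul a x hx

theorem ext_lin {W : Type*} [AddCommGroup W] [Module F W] {g h : V →ₗ[F] W}
    (H : ∀ u, g (S.pt u) = h (S.pt u)) : g = h :=
  LinearMap.ext_on_range S.span H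

theorem ext_bilin {g h : LinearMap.BilinForm F V}
    (H : ∀ u v, g (S.pt u) (S.pt v) = h (S.pt u) (S.pt v)) : g = h :=
  S.ext_lin fun u => S.ext_lin fun v => H u v

theorem fac_comm {s s' : τ} (h : s ≠ s') (a b : End F U) :
    S.fac s a * S.fac s' b = S.fac s' b * S.fac s a :=
  S.ext_lin fun u => by
    simp only [End.mul_apply, S.fac_pt, update_of_ne h, update_of_ne h.symm, update_comm h]

theorem form_update (u v : τ → U) (s : τ) (x y : U) :
    B (S.pt (update u s x)) (S.pt (update v s y)) =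
      f x y * (S.c * ∏ i ∈ Finset.univ.erase s, f (u i) (v i)) := by
  rw [S.form, prod_eq_mul_erase _ s, update_self, update_self, mul_left_comm]
  congr 2
  exact Finset.prod_congr rfl fun i hi => by
    rw [update_of_ne (Finset.ne_of_mem_erase hi), update_of_ne (Finset.ne_of_mem_erase hi)]

theorem form_update₂ (u v : τ → U) {s s' : τ} (h : s' ≠ s) (x y x' y' : U) :
    B (S.pt (update (update u s x) s' x')) (S.pt (update (update v s y) s' y')) =
      f x y * f x' y' * (S.c * ∏ i ∈ (Finset.univ.erase s).erase s', f (u i) (v i)) := by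
  rw [S.form, prod_eq_mul_mul_erase _ h, update_self, update_self, update_of_ne h.symm,
    update_of_ne h.symm, update_self, update_self, mul_left_comm]
  congr 2
  exact Finset.prod_congr rfl fun i hi => by
    have h1 := Finset.ne_of_mem_erase hi
    have h2 := Finset.ne_of_mem_erase (Finset.mem_of_mem_erase hi)
    rw [update_of_ne h1, update_of_ne h2, update_of_ne h1, update_of_ne h2]

theorem form_eq_zero {u v : τ → U} (s : τ) (h : f (u s) (v s) = 0) : B (S.pt u) (S.pt v) = 0 := by
  rw [S.form, Finset.prod_eq_zero (Finset.mem_univ s) h, mul_zero]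

theorem fac_adj (s : τ) {a a' : End F U} (h : ∀ x y, f (a x) y = f x (a' y)) (v w : V) :
    B (S.fac s a v) w = B v (S.fac s a' w) := by
  have : B.compLeft (S.fac s a) = B.compRight (S.fac s a') := S.ext_bilin fun u u' => by
    rw [LinearMap.BilinForm.compLeft_apply, LinearMap.BilinForm.compRight_apply, S.fac_pt, S.fac_pt]
    have h1 := S.form_update u u' s (a (u s)) (u' s)
    have h2 := S.form_update u u' s (u s) (a' (u' s))
    rw [update_eq_self] at h1 h2
    rw [h1, h2, h]
  exact congrArg (fun b : LinearMap.BilinForm F V => b v w) this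

/-- `g` acts as the tensor product of the `α s` after permuting the factors by `σ`. -/
def Act (g : V → V) (σ : Equiv.Perm τ) (α : τ → End F U) : Prop :=
  ∀ u, g (S.pt u) = S.pt fun s => α s (u (σ.symm s))

/-- `g` preserves the tensor decomposition. -/
def Pres (g : V → V) : Prop := ∃ σ α, S.Act g σ α

variable {S}

theorem Act.sim [Nontrivial U] (hf : f.Nondegenerate) {g : V → V} {σ : Equiv.Perm τ}
    {α : τ → End F U} (h : S.Act g σ α) (hg : ∀ x y, B (g x) (g y) = B x y) (s : τ) :
    ∃ d : F, d ≠ 0 ∧ ∀ x y, f x y = d * f (α s x) (α s y) := by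
  obtain ⟨x₀, hx₀⟩ := exists_ne (0 : U)
  obtain ⟨y₀, hy₀⟩ := H27.exists_apply_eq_one hf hx₀
  have key : ∀ x y, f x y = (∏ i ∈ Finset.univ.erase s, f (α i x₀) (α i y₀)) * f (α s x) (α s y) := by
    intro x y
    have h1 := hg (S.pt (update (fun _ => x₀) (σ.symm s) x)) (S.pt (update (fun _ => y₀) (σ.symm s) y))
    have h2 : ∀ z z₀ : U, (fun i => α i (update (fun _ => z₀) (σ.symm s) z (σ.symm i))) =
        update (fun i => α i z₀) s (α s z) := fun z z₀ => funext fun i => by
      by_cases hi : i = s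
      · rw [hi, update_self, update_self]
      · rw [update_of_ne hi, update_of_ne (σ.symm.injective.ne hi)]
    rw [h, h, h2, h2, S.form_update, S.form_update] at h1
    simp only [hy₀, Finset.prod_const_one] at h1
    apply mul_left_cancel₀ S.c_ne
    linear_combination -h1
  refine ⟨_, fun h0 => ?_, key⟩
  have := key x₀ y₀
  rw [h0, hy₀, zero_mul] at this
  exact one_ne_zero this

theorem Act.conj_fac {g : End F V} {σ : Equiv.Perm τ} {α : τ → End F U} (h : S.Act g σ α) (s : τ)
    {a a' : End F U} (ha : ∀ z, a' (α (σ s) z) = α (σ s) (a z)) :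
    g * S.fac s a = S.fac (σ s) a' * g :=
  S.ext_lin fun u => by
    rw [End.mul_apply, End.mul_apply, S.fac_pt, h, h, S.fac_pt]
    congr 1
    funext i
    by_cases hi : i = σ s
    · rw [hi, update_self, σ.symm_apply_apply, update_self, ha]
    · rw [update_of_ne hi, update_of_ne fun h0 => hi (by rw [← h0, σ.apply_symm_apply])]

end TPow

end Abstract

section Geo

variable {F : Type*} [Field F] {ι : Type} [Fintype ι] [DecidableEq ι] {k t : ℕ}

/-- Pure tensors of coordinate vectors as a multilinear map. -/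
def pureVML (τ κ : Type) [Fintype τ] [DecidableEq τ] (F : Type*) [Field F] :
    MultilinearMap F (fun _ : τ => κ → F) ((τ → κ) → F) :=
  MultilinearMap.pi fun x => (MultilinearMap.mkPiAlgebra F τ F).compLinearMap
    fun s => LinearMap.proj (x s)

theorem pureVML_apply {τ κ : Type} [Fintype τ] [DecidableEq τ] (u : τ → κ → F) :
    pureVML τ κ F u = H25.pureV u := rfl

theorem form_gramMatrix {κ : Type} [Fintype κ] [DecidableEq κ] {f : (κ → F) → (κ → F) → F}
    (h : Geo.IsBilinearForm f) (x y : κ → F) :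
    H25.form (RingEquiv.refl F) (Geo.gramMatrix f) x y = H27.geoBilin h x y := by
  conv_rhs => rw [pi_eq_sum_univ' x, pi_eq_sum_univ' y]
  simp only [H25.form, dotProduct, Matrix.mulVec, map_sum, map_smul, LinearMap.sum_apply,
    LinearMap.smul_apply, H27.geoBilin_apply, Geo.gramMatrix, Finset.mul_sum, smul_eq_mul,
    Function.comp, RingEquiv.refl_apply]
  rw [Finset.sum_comm]
  exact Finset.sum_congr rfl fun i _ => Finset.sum_congr rfl fun j _ => by ring

/-- The tensor power structure given by a frame. -/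
noncomputable def geoTPow {f₁ : (Fin k → F) → (Fin k → F) → F} (h₁ : Geo.IsBilinearForm f₁)
    {B : LinearMap.BilinForm F (ι → F)} {e : ι ≃ (Fin t → Fin k)} {P : GL ι F}
    (hT : Geo.IsTensorPowerFormStructure id (fun x y => B x y) f₁ e P) :
    TPow (Fin t) (H27.geoBilin h₁) B where
  pt := (H25.frameEquiv e P).toLinearMap.compMultilinearMap (pureVML (Fin t) (Fin k) F)
  span := by
    refine eq_top_iff.2 fun v _ => ?_
    obtain ⟨x, rfl⟩ := (H25.frameEquiv e P).surjective v
    rw [pi_eq_sum_univ' x, map_sum]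
    refine Submodule.sum_mem _ fun a _ => ?_
    rw [map_smul]
    exact Submodule.smul_mem _ _ (Submodule.subset_span ⟨fun s => Pi.single (a s) 1,
      congrArg (H25.frameEquiv e P) (H25.pureV_single a)⟩)
  fac s := (Matrix.toLinAlgEquiv'.toAlgHom.comp (H25.conjT (H25.frameEquiv e P)).toAlgHom).comp
    ((H25.factorT (Fin k) F s).comp LinearMap.toMatrixAlgEquiv'.toAlgHom)
  fac_pt s a u := by
    change H25.conjT (H25.frameEquiv e P) (H25.factorT (Fin k) F s (LinearMap.toMatrix' a)) *ᵥ
      H25.frameEquiv e P (H25.pureV u) = H25.frameEquiv e P (H25.pureV (update u s (a (u s))))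
    rw [H25.conjT_mulVec, H25.factorT_apply, H25.pureT_mulVec]
    congr 2
    funext i
    by_cases hi : i = s
    · subst hi; simp
    · simp [hi]
  c := hT.choose
  c_ne := hT.choose_spec.1
  form u v := by
    have h := hT.choose_spec.2 (H25.pureV u) (H25.pureV v)
    rw [← H25.frameEquiv_apply, ← H25.frameEquiv_apply] at h
    refine h.trans (congrArg _ ?_)
    have h2 := H25.form_pureT (σ := RingEquiv.refl F) (fun _ : Fin t => Geo.gramMatrix f₁) u v
    simp only [form_gramMatrix h₁] at h2
    rw [← h2, ← H25.formOfGram_eq]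
    rfl

theorem geoTPow_pt {f₁ : (Fin k → F) → (Fin k → F) → F} (h₁ : Geo.IsBilinearForm f₁)
    {B : LinearMap.BilinForm F (ι → F)} {e : ι ≃ (Fin t → Fin k)} {P : GL ι F}
    (hT : Geo.IsTensorPowerFormStructure id (fun x y => B x y) f₁ e P) (u : Fin t → Fin k → F) :
    (geoTPow h₁ hT).pt u = H25.frameEquiv e P (H25.pureV u) := rfl

theorem permT_mulVec_pureV {τ κ : Type} [Fintype τ] [DecidableEq τ] [Fintype κ] [DecidableEq κ]
    (σ : Equiv.Perm τ) (x : τ → κ → F) :
    H25.permT κ F σ *ᵥ H25.pureV x = H25.pureV fun s => x (σ.symm s) := by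
  ext z
  simp only [H25.pureV, H25.permT, mulVec, dotProduct, Matrix.of_apply, ite_mul, one_mul, zero_mul,
    Finset.sum_ite_eq', Finset.mem_univ, if_true, Function.comp_apply]
  conv_rhs => rw [← Equiv.prod_comp σ]
  simp

theorem exists_act_of_mem_standard {g : GL (Fin t → Fin k) F}
    (hg : g ∈ Geo.tensorWreathStandard k t F) :
    ∃ (σ : Equiv.Perm (Fin t)) (α : Fin t → GL (Fin k) F), ∀ u, g.1 *ᵥ H25.pureV u =
      H25.pureV fun s => (α s).1 *ᵥ u (σ.symm s) := by
  induction hg using Subgroup.closure_induction with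
  | mem g hg =>
    rcases hg with ⟨u, hu⟩ | ⟨σ, hσ⟩
    · have h1 : g = H25.pureGL u := Units.ext (Matrix.ext hu)
      subst h1
      exact ⟨1, u, fun x => H25.pureT_mulVec _ x⟩
    · have h1 : g = H25.permGL (Fin k) F σ := Units.ext (Matrix.ext hσ)
      subst h1
      exact ⟨σ, 1, fun x => (permT_mulVec_pureV σ x).trans (by simp)⟩
  | one => exact ⟨Equiv.refl _, 1, fun x => by simp⟩
  | mul a b _ _ ha hb =>
    obtain ⟨σ, α, ha⟩ := ha
    obtain ⟨ρ, β, hb⟩ := hb
    refine ⟨σ * ρ, fun s => α s * β (σ.symm s), fun x => ?_⟩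
    rw [Units.val_mul, ← Matrix.mulVec_mulVec, hb, ha]
    simp only [Units.val_mul, ← Matrix.mulVec_mulVec]
    rfl
  | inv a _ ha =>
    obtain ⟨σ, α, ha⟩ := ha
    refine ⟨σ.symm, fun s => (α (σ s))⁻¹, fun x => ?_⟩
    have := ha fun s => ((α (σ s))⁻¹).1 *ᵥ x (σ s)
    simp only [σ.apply_symm_apply, H25.gl_mulVec_inv] at this
    rw [← this, H25.gl_inv_mulVec]
    rfl

theorem geoTPow_pres {f₁ : (Fin k → F) → (Fin k → F) → F} (h₁ : Geo.IsBilinearForm f₁)
    {B : LinearMap.BilinForm F (ι → F)} {e : ι ≃ (Fin t → Fin k)} {P : GL ι F}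
    (hT : Geo.IsTensorPowerFormStructure id (fun x y => B x y) f₁ e P) {g : GL ι F}
    (hg : g ∈ Geo.tensorWreathSubgroup k t e P) : (geoTPow h₁ hT).Pres fun v => g.1 *ᵥ v := by
  obtain ⟨h, hh, hg⟩ := (H25.mem_map_frame _ e P g).1 hg
  obtain ⟨σ, α, h1⟩ := exists_act_of_mem_standard hh
  refine ⟨σ, fun s => Matrix.toLin' (α s).1, fun u => ?_⟩
  simp only [geoTPow_pt, hg, H25.conjT_mulVec, h1, Matrix.toLin'_apply]

end Geo

end Cfsg.Agent.H30
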