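import Cfsg.Agent.H30.Fr56B
import Cfsg.Agent.H7.Critical
import Cfsg.Agent.H26.PInst

/-!
# Normalisers of groups of symplectic type through orthogonal frames in dimensions five and six
-/

set_option autoImplicit false

namespace Cfsg.Agent.H30

open QuadraticMap Module

/-- In a `2`-group of exponent four whose characteristic abelian subgroups are cyclic all squares
are central. -/
theorem mul_self_mem_center {G : Type*} [Group G] [Finite G] (hG : IsPGroup 2 G)
    (h4 : ∀ x : G, x ^ 4 = 1)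
    (hc : ∀ A : Subgroup G, A.Characteristic → IsMulCommutative A → IsCyclic A) (x : G) :
    x * x ∈ Subgroup.center G := by
  classical
  obtain ⟨H, hH, h1, h3, h5, -⟩ := H7.exists_critical hG
  set D := H ⊓ Subgroup.centralizer (H : Set G) with hD
  have hDc : D.Characteristic := inferInstance
  have hDn : D.Normal := inferInstance
  have hcyc := hc D hDc ⟨⟨fun a b => Subtype.ext (b.2.2 a a.2.1)⟩⟩
  have key : ∀ d ∈ D, d * d = 1 → ∀ g, g * d * g⁻¹ = d := by
    intro d hd hdd g
    by_contra hne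
    have hd1 : d ≠ 1 := by rintro rfl; simp at hne
    have := Fintype.ofFinite D
    have h6 := IsCyclic.card_pow_eq_one_le (α := D) (n := 2) two_pos
    have h7 : ({1, ⟨d, hd⟩, ⟨g * d * g⁻¹, hDn.conj_mem d hd g⟩} : Finset D) ⊆
        Finset.univ.filter fun a : D => a ^ 2 = 1 := by
      intro a ha
      simp only [Finset.mem_insert, Finset.mem_singleton] at ha
      rw [Finset.mem_filter]
      refine ⟨Finset.mem_univ _, ?_⟩
      rcases ha with rfl | rfl | rfl
      · exact one_pow 2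
      · exact Subtype.ext ((pow_two d).trans hdd)
      · exact Subtype.ext (by
          rw [Subgroup.coe_pow, conj_pow, pow_two, hdd, mul_one, mul_inv_cancel]; rfl)
    have h8 := Finset.card_le_card h7
    rw [Finset.card_eq_three.2 ⟨_, _, _, fun h => hd1 (congrArg Subtype.val h).symm, fun h => hd1
      (conj_eq_one_iff.1 (congrArg Subtype.val h).symm),
      fun h => hne (congrArg Subtype.val h).symm, rfl⟩] at h8
    omega
  have h44 : ∀ y : G, y * y * (y * y) = 1 := fun y => by rw [← h4 y]; simp [pow_succ, mul_assoc]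
  have h6 : x * x ∈ Subgroup.centralizer (H : Set G) := by
    intro y hy
    have h7 : y⁻¹ * x * y⁻¹⁻¹ * x⁻¹ ∈ D :=
      h3 (Subgroup.commutator_mem_commutator (H.inv_mem hy) (Subgroup.mem_top x))
    have h8 : y * y ∈ D := ⟨H.mul_mem hy hy, pow_two y ▸ h1 y hy⟩
    have h9 := key _ h8 (h44 y) x
    have h10 : x * y * x⁻¹ = y * (y⁻¹ * x * y⁻¹⁻¹ * x⁻¹) := by group
    have h11 := h7.2 y hy
    generalize y⁻¹ * x * y⁻¹⁻¹ * x⁻¹ = δ at h7 h10 h11
    have h12 : δ * δ = 1 := by
      rw [show x * (y * y) * x⁻¹ = x * y * x⁻¹ * (x * y * x⁻¹) by group, h10, mul_assoc,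
        ← mul_assoc δ, ← h11, mul_assoc, ← mul_assoc] at h9
      exact mul_eq_left.1 h9
    have h13 := key δ h7 h12 x
    calc y * (x * x) = y * (δ * δ) * (x * x) := by rw [h12, mul_one]
      _ = x * y * x⁻¹ * (x * δ * x⁻¹) * (x * x) := by rw [h10, h13, mul_assoc y δ]
      _ = x * (y * δ) * x := by group
      _ = x * x * y := by rw [← h10]; group
  exact Subgroup.mem_center_iff.2 fun g => mul_inv_eq_iff_eq_mul.1 (key _ ⟨h5 h6, h6⟩ (h44 x) g)

variable {F V : Type*} [Field F] [AddCommGroup V] [Module F V] {Q : QuadraticForm F V}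

theorem exists_eigen (h2 : (2 : F) ≠ 0) {E : Subgroup (O Q)} (hE : ∀ e ∈ E, e * e = 1)
    (W : Submodule F V) (hW : ∀ e ∈ E, ∀ x ∈ W, e.1 x ∈ W) {x : V} (hx : x ∈ W) (hQx : Q x ≠ 0)
    (S : Finset (O Q)) (hS : ∀ e ∈ S, e ∈ E) :
    ∃ y ∈ W, Q y ≠ 0 ∧ ∀ e ∈ S, e.1 y = y ∨ e.1 y = -y := by
  classical
  have hc : ∀ e ∈ E, ∀ e' ∈ E, ∀ y, e.1 (e'.1 y) = e'.1 (e.1 y) := fun e he e' he' y => by
    have h1 : e * e' = e' * e := by
      rw [← inv_eq_of_mul_eq_one_right (hE _ (mul_mem he he')), mul_inv_rev,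
        inv_eq_of_mul_eq_one_right (hE e he), inv_eq_of_mul_eq_one_right (hE e' he')]
    rw [← O_mul_apply, h1, O_mul_apply]
  induction S using Finset.induction_on with
  | empty => exact ⟨x, hx, hQx, by simp⟩
  | insert e S _ ih =>
    obtain ⟨y, hy, h1, h3⟩ := ih fun e he => hS e (Finset.mem_insert_of_mem he)
    have he := hS e (Finset.mem_insert_self _ _)
    have h4 : e.1 (e.1 y) = y := by rw [← O_mul_apply, hE e he, O_one_apply]
    have h5 : ∀ s : F, ∀ e' ∈ S, e'.1 (y + s • e.1 y) = y + s • e.1 y ∨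
        e'.1 (y + s • e.1 y) = -(y + s • e.1 y) := fun s e' he' => by
      rw [map_add, map_smul, hc e' (hS e' (Finset.mem_insert_of_mem he')) e he]
      rcases h3 e' he' with h | h <;> rw [h]
      · exact Or.inl rfl
      · exact Or.inr (by rw [map_neg]; module)
    by_cases h6 : Q (y + (1 : F) • e.1 y) = 0
    · refine ⟨y + (-1 : F) • e.1 y, W.add_mem hy (W.smul_mem _ (hW e he y hy)), fun h7 => ?_,
        fun e' he' => ?_⟩
      · rw [Q_add, Q_smul, O_map, polar_smul_right'] at h6 h7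
        exact mul_ne_zero (mul_ne_zero h2 h2) h1 (by linear_combination h6 + h7)
      · rcases Finset.mem_insert.1 he' with rfl | he'
        · exact Or.inr (by rw [map_add, map_smul, h4]; module)
        · exact h5 _ e' he'
    · refine ⟨_, W.add_mem hy (W.smul_mem _ (hW e he y hy)), h6, fun e' he' => ?_⟩
      rcases Finset.mem_insert.1 he' with rfl | he'
      · exact Or.inl (by rw [map_add, map_smul, h4]; module)
      · exact h5 _ e' he'

variable [FiniteDimensional F V]

theorem exists_eigen_basis (hQ : (polarBilin Q).Nondegenerate) (h2 : (2 : F) ≠ 0)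
    {E : Subgroup (O Q)} [Finite E] (hE : ∀ e ∈ E, e * e = 1) :
    ∃ b : Basis (Fin (finrank F V)) F V, (∀ i, Q (b i) ≠ 0) ∧
      (∀ i j, i ≠ j → polar Q (b i) (b j) = 0) ∧ ∀ e ∈ E, ∀ i, e.1 (b i) = b i ∨ e.1 (b i) = -b i := by
  classical
  have key : ∀ k ≤ finrank F V, ∃ v : Fin k → V, (∀ i, Q (v i) ≠ 0) ∧
      (∀ i j, i ≠ j → polar Q (v i) (v j) = 0) ∧
      ∀ e ∈ E, ∀ i, e.1 (v i) = v i ∨ e.1 (v i) = -v i := by
    intro k hk
    induction k with
    | zero => exact ⟨Fin.elim0, by simp, by simp, by simp⟩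
    | succ k ih =>
      obtain ⟨v, h1, h3, h4⟩ := ih (by omega)
      let W := perp Q (Submodule.span F (Set.range v))
      have hW : ∀ x, x ∈ W ↔ ∀ i, polar Q (v i) x = 0 := fun x => by
        refine ⟨fun h i => ?_, fun h => mem_perp.2 fun y hy => ?_⟩
        · exact mem_perp.1 h _ (Submodule.subset_span ⟨i, rfl⟩)
        · induction hy using Submodule.span_induction with
          | mem y hy => obtain ⟨i, rfl⟩ := hy; exact h i
          | zero => simp
          | add y z _ _ a1 a2 => rw [polar_add_left, a1, a2, add_zero]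
          | smul t y _ a1 => rw [polar_smul_left', a1, mul_zero]
      obtain ⟨x, hx, hQx⟩ : ∃ x ∈ W, Q x ≠ 0 := by
        by_contra H
        push Not at H
        have h5 := finrank_add_finrank_perp hQ (Submodule.span F (Set.range v))
        have h6 : finrank F (Submodule.span F (Set.range v)) ≤ k :=
          (finrank_range_le_card v).trans (by simp)
        obtain ⟨x, hx, hx0⟩ := Submodule.exists_mem_ne_zero_of_ne_bot
          (ne_bot_of_finrank_pos (W := W) (by simp only [W]; omega))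
        refine hx0 (hQ.1 x fun y => ?_)
        have h7 : y - ∑ i, ((2 * Q (v i))⁻¹ * polar Q (v i) y) • v i ∈ W := (hW _).2 fun j => by
          rw [polar_sub_right, polar_sum_right, Finset.sum_eq_single j (fun i _ hi => by
            rw [polar_smul_right', h3 j i hi.symm, mul_zero]) (by simp), polar_smul_right',
            polar_self', mul_right_comm, inv_mul_cancel₀ (mul_ne_zero h2 (h1 j)), one_mul, sub_self]
        have h8 := H _ (W.add_mem hx h7)
        rw [Q_add, H x hx, H _ h7, polar_sub_right, polar_sum_right, Finset.sum_eq_zero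
          fun i _ => by rw [polar_smul_right', polar_comm _ x, (hW x).1 hx i, mul_zero]] at h8
        simpa using h8
      have := Fintype.ofFinite E
      obtain ⟨y, hy, h5, h6⟩ := exists_eigen h2 hE W (fun e he x hx => (hW _).2 fun i => by
        have h7 := O_polar e (v i) x
        rw [(hW x).1 hx i] at h7
        rcases h4 e he i with h | h <;> rw [h] at h7
        · exact h7
        · rwa [polar_neg_left, neg_eq_zero] at h7) hx hQx
        (Finset.univ.image (Subtype.val : E → O Q)) fun e he => by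
          obtain ⟨e, -, rfl⟩ := Finset.mem_image.1 he
          exact e.2
      refine ⟨Fin.cons y v, Fin.cases h5 h1, fun i j hij => ?_, fun e he => Fin.cases
        (h6 e (Finset.mem_image.2 ⟨⟨e, he⟩, Finset.mem_univ _, rfl⟩)) (h4 e he)⟩
      induction i using Fin.cases <;> induction j using Fin.cases
      · exact absurd rfl hij
      · exact (polar_comm _ _ _).trans ((hW y).1 hy _)
      · exact (hW y).1 hy _
      · exact h3 _ _ fun h => hij (congrArg _ h)
  obtain ⟨v, h1, h3, h4⟩ := key _ le_rfl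
  have h5 : LinearIndependent F v := LinearMap.BilinForm.linearIndependent_of_iIsOrtho
    (B := polarBilin Q) (fun j k h => h3 j k h) fun j h => mul_ne_zero h2 (h1 j) (by
      rw [← polar_self']; exact h)
  let b := Basis.mk h5 (Submodule.eq_top_of_finrank_eq (by
    rw [finrank_span_eq_card h5, Fintype.card_fin])).ge
  have hb : ∀ i, b i = v i := Basis.mk_apply _ _
  exact ⟨b, by simpa only [hb], by simpa only [hb], by simpa only [hb]⟩

/-- An elementary abelian subgroup of `Ω` of the largest possible order is the diagonal group of a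
frame. -/
theorem exists_frame_normalizer (hQ : (polarBilin Q).Nondegenerate) (h2 : (2 : F) ≠ 0)
    (h3 : 3 ≤ finrank F V) {E : Subgroup (O Q)} (hE : ∀ e ∈ E, e * e = 1) (hEK : E ≤ kerDS hQ)
    (hcard : 2 * Nat.card E = 2 ^ finrank F V) :
    ∃ (c : F) (b : Basis (Fin (finrank F V)) F V), Frame Q c b ∧
      Subgroup.normalizer (E : Set (O Q)) = stabDec Q (fdec b) := by
  classical
  have : Finite E := Nat.finite_of_card_ne_zero fun h => by
    rw [h] at hcard; exact absurd hcard.symm (by positivity)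
  obtain ⟨b, h1, h4, h5⟩ := exists_eigen_basis hQ h2 hE
  let i₀ : Fin (finrank F V) := ⟨0, by omega⟩
  have hsign : ∀ g g' : O Q, (∀ i, g.1 (b i) = b i ∨ g.1 (b i) = -b i) →
      (∀ i, g'.1 (b i) = b i ∨ g'.1 (b i) = -b i) → dickson hQ g = dickson hQ g' →
      (∀ i, i ≠ i₀ → (g.1 (b i) = b i ↔ g'.1 (b i) = b i)) → g = g' := by
    intro g g' hg hg' hd H
    have h6 : ∀ i, i ≠ i₀ → g.1 (b i) = g'.1 (b i) := fun i hi => by
      by_cases h : g.1 (b i) = b i
      · rw [h, (H i hi).1 h]
      · rw [(hg i).resolve_left h, (hg' i).resolve_left (mt (H i hi).2 h)]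
    by_cases h7 : g.1 (b i₀) = g'.1 (b i₀)
    · exact Frame.O_ext_b (b := b) fun i => if h : i = i₀ then h ▸ h7 else h6 i h
    have h8 : g = g' * refl Q (b i₀) := Frame.O_ext_b (b := b) fun i => by
      rw [O_mul_apply]
      by_cases h : i = i₀
      · rw [h, refl_apply_self (h1 _), map_neg]
        rcases hg i₀ with a | a <;> rcases hg' i₀ with a' | a' <;> simp_all
      · rw [refl_apply_of_orth (h4 _ _ h), h6 i h]
    rw [h8, map_mul, dickson_refl hQ (h1 _), mul_eq_left] at hd
    exact absurd hd (by decide)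
  have hmem : ∀ g : O Q, (∀ i, g.1 (b i) = b i ∨ g.1 (b i) = -b i) → dickson hQ g = 1 → g ∈ E := by
    intro g hg hd
    let f : E → ({i // i ≠ i₀} → Prop) := fun e i => e.1.1 (b i) = b i
    have hf : Function.Injective f := fun e e' h => Subtype.ext (hsign _ _ (h5 _ e.2) (h5 _ e'.2)
      ((hEK e.2).1.trans (hEK e'.2).1.symm) fun i hi => iff_of_eq (congrFun h ⟨i, hi⟩))
    obtain ⟨e, he⟩ := (hf.bijective_of_nat_card_le (by
      refine Nat.le_of_mul_le_mul_left (le_of_eq ?_) two_pos
      rw [hcard, Nat.card_fun, Nat.card_eq_fintype_card, Nat.card_eq_fintype_card,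
        Fintype.card_prop, ← pow_succ']
      simp; omega)).2 fun i => g.1 (b i) = b i
    rw [← hsign _ _ (h5 _ e.2) hg ((hEK e.2).1.trans hd.symm)
      fun i hi => iff_of_eq (congrFun he ⟨i, hi⟩)]
    exact e.2
  have hr : ∀ i j, refl Q (b i) * refl Q (b j) ∈ E := fun i j => hmem _ (fun k => by
      have h6 : ∀ i, (refl Q (b i)).1 (b k) = b k ∨ (refl Q (b i)).1 (b k) = -b k := fun i => by
        by_cases h : k = i
        · exact Or.inr (h ▸ refl_apply_self (h1 k))
        · exact Or.inl (refl_apply_of_orth (h4 _ _ h))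
      rw [O_mul_apply]
      rcases h6 j with h | h <;> rcases h6 i with h' | h' <;> simp [h, h'])
    (by rw [map_mul, dickson_refl hQ (h1 i), dickson_refl hQ (h1 j)]; simp)
  choose s hs using fun i => (refl_mul_refl_mem_kerDS_iff hQ (h1 i) (h1 i₀)).1 (hEK (hr i i₀))
  have hs0 : ∀ i, s i ≠ 0 := fun i h => mul_ne_zero (h1 i) (h1 i₀) (by rw [hs, h, mul_zero])
  let t : Fin (finrank F V) → Fˣ := fun i => Units.mk0 (Q (b i₀) / s i) (div_ne_zero (h1 _) (hs0 i))
  let b' := b.unitsSMul t
  have hb' : ∀ i, b' i = (t i : F) • b i := fun i => Basis.unitsSMul_apply i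
  have hb : Frame Q (Q (b i₀)) b' := ⟨h2, h1 _, fun i => by
    have := hs0 i
    rw [hb', Q_smul]
    simp only [t, Units.val_mk0]
    field_simp
    linear_combination Q (b i₀) * hs i, fun i j hij => by
      rw [hb', hb', polar_smul_left', polar_smul_right', h4 i j hij, mul_zero, mul_zero]⟩
  have h6 : ∀ (g : O Q) i, (g.1 (b' i) = b' i ∨ g.1 (b' i) = -b' i) ↔
      (g.1 (b i) = b i ∨ g.1 (b i) = -b i) := fun g i => by
    rw [hb', map_smul, ← smul_neg, (smul_right_injective V (t i).ne_zero).eq_iff,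
      (smul_right_injective V (t i).ne_zero).eq_iff]
  refine ⟨_, b', hb, le_antisymm (fun g hg => hb.mem_stabDec_of fun i => ?_) fun g hg => ?_⟩
  · obtain ⟨k, hk⟩ := exists_co_ne_zero (b := b') (O_apply_eq_zero.not.2 (b'.ne_zero i) : g.1 _ ≠ 0)
    refine ⟨k, co b' k (g.1 (b' i)), ext_co (b := b') fun l => ?_⟩
    by_cases hl : l = k
    · simp [hl]
    rw [map_smul, co_ne hl, smul_zero]
    by_contra h7
    obtain ⟨m, hm⟩ := H26.exists_notMem_list [k, l] (by simp; omega)
    simp only [List.mem_cons, List.not_mem_nil, or_false, not_or] at hm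
    have h8 : refl Q (b' k) * refl Q (b' m) ∈ E := by
      rw [hb', hb', refl_smul (t k).ne_zero, refl_smul (t m).ne_zero]; exact hr k m
    have h9 := (h6 _ i).2 (h5 _ ((Subgroup.mem_normalizer_iff''.1 hg _).1 h8) i)
    rw [O_mul_apply, O_mul_apply, O_inv_apply_eq, O_inv_apply_eq, map_neg, O_mul_apply] at h9
    rcases h9 with h9 | h9
    · have := congrArg (co b' k) h9
      rw [hb.co_refl_b, hb.co_refl_b, if_pos rfl, if_neg (Ne.symm hm.1)] at this
      exact mul_ne_zero h2 hk (by linear_combination -this)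
    · have := congrArg (co b' l) h9
      rw [hb.co_refl_b, hb.co_refl_b, if_neg hl, if_neg (Ne.symm hm.2), map_neg] at this
      exact mul_ne_zero h2 h7 (by linear_combination this)
  · have key : ∀ g ∈ stabDec Q (fdec b'), ∀ e ∈ E, g⁻¹ * e * g ∈ E := fun g hg e he => by
      obtain ⟨π, ε, -, h7⟩ := hb.exists_perm hg
      refine hmem _ (fun i => (h6 _ i).1 ?_) (by
        rw [map_mul, map_mul, (hEK he).1, mul_one, ← map_mul, inv_mul_cancel, map_one])
      rw [O_mul_apply, O_mul_apply, O_inv_apply_eq, O_inv_apply_eq, map_neg, h7, map_smul]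
      rcases (h6 _ _).2 (h5 e he (π i)) with h | h <;> simp [h]
    refine Subgroup.mem_normalizer_iff''.2 fun e => ⟨key g hg e, fun he => ?_⟩
    simpa [mul_assoc] using key _ (inv_mem hg) _ he

/-- Maximality of the normaliser of a `2`-group mapping onto the diagonal group of a frame. -/
theorem isMaximalIn_normalizer [Fintype F] (hp : (Fintype.card F).Prime) (h2 : (2 : F) ≠ 0)
    (hQ : (polarBilin Q).Nondegenerate) (h56 : finrank F V = 5 ∨ finrank F V = 6)
    {G Γ : Type*} [Group G] [Group Γ] (ψ : G →* Γ) (hψ : Function.Injective ψ) {K : Subgroup Γ}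
    (hK : ψ.range = K) (φ : G →* O Q) (hφ : φ.range = kerDS hQ) {z : G} (hz : z ≠ 1)
    (hker : ∀ g, φ g = 1 ↔ g = 1 ∨ g = z) {R : Subgroup Γ} (hRK : R ≤ K) (hzR : ψ z ∈ R)
    (hsq : ∀ x ∈ R, x * x = 1 ∨ x * x = ψ z) (hcard : Nat.card R = 2 ^ finrank F V) :
    Geo.IsMaximalIn K (Subgroup.normalizer (R : Set Γ) ⊓ K) := by
  subst hK
  have hkR : φ.ker ≤ R.comap ψ := fun g hg => by
    rcases (hker g).1 hg with rfl | rfl
    · exact one_mem _
    · exact hzR
  have h1 : Nat.card φ.ker = 2 := Nat.card_eq_two_iff.2 ⟨⟨1, one_mem _⟩, ⟨z, (hker z).2 (Or.inr rfl)⟩,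
    fun h => hz (congrArg Subtype.val h).symm, Set.eq_univ_of_forall fun g =>
      ((hker g).1 g.2).imp (fun h => Subtype.ext h) fun h => Subtype.ext h⟩
  obtain ⟨c, b, hb, hN⟩ := exists_frame_normalizer hQ h2 (by omega) (E := (R.comap ψ).map φ) (by
      rintro _ ⟨x, hx, rfl⟩
      rw [← map_mul, hker]
      exact (hsq _ hx).imp (fun h => hψ (by rw [map_mul, h, map_one]))
        fun h => hψ (by rw [map_mul, h])) (hφ ▸ Subgroup.map_le_range _ _) (by
    rw [← hcard, ← h1, ← Subgroup.relIndex_ker, ← Nat.card_congr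
      (Subgroup.subgroupOfEquivOfLe hkR).toEquiv, Subgroup.relIndex, Subgroup.card_mul_index]
    exact Nat.card_congr ((Subgroup.equivMapOfInjective _ ψ hψ).toEquiv.trans
      (MulEquiv.subgroupCongr (Subgroup.map_comap_eq_self hRK)).toEquiv))
  have hiff : ∀ g, ψ g ∈ Subgroup.normalizer (R : Set Γ) ↔ φ g ∈ stabDec Q (fdec b) := fun g => by
    have h3 : ∀ x, φ x ∈ (R.comap ψ).map φ ↔ ψ x ∈ R := fun x => by
      rw [← Subgroup.mem_comap, Subgroup.comap_map_eq_self hkR, Subgroup.mem_comap]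
    rw [← hN, Subgroup.mem_normalizer_iff, Subgroup.mem_normalizer_iff]
    refine ⟨fun h e => ⟨?_, fun he => ?_⟩, fun h x => ⟨fun hx => ?_, fun hx => ?_⟩⟩
    · rintro ⟨x, hx, rfl⟩
      exact ⟨g * x * g⁻¹, by simpa using (h _).1 hx, by simp⟩
    · obtain ⟨x, hx, h4⟩ := he
      refine ⟨g⁻¹ * x * g, (h _).2 (by simpa [mul_assoc] using hx), by simp [h4, mul_assoc]⟩
    · obtain ⟨x, rfl⟩ := hRK hx
      simpa using (h3 (g * x * g⁻¹)).1 (by simpa using (h _).1 ((h3 x).2 hx))
    · obtain ⟨y, hy⟩ := hRK hx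
      have h4 : x = ψ (g⁻¹ * y * g) := by simp [hy, mul_assoc]
      rw [h4] at hx ⊢
      exact (h3 _).1 ((h _).2 (by simpa [mul_assoc] using (h3 y).2 (by simpa [mul_assoc] using hx)))
  refine H26.isMaximalIn_inf (fun h => hb.oDec.not_kerDS_le hQ (i := ⟨0, by omega⟩)
    (ne_bot_of_finrank_pos (by rw [finrank_fdec]; omega)) (by rw [finrank_fdec]; omega) ?_)
    fun M h3 h4 => ?_
  · rw [← hφ]
    rintro _ ⟨g, rfl⟩
    exact (hiff g).1 (h ⟨g, rfl⟩)
  have h5 : φ.ker ≤ M.comap ψ := fun g hg => h3 ⟨Subgroup.le_normalizer (hkR hg), g, rfl⟩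
  refine (hb.le_or_le56 (hQ := hQ) (M := (M.comap ψ).map φ) (fun e he => ?_) hp (by simpa)
    (hφ ▸ Subgroup.map_le_range _ _)).imp (fun h x hx => ?_) ?_
  · obtain ⟨g, rfl⟩ := (hφ ▸ he.2 : e ∈ φ.range)
    exact ⟨g, h3 ⟨(hiff g).2 he.1, g, rfl⟩, rfl⟩
  · obtain ⟨g, rfl⟩ := h4 hx
    exact (hiff g).2 (h ⟨g, hx, rfl⟩)
  · rintro h _ ⟨g, rfl⟩
    have := h (hφ ▸ ⟨g, rfl⟩ : φ g ∈ kerDS hQ)
    rwa [← Subgroup.mem_comap, Subgroup.comap_map_eq_self h5] at this

end Cfsg.Agent.H30
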