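import Cfsg.Agent.H30.DecTwoB

/-!
# Decompositions into five hyperbolic planes over the field with nine elements
-/

set_option autoImplicit false

namespace Cfsg.Agent.H30

open QuadraticMap Module

variable {F V : Type*} [Field F] [AddCommGroup V] [Module F V] {Q : QuadraticForm F V}
  {κ : Type*}

theorem eich_add_left_mem {M : Subgroup (O Q)} (h3 : (3 : F) = 0) {u u' z : V} (hu : Q u = 0)
    (hu' : Q u' = 0) (h : polar Q u u' = 0) (hz : polar Q u z = 0) (hz' : polar Q u' z = 0)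
    (h1 : eich Q u z ∈ M) (h2 : eich Q u' z ∈ M) : eich Q (u + u') z ∈ M := by
  have h4 := eich_conj_mem (eich_neg_mem h2) h1
  have h5 : polar Q u' (-z) = 0 := by rw [polar_neg_right, hz', neg_zero]
  rw [eich_apply_of_orth h (by rw [polar_neg_right, hz, neg_zero]),
    eich_apply_of_orth_left hu' h5 (by rwa [polar_comm]),
    show polar Q z (-z) = Q z by
      rw [polar_neg_right, polar_self']; linear_combination (-Q z) * h3] at h4
  rw [eich_add_left hu hu' h hz hz']
  exact M.mul_mem h4 h2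

theorem four_sum (h3 : (3 : F) = 0) {a b c d : F} (ha : a ≠ 0) (hb : b ^ 4 = a ^ 4)
    (hc : c ^ 4 = a ^ 4) (hd : d ^ 4 = a ^ 4) (h : a + b + c + d = 0) :
    a + b = 0 ∨ a + c = 0 ∨ a + d = 0 := by
  obtain rfl : d = -a - b - c := by linear_combination h
  have : a ^ 4 * ((a + b) * ((a + c) * (a + (-a - b - c)))) = 0 := by
    linear_combination (a * b * c * (-a - b - c) * ((a + b) * ((a + c) * (a + (-a - b - c))))) * h3
      - a * c * (-a - b - c) * hb - a * b * (-a - b - c) * hc - a * b * c * hd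
  simpa only [mul_eq_zero, pow_eq_zero_iff (show 4 ≠ 0 by decide), ha, false_or] using this

theorem three_eq_zero_of_card_nine [Fintype F] (h9 : Fintype.card F = 9) : (3 : F) = 0 := by
  have := FiniteField.cast_card_eq_zero F
  rw [h9] at this
  exact pow_eq_zero_iff (n := 2) (by decide) |>.1 (by linear_combination this)

theorem pow_four_eq_of_card_nine [Fintype F] (h9 : Fintype.card F = 9) {a b : F} (ha : a ≠ 0)
    (hb : b ≠ 0) (h : IsSquare (a * b)) : b ^ 4 = a ^ 4 := by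
  obtain ⟨s, hs⟩ := h
  have hs0 : s ≠ 0 := by rintro rfl; exact mul_ne_zero ha hb (by rw [hs, mul_zero])
  have h1 := FiniteField.pow_card_sub_one_eq_one s hs0
  have h2 := FiniteField.pow_card_sub_one_eq_one a ha
  rw [h9] at h1 h2
  linear_combination (-b ^ 4) * h2 + a ^ 4 * h1 +
    a ^ 4 * (a * b + s * s) * (a ^ 2 * b ^ 2 + s ^ 4) * hs

namespace ODec

variable [FiniteDimensional F V] {D : κ → Submodule F V} (hD : ODec Q D)
include hD

theorem plusOn_top [Finite κ] (h : ∀ i, PlusOn Q (D i)) : PlusOn Q ⊤ := by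
  classical
  cases nonempty_fintype κ
  choose U hU hQU hd using h
  refine ⟨⨅ i, (U i).comap (hD.pr i), le_top, fun u hu => ?_, ?_⟩
  · rw [hD.Q_eq_sum]
    exact Finset.sum_eq_zero fun i _ => hQU i _ ((Submodule.mem_iInf _).1 hu i)
  rw [finrank_top, hD.finrank_eq_sum, ← Finset.sum_congr rfl fun i _ => hd i, ← Finset.mul_sum,
    ← Module.finrank_pi_fintype]
  congr 1
  refine LinearEquiv.finrank_eq (LinearEquiv.ofBijective (LinearMap.pi fun i =>
    ((hD.pr i) ∘ₗ Submodule.subtype _).codRestrict (U i)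
      fun x => (Submodule.mem_iInf _).1 x.2 i) ⟨?_, fun x => ?_⟩)
  · intro x y h
    exact Subtype.ext (hD.ext_pr fun i => congrArg (Subtype.val : U i → V) (congrFun h i))
  · have h1 : ∀ j, hD.pr j (∑ i, (x i : V)) = x j := fun j => by
      rw [hD.pr_sum_of_mem _ _ (fun i => hU i (x i).2), if_pos (Finset.mem_univ j)]
    exact ⟨⟨∑ i, (x i : V), (Submodule.mem_iInf _).2 fun j => by
      rw [Submodule.mem_comap, h1]; exact (x j).2⟩, funext fun j => Subtype.ext (h1 j)⟩

variable {hQ : (polarBilin Q).Nondegenerate} {M : Subgroup (O Q)} [Fintype F] [Fintype κ]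
  (hH : stabDec Q D ⊓ kerDS hQ ≤ M) (hirr : ∀ j, Irr Q (D j)) (hk : ∀ i, finrank F (D i) = 2)
  (hiso : ∀ i j, ∃ g : O Q, ∀ x, x ∈ D i ↔ g.1 x ∈ D j) (h5 : Fintype.card κ = 5)
  (h9 : Fintype.card F = 9) (hp : ∀ i, ¬ Aniso Q (D i))
include hH hirr hk hiso h5 h9 hp

/-- The endgame for five hyperbolic planes over the field with nine elements. -/
theorem eichGroup_le_of_nine {l : κ} {u w : V} (hu0 : u ≠ 0) (hQu : Q u = 0)
    (hu : u ∈ perp Q (D l)) (huw : polar Q u w = 0) (hw : eich Q u w ∈ M) (hwl : hD.pr l w ≠ 0) :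
    eichGroup Q ≤ M := by
  classical
  by_contra hE
  have h3 := three_eq_zero_of_card_nine h9
  have h2 : (2 : F) ≠ 0 := two_ne_zero_of_card_odd (by rw [h9]; decide)
  obtain ⟨ι, hι⟩ : IsSquare (-1 : F) := FiniteField.isSquare_neg_one_iff.2 (by rw [h9]; decide)
  have hι0 : ι ≠ 0 := by rintro rfl; simp at hι
  have ho : ∀ {z}, z ∈ D l → polar Q u z = 0 := fun hz => mem_perp'.1 hu _ hz
  have hhyp : ∀ i, ∃ e ∈ D i, ∃ f ∈ D i, IsHyp Q e f := fun i => by
    obtain ⟨e, he, hQe, he0⟩ : ∃ e ∈ D i, Q e = 0 ∧ e ≠ 0 := by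
      by_contra h1
      push Not at h1
      exact hp i h1
    exact ⟨e, he, (hD.nd i).exists_isHyp he hQe he0⟩
  obtain ⟨z, hz, hz0, h⟩ := hD.exists_mem_eich hH hirr hQu hu huw hw hwl
  have hsp : ∀ u', u' ≠ 0 → Q u' = 0 → u' ∈ perp Q (D l) → eich Q u' z ∈ M →
      ∀ m, m ≠ l → u' ∉ perp Q (D m) := fun u' h0 h1 h2 h4 m hm h6 =>
    hE (hD.eichGroup_le_of_spare_plus hH hirr hk hiso (by omega) hp h0 h1 h2
      (mem_perp'.1 h2 _ hz) h4 (by rwa [hD.pr_of_mem hz]) (Or.inr ⟨by omega, m, hm, h6⟩))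
  have hneg : ∀ m, ∃ g ∈ stabDec Q D ⊓ kerDS hQ, ∀ x, g.1 x = x + hD.pr m x := fun m => by
    obtain ⟨e, he, f, hf, h1⟩ := hhyp m
    refine ⟨torus Q e f (ι * ι), ⟨hD.torus_mem_stabDec he hf _, h1.torus_mem_kerDS hQ hι0⟩,
      fun x => ?_⟩
    obtain ⟨a, b, hab⟩ := h1.exists_comb_of_mem he hf (hk m) (hD.pr_mem m x)
    have h4 := IsHyp.torus_of_orth (ι * ι) (mem_perp'.1 (hD.sub_pr_mem m x) _ he)
      (mem_perp'.1 (hD.sub_pr_mem m x) _ hf)
    rw [map_sub, sub_eq_iff_eq_add] at h4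
    rw [h4, hab, ← hι, map_add, map_smul, map_smul, h1.torus_left (by simp),
      h1.torus_right (by simp)]
    match_scalars
    · ring
    · linear_combination (-a) * h3
    · rw [inv_neg, inv_one]; linear_combination (-b) * h3
  have hmove : ∀ g ∈ stabDec Q D ⊓ kerDS hQ, g.1 z = z → ∀ u', g.1 u = u + u' → u' ≠ 0 →
      Q u' = 0 → u' ∈ perp Q (D l) → ∀ m, m ≠ l → u' ∉ perp Q (D m) :=
      fun g hg hgz u' hgu h0 h1 h4 => by
    have h6 := eich_conj_mem (hH hg) h
    have h7 : Q (u + u') = 0 := by rw [← hgu, O_map, hQu]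
    rw [hgz, hgu] at h6
    have h8 := eich_add_left_mem h3 h7 (u' := -u) (by rw [QuadraticMap.map_neg, hQu])
      (by rw [Q_add, hQu, h1] at h7
          rw [polar_neg_right, polar_add_left, polar_self', hQu, polar_comm]
          linear_combination -h7)
      (by rw [polar_add_left, ho hz, mem_perp'.1 h4 _ hz, add_zero])
      (by rw [polar_neg_left, ho hz, neg_zero]) h6 (by rw [eich_neg_left]; exact eich_neg_mem h)
    rw [add_neg_cancel_comm] at h8
    exact hsp u' h0 h1 h4 h8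
  have hzm : ∀ m, m ≠ l → hD.pr m z = 0 := fun m hm => hD.pr_of_ne hm hz
  have hns : ∀ m, m ≠ l → Q (hD.pr m u) ≠ 0 := fun m hm h0 => by
    obtain ⟨g, hg, h1⟩ := hneg m
    obtain ⟨n, hnl, hnm⟩ := exists_ne_ne (by omega) l m
    exact hmove g hg (by rw [h1, hzm m hm, add_zero]) _ (h1 u)
      (fun h4 => hsp u hu0 hQu hu h m hm (hD.pr_eq_zero_iff.1 h4)) h0
      (hD.mem_perp_of_ne hm.symm (hD.pr_mem m u)) n hnl (hD.mem_perp_of_ne hnm (hD.pr_mem m u))
  have hpair : ∀ m n, m ≠ l → n ≠ l → m ≠ n → Q (hD.pr m u) + Q (hD.pr n u) ≠ 0 :=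
      fun m n hm hn hmn h0 => by
    obtain ⟨g, hg, h1⟩ := hneg m
    obtain ⟨g', hg', h1'⟩ := hneg n
    obtain ⟨r, hrl, hrm, hrn⟩ := exists_ne_ne_ne (by omega) l m n
    have h4 : ∀ j, j ≠ m → j ≠ n → hD.pr m u + hD.pr n u ∈ perp Q (D j) := fun j h1 h2 =>
      (perp Q (D j)).add_mem (hD.mem_perp_of_ne h1 (hD.pr_mem m u))
        (hD.mem_perp_of_ne h2 (hD.pr_mem n u))
    refine hmove (g * g') (Subgroup.mul_mem _ hg hg')
      (by rw [O_mul_apply, h1', hzm n hn, add_zero, h1, hzm m hm, add_zero]) _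
      (by rw [O_mul_apply, h1', h1, map_add, hD.pr_pr_of_ne hmn]; abel) (fun h6 => hns m hm ?_)
      (by rw [Q_add, h0, hD.orth m n hmn _ (hD.pr_mem m u) _ (hD.pr_mem n u), add_zero])
      (h4 l hm.symm hn.symm) r hrl (h4 r hrm hrn)
    have := congrArg (hD.pr m) h6
    rw [map_add, hD.pr_pr, hD.pr_pr_of_ne hmn, add_zero, map_zero] at this
    rw [this, map_zero]
  obtain ⟨m, n, hm, hn, hmn⟩ : ∃ m n, m ≠ l ∧ n ≠ l ∧
      ¬ IsSquare (Q (hD.pr m u) * Q (hD.pr n u)) := by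
    by_contra h1
    push Not at h1
    obtain ⟨a, b, c, d, hab, hac, had, hbc, hbd, hcd, h4⟩ := Finset.card_eq_four.1
      (show (Finset.univ.erase l).card = 4 by rw [Finset.card_erase_of_mem (Finset.mem_univ l),
        Finset.card_univ, h5])
    have h6 : ∀ j ∈ ({a, b, c, d} : Finset κ), j ≠ l := fun j hj =>
      Finset.ne_of_mem_erase (h4 ▸ hj)
    have ha := h6 a (by simp)
    have hb := h6 b (by simp)
    have hc := h6 c (by simp)
    have hd := h6 d (by simp)
    have h7 := hD.Q_eq_sum u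
    rw [← Finset.add_sum_erase _ _ (Finset.mem_univ l), h4, hD.pr_eq_zero_iff.2 hu, map_zero,
      Finset.sum_insert (by simp [*]), Finset.sum_insert (by simp [*]),
      Finset.sum_insert (by simp [*]), Finset.sum_singleton, hQu] at h7
    rcases four_sum h3 (hns a ha) (pow_four_eq_of_card_nine h9 (hns a ha) (hns b hb) (h1 a b ha hb))
      (pow_four_eq_of_card_nine h9 (hns a ha) (hns c hc) (h1 a c ha hc))
      (pow_four_eq_of_card_nine h9 (hns a ha) (hns d hd) (h1 a d ha hd))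
      (by linear_combination -h7) with h8 | h8 | h8
    · exact hpair a b ha hb hab h8
    · exact hpair a c ha hc hac h8
    · exact hpair a d ha hd had h8
  have horth : ∀ m, m ≠ l → ∃ y ∈ D m, Q y ≠ 0 ∧ polar Q u y = 0 ∧
      IsSquare (Q (hD.pr m u) * Q y) := fun m hm => by
    obtain ⟨y, hy, hQy, h1, -⟩ := (hD.nd m).exists_orth_plane (hk m) (hD.pr_mem m u) (hns m hm)
    refine ⟨y, hy, hQy, by rwa [hD.polar_pr_left u hy] at h1, ?_⟩
    obtain ⟨s, hs⟩ := not_not.1 fun h4 => hp m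
      ((aniso_iff (hk m) h2 (hD.pr_mem m u) hy (hns m hm) hQy h1).2 h4)
    exact ⟨ι * s, by linear_combination -hs + (s * s) * hι⟩
  obtain ⟨y, hy, hQy, huy, hsy⟩ := horth m hm
  obtain ⟨y', hy', hQy', huy', hsy'⟩ := horth n hn
  have hyy : ¬ IsSquare (Q y * Q y') := fun ⟨r, hr⟩ => by
    obtain ⟨s, hs⟩ := hsy
    obtain ⟨s', hs'⟩ := hsy'
    have hr0 : r ≠ 0 := by rintro rfl; exact mul_ne_zero hQy hQy' (by rw [hr, mul_zero])
    refine hmn ⟨s * s' / r, ?_⟩
    field_simp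
    linear_combination (-(Q (hD.pr m u) * Q (hD.pr n u))) * hr + Q (hD.pr n u) * Q y' * hs +
      s * s * hs'
  suffices h : ∃ e ∈ D l, e ≠ 0 ∧ Q e = 0 ∧ eich Q u e ∈ M by
    obtain ⟨e, he, he0, hQe, h⟩ := h
    rw [eich_swap hQu hQe] at h
    exact hE (hD.eichGroup_le_of_member hH hirr hiso
      (fun i j _ => Or.inr (exists_ne_ne (by omega) i j)) he he0
      hQe (by rw [polar_neg_right, polar_comm, ho he, neg_zero]) h
      fun h => hu0 (hD.eq_zero_of_mem_of_perp (by simpa using h) hu))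
  by_cases hQz : Q z = 0
  · exact ⟨z, hz, hz0, hQz, h⟩
  obtain ⟨e, he, f, hf, h1⟩ := hhyp l
  obtain ⟨a, b, rfl⟩ := h1.exists_comb_of_mem he hf (hk l) hz
  rw [h1.Q_comb'] at hQz
  have key : ∀ μ : F, μ ≠ 0 → eich Q u ((a * μ) • e + (b * μ⁻¹) • f) ∈ M := fun μ hμ => by
    obtain ⟨g, hg, h6, h7⟩ : ∃ g, torus Q e f μ * g ∈ stabDec Q D ⊓ kerDS hQ ∧ g.1 u = u ∧
        g.1 (a • e + b • f) = a • e + b • f := by
      by_cases h4 : IsSquare μ
      · obtain ⟨s, rfl⟩ := h4
        exact ⟨1, by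
          rw [mul_one]
          exact ⟨hD.torus_mem_stabDec he hf _, h1.torus_mem_kerDS hQ (left_ne_zero_of_mul hμ)⟩,
          rfl, rfl⟩
      refine ⟨refl Q y * refl Q y', ⟨(stabDec Q D).mul_mem (hD.torus_mem_stabDec he hf _)
        ((stabDec Q D).mul_mem (hD.refl_mem_stabDec hy) (hD.refl_mem_stabDec hy')),
        (mem_kerDS hQ).2 ⟨?_, ?_⟩⟩, ?_, ?_⟩
      · rw [map_mul, map_mul, h1.dickson_torus hQ hμ, dickson_refl hQ hQy, dickson_refl hQ hQy']
        simp
      · rw [map_mul, map_mul, ← Units.val_mk0 hμ, h1.spinorNorm_torus hQ, spinorNorm_refl hQ hQy,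
          spinorNorm_refl hQ hQy', ← QuotientGroup.mk_mul, ← QuotientGroup.mk_mul,
          sqCl_mk_eq_one_iff]
        exact isSquare_mul_of_not h4 hyy
      · rw [O_mul_apply, refl_apply_of_orth huy', refl_apply_of_orth huy]
      · rw [O_mul_apply, refl_apply_of_orth (hD.orth l n hn.symm _ hz _ hy'),
          refl_apply_of_orth (hD.orth l m hm.symm _ hz _ hy)]
    have h4 := eich_conj_mem (hH hg) h
    rwa [O_mul_apply, O_mul_apply, h6, h7, IsHyp.torus_of_orth μ (ho he) (ho hf),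
      map_add, map_smul, map_smul, h1.torus_left hμ, h1.torus_right hμ, smul_smul,
      smul_smul] at h4
  obtain ⟨r, hr0, hr⟩ := exists_pow_ne_one (F := F) (n := 6) (by omega) (by omega)
  have hr1 : r + 1 ≠ 0 := fun h => hr (by rw [eq_neg_of_add_eq_zero_left h]; ring)
  have hr2 : r * r + r + 1 ≠ 0 := fun h => hr (by linear_combination (r - 1) * (r ^ 3 + 1) * h)
  have hm' : ∀ s t : F, polar Q u (s • e + t • f) = 0 := fun s t =>
    ho ((D l).add_mem ((D l).smul_mem _ he) ((D l).smul_mem _ hf))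
  have h6 := eich_sub_mem hQu (by rw [polar_add_right, hm', hm', add_zero]) (hm' _ _)
    (eich_add_mem hQu (hm' _ _) (hm' _ _) h (key r hr0)) (key _ hr1)
  refine ⟨(b * (r * r + r + 1) / (r * (r + 1))) • f, (D l).smul_mem _ hf, smul_ne_zero
    (div_ne_zero (mul_ne_zero (right_ne_zero_of_mul hQz) hr2) (mul_ne_zero hr0 hr1))
    h1.right_ne_zero, by rw [Q_smul, h1.right, mul_zero], ?_⟩
  convert h6 using 2
  match_scalars
  · field_simp; ring
  · ring

theorem eichGroup_le_of_two_nine {i : κ} {x v : V} (hx : x ∈ D i) (hQx : Q x ≠ 0) (hv : Rt M x v)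
    (hvD : ∀ j, v ∉ D j) : eichGroup Q ≤ M := by
  classical
  by_contra hE
  have h2 : (2 : F) ≠ 0 := two_ne_zero_of_card_odd (by rw [h9]; decide)
  have h3 : ∀ i j, i ≠ j → 3 ≤ finrank F (D i) ∨ ∃ l, l ≠ i ∧ l ≠ j := fun i j _ =>
    Or.inr (exists_ne_ne (by omega) i j)
  have hns : ∀ v, Rt M x v → ∀ j, hD.pr j v ≠ 0 → Q (hD.pr j v) ≠ 0 := fun v hv j hj h => by
    obtain ⟨a, ha, h2⟩ := exists_pow_ne_one (F := F) (n := 2) (by omega) (by omega)
    exact hE (hD.eichGroup_le_of_singular hH hirr hiso h3 ⟨a, ha, by rwa [← pow_two]⟩ hx hQx hv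
      hj h)
  have htr := fun v hv j hj => (hD.nd j).card_trSet (hk j) (hD.pr_mem j v) (hns v hv j hj)
  obtain ⟨m, hm⟩ := hD.exists_pr_ne_zero (ne_zero_of_Q_ne_zero (hv.1 ▸ hQx : Q v ≠ 0))
  obtain ⟨j, hjm, hj⟩ := hD.exists_two_pr hvD m
  have hgrow : ∀ n : ℕ, n ≤ 3 → ∃ w, Rt M x w ∧
      n + 2 ≤ (Finset.univ.filter fun i => hD.pr i w ≠ 0).card := fun n hn => by
    induction n with
    | zero => exact ⟨v, hv, Finset.one_lt_card.2 ⟨j, by simpa, m, by simpa, hjm⟩⟩
    | succ n ih =>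
      obtain ⟨w, hw, h4⟩ := ih (by omega)
      by_cases h6 : n + 1 + 2 ≤ (Finset.univ.filter fun i => hD.pr i w ≠ 0).card
      · exact ⟨w, hw, h6⟩
      obtain ⟨l, hl⟩ := exists_notMem_finset (Finset.univ.filter fun i => hD.pr i w ≠ 0) (by omega)
      obtain ⟨j, hj, m, hm, hjm⟩ := Finset.one_lt_card.1
        (show 1 < (Finset.univ.filter fun i => hD.pr i w ≠ 0).card by omega)
      simp only [Finset.mem_filter, Finset.mem_univ, true_and, not_not] at hj hm hl
      obtain ⟨t, ht, ht0⟩ := Finset.exists_mem_notMem_of_card_lt_card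
        (s := ({0, 1, -1} : Finset F).image fun γ =>
          γ * Q x - 2 * (Q x - Q (hD.pr j w) - Q (hD.pr m w)))
        (t := trSet Q (D m) (hD.pr m w)) (by
          have h7 := (htr w hw m hm).2.2 h2
          have h8 := Finset.card_le_three (a := (0 : F)) (b := 1) (c := -1)
          refine (Finset.card_image_le.trans h8).trans_lt ?_
          omega)
      obtain ⟨y, hy, hQy, rfl⟩ := mem_trSet.1 ht
      set γ := (2 * (Q x - Q (hD.pr j w) - Q (hD.pr m w)) + polar Q (hD.pr m w) y) / Q x with hγ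
      have h7 : γ ∉ ({0, 1, -1} : Finset F) := fun h => ht0 (Finset.mem_image.2 ⟨γ, h, by
        rw [hγ]; field_simp; ring⟩)
      simp only [Finset.mem_insert, Finset.mem_singleton, not_or] at h7
      obtain ⟨w', hw', h8, h9, h10, h11⟩ := hD.exists_root_grow hH hirr hk hiso hx hQx hw hjm hj
        (hns w hw m hm) hl hy hQy (γ := γ) (by rw [hγ]; field_simp) h7.1 fun h => by
          have h8 := hns w hw m hm
          rw [← hQy] at h8
          rw [h, Q_smul] at hQy
          rcases mul_self_eq_one_iff.1 (mul_right_cancel₀ h8 (hQy.symm.trans (one_mul _).symm))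
            with h9 | h9
          · exact h7.2.1 h9
          · exact h7.2.2 h9
      refine ⟨w', hw', le_trans ?_ (Finset.card_le_card (s := insert l
        (Finset.univ.filter fun i => hD.pr i w ≠ 0)) fun n hn => ?_)⟩
      · rw [Finset.card_insert_of_notMem (by simpa)]; omega
      · simp only [Finset.mem_insert, Finset.mem_filter, Finset.mem_univ, true_and] at hn ⊢
        by_cases hnl : n = l
        · rwa [hnl]
        by_cases hnj : n = j
        · rwa [hnj]
        by_cases hnm : n = m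
        · rwa [hnm]
        rw [h11 n hnj hnm hnl]
        exact smul_ne_zero (sub_ne_zero.2 (Ne.symm h7.2.1)) (hn.resolve_left hnl)
  obtain ⟨w, hw, h4⟩ := hgrow 3 le_rfl
  obtain ⟨S, hS, h6⟩ := Finset.exists_subset_card_eq h4
  let f : Fin 5 → κ := fun i => S.equivFinOfCardEq h6 |>.symm i
  have hf : Function.Injective f := Subtype.val_injective.comp (Equiv.injective _)
  have hwf : ∀ i, hD.pr (f i) w ≠ 0 := fun i => by
    simpa using hS ((S.equivFinOfCardEq h6).symm i).2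
  obtain ⟨u, hu0, hQu, huw, h7, ⟨l, hl⟩, -⟩ := hD.exists_eich_of_five hH hk h2
    (Or.inr ⟨hp, by omega⟩) hx hQx hw hf fun i => hns w hw _ (hwf i)
  exact hE (hD.eichGroup_le_of_nine hH hirr hk hiso h5 h9 hp hu0 hQu hl huw h7 (hwf l))

omit hirr in
theorem le_or_le_of_nine (hM : M ≤ kerDS hQ) : M ≤ stabDec Q D ∨ kerDS hQ ≤ M := by
  classical
  have hirr : ∀ j, Irr Q (D j) := fun j => (hD.nd j).irr (hk j).ge (by omega) (by omega) (by omega)
  have hn := hD.finrank_eq_mul hk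
  rw [← eichGroup_eq_kerDS hQ (not_isExc_of_finrank (by omega)) (by omega), or_iff_not_imp_right]
  intro hE
  obtain ⟨i⟩ : Nonempty κ := Fintype.card_pos_iff.1 (by omega)
  obtain ⟨y, hy, hQy⟩ := (hD.nd i).exists_Q_eq (hk i).ge 1
  have hQ1 : Q y ≠ 0 := by rw [hQy]; exact one_ne_zero
  have h1 := (hD.nd i).card_trSet (hk i) hy hQ1
  obtain ⟨t, ht, ht0⟩ := Finset.exists_mem_notMem_of_card_lt_card (s := {0, 2, -2})
    (t := trSet Q (D i) y) (Finset.card_le_three.trans_lt (by omega))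
  obtain ⟨y', hy', hQy', rfl⟩ := mem_trSet.1 ht
  simp only [Finset.mem_insert, Finset.mem_singleton, not_or] at ht0
  refine hD.le_stabDec_of_two hH hirr hiso hM hk h5.ge hE (Or.inr ?_)
    (fun j x hx hQx v hv => ?_) hy hy' hQ1 hQy' (fun s hs => ?_) (by rw [polar_comm]; exact ht0.1)
  · obtain ⟨a, ha, h2⟩ := exists_pow_ne_one (F := F) (n := 2) (by omega) (by omega)
    exact ⟨a, ha, by rwa [← pow_two]⟩
  · by_contra h
    push Not at h
    exact hE (hD.eichGroup_le_of_two_nine hH hirr hk hiso h5 h9 hp hx hQx hv h)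
  · rw [← hs, Q_smul, hQy, mul_one] at hQy'
    rw [← hs, polar_smul_right', polar_self', hQy, mul_one] at ht0
    rcases mul_self_eq_one_iff.1 hQy' with rfl | rfl
    · exact ht0.2.1 (one_mul _)
    · exact ht0.2.2 (neg_one_mul _)

end ODec

section Geo

variable {F : Type*} [Field F] [Fintype F] {ι : Type} [Fintype ι] [DecidableEq ι]

omit [Fintype F] [DecidableEq ι] in
theorem isPlusTypeOn_top_of_forall {Q : (ι → F) → F} (hQ : Geo.IsNondegenerateQuadraticForm Q)
    {t k : ℕ} {D : Fin t → Submodule F (ι → F)}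
    (hD : Geo.IsNondegenerateMDecomposition (polar Q) k D) (h : ∀ i, Geo.IsPlusTypeOn Q (D i)) :
    Geo.IsPlusTypeOn Q ⊤ := by
  obtain ⟨Q, -, rfl⟩ := exists_quadraticForm_of_geo hQ
  exact (oDec_of_geo hD).plusOn_top h

/-- Maximality in `Ω` of the stabiliser of an orthogonal decomposition into at least five
isometric planes. -/
theorem omega_c2_two' {Q : (ι → F) → F} (hQ : Geo.IsNondegenerateQuadraticForm Q) {t : ℕ}
    {D : Fin t → Submodule F (ι → F)} (hD : Geo.IsOrthogonalMDecomposition Q 2 D) (h5 : 5 ≤ t)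
    (hq3 : Fintype.card F ≠ 3) (hp : (∀ i, Geo.IsPlusTypeOn Q (D i)) → 7 ≤ Fintype.card F) :
    Geo.IsMaximalIn (Geo.omegaGL Q) (Geo.decompositionStabilizer D ⊓ Geo.omegaGL Q) := by
  by_cases h : (∀ i, Geo.IsPlusTypeOn Q (D i)) ∧ Fintype.card F = 9 ∧ t = 5
  swap
  · refine omega_c2_two hQ hD h5 hq3 fun h1 => ⟨hp h1, ?_⟩
    by_contra h2
    exact h ⟨h1, by omega⟩
  obtain ⟨h, h9, rfl⟩ := h
  obtain ⟨Q, hQ', rfl⟩ := exists_quadraticForm_of_geo hQ
  have hO := oDec_of_geo hD.decomp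
  have hk := hD.decomp.decomp.finrank_eq
  have hn := hO.finrank_eq_mul hk
  rw [Fintype.card_fin] at hn
  have hiso := fun i j => exists_isometry_of_geo hQ' (hD.isometric i j)
  refine isMaximalIn_geo hQ' (not_isExc_of_finrank (by omega)) ?_ fun M h1 h2 => ?_
  · rw [comap_decompositionStabilizer]
    exact hO.not_kerDS_le hQ' (i := ⟨0, by omega⟩) (ne_bot_of_finrank_pos (by rw [hk]; omega))
      (by rw [hk]; omega)
  · rw [comap_decompositionStabilizer] at h1 ⊢
    refine hO.le_or_le_of_nine h1 hk hiso (by simp) h9 (fun i hi => ?_) h2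
    obtain ⟨e, he, he0, hQe⟩ := exists_singular_of_isPlusTypeOn (h i) (by rw [hk]; omega)
    exact he0 (hi e he hQe)

end Geo

end Cfsg.Agent.H30
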