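import Cfsg.Agent.H30.DecBig

/-!
# Additive combinatorics in finite fields used for decompositions into planes
-/

set_option autoImplicit false

namespace Cfsg.Agent.H30

open QuadraticMap Module

section Comb

variable {F : Type*} [Field F] [Fintype F]

theorem exists_add_eq_of_card {A B : Finset F} (h : Fintype.card F < A.card + B.card) (x : F) :
    ∃ a ∈ A, ∃ b ∈ B, a + b = x := by
  classical
  by_contra h1
  push Not at h1
  have h2 : Disjoint A (B.image fun b => x - b) := Finset.disjoint_left.2 fun a ha hb => by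
    obtain ⟨b, hb', rfl⟩ := Finset.mem_image.1 hb
    exact h1 _ ha b hb' (by ring)
  have h3 := Finset.card_le_univ (A ∪ B.image fun b => x - b)
  rw [Finset.card_union_of_disjoint h2, Finset.card_image_of_injective _ sub_right_injective] at h3
  omega

theorem exists_add_eq_zero_of_card {A B : Finset F} (hA : 0 ∈ A)
    (h : Fintype.card F + 1 < A.card + B.card) : ∃ a ∈ A, ∃ b ∈ B, a ≠ 0 ∧ a + b = 0 := by
  classical
  obtain ⟨a, ha, b, hb, hab⟩ := exists_add_eq_of_card (A := A.erase 0) (B := B)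
    (by rw [Finset.card_erase_of_mem hA]; omega) 0
  exact ⟨a, Finset.mem_of_mem_erase ha, b, hb, (Finset.mem_erase.1 ha).1, hab⟩

theorem par_aux (h2 : (2 : F) ≠ 0) (π : F → ℤ) (hπ : ∀ x, x ≠ 0 → π x = 1 ∨ π x = -1)
    (hneg : ∀ x, x ≠ 0 → π (-x) = -π x) {m : F} (hm : m ≠ 0) (hm1 : π m = 1)
    (hsym : ∀ x, x ≠ 0 → x ≠ m → π (m - x) = π x) (B : Fin 2 → Finset F) (hB0 : ∀ i, 0 ∉ B i)
    (hcard : ∀ i, Fintype.card F ≤ 2 * (B i).card + 1)
    (hbig : 7 ≤ Fintype.card F ∨ ∀ i, Fintype.card F < 2 * (B i).card)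
    (hmul : ∀ a ∈ B 0, ∀ b ∈ B 1, a + b ≠ 0 → π (a + b) = π a * π b)
    (hsq : ∀ i, ∀ a ∈ B i, ∀ r, r * r * a ∈ B i → π (r * r * a) = π a) : False := by
  classical
  obtain ⟨p, hp, k, hpp, hq⟩ := FiniteField.card' F
  have hp2 : p ≠ 2 := by
    rintro rfl
    exact h2 (by exact_mod_cast CharP.cast_eq_zero F 2)
  obtain ⟨n, hn⟩ := hpp.odd_of_ne_two hp2
  have hp0 : ((2 * n + 1 : ℕ) : F) = 0 := hn ▸ CharP.cast_eq_zero F p
  have hstep : ∀ x, x ≠ 0 → x + m ≠ 0 → π (x + m) = -π x := fun x hx hxm => by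
    rw [← hneg x hx, ← hsym (-x) (neg_ne_zero.2 hx) (fun h => hxm (by rw [← h]; ring))]
    congr 1; ring
  have hsurj : ∀ x : F, ∃ j < p, x = j * m := fun x => by
    by_contra h
    push Not at h
    have h0 : ∀ j : ℕ, x ≠ j * m := fun j hj => h (j % p) (Nat.mod_lt _ hpp.pos) (by
      rw [hj, ← CharP.cast_eq_mod F p j])
    have h1 : ∀ j : ℕ, x + j * m ≠ 0 := fun j hj => h0 (2 * n * j) (by
      push_cast at hp0 ⊢
      linear_combination hj - j * m * hp0)
    have h3 : ∀ j : ℕ, π (x + j * m) = (-1) ^ j * π x := fun j => by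
      induction j with
      | zero => simp
      | succ j ih =>
        have := hstep _ (h1 j) (by simpa [add_mul, add_assoc] using h1 (j + 1))
        rw [ih] at this
        push_cast
        rw [add_mul, one_mul, ← add_assoc, this]; ring
    have h4 := h3 (2 * n + 1)
    rw [hp0, zero_mul, add_zero, pow_succ, pow_mul] at h4
    rcases hπ x (by simpa using h1 0) with h5 | h5 <;> rw [h5] at h4 <;> simp at h4
  have hne : ∀ j : ℕ, 0 < j → j < p → (j : F) * m ≠ 0 := fun j h0 hj =>
    mul_ne_zero (fun h => absurd (Nat.le_of_dvd h0 ((CharP.cast_eq_zero_iff F p j).1 h))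
      (by omega)) hm
  have hval : ∀ j : ℕ, j + 1 < p → π ((j + 1 : ℕ) * m) = (-1) ^ j := fun j hj => by
    induction j with
    | zero => simpa using hm1
    | succ j ih =>
      have := hstep _ (hne (j + 1) (by omega) (by omega))
        (by simpa [add_mul] using hne (j + 1 + 1) (by omega) hj)
      rw [ih (by omega)] at this
      rw [Nat.cast_succ (j + 1), add_mul, one_mul, this]; ring
  have hqp : Fintype.card F ≤ p := by
    have : (Finset.univ : Finset F) ⊆ (Finset.range p).image fun j : ℕ => (j : F) * m :=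
      fun x _ => by
        obtain ⟨j, hj, rfl⟩ := hsurj x
        exact Finset.mem_image.2 ⟨j, Finset.mem_range.2 hj, rfl⟩
    simpa using (Finset.card_le_card this).trans Finset.card_image_le
  have hpq : p ≤ Fintype.card F := by
    rw [hq]; exact Nat.le_self_pow k.ne_zero p
  let U : Finset F := (Finset.Icc (n + 1) (2 * n)).image fun j : ℕ => (j : F) * m
  have hU : U.card ≤ n := Finset.card_image_le.trans (by simp; omega)
  obtain ⟨i, hi⟩ : ∃ i, B i ⊆ U := by
    by_contra h
    push Not at h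
    obtain ⟨a, ha, haU⟩ := Finset.not_subset.1 (h 0)
    obtain ⟨b, hb, hbU⟩ := Finset.not_subset.1 (h 1)
    have key : ∀ i, ∀ a ∈ B i, a ∉ U → ∃ j, j < n ∧ a = (j + 1 : ℕ) * m := fun i a ha haU => by
      obtain ⟨j, hj, rfl⟩ := hsurj a
      have h1 : j ≠ 0 := by rintro rfl; exact hB0 i (by simpa using ha)
      have h3 : j ∉ Finset.Icc (n + 1) (2 * n) := fun h => haU (Finset.mem_image.2 ⟨j, h, rfl⟩)
      rw [Finset.mem_Icc] at h3
      exact ⟨j - 1, by omega, by rw [Nat.sub_add_cancel (by omega)]⟩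
    obtain ⟨j, hj, rfl⟩ := key 0 a ha haU
    obtain ⟨l, hl, rfl⟩ := key 1 b hb hbU
    have h1 : ((j + 1 : ℕ) : F) * m + (l + 1 : ℕ) * m = (j + l + 1 + 1 : ℕ) * m := by
      push_cast; ring
    have h3 := hmul _ ha _ hb (by rw [h1]; exact hne _ (by omega) (by omega))
    rw [h1, hval _ (by omega), hval _ (by omega), hval _ (by omega), pow_succ, pow_add] at h3
    have h4 : ((-1 : ℤ) ^ j * (-1) ^ l) ≠ 0 := by positivity
    omega
  have h5 := hcard i
  have h6 := Finset.card_le_card hi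
  have h7 : 7 ≤ p := by
    rcases hbig with h | h
    · omega
    · have := h i; omega
  have h8 : B i = U := Finset.eq_of_subset_of_card_le hi (by omega)
  have h9 : ∀ j : ℕ, j < n → -((j + 1 : ℕ) * m) ∈ B i := fun j hj => by
    rw [h8]
    refine Finset.mem_image.2 ⟨2 * n - j, Finset.mem_Icc.2 (by omega), ?_⟩
    rw [Nat.cast_sub (by omega)]
    push_cast at hp0 ⊢
    linear_combination m * hp0
  have key : ∀ j : ℕ, 2 * j + 1 < n → ∀ r : F, r * r = (2 * j + 1 + 1 : ℕ) → False :=
    fun j hj r hr => by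
      have h10 : r * r * -((0 + 1 : ℕ) * m) = -((2 * j + 1 + 1 : ℕ) * m) := by
        rw [hr]; push_cast; ring
      have := hsq i _ (h9 0 (by omega)) r (by rw [h10]; exact h9 _ hj)
      rw [h10, hneg _ (hne _ (by omega) (by omega)), hneg _ (hne _ (by omega) (by omega)),
        hval _ (by omega), hval _ (by omega), pow_succ, pow_mul] at this
      simp at this
  by_cases h11 : n = 3
  · subst h11
    refine key 0 (by omega) 3 ?_
    push_cast at hp0 ⊢
    linear_combination hp0
  · exact key 1 (by omega) 2 (by push_cast; ring)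

/-- The parity lemma: five large subsets with signs admit a non-trivial zero sum of even sign that
uses at most four of them. -/
theorem par (h2 : (2 : F) ≠ 0) (A : Fin 5 → Finset F) (s : Fin 5 → F → ℤ) (hA0 : ∀ i, 0 ∈ A i)
    (hs0 : ∀ i, s i 0 = 1) (hs : ∀ i a, s i a = 1 ∨ s i a = -1)
    (hcard : ∀ i, Fintype.card F < 2 * (A i).card)
    (hbig : 7 ≤ Fintype.card F ∨ ∀ i, Fintype.card F + 2 < 2 * (A i).card) (m : Fin 5 → F)
    (hm0 : m 0 ≠ 0) (hm : s 0 (m 0) = s 1 (m 1))
    (hsym : ∀ i, ∀ a ∈ A i, m i - a ∈ A i ∧ s i (m i - a) = s i (m i) * s i a)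
    (hsq : ∀ i a r, a ≠ 0 → r ≠ 0 → s i (r * r * a) = s i a) :
    ∃ a : Fin 5 → F, (∀ i, a i ∈ A i) ∧ (∃ l, a l = 0) ∧ ∑ i, a i = 0 ∧ ∏ i, s i (a i) = 1 ∧
      ∃ i, a i ≠ 0 := by
  classical
  by_contra hcon
  push Not at hcon
  let P : Fin 5 → Fin 5 → F → ℤ → Prop := fun i j x σ =>
    ∃ a ∈ A i, ∃ b ∈ A j, a + b = x ∧ s i a * s j b = σ
  have hex : ∀ i j x, ∃ σ, P i j x σ := fun i j x => by
    obtain ⟨a, ha, b, hb, h⟩ := exists_add_eq_of_card (A := A i) (B := A j)
      (by have := hcard i; have := hcard j; omega) x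
    exact ⟨_, a, ha, b, hb, h, rfl⟩
  have hPs : ∀ i j x σ, P i j x σ → σ = 1 ∨ σ = -1 := by
    rintro i j x σ ⟨a, -, b, -, -, rfl⟩
    rcases hs i a with h | h <;> rcases hs j b with h' | h' <;> simp [h, h']
  have hopp : ∀ (e : Fin 5 ≃ Fin 5) x σ τ, x ≠ 0 → P (e 0) (e 1) x σ → P (e 2) (e 3) (-x) τ →
      τ = -σ := by
    intro e x σ τ hx h1 h3
    have h4 := hPs _ _ _ _ h1
    have h5 := hPs _ _ _ _ h3
    obtain ⟨a, ha, b, hb, hab, rfl⟩ := h1
    obtain ⟨c, hc, d, hd, hcd, rfl⟩ := h3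
    by_contra h6
    have h7 := hcon (![a, b, c, d, 0] ∘ e.symm) (fun i => by
      obtain ⟨i, rfl⟩ := e.surjective i
      fin_cases i <;> simp [ha, hb, hc, hd, hA0]) ⟨e 4, by simp⟩
      (by
        rw [← e.sum_comp]
        simp only [Function.comp, Equiv.symm_apply_apply, Fin.sum_univ_five]
        simp only [Matrix.cons_val]
        linear_combination hab + hcd)
      (by
        rw [← e.prod_comp]
        simp only [Function.comp, Equiv.symm_apply_apply, Fin.prod_univ_five]
        simp only [Matrix.cons_val, hs0]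
        rw [mul_one, mul_assoc (s (e 0) a * s (e 1) b)]
        rcases h4 with h4 | h4 <;> rcases h5 with h5 | h5 <;> simp_all)
    have h8 := h7 (e 0)
    have h9 := h7 (e 1)
    simp at h8 h9
    exact hx (by rw [← hab, h8, h9, add_zero])
  choose π hπ using hex
  have e1 := hopp (Equiv.refl _)
  have e2 := hopp ⟨![2, 3, 0, 4, 1], ![2, 4, 0, 1, 3], by decide, by decide⟩
  have e3 := hopp ⟨![0, 4, 1, 2, 3], ![0, 2, 3, 4, 1], by decide, by decide⟩
  have e4 := hopp ⟨![1, 2, 3, 4, 0], ![4, 0, 1, 2, 3], by decide, by decide⟩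
  have e5 := hopp ⟨![3, 4, 0, 1, 2], ![2, 3, 4, 0, 1], by decide, by decide⟩
  simp only [Equiv.refl_apply, Equiv.coe_fn_mk, Matrix.cons_val] at e1 e2 e3 e4 e5
  have huniq : ∀ x σ, x ≠ 0 → P 0 1 x σ → π 0 1 x = σ := fun x σ hx h => by
    have h1 := e1 x σ _ hx h (hπ 2 3 (-x))
    have h3 := e1 x _ _ hx (hπ 0 1 x) (hπ 2 3 (-x))
    omega
  have hmm : ∀ i, m i ∈ A i := fun i => by simpa using (hsym i 0 (hA0 i)).1
  have hss : s 0 (m 0) * s 1 (m 1) = 1 := by
    rw [hm]; rcases hs 1 (m 1) with h | h <;> simp [h]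
  have hB : ∀ a ∈ A 0, a ≠ 0 → π 0 1 a = s 0 a := fun a ha ha0 =>
    huniq a _ ha0 ⟨a, ha, 0, hA0 1, add_zero a, by rw [hs0, mul_one]⟩
  have hB' : ∀ a ∈ A 1, a ≠ 0 → π 0 1 a = s 1 a := fun a ha ha0 =>
    huniq a _ ha0 ⟨0, hA0 0, a, ha, zero_add a, by rw [hs0, one_mul]⟩
  have hm01 : m 0 + m 1 ≠ 0 := fun h => by
    have := hcon ![m 0, m 1, 0, 0, 0] (fun i => by fin_cases i <;> simp [hmm, hA0]) ⟨4, by simp⟩
      (by simp [Fin.sum_univ_five, h]) (by simp [Fin.prod_univ_five, hs0, hss]) 0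
    exact hm0 (by simpa using this)
  refine par_aux h2 (π 0 1) (fun x _ => hPs _ _ _ _ (hπ 0 1 x)) (fun x hx => ?_) hm01
    (huniq _ _ hm01 ⟨_, hmm 0, _, hmm 1, rfl, hss⟩) (fun x hx hxm => ?_)
    ![(A 0).erase 0, (A 1).erase 0] (fun i => by fin_cases i <;> simp) (fun i => ?_) ?_
    (fun a ha b hb hab => ?_) fun i a ha r hr => ?_
  · have hx' : -x ≠ 0 := neg_ne_zero.2 hx
    have h1 := e1 x _ _ hx (hπ 0 1 x) (hπ 2 3 (-x))
    have h3 := e2 (-x) _ _ hx' (hπ 2 3 (-x)) (hπ 0 4 (- -x))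
    have h4 := e3 x _ _ hx (hπ 0 4 x) (hπ 1 2 (-x))
    have h5 := e4 (-x) _ _ hx' (hπ 1 2 (-x)) (hπ 3 4 (- -x))
    have h6 := e5 x _ _ hx (hπ 3 4 x) (hπ 0 1 (-x))
    rw [neg_neg] at h3 h5
    omega
  · obtain ⟨a, ha, b, hb, hab, h⟩ := hπ 0 1 x
    refine huniq _ _ (sub_ne_zero.2 hxm.symm) ⟨_, (hsym 0 a ha).1, _, (hsym 1 b hb).1,
      by rw [← hab]; ring, ?_⟩
    rw [(hsym 0 a ha).2, (hsym 1 b hb).2, ← h]
    linear_combination (s 0 a * s 1 b) * hss
  · have h0 := hcard 0
    have h1 := hcard 1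
    fin_cases i <;> simp [Finset.card_erase_of_mem, hA0] <;> omega
  · refine hbig.imp_right fun h i => ?_
    have h0 := h 0
    have h1 := h 1
    fin_cases i <;> simp [Finset.card_erase_of_mem, hA0] <;> omega
  · simp only [Matrix.cons_val, Finset.mem_erase] at ha hb
    rw [hB a ha.2 ha.1, hB' b hb.2 hb.1]
    exact huniq _ _ hab ⟨a, ha.2, b, hb.2, rfl, rfl⟩
  · have key : ∀ j, r * r * a ≠ 0 → s j (r * r * a) = s j a := fun j h =>
      hsq j a r (right_ne_zero_of_mul h) (left_ne_zero_of_mul (left_ne_zero_of_mul h))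
    fin_cases i
    · simp only [Fin.zero_eta, Matrix.cons_val, Finset.mem_erase] at ha hr
      rw [hB _ ha.2 ha.1, hB _ hr.2 hr.1, key 0 hr.1]
    · simp only [Fin.mk_one, Matrix.cons_val, Finset.mem_erase] at ha hr
      rw [hB' _ ha.2 ha.1, hB' _ hr.2 hr.1, key 1 hr.1]

/-- A subring containing the squares of many elements is everything. -/
theorem subring_eq_top_of_sq (K : Subring F) (S : Finset F) (hS : ∀ s ∈ S, s * s ∈ K)
    (hcard : Fintype.card F < 2 * S.card)
    (h9 : Fintype.card F ≠ 9 ∨ Fintype.card F + 2 < 2 * S.card) : K = ⊤ := by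
  classical
  by_contra hK
  let L : Subfield F := { K with
    inv_mem' := fun x hx => by
      by_cases h0 : x = 0
      · simp [h0]
      · have h1 : 1 < Fintype.card F := Fintype.one_lt_card
        have : x⁻¹ = x ^ (Fintype.card F - 2) := by
          rw [eq_comm, ← mul_eq_one_iff_eq_inv₀ h0, ← pow_succ,
            show Fintype.card F - 2 + 1 = Fintype.card F - 1 by omega]
          exact FiniteField.pow_card_sub_one_eq_one x h0
        rw [this]
        exact K.pow_mem hx _ }
  have h1 : Fintype.card F = Fintype.card L ^ finrank L F := Module.card_eq_pow_finrank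
  have h3 : finrank L F ≠ 1 := fun h => hK (by
    rw [h, pow_one] at h1
    rw [eq_top_iff]
    intro x _
    have := (Fintype.bijective_iff_injective_and_card (Subtype.val : L → F)).2
      ⟨Subtype.val_injective, h1.symm⟩
    obtain ⟨y, rfl⟩ := this.2 x
    exact y.2)
  have h4 : 0 < finrank L F := finrank_pos
  have h5 : 1 < Fintype.card L := Fintype.one_lt_card
  have h6 : Fintype.card L ^ 2 ≤ Fintype.card F := h1 ▸ Nat.pow_le_pow_right (by omega) (by omega)
  let T : Finset F := Finset.univ.filter (· ∈ K)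
  have hT : T.card = Fintype.card L := by
    rw [← Fintype.card_subtype]; rfl
  by_cases h2 : (2 : F) = 0
  · have h7 : S.card ≤ T.card := Finset.card_le_card_of_injOn (fun s => s * s)
      (fun s hs => by simpa [T] using hS s hs) fun a _ b _ h => by
        have : (a - b) * (a - b) = 0 := by linear_combination h - (a * b - b * b) * h2
        exact sub_eq_zero.1 (mul_self_eq_zero.1 this)
    nlinarith
  · have h7 : (S.erase 0).card ≤ 2 * (T.erase 0).card :=
      Finset.card_le_mul_card_image_of_maps_to (f := fun s => s * s) (fun s hs => by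
        rw [Finset.mem_erase] at hs
        simpa [T, hs.1] using hS s hs.2) 2 fun b _ => by
        by_cases h : ∃ a, a * a = b
        · obtain ⟨a, rfl⟩ := h
          refine (Finset.card_le_card (t := {a, -a}) fun c hc => ?_).trans Finset.card_le_two
          simpa using mul_self_eq_mul_self_iff.1 (Finset.mem_filter.1 hc).2
        · push Not at h
          simp [h]
    have h8 := Finset.pred_card_le_card_erase (s := S) (a := 0)
    rw [Finset.card_erase_of_mem (s := T) (by simp [T]), hT] at h7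
    obtain ⟨n, hn⟩ := two_ne_zero_iff_odd_card.1 h2
    have h10 : Fintype.card L ≠ 2 := fun h => by
      rw [h, hn] at h1
      have : 2 ∣ 2 ^ finrank L F := dvd_pow_self 2 h4.ne'
      omega
    have h11 : Fintype.card L ≤ 3 := by
      have : Fintype.card F + 3 ≤ 4 * Fintype.card L := by omega
      nlinarith
    have h12 : Fintype.card L = 3 := by omega
    rw [h12] at h6 h7
    omega

end Comb

end Cfsg.Agent.H30
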