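import Cfsg.Agent.H30.DecPar
import Cfsg.Agent.H26.Count

/-!
# Maximality of stabilisers of orthogonal decompositions into planes
-/

set_option autoImplicit false

namespace Cfsg.Agent.H30

open QuadraticMap Module

variable {F V : Type*} [Field F] [AddCommGroup V] [Module F V] {Q : QuadraticForm F V}
  {κ : Type*}

/-- `Q` is anisotropic on `W`. -/
def Aniso (Q : QuadraticForm F V) (W : Submodule F V) : Prop := ∀ x ∈ W, Q x = 0 → x = 0

section Plane

variable [FiniteDimensional F V] {W : Submodule F V} (hW : NondegOn Q W) (h2 : finrank F W = 2)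
include hW h2

theorem NondegOn.exists_orth_plane {x : V} (hx : x ∈ W) (hQx : Q x ≠ 0) :
    ∃ z ∈ W, Q z ≠ 0 ∧ polar Q x z = 0 ∧ ∀ w ∈ W, polar Q x w = 0 → ∃ a : F, a • z = w := by
  have h1 := finrank_inf_perp_singleton (Q := Q) W x
  obtain ⟨z, hz, hz0⟩ := Submodule.exists_mem_ne_zero_of_ne_bot
    (ne_bot_of_finrank_pos (W := W ⊓ H30.perp Q (F ∙ x)) (by omega))
  have h3 : W ⊓ H30.perp Q (F ∙ x) < W := lt_of_le_of_ne inf_le_left fun h => by
    obtain ⟨y, hy, hxy⟩ := hW.exists_polar_eq_one hx (ne_zero_of_Q_ne_zero hQx)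
    rw [mem_perp_singleton.1 (h.ge hy).2] at hxy
    exact zero_ne_one hxy
  have h4 := Submodule.finrank_lt_finrank_of_lt h3
  have h5 : F ∙ z = W ⊓ H30.perp Q (F ∙ x) := Submodule.eq_of_le_of_finrank_le
    ((Submodule.span_singleton_le_iff_mem _ _).2 hz) (by rw [finrank_span_singleton hz0]; omega)
  refine ⟨z, hz.1, fun h => hz0 (hW.eq_zero_of_plane h2 hx hQx hz.1 h (mem_perp_singleton.1 hz.2)),
    mem_perp_singleton.1 hz.2, fun w hw h => Submodule.mem_span_singleton.1 ?_⟩
  rw [h5]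
  exact ⟨hw, mem_perp_singleton.2 h⟩

theorem NondegOn.eq_of_Q_sub_eq_zero {x y : V} (hx : x ∈ W) (hy : y ∈ W) (hQx : Q x ≠ 0)
    (h : Q y = Q x) (h0 : Q (x - y) = 0) : y = x := by
  refine (sub_eq_zero.1 (hW.eq_zero_of_plane h2 hx hQx (W.sub_mem hx hy) h0 ?_)).symm
  rw [Q_sub, h] at h0
  rw [polar_sub_right, polar_self']
  linear_combination h0

omit hW in
theorem exists_comb_of_notMem {a b : V} (ha : a ∈ W) (hb : b ∈ W) (ha0 : a ≠ 0)
    (hab : ∀ t : F, t • a ≠ b) {z : V} (hz : z ∈ W) : ∃ s t : F, s • a + t • b = z := by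
  have h1 := finrank_span_eq_card (linearIndependent_pair_of_not_mem ha0 hab)
  rw [Matrix.range_cons_cons_empty, Fintype.card_fin] at h1
  have h3 : Submodule.span F {a, b} = W := Submodule.eq_of_le_of_finrank_eq
    (by rw [Submodule.span_le, Set.insert_subset_iff, Set.singleton_subset_iff]; exact ⟨ha, hb⟩)
    (by rw [h1, h2])
  exact Submodule.mem_span_pair.1 (h3 ▸ hz)

omit hW in
theorem refl_refl_add {a b z : V} (ha : a ∈ W) (hb : b ∈ W) (hz : z ∈ W) (hQa : Q a ≠ 0)
    (h : Q b = Q a) : (refl Q a).1 ((refl Q b).1 z) + (refl Q b).1 ((refl Q a).1 z) =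
      (polar Q a b / Q a * (polar Q a b / Q a) - 2) • z := by
  by_cases hab : ∃ t : F, t • a = b
  · obtain ⟨t, rfl⟩ := hab
    rw [Q_smul] at h
    have ht : t * t = 1 := mul_right_cancel₀ hQa (by rw [h, one_mul])
    rw [refl_smul (left_ne_zero_of_mul_eq_one ht), refl_refl, polar_smul_right', polar_self',
      show t * (2 * Q a) / Q a * (t * (2 * Q a) / Q a) - 2 = 2 by
        field_simp; linear_combination 4 * ht, two_smul]
  · push Not at hab
    obtain ⟨s, t, rfl⟩ := exists_comb_of_notMem h2 ha hb (ne_zero_of_Q_ne_zero hQa) hab hz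
    simp only [refl_apply, map_sub, map_add, map_smul, polar_self', h, polar_comm Q b a]
    match_scalars <;> field_simp <;> ring

variable [Fintype F]

omit hW h2 [FiniteDimensional F V] in
open Classical in
/-- The values of the polar form between `x` and the vectors of the same norm in `W`. -/
noncomputable def trSet (Q : QuadraticForm F V) (W : Submodule F V) (x : V) : Finset F :=
  Finset.univ.filter fun t => ∃ y ∈ W, Q y = Q x ∧ polar Q x y = t

omit hW h2 [FiniteDimensional F V] in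
theorem mem_trSet {x : V} {t : F} :
    t ∈ trSet Q W x ↔ ∃ y ∈ W, Q y = Q x ∧ polar Q x y = t := by
  simp [trSet]

theorem NondegOn.exists_finset_norm {c : F} (hc : c ≠ 0) : ∃ S : Finset V,
    (∀ y ∈ S, y ∈ W ∧ Q y = c) ∧ Fintype.card F ≤ S.card + 1 ∧
      (Aniso Q W → Fintype.card F + 1 ≤ S.card) := by
  classical
  by_cases h : Aniso Q W
  · have h1 := nc_of_anisotropic hW.restrict h2 (fun v hv => Subtype.ext (h v v.2 hv)) hc
    have : Finite W := Module.finite_of_finite F
    cases nonempty_fintype W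
    rw [nc, Nat.card_eq_fintype_card, Fintype.card_subtype, Nat.card_eq_fintype_card] at h1
    refine ⟨(Finset.univ.filter fun v : W => Q.restrict W v = c).image Subtype.val, fun y hy => ?_,
      ?_, fun _ => ?_⟩
    · obtain ⟨v, hv, rfl⟩ := Finset.mem_image.1 hy
      exact ⟨v.2, (Finset.mem_filter.1 hv).2⟩
    all_goals rw [Finset.card_image_of_injective _ Subtype.val_injective]; omega
  · obtain ⟨e, he, hQe, he0⟩ : ∃ e ∈ W, Q e = 0 ∧ e ≠ 0 := by
      by_contra h1
      push Not at h1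
      exact h h1
    obtain ⟨f, hf, h1⟩ := hW.exists_isHyp he hQe he0
    refine ⟨(Finset.univ.erase (0 : F)).image fun a => a • e + (c / a) • f, fun y hy => ?_, ?_,
      fun h' => absurd h' h⟩
    · obtain ⟨a, ha, rfl⟩ := Finset.mem_image.1 hy
      have := (Finset.mem_erase.1 ha).1
      exact ⟨W.add_mem (W.smul_mem _ he) (W.smul_mem _ hf), by rw [h1.Q_comb']; field_simp⟩
    · rw [Finset.card_image_of_injective _ fun a b hab => ?_,
        Finset.card_erase_of_mem (Finset.mem_univ _), Finset.card_univ]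
      · omega
      · have := congrArg (polar Q · f) hab
        simpa [polar_add_left, polar_smul_left', h1.pol, h1.polar_right] using this

theorem NondegOn.card_trSet {x : V} (hx : x ∈ W) (hQx : Q x ≠ 0) :
    (Aniso Q W → Fintype.card F + 1 < 2 * (trSet Q W x).card) ∧
      Fintype.card F ≤ 2 * (trSet Q W x).card ∧
      ((2 : F) ≠ 0 → Fintype.card F < 2 * (trSet Q W x).card ∧
        (Aniso Q W → Fintype.card F + 2 < 2 * (trSet Q W x).card)) := by
  classical
  obtain ⟨S, hS, h3, h4⟩ := hW.exists_finset_norm h2 hQx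
  obtain ⟨z, hz, hQz, hxz, hz'⟩ := hW.exists_orth_plane h2 hx hQx
  have key : ∀ (S' : Finset V) (T : Finset F), S' ⊆ S → (∀ y ∈ S', polar Q x y ∈ T) →
      S'.card ≤ 2 * T.card := fun S' T h1 h5 => by
    refine Finset.card_le_mul_card_image_of_maps_to h5 2 fun t _ => ?_
    by_cases h : ∃ y ∈ S', polar Q x y = t
    · obtain ⟨y, hy, rfl⟩ := h
      refine (Finset.card_le_card (t := {y, (refl Q z).1 y}) fun w hw => ?_).trans
        Finset.card_le_two
      rw [Finset.mem_filter] at hw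
      obtain ⟨a, ha⟩ := hz' (w - y) (W.sub_mem (hS w (h1 hw.1)).1 (hS y (h1 hy)).1)
        (by rw [polar_sub_right, hw.2, sub_self])
      have h6 := (hS w (h1 hw.1)).2
      rw [← sub_add_cancel w y, ← ha] at h6 ⊢
      rw [Q_add, Q_smul, polar_smul_left', (hS y (h1 hy)).2] at h6
      by_cases ha0 : a = 0
      · simp [ha0]
      · have : a = -((Q z)⁻¹ * polar Q y z) := by
          rw [polar_comm]; field_simp
          exact mul_left_cancel₀ ha0 (by linear_combination h6)
        rw [Finset.mem_insert, Finset.mem_singleton, refl_apply, this]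
        right; module
    · push Not at h
      rw [Finset.filter_eq_empty_iff.2 h]; simp
  have hx1 : 2 * Q x ∈ trSet Q W x := mem_trSet.2 ⟨x, hx, rfl, polar_self' Q x⟩
  have hmem : ∀ y ∈ S, y ≠ x → polar Q x y ∈ (trSet Q W x).erase (2 * Q x) := fun y hy hyx =>
    Finset.mem_erase.2 ⟨fun h => hyx (hW.eq_of_Q_sub_eq_zero h2 hx (hS y hy).1 hQx (hS y hy).2
      (by rw [Q_sub, h, (hS y hy).2]; ring)), mem_trSet.2 ⟨y, (hS y hy).1, (hS y hy).2, rfl⟩⟩
  have h5 := key (S.erase x) _ (Finset.erase_subset _ _) fun y hy =>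
    hmem y (Finset.mem_of_mem_erase hy) (Finset.mem_erase.1 hy).1
  have h6 := Finset.pred_card_le_card_erase (s := S) (a := x)
  have h7 := Finset.card_pos.2 ⟨_, hx1⟩
  have h0 : 1 < Fintype.card F := Fintype.one_lt_card
  rw [Finset.card_erase_of_mem hx1] at h5
  refine ⟨fun h => by have := h4 h; omega, by omega, fun h20 => ?_⟩
  have hx2 : -(2 * Q x) ∈ (trSet Q W x).erase (2 * Q x) := Finset.mem_erase.2
    ⟨fun h => mul_ne_zero h20 (mul_ne_zero h20 hQx) (by linear_combination -h),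
      mem_trSet.2 ⟨-x, W.neg_mem hx, QuadraticMap.map_neg Q x, by
        rw [polar_neg_right, polar_self']⟩⟩
  have h8 := key ((S.erase x).erase (-x)) (((trSet Q W x).erase (2 * Q x)).erase (-(2 * Q x)))
    ((Finset.erase_subset _ _).trans (Finset.erase_subset _ _)) fun y hy => by
      rw [Finset.mem_erase, Finset.mem_erase] at hy
      refine Finset.mem_erase.2 ⟨fun h => hy.1 ?_, hmem y hy.2.2 hy.2.1⟩
      have := hW.eq_of_Q_sub_eq_zero h2 hx (W.neg_mem (hS y hy.2.2).1) hQx
        (by rw [QuadraticMap.map_neg, (hS y hy.2.2).2])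
        (by rw [sub_neg_eq_add, Q_add, h, (hS y hy.2.2).2]; ring)
      rw [← this, neg_neg]
  have h9 := Finset.pred_card_le_card_erase (s := S.erase x) (a := -x)
  have h10 := Finset.card_pos.2 ⟨_, hx2⟩
  rw [Finset.card_erase_of_mem hx2] at h8
  rw [Finset.card_erase_of_mem hx1] at h8 h10
  exact ⟨by omega, fun h => by have := h4 h; omega⟩

omit [Fintype F] hW in
theorem aniso_iff (h20 : (2 : F) ≠ 0) {x z : V} (hx : x ∈ W) (hz : z ∈ W) (hQx : Q x ≠ 0)
    (hQz : Q z ≠ 0) (hxz : polar Q x z = 0) : Aniso Q W ↔ ¬ IsSquare (-(Q x * Q z)) := by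
  constructor
  · rintro h ⟨r, hr⟩
    have h1 := congrArg (polar Q z) (h (r • x + Q x • z) (W.add_mem (W.smul_mem _ hx)
      (W.smul_mem _ hz)) (by
        rw [Q_add, Q_smul, Q_smul, polar_smul_left', polar_smul_right', hxz, ← hr]; ring))
    rw [polar_add_right, polar_smul_right', polar_smul_right', polar_comm, hxz, polar_self'] at h1
    simp [h20, hQx, hQz] at h1
  · intro h w hw hQw
    obtain ⟨s, t, rfl⟩ := exists_comb_of_notMem h2 hx hz (ne_zero_of_Q_ne_zero hQx) (fun t ht => by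
      rw [← ht, polar_smul_right', polar_self'] at hxz
      simp only [mul_eq_zero, h20, hQx, or_false] at hxz
      exact hQz (by rw [← ht, hxz]; simp)) hw
    rw [Q_add, Q_smul, Q_smul, polar_smul_left', polar_smul_right', hxz] at hQw
    by_cases ht : t = 0
    · simp only [ht, zero_mul, add_zero, mul_zero, mul_eq_zero, or_self, hQx, or_false] at hQw
      simp [ht, hQw]
    · exact absurd ⟨s * Q x / t, by field_simp; linear_combination (-1 : F) * hQw⟩ h

end Plane

theorem torus_conj (g : O Q) (e f : V) (μ : F) :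
    g * torus Q e f μ * g⁻¹ = torus Q (g.1 e) (g.1 f) μ := by
  rw [torus, refl_mul_refl_conj, map_add, map_add, map_smul, torus]

theorem apply_mem_movSp (g : O Q) {x : V} (hx : x ∈ movSp g) : g.1 x ∈ movSp g := by
  simpa using (movSp g).add_mem (sub_mem_movSp g x) hx

theorem movSp_inv_mul_le {d e : O Q} {U : Submodule F V} (hd : movSp d ≤ U) (he : movSp e ≤ U) :
    movSp (e⁻¹ * d) ≤ U := fun x hx => by
  obtain ⟨z, rfl⟩ := mem_movSp.1 hx
  have h1 := he (sub_mem_movSp e ((e⁻¹).1 (d.1 z)))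
  rw [O_apply_inv] at h1
  have := U.sub_mem (hd (sub_mem_movSp d z)) h1
  rwa [sub_sub_sub_cancel_left] at this

theorem eich_add_left {u u' y : V} (hu : Q u = 0) (hu' : Q u' = 0) (h : polar Q u u' = 0)
    (hy : polar Q u y = 0) (hy' : polar Q u' y = 0) :
    eich Q (u + u') y = eich Q u (y - Q y • u') * eich Q u' y := O_ext fun x => by
  rw [O_mul_apply, eich_apply (by rw [Q_add, hu, hu', h]; ring)
    (by rw [polar_add_left, hy, hy', add_zero]),
    eich_apply hu (by rw [polar_sub_right, polar_smul_right', hy, h]; ring), eich_apply hu' hy',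
    Q_sub_smul_of_singular hu' hy']
  simp only [polar_add_right, polar_add_left, polar_sub_left, polar_sub_right, polar_smul_left',
    polar_smul_right', polar_self', hu', hy', polar_comm Q y u, polar_comm Q y u',
    polar_comm Q u' u, hy, h]
  module

namespace ODec

variable [FiniteDimensional F V] {D : κ → Submodule F V} (hD : ODec Q D)
  {hQ : (polarBilin Q).Nondegenerate} {M : Subgroup (O Q)}
include hD

omit hD in
theorem sum_finrank_le_movSp (g : O Q) (I : Finset κ) (E : κ → Submodule F V)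
    (h : ∀ x : κ → V, (∀ i, x i ∈ E i) → g.1 (∑ i ∈ I, x i) = ∑ i ∈ I, x i → ∀ i ∈ I, x i = 0) :
    ∑ i ∈ I, finrank F (E i) ≤ finrank F (movSp g) := by
  classical
  let φ : (∀ i : I, E i) →ₗ[F] V := ∑ i : I, (E i).subtype ∘ₗ LinearMap.proj i
  let ψ : (∀ i : I, E i) →ₗ[F] movSp g :=
    (((g.1 : V →ₗ[F] V) - LinearMap.id) ∘ₗ φ).codRestrict _ fun x => sub_mem_movSp g _
  have hψ : Function.Injective ψ := by
    rw [← LinearMap.ker_eq_bot, eq_bot_iff]
    intro x hx
    have h1 : g.1 (φ x) - φ x = 0 := congrArg Subtype.val (LinearMap.mem_ker.1 hx)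
    let y : κ → V := fun i => if hi : i ∈ I then (x ⟨i, hi⟩ : V) else 0
    have hy : ∀ i, y i ∈ E i := fun i => by
      simp only [y]
      split_ifs with hi
      · exact (x ⟨i, hi⟩).2
      · exact (E i).zero_mem
    have h2 : φ x = ∑ i ∈ I, y i := by
      rw [← Finset.sum_coe_sort I y]
      simp only [φ, LinearMap.sum_apply]
      exact Finset.sum_congr rfl fun i _ => by simp [y]
    have h3 := h y hy (by rw [← h2]; exact sub_eq_zero.1 h1)
    rw [Submodule.mem_bot]
    ext i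
    simpa [y] using h3 i i.2
  have := LinearMap.finrank_le_finrank_of_injective hψ
  rwa [finrank_pi_fintype, Finset.sum_coe_sort I fun i => finrank F (E i)] at this

/-- If all members have dimension at least two, an element of the stabiliser fixes pointwise all
but at most `dim [V, g]` members. -/
theorem exists_fix_of_finrank_lt [Fintype κ] (h2 : ∀ i, 2 ≤ finrank F (D i)) {g : O Q}
    (hg : g ∈ stabDec Q D) (h : finrank F (movSp g) < Fintype.card κ) :
    ∃ i, ∀ x ∈ D i, g.1 x = x := by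
  classical
  by_contra hcon
  push Not at hcon
  choose x hx hgx using hcon
  obtain ⟨σ, hσ⟩ := exists_perm_of_mem_stabDec hg
  let T := Finset.univ.filter fun i => σ i ≠ i
  obtain ⟨I, hIT, hI, h1⟩ := hD.exists_finset_disjoint_fixSp hg T D (fun _ => le_rfl)
    (fun i hi y hy hgy => hD.eq_zero_of_mem_of_ne (Finset.mem_filter.1 hi).2
      (hgy ▸ (hσ i y).1 hy) hy) ((T.card + 1) / 2) (by omega)
  let E : κ → Submodule F V := fun i => if σ i = i then F ∙ x i else D i
  have hdis : Disjoint Tᶜ I := Finset.disjoint_left.2 fun i hi hi' => by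
    exact Finset.mem_compl.1 hi (hIT hi')
  have hE : ∀ i, E i ≤ D i := fun i => by
    simp only [E]
    split_ifs
    · exact (Submodule.span_singleton_le_iff_mem _ _).2 (hx i)
    · exact le_rfl
  have h3 := sum_finrank_le_movSp g (Tᶜ ∪ I) E fun y hy hgy => by
    have hyD : ∀ i, y i ∈ D i := fun i => hE i (hy i)
    have h4 : ∀ i ∈ Tᶜ, y i = 0 := fun i hi => by
      have h5 : σ i = i := by simpa [T] using hi
      have h6 := hD.pr_apply_of_perm hσ i (∑ i ∈ Tᶜ ∪ I, y i)
      rw [h5, hgy, hD.pr_sum_of_mem _ _ hyD, if_pos (Finset.mem_union_left _ hi)] at h6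
      have h7 := hy i
      simp only [E, h5, if_true] at h7
      obtain ⟨a, ha⟩ := Submodule.mem_span_singleton.1 h7
      rw [← ha, map_smul, eq_comm, ← sub_eq_zero, ← smul_sub, smul_eq_zero, sub_eq_zero] at h6
      rw [← ha, h6.resolve_right (hgx i), zero_smul]
    rw [Finset.sum_union hdis, Finset.sum_eq_zero h4, zero_add] at hgy
    intro i hi
    exact (Finset.mem_union.1 hi).elim (h4 i) (h1 y hyD hgy i)
  rw [Finset.sum_union hdis] at h3
  have h4 : Tᶜ.card ≤ ∑ i ∈ Tᶜ, finrank F (E i) := by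
    rw [Finset.card_eq_sum_ones]
    refine Finset.sum_le_sum fun i hi => ?_
    have h5 : σ i = i := by simpa [T] using hi
    rw [show E i = F ∙ x i from if_pos h5,
      finrank_span_singleton fun h => hgx i (by rw [h, map_zero])]
  have h5 : I.card * 2 ≤ ∑ i ∈ I, finrank F (E i) := by
    rw [← smul_eq_mul, ← Finset.sum_const]
    refine Finset.sum_le_sum fun i hi => ?_
    rw [show E i = D i from if_neg (Finset.mem_filter.1 (hIT hi)).2]
    exact h2 i
  have h6 := Finset.card_compl T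
  have h7 := Finset.card_le_univ T
  omega

theorem movSp_le_or_neg [Finite κ] (hQ : (polarBilin Q).Nondegenerate)
    (h2 : ∀ i, 2 ≤ finrank F (D i)) {g : O Q} (hg : g ∈ stabDec Q D)
    (h : finrank F (movSp g) ≤ 2) : (∃ i, movSp g ≤ D i) ∨ movSp g = ⊥ ∨
      ∀ x ∈ movSp g, g.1 x = -x := by
  obtain ⟨σ, hσ⟩ := exists_perm_of_mem_stabDec hg
  by_cases h1 : ∀ i, σ i = i
  · have hfix : ∀ i, ∀ x ∈ D i, g.1 x ∈ D i := fun i x hx => h1 i ▸ (hσ i x).1 hx
    rw [or_iff_not_imp_left, or_iff_not_imp_left]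
    intro h3 h4
    have key : ∀ i, ∀ p ∈ D i, p ∈ movSp g → p ≠ 0 → (∀ x ∈ D i, x ∈ movSp g → ∃ a : F, a • p = x) →
        g.1 p = -p := fun i p hp hp' hp0 h5 => by
      obtain ⟨z, hz, hzp⟩ := (hD.nd i).exists_polar_eq_one hp hp0
      obtain ⟨a, ha⟩ := h5 _ ((D i).sub_mem (hfix i z hz) hz) (sub_mem_movSp g z)
      obtain ⟨b, hb⟩ := h5 _ (hfix i p hp) (apply_mem_movSp g hp')
      have ha0 : a ≠ 0 := by
        rintro rfl
        rw [← perp_fixSp hQ, mem_perp'] at hp'
        rw [hp' z (mem_fixSp.2 (by rw [← sub_eq_zero, ← ha, zero_smul]))] at hzp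
        exact zero_ne_one hzp
      have h6 := O_map g z
      have h7 := O_polar g p z
      rw [← sub_add_cancel (g.1 z) z, ← ha] at h6 h7
      rw [Q_add, Q_smul, polar_smul_left', hzp] at h6
      rw [← hb, polar_smul_left', polar_add_right, polar_smul_right', polar_self', hzp] at h7
      have h8 : a * Q p = -1 := mul_left_cancel₀ ha0 (by linear_combination h6)
      rw [← hb, show b = -1 by linear_combination 2 * b * h8 - h7, neg_one_smul]
    obtain ⟨x, hx, hx0⟩ := Submodule.exists_mem_ne_zero_of_ne_bot h4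
    obtain ⟨i, hi⟩ := hD.exists_pr_ne_zero hx0
    obtain ⟨y, hy, hyi⟩ := SetLike.not_le_iff_exists.1 (fun h => h3 ⟨i, h⟩ : ¬ movSp g ≤ D i)
    obtain ⟨j, hji, hj⟩ : ∃ j, j ≠ i ∧ hD.pr j y ≠ 0 := by
      by_contra h1
      push Not at h1
      exact hyi (hD.mem_iff_pr.2 h1)
    have hp := hD.pr_mem_movSp hfix i hx
    have hq := hD.pr_mem_movSp hfix j hy
    have hcomb : ∀ z ∈ movSp g, ∃ s t : F, s • hD.pr i x + t • hD.pr j y = z := fun z hz => by
      have h5 := even_finrank_movSp (g := g)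
      refine exists_comb_of_notMem (le_antisymm h ?_) hp hq hi (fun t ht => hj ?_) hz
      · by_contra h6
        obtain ⟨v, hv⟩ := finrank_le_one_iff.1 (show finrank F (movSp g) ≤ 1 by omega)
        obtain ⟨a, ha⟩ := hv ⟨_, hp⟩
        obtain ⟨b, hb⟩ := hv ⟨_, hq⟩
        have ha' : a • (v : V) = hD.pr i x := congrArg Subtype.val ha
        have hb' : b • (v : V) = hD.pr j y := congrArg Subtype.val hb
        have ha0 : a ≠ 0 := by rintro rfl; exact hi (by rw [← ha', zero_smul])
        exact hj (hD.eq_zero_of_mem_of_ne hji (hD.pr_mem j y) (hb' ▸ (D i).smul_mem b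
          (((D i).smul_mem_iff ha0).1 (ha' ▸ hD.pr_mem i x))))
      · exact hD.eq_zero_of_mem_of_ne hji (hD.pr_mem j y) (ht ▸ (D i).smul_mem t (hD.pr_mem i x))
    have h5 := key i _ (hD.pr_mem i x) hp hi fun z hz hz' => by
      obtain ⟨s, t, h6⟩ := hcomb z hz'
      have := congrArg (hD.pr i) h6
      rw [map_add, map_smul, map_smul, hD.pr_pr, hD.pr_pr_of_ne hji.symm, hD.pr_of_mem hz] at this
      exact ⟨s, by simpa using this⟩
    have h6 := key j _ (hD.pr_mem j y) hq hj fun z hz hz' => by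
      obtain ⟨s, t, h6⟩ := hcomb z hz'
      have := congrArg (hD.pr j) h6
      rw [map_add, map_smul, map_smul, hD.pr_pr, hD.pr_pr_of_ne hji, hD.pr_of_mem hz] at this
      exact ⟨t, by simpa using this⟩
    intro z hz
    obtain ⟨s, t, rfl⟩ := hcomb z hz
    rw [map_add, map_smul, map_smul, h5, h6]; module
  · push Not at h1
    obtain ⟨i, hi⟩ := h1
    let ψ : D i →ₗ[F] movSp g :=
      (((g.1 : V →ₗ[F] V) - LinearMap.id) ∘ₗ (D i).subtype).codRestrict _ fun x => sub_mem_movSp g _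
    have hψ : Function.Injective ψ := by
      rw [← LinearMap.ker_eq_bot, eq_bot_iff]
      intro x hx
      have h1 : g.1 x - x = 0 := congrArg Subtype.val (LinearMap.mem_ker.1 hx)
      exact Subtype.ext (hD.eq_zero_of_mem_of_ne hi (sub_eq_zero.1 h1 ▸ (hσ i x).1 x.2) x.2)
    have h3 := h2 i
    have h4 := LinearMap.finrank_le_finrank_of_injective hψ
    have hsurj := (LinearMap.injective_iff_surjective_of_finrank_eq_finrank (by omega)).1 hψ
    refine Or.inr (Or.inr fun m hm => ?_)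
    obtain ⟨x, hx⟩ := hsurj ⟨m, hm⟩
    obtain ⟨y, hy⟩ := hsurj ⟨_, apply_mem_movSp g hm⟩
    have hx' : g.1 x - x = m := congrArg Subtype.val hx
    have hy' : g.1 y - y = g.1 m := congrArg Subtype.val hy
    have h5 := congrArg (hD.pr (σ i)) hy'
    rw [← hx', map_sub g.1, map_sub, map_sub, hD.pr_of_mem ((hσ i y).1 y.2), hD.pr_of_ne hi y.2,
      hD.pr_of_mem ((hσ i x).1 x.2), hD.pr_of_ne (fun h => hi (σ.injective h).symm)
        ((hσ _ _).1 ((hσ i x).1 x.2)), sub_zero, zero_sub, ← map_neg] at h5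
    rw [← hy', g.1.injective h5, ← hx', map_neg]; abel

variable [Finite F] [Finite κ] (hH : stabDec Q D ⊓ kerDS hQ ≤ M) (hirr : ∀ j, Irr Q (D j))
  (hiso : ∀ i j, ∃ g : O Q, ∀ x, x ∈ D i ↔ g.1 x ∈ D j)
include hH hirr hiso

omit hH in
theorem exists_swap_kerDS {i j : κ} (hij : i ≠ j) : ∃ s ∈ stabDec Q D ⊓ kerDS hQ,
    (∀ x ∈ D i, s.1 x ∈ D j) ∧ ∀ x, hD.pr i x = 0 → hD.pr j x = 0 → s.1 x = x := by
  obtain ⟨g, hg⟩ := hiso i j
  obtain ⟨s, hs, h1, -, h3⟩ := hD.exists_swap hij g hg
  obtain ⟨k, hk, h4⟩ := hD.exists_kerDS_eq_on hQ (hirr j).two hs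
  exact ⟨k, hk, fun x hx => by
    rw [h4 x (hD.mem_perp_of_ne hij.symm hx), h1 x hx]; exact (hg x).1 hx,
    fun x hx hx' => by rw [h4 x (hD.pr_eq_zero_iff.1 hx'), h3 x hx hx']⟩

/-- Step I for planes. -/
theorem le_stabDec_of_two [Fintype κ] (hM : M ≤ kerDS hQ) (hk : ∀ i, finrank F (D i) = 2)
    (h5 : 5 ≤ Fintype.card κ) (hE : ¬ eichGroup Q ≤ M)
    (hF : (∀ i, Aniso Q (D i)) ∨ ∃ a : F, a ≠ 0 ∧ a * a ≠ 1)
    (hA : ∀ i, ∀ x ∈ D i, Q x ≠ 0 → ∀ v, Rt M x v → ∃ j, v ∈ D j) {i : κ} {y y' : V}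
    (hy : y ∈ D i) (hy' : y' ∈ D i) (hQy : Q y ≠ 0) (hyy : Q y' = Q y)
    (hne : ∀ t : F, t • y ≠ y') (hb : polar Q y' y ≠ 0) : M ≤ stabDec Q D := by
  classical
  have hA1 : ∀ {g : O Q}, g ∈ M → ∀ {i j : κ} {x : V}, x ∈ D i → Q x ≠ 0 → g.1 x ∈ D j →
      g ∈ stabDec Q D := fun hg _ _ _ hx hQx hgx => hD.mem_stabDec_of_root hH hirr hk hQx
    (fun i x hx h v hv h' => hA i x hx (h ▸ hQx) v ⟨hv.trans h.symm, h'⟩) hg hx rfl hgx
  have h3 : ∀ i j, i ≠ j → 3 ≤ finrank F (D i) ∨ ∃ l, l ≠ i ∧ l ≠ j := fun i j _ => by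
    obtain ⟨l, -, hl⟩ := Finset.exists_mem_notMem_of_card_lt_card (s := {i, j}) (t := Finset.univ)
      (by have := Finset.card_le_two (a := i) (b := j); rw [Finset.card_univ]; omega)
    exact Or.inr ⟨l, by simpa [not_or] using hl⟩
  have hA2 : ∀ {g : O Q}, g ∈ M → ∀ {i j : κ} {x : V}, x ∈ D i → x ≠ 0 → g.1 x ∈ D j →
      g ∈ stabDec Q D := fun {g} hg {i j u} hu hu0 hgu => by
    by_cases hQu : Q u = 0
    swap
    · exact hA1 hg hu hQu hgu
    obtain ⟨a, ha, ha1⟩ := hF.resolve_left fun h => hu0 (h i u hu hQu)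
    obtain ⟨f, hf, h1⟩ := (hD.nd i).exists_isHyp hu hQu hu0
    obtain ⟨f', hf', h2⟩ := (hD.nd j).exists_isHyp hgu (by rw [O_map, hQu]) (by simpa using hu0)
    obtain ⟨w, hw, h4⟩ := h2.exists_eich_apply (h1.map g)
    rw [h2.eich_eq_hproj hw] at h4
    have h6 := h2.hproj_mem w
    generalize hproj Q (g.1 u) f' w = w' at h4 h6
    have h7 : polar Q (g.1 u) w' = 0 := by rw [polar_comm]; exact h6.1
    have h8 : torus Q (g.1 u) (g.1 f) (a * a) ∈ M := by
      rw [← torus_conj]
      exact M.mul_mem (M.mul_mem hg (hH ⟨hD.torus_mem_stabDec hu hf _, h1.torus_mem_kerDS hQ ha⟩))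
        (M.inv_mem hg)
    have h9 : torus Q (g.1 u) f' (a * a) ∈ M :=
      hH ⟨hD.torus_mem_stabDec hgu hf' _, h2.torus_mem_kerDS hQ ha⟩
    have h10 := M.mul_mem h8 (M.inv_mem h9)
    have h12 := torus_conj (eich Q (g.1 u) w') (g.1 u) f' (a * a)
    rw [eich_apply_self, h4] at h12
    rw [← h12, eich_inv, mul_assoc, mul_assoc, ← mul_assoc (torus Q _ _ _), eich_conj,
      h2.torus_left (mul_ne_zero ha ha), map_neg, IsHyp.torus_of_orth _ h6.1 h6.2,
      eich_smul_left (mul_ne_zero ha ha), eich_mul h2.left h7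
        (by rw [polar_smul_right', polar_neg_right, h7]; simp)] at h10
    have h11 : w' ∈ D j := by
      by_contra h
      refine hE (hD.eichGroup_le_of_member hH hirr hiso h3 hgu h2.left_ne_zero h2.left
        (by rw [polar_add_right, polar_smul_right', polar_neg_right, h7]; simp) h10 fun h' => h ?_)
      rw [← (D j).smul_mem_iff (sub_ne_zero.2 ha1.symm)]
      convert h' using 1
      module
    refine hA1 hg ((D i).add_mem hu hf) (by rw [h1.Q_add_self]; exact one_ne_zero) (j := j) ?_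
    rw [map_add, ← h4, eich_apply h2.left h7]
    exact (D j).add_mem hgu ((D j).sub_mem ((D j).sub_mem ((D j).add_mem hf' ((D j).smul_mem _ h11))
      ((D j).smul_mem _ hgu)) ((D j).smul_mem _ hgu))
  have hQy' : Q y' ≠ 0 := hyy ▸ hQy
  have hmov : ∀ g : O Q, movSp (g * (refl Q y * refl Q y') * g⁻¹) =
      Submodule.span F {g.1 y, g.1 y'} := fun g => by
    rw [refl_mul_refl_conj]
    exact movSp_refl_mul_refl hQ (by rwa [O_map]) (by rwa [O_map])
      (linearIndependent_pair_of_not_mem (by simpa using ne_zero_of_Q_ne_zero hQy)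
        fun t ht => hne t (g.1.injective (by rw [map_smul, ht])))
  have hs : refl Q y * refl Q y' ∈ stabDec Q D ⊓ kerDS hQ :=
    ⟨(stabDec Q D).mul_mem (hD.refl_mem_stabDec hy) (hD.refl_mem_stabDec hy'),
      hM (hD.refl_mul_refl_mem hH hy hy' hQy hyy.symm)⟩
  have : Finite (O Q) := finite_O
  refine (H26.le_of_counting _ M hH _ hs (fun g hg h => ⟨?_, hM hg⟩)
    (fun g hg k hk' hne' h => ?_) ?_).trans inf_le_left
  · have hy1 : g.1 y ∈ Submodule.span F {g.1 y, g.1 y'} := Submodule.subset_span (by simp)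
    have hy2 : g.1 y' ∈ Submodule.span F {g.1 y, g.1 y'} := Submodule.subset_span (by simp)
    rcases hD.movSp_le_or_neg hQ (fun i => (hirr i).two) h.1
      (by rw [hmov]; exact finrank_span_pair_le _ _) with ⟨j, h1⟩ | h1 | h1
    · rw [hmov] at h1
      exact hA1 hg hy hQy (h1 hy1)
    · rw [hmov] at h1
      rw [h1, Submodule.mem_bot] at hy1
      exact absurd (by simpa using hy1) (ne_zero_of_Q_ne_zero hQy)
    · have h2 := h1 _ (by rw [hmov]; exact hy2)
      rw [O_mul_apply, O_mul_apply, O_inv_apply, O_mul_apply, refl_apply_self hQy',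
        map_neg, map_neg, neg_inj] at h2
      have h4 := refl_apply_sub (Q := Q) y y'
      rw [g.1.injective h2, sub_self, eq_comm, smul_eq_zero] at h4
      exact absurd (h4.resolve_right (ne_zero_of_Q_ne_zero hQy))
        (neg_ne_zero.2 (mul_ne_zero (inv_ne_zero hQy) hb))
  · have hd : g * (refl Q y * refl Q y') * g⁻¹ ∈ M :=
      M.mul_mem (M.mul_mem hg (hH hs)) (M.inv_mem hg)
    refine ⟨?_, hM hd⟩
    have hU := hmov g
    have hU' := hmov k
    have h1 := finrank_span_pair_le (F := F) (g.1 y) (g.1 y')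
    have h2 := finrank_span_pair_le (F := F) (k.1 y) (k.1 y')
    rw [← hU] at h1
    rw [← hU'] at h2
    generalize g * (refl Q y * refl Q y') * g⁻¹ = d at *
    generalize k * (refl Q y * refl Q y') * k⁻¹ = e at *
    have h4 := Submodule.finrank_mono (movSp_inv_mul_le (d := d) (e := e) le_sup_left le_sup_right)
    have h6 := Submodule.finrank_sup_add_finrank_inf_eq (movSp d) (movSp e)
    obtain ⟨l, hl⟩ := hD.exists_fix_of_finrank_lt (fun i => (hirr i).two) h.1 (by omega)
    suffices h7 : ∃ x ∈ D l, x ≠ 0 ∧ d.1 x = x by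
      obtain ⟨x, hx, hx0, h7⟩ := h7
      exact hA2 hd hx hx0 (j := l) (by rwa [h7])
    by_cases h7 : finrank F ↥(movSp d ⊓ movSp e) < 2
    · let ψ : D l →ₗ[F] ↥(movSp d ⊓ movSp e) :=
        (((d.1 : V →ₗ[F] V) - LinearMap.id) ∘ₗ (D l).subtype).codRestrict _ fun x =>
          ⟨sub_mem_movSp d _, by
            have := sub_mem_movSp e (x : V)
            rwa [← O_inv_apply_eq.1 (hl x x.2)] at this⟩
      obtain ⟨x, hx, hx0⟩ := Submodule.exists_mem_ne_zero_of_ne_bot
        (LinearMap.ker_ne_bot_of_finrank_lt (f := ψ) (by rw [hk]; exact h7))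
      exact ⟨x, x.2, by simpa using hx0,
        sub_eq_zero.1 (congrArg Subtype.val (LinearMap.mem_ker.1 hx))⟩
    · have h8 : movSp d ⊓ movSp e = movSp d :=
        Submodule.eq_of_le_of_finrank_le inf_le_left (by omega)
      have h9 : movSp d ⊓ movSp e = movSp e :=
        Submodule.eq_of_le_of_finrank_le inf_le_right (by omega)
      have h10 := movSp_inv_mul_le (d := d) (e := e) le_rfl (by rw [← h9]; exact inf_le_left)
      obtain ⟨r, hr⟩ := even_finrank_movSp hQ h.2
      have h11 : finrank F (movSp (e⁻¹ * d)) ≠ 0 := fun h0 => hne' (by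
        rw [Submodule.finrank_eq_zero] at h0
        exact (inv_mul_eq_one.1 (eq_one_of_movSp_eq_bot h0)).symm)
      have h12 := Submodule.eq_of_le_of_finrank_le h10 (by omega)
      obtain ⟨x, hx, hx0⟩ := Submodule.exists_mem_ne_zero_of_ne_bot
        (ne_bot_of_finrank_pos (W := D l) (by rw [hk]; omega))
      refine ⟨x, hx, hx0, mem_fixSp.1 ?_⟩
      rw [← perp_movSp hQ, ← h12, perp_movSp hQ]
      exact mem_fixSp.2 (hl x hx)
  · obtain ⟨j, hj⟩ := Fintype.exists_ne_of_one_lt_card (by omega) i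
    obtain ⟨k, hk', h1, -⟩ := hD.exists_swap_kerDS (hQ := hQ) hirr hiso hj.symm
    refine ⟨k, hk', fun h => hb ?_⟩
    have h2 : k * (refl Q y * refl Q y') * k⁻¹ = refl Q y * refl Q y' := by rw [h]; group
    rw [refl_mul_refl_conj] at h2
    have h4 : (refl Q y * refl Q y').1 y' = y' := by
      rw [← h2, O_mul_apply, refl_apply_of_orth (hD.orth i j hj.symm _ hy' _ (h1 _ hy')),
        refl_apply_of_orth (hD.orth i j hj.symm _ hy' _ (h1 _ hy))]
    exact ((fixSp_refl_mul_refl hQy hQy' (linearIndependent_pair_of_not_mem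
      (ne_zero_of_Q_ne_zero hQy) hne)).1 h4).1

end ODec

end Cfsg.Agent.H30
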