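import Cfsg.Agent.H30.DecTwo

/-!
# Maximality of stabilisers of orthogonal decompositions into planes, second part
-/

set_option autoImplicit false

namespace Cfsg.Agent.H30

open QuadraticMap Module

variable {F V : Type*} [Field F] [AddCommGroup V] [Module F V] {Q : QuadraticForm F V}
  {κ : Type*}

theorem exists_notMem_finset [Fintype κ] (s : Finset κ) (h : s.card < Fintype.card κ) :
    ∃ l, l ∉ s := by
  obtain ⟨l, -, hl⟩ := Finset.exists_mem_notMem_of_card_lt_card (s := s) (t := Finset.univ) h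
  exact ⟨l, hl⟩

theorem exists_ne_ne [Fintype κ] (h : 3 ≤ Fintype.card κ) (i j : κ) : ∃ l, l ≠ i ∧ l ≠ j := by
  classical
  obtain ⟨l, hl⟩ := exists_notMem_finset {i, j} (by have := Finset.card_le_two (a := i) (b := j); omega)
  exact ⟨l, by simpa [not_or] using hl⟩

theorem exists_ne_ne_ne [Fintype κ] (h : 4 ≤ Fintype.card κ) (i j k : κ) :
    ∃ l, l ≠ i ∧ l ≠ j ∧ l ≠ k := by
  classical
  obtain ⟨l, hl⟩ := exists_notMem_finset {i, j, k}
    (by have := Finset.card_le_three (a := i) (b := j) (c := k); omega)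
  exact ⟨l, by simpa [not_or] using hl⟩

theorem eich_sub_mem {M : Subgroup (O Q)} {u a b : V} (hu : Q u = 0) (ha : polar Q u a = 0)
    (hb : polar Q u b = 0) (h1 : eich Q u a ∈ M) (h2 : eich Q u b ∈ M) : eich Q u (a - b) ∈ M :=
  ((eichAddSubgroup M hu).sub_mem ⟨ha, h1⟩ ⟨hb, h2⟩).2

theorem eich_add_mem {M : Subgroup (O Q)} {u a b : V} (hu : Q u = 0) (ha : polar Q u a = 0)
    (hb : polar Q u b = 0) (h1 : eich Q u a ∈ M) (h2 : eich Q u b ∈ M) : eich Q u (a + b) ∈ M :=
  ((eichAddSubgroup M hu).add_mem ⟨ha, h1⟩ ⟨hb, h2⟩).2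

theorem eich_neg_mem {M : Subgroup (O Q)} {u a : V} (h : eich Q u a ∈ M) : eich Q u (-a) ∈ M := by
  rw [← eich_inv]; exact M.inv_mem h

theorem eich_neg_left (u a : V) : eich Q (-u) a = eich Q u (-a) := by
  rw [← neg_one_smul F u, eich_smul_left (neg_ne_zero.2 one_ne_zero), neg_one_smul]

namespace ODec

variable [FiniteDimensional F V] {D : κ → Submodule F V} (hD : ODec Q D)
  {hQ : (polarBilin Q).Nondegenerate} {M : Subgroup (O Q)} [Fintype F] [Finite κ]
  (hH : stabDec Q D ⊓ kerDS hQ ≤ M) (hirr : ∀ j, Irr Q (D j))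
include hD hH

omit [Fintype F] [Finite κ] in
theorem eich_refl_refl_mem {l : κ} {u w a b : V} (hu : u ∈ perp Q (D l)) (ha : a ∈ D l)
    (hb : b ∈ D l) (hQa : Q a ≠ 0) (hab : Q a = Q b) (hw : eich Q u w ∈ M) :
    eich Q u ((refl Q a).1 ((refl Q b).1 w)) ∈ M := by
  have := eich_conj_mem (hD.refl_mul_refl_mem hH ha hb hQa hab) hw
  rwa [O_mul_apply, refl_apply_of_orth (mem_perp'.1 hu b hb),
    refl_apply_of_orth (mem_perp'.1 hu a ha)] at this

include hirr

omit [Finite κ] in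
theorem exists_mem_eich {l : κ} {u w : V} (hQu : Q u = 0) (hu : u ∈ perp Q (D l))
    (huw : polar Q u w = 0) (hw : eich Q u w ∈ M) (hwl : hD.pr l w ≠ 0) :
    ∃ z ∈ D l, z ≠ 0 ∧ eich Q u z ∈ M := by
  obtain ⟨y, hy, hQy, hwy⟩ := (hirr l).exists_polar_ne_zero (hD.nd l)
    (hD.exists_polar_ne_zero_of_pr hwl) one_ne_zero
  obtain ⟨y', hy', hQy', hyy⟩ := (hirr l).exists_notMem (hD.nd l)
    (not_le_span_of_two_le (hirr l).two y) one_ne_zero
  have hQ1 : Q y ≠ 0 := by rw [hQy]; exact one_ne_zero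
  have h1 : (refl Q y).1 ((refl Q y').1 w) - w ∈ D l := by
    rw [refl_apply Q y, sub_right_comm, refl_apply_sub]
    exact (D l).sub_mem ((D l).smul_mem _ hy') ((D l).smul_mem _ hy)
  refine ⟨_, h1, sub_ne_zero.2 (refl_apply_ne hQ1 hwy hyy), eich_sub_mem hQu ?_ huw
    (hD.eich_refl_refl_mem hH hu hy hy' hQ1 (hQy.trans hQy'.symm) hw) hw⟩
  have := mem_perp'.1 hu _ h1
  rwa [polar_sub_right, huw, sub_zero] at this

variable (hk : ∀ i, finrank F (D i) = 2)
include hk

omit [Finite κ] in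
theorem eich_smul_mem {l : κ} (h9 : Aniso Q (D l) ∨ ((2 : F) ≠ 0 ∧ Fintype.card F ≠ 9)) {u z : V}
    (hQu : Q u = 0) (hu : u ∈ perp Q (D l)) (hz : z ∈ D l) (h : eich Q u z ∈ M) (c : F) :
    eich Q u (c • z) ∈ M := by
  classical
  have ho : ∀ {z}, z ∈ D l → polar Q u z = 0 := fun hz => mem_perp'.1 hu _ hz
  let K : Subring F :=
    { carrier := {c | ∀ z ∈ D l, eich Q u z ∈ M → eich Q u (c • z) ∈ M}
      mul_mem' := fun {a b} ha hb z hz h => by
        rw [mul_smul]; exact ha _ ((D l).smul_mem b hz) (hb z hz h)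
      one_mem' := fun z _ h => by rwa [one_smul]
      add_mem' := fun {a b} ha hb z hz h => by
        rw [add_smul]
        exact eich_add_mem hQu (ho ((D l).smul_mem a hz)) (ho ((D l).smul_mem b hz)) (ha z hz h)
          (hb z hz h)
      zero_mem' := fun z _ _ => by rw [zero_smul, eich_zero]; exact M.one_mem
      neg_mem' := fun {a} ha z hz h => by rw [neg_smul]; exact eich_neg_mem (ha z hz h) }
  obtain ⟨a, ha, hQa⟩ := (hD.nd l).exists_Q_eq (hirr l).two 1
  have hQ1 : Q a ≠ 0 := by rw [hQa]; exact one_ne_zero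
  obtain ⟨h1, -, h2⟩ := (hD.nd l).card_trSet (hk l) ha hQ1
  have hK := subring_eq_top_of_sq K (trSet Q (D l) a) (fun t ht => by
    obtain ⟨b, hb, hQb, rfl⟩ := mem_trSet.1 ht
    have h3 : polar Q a b * polar Q a b - 2 ∈ K := fun z hz h => by
      have h4 := refl_refl_add (hk l) ha hb hz hQ1 hQb
      rw [hQa, div_one] at h4
      rw [← h4]
      exact eich_add_mem hQu (ho (hD.refl_mem_of_mem ha l (hD.refl_mem_of_mem hb l hz)))
        (ho (hD.refl_mem_of_mem hb l (hD.refl_mem_of_mem ha l hz)))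
        (hD.eich_refl_refl_mem hH hu ha hb hQ1 hQb.symm h)
        (hD.eich_refl_refl_mem hH hu hb ha (hQb ▸ hQ1) hQb h)
    simpa using K.add_mem h3 (ofNat_mem K 2))
    (h9.elim (fun h => by have := h1 h; omega) fun h => (h2 h.1).1) (by
      by_cases h : Fintype.card F = 9
      · exact Or.inr ((h2 (two_ne_zero_of_card_odd (by rw [h]; decide))).2
          (h9.resolve_right fun h' => h'.2 h))
      · exact Or.inl h)
  exact (show c ∈ K by rw [hK]; trivial) z hz h

omit [Finite κ] in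
theorem eich_mem_of_nonsingular {l : κ} (h9 : Aniso Q (D l) ∨ ((2 : F) ≠ 0 ∧ Fintype.card F ≠ 9))
    {u z : V} (hQu : Q u = 0) (hu : u ∈ perp Q (D l)) (hz : z ∈ D l) (hQz : Q z ≠ 0)
    (h : eich Q u z ∈ M) {y : V} (hy : y ∈ D l) : eich Q u y ∈ M := by
  have ho : ∀ {z}, z ∈ D l → polar Q u z = 0 := fun hz => mem_perp'.1 hu _ hz
  obtain ⟨z', hz', hQz', hzz, -⟩ := (hD.nd l).exists_orth_plane (hk l) hz hQz
  obtain ⟨a, ha, hQa, h1, h2⟩ : ∃ a ∈ D l, Q a = Q z' ∧ a ∉ F ∙ z ∧ polar Q z a ≠ 0 := by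
    by_contra h1
    push Not at h1
    rcases (hirr l).irr _ hQz' (F ∙ z) ((Submodule.span_singleton_le_iff_mem _ _).2 hz)
      fun a ha hQa => or_iff_not_imp_left.2 fun h2 => mem_perp_singleton.2 (h1 a ha hQa h2)
      with h2 | h2
    · exact ne_zero_of_Q_ne_zero hQz (Submodule.span_singleton_eq_bot.1 h2)
    · exact not_le_span_of_two_le (hirr l).two z h2.ge
  have h3 := hD.eich_refl_refl_mem hH hu ha hz' (hQa ▸ hQz') hQa h
  rw [refl_apply_of_orth hzz] at h3
  have h4 := eich_sub_mem hQu (ho (hD.refl_mem_of_mem ha l hz)) (ho hz) h3 h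
  rw [refl_apply_sub] at h4
  have h5 := neg_ne_zero.2 (mul_ne_zero (inv_ne_zero (hQa ▸ hQz' : Q a ≠ 0)) h2)
  obtain ⟨s, t, rfl⟩ := exists_comb_of_notMem (hk l) hz ha (ne_zero_of_Q_ne_zero hQz)
    (fun t ht => h1 (Submodule.mem_span_singleton.2 ⟨t, ht⟩)) hy
  refine eich_add_mem hQu (ho ((D l).smul_mem _ hz)) (ho ((D l).smul_mem _ ha))
    (hD.eich_smul_mem hH hirr hk h9 hQu hu hz h s) ?_
  have := hD.eich_smul_mem hH hirr hk h9 hQu hu ((D l).smul_mem _ ha) h4
    (t / -((Q a)⁻¹ * polar Q z a))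
  rwa [smul_smul, div_mul_cancel₀ _ h5] at this

omit [Finite κ] in
theorem eich_mem_of_aniso {l : κ} (han : Aniso Q (D l)) {u w : V} (hQu : Q u = 0)
    (hu : u ∈ perp Q (D l)) (huw : polar Q u w = 0) (hw : eich Q u w ∈ M) (hwl : hD.pr l w ≠ 0)
    {y : V} (hy : y ∈ D l) : eich Q u y ∈ M := by
  obtain ⟨z, hz, hz0, h⟩ := hD.exists_mem_eich hH hirr hQu hu huw hw hwl
  exact hD.eich_mem_of_nonsingular hH hirr hk (Or.inl han) hQu hu hz (fun h => hz0 (han z hz h)) h hy

variable (hiso : ∀ i j, ∃ g : O Q, ∀ x, x ∈ D i ↔ g.1 x ∈ D j)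
include hiso

/-- The endgame for hyperbolic planes. -/
theorem eichGroup_le_of_spare_plus [Fintype κ] (h3 : 3 ≤ Fintype.card κ)
    (hp : ∀ i, ¬ Aniso Q (D i)) {l : κ} {u w : V} (hu0 : u ≠ 0) (hQu : Q u = 0)
    (hu : u ∈ perp Q (D l)) (huw : polar Q u w = 0) (hw : eich Q u w ∈ M) (hwl : hD.pr l w ≠ 0)
    (h9 : ((2 : F) ≠ 0 ∧ Fintype.card F ≠ 9) ∨
      (8 ≤ Fintype.card F ∧ ∃ m, m ≠ l ∧ u ∈ perp Q (D m))) : eichGroup Q ≤ M := by
  have ho : ∀ {z}, z ∈ D l → polar Q u z = 0 := fun hz => mem_perp'.1 hu _ hz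
  have hhyp : ∀ i, ∃ e ∈ D i, ∃ f ∈ D i, IsHyp Q e f := fun i => by
    obtain ⟨e, he, hQe, he0⟩ : ∃ e ∈ D i, Q e = 0 ∧ e ≠ 0 := by
      by_contra h1
      push Not at h1
      exact hp i h1
    exact ⟨e, he, (hD.nd i).exists_isHyp he hQe he0⟩
  suffices h : ∃ e ∈ D l, e ≠ 0 ∧ Q e = 0 ∧ eich Q u e ∈ M by
    obtain ⟨e, he, he0, hQe, h⟩ := h
    rw [eich_swap hQu hQe] at h
    exact hD.eichGroup_le_of_member hH hirr hiso (fun i j _ => Or.inr (exists_ne_ne h3 i j)) he he0
      hQe (by rw [polar_neg_right, polar_comm, ho he, neg_zero]) h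
      fun h => hu0 (hD.eq_zero_of_mem_of_perp (by simpa using h) hu)
  obtain ⟨z, hz, hz0, h⟩ := hD.exists_mem_eich hH hirr hQu hu huw hw hwl
  by_cases hQz : Q z = 0
  · exact ⟨z, hz, hz0, hQz, h⟩
  obtain ⟨e, he, f, hf, h1⟩ := hhyp l
  rcases h9 with h9 | ⟨h8, m, hm, hum⟩
  · exact ⟨e, he, h1.left_ne_zero, h1.left,
      hD.eich_mem_of_nonsingular hH hirr hk (Or.inr h9) hQu hu hz hQz h he⟩
  obtain ⟨e', he', f', hf', h2⟩ := hhyp m
  obtain ⟨a, b, rfl⟩ := h1.exists_comb_of_mem he hf (hk l) hz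
  rw [h1.Q_comb'] at hQz
  have key : ∀ μ : F, μ ≠ 0 → eich Q u ((a * μ) • e + (b * μ⁻¹) • f) ∈ M := fun μ hμ => by
    have h4 := eich_conj_mem (hH (x := torus Q e f μ * torus Q e' f' μ)
      ⟨(stabDec Q D).mul_mem (hD.torus_mem_stabDec he hf _) (hD.torus_mem_stabDec he' hf' _),
        (mem_kerDS hQ).2 ⟨by rw [map_mul, h1.dickson_torus hQ hμ, h2.dickson_torus hQ hμ, one_mul],
        by rw [map_mul, ← Units.val_mk0 hμ, h1.spinorNorm_torus hQ, h2.spinorNorm_torus hQ,
          sqCl_mul_self]⟩⟩) h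
    rwa [O_mul_apply, O_mul_apply, IsHyp.torus_of_orth μ (mem_perp'.1 hum _ he')
      (mem_perp'.1 hum _ hf'), IsHyp.torus_of_orth μ (ho he) (ho hf),
      IsHyp.torus_of_orth μ (hD.orth l m hm.symm _ hz _ he') (hD.orth l m hm.symm _ hz _ hf'),
      map_add, map_smul, map_smul, h1.torus_left hμ, h1.torus_right hμ, smul_smul,
      smul_smul] at h4
  obtain ⟨r, hr0, hr⟩ := exists_pow_ne_one (F := F) (n := 6) (by omega) (by omega)
  have hr1 : r + 1 ≠ 0 := fun h => hr (by rw [eq_neg_of_add_eq_zero_left h]; ring)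
  have hr2 : r * r + r + 1 ≠ 0 := fun h => hr (by linear_combination (r - 1) * (r ^ 3 + 1) * h)
  have hm' : ∀ s t : F, polar Q u (s • e + t • f) = 0 := fun s t =>
    ho ((D l).add_mem ((D l).smul_mem _ he) ((D l).smul_mem _ hf))
  have h5 := eich_sub_mem hQu (by rw [polar_add_right, hm', hm', add_zero]) (hm' _ _)
    (eich_add_mem hQu (hm' _ _) (hm' _ _) h (key r hr0)) (key _ hr1)
  refine ⟨(b * (r * r + r + 1) / (r * (r + 1))) • f, (D l).smul_mem _ hf, smul_ne_zero
    (div_ne_zero (mul_ne_zero (right_ne_zero_of_mul hQz) hr2) (mul_ne_zero hr0 hr1))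
    h1.right_ne_zero, by rw [Q_smul, h1.right, mul_zero], ?_⟩
  convert h5 using 2
  match_scalars
  · field_simp; ring
  · ring

omit hH hirr hiso [Finite κ] in
theorem exists_pair_reflections {i j : κ} (hi : Aniso Q (D i)) (hj : Aniso Q (D j)) {x y : V}
    (hx : x ∈ D i) (hy : y ∈ D j) (hx0 : x ≠ 0) (hy0 : y ≠ 0) : ∃ a ∈ D i, ∃ b ∈ D j,
      Q a ≠ 0 ∧ Q a + Q b = 0 ∧ polar Q x a = Q a ∧ polar Q y b = Q b := by
  classical
  have hQx : Q x ≠ 0 := fun h => hx0 (hi x hx h)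
  have hQy : Q y ≠ 0 := fun h => hy0 (hj y hy h)
  have h1 := ((hD.nd i).card_trSet (hk i) hx hQx).1 hi
  have h2 := ((hD.nd j).card_trSet (hk j) hy hQy).1 hj
  obtain ⟨_, ha, _, hb, h3, h4⟩ := exists_add_eq_zero_of_card
    (A := (trSet Q (D i) x).image fun t => 2 * Q x - t)
    (B := (trSet Q (D j) y).image fun t => 2 * Q y - t)
    (Finset.mem_image.2 ⟨_, mem_trSet.2 ⟨x, hx, rfl, polar_self' Q x⟩, sub_self _⟩)
    (by rw [Finset.card_image_of_injective _ sub_right_injective,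
      Finset.card_image_of_injective _ sub_right_injective]; omega)
  obtain ⟨_, ha', rfl⟩ := Finset.mem_image.1 ha
  obtain ⟨_, hb', rfl⟩ := Finset.mem_image.1 hb
  clear ha hb
  obtain ⟨a, ha, hQa, rfl⟩ := mem_trSet.1 ha'
  obtain ⟨b, hb, hQb, rfl⟩ := mem_trSet.1 hb'
  have h5 : Q (x - a) = 2 * Q x - polar Q x a := by rw [Q_sub, hQa]; ring
  have h6 : Q (y - b) = 2 * Q y - polar Q y b := by rw [Q_sub, hQb]; ring
  exact ⟨x - a, (D i).sub_mem hx ha, y - b, (D j).sub_mem hy hb, by rwa [h5], by rwa [h5, h6],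
    by rw [h5, polar_sub_right, polar_self'], by rw [h6, polar_sub_right, polar_self']⟩

/-- The endgame for anisotropic planes. -/
theorem eichGroup_le_of_spare_aniso [Fintype κ] (h4 : 4 ≤ Fintype.card κ)
    (han : ∀ i, Aniso Q (D i)) {l : κ} {u w : V} (hu0 : u ≠ 0) (hQu : Q u = 0)
    (hu : u ∈ perp Q (D l)) (huw : polar Q u w = 0) (hw : eich Q u w ∈ M) (hwl : hD.pr l w ≠ 0) :
    eichGroup Q ≤ M := by
  classical
  have hgood : ∀ y ∈ D l, eich Q u y ∈ M := fun y hy =>
    hD.eich_mem_of_aniso hH hirr hk (han l) hQu hu huw hw hwl hy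
  obtain ⟨i, hi⟩ := hD.exists_pr_ne_zero hu0
  obtain ⟨j, hji, hj⟩ := hD.exists_two_pr (fun m hm => hu0 (han m u hm hQu)) i
  have hil : l ≠ i := by rintro rfl; exact hi (hD.pr_eq_zero_iff.2 hu)
  have hjl : l ≠ j := by rintro rfl; exact hj (hD.pr_eq_zero_iff.2 hu)
  obtain ⟨a, ha, b, hb, hQa, hab, h1, h2⟩ := hD.exists_pair_reflections hk (han i) (han j)
    (hD.pr_mem i u) (hD.pr_mem j u) hi hj
  rw [hD.polar_pr_left u ha] at h1
  rw [hD.polar_pr_left u hb] at h2
  have hQb : Q b ≠ 0 := fun h => hQa (by rwa [h, add_zero] at hab)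
  have hba : polar Q b a = 0 := hD.orth j i hji b hb a ha
  have hp : ∀ m, m ≠ i → m ≠ j → a + b ∈ perp Q (D m) := fun m hmi hmj =>
    (perp Q (D m)).add_mem (hD.mem_perp_of_ne hmi ha) (hD.mem_perp_of_ne hmj hb)
  have hQab : Q (a + b) = 0 := by rw [Q_add, hab, polar_comm, hba, add_zero]
  have hgood' : ∀ y ∈ D l, eich Q (a + b) y ∈ M := by
    obtain ⟨k, hk', h5⟩ := hD.exists_kerDS_eq_on hQ (hirr l).two
      ((stabDec Q D).mul_mem (hD.refl_mem_stabDec ha) (hD.refl_mem_stabDec hb))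
    have h6 : k.1 u = u - (a + b) := by
      rw [h5 u hu, O_mul_apply, refl_apply Q b, h2, inv_mul_cancel₀ hQb, one_smul, refl_apply,
        polar_sub_left, h1, hba, sub_zero, inv_mul_cancel₀ hQa, one_smul]
      abel
    have h7 : ∀ y ∈ D l, (k⁻¹).1 y ∈ D l := by
      have h8 := perp_mem_of_forall_mem k (perp Q (D l)) fun x hx => by
        rw [h5 x hx, O_mul_apply, refl_apply, refl_apply]
        exact (perp Q (D l)).sub_mem ((perp Q (D l)).sub_mem hx ((perp Q (D l)).smul_mem _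
          (hD.mem_perp_of_ne hjl hb))) ((perp Q (D l)).smul_mem _ (hD.mem_perp_of_ne hil ha))
      rw [perp_perp hQ] at h8
      exact inv_mem_of_forall_mem k _ h8
    have h8 : ∀ y ∈ D l, eich Q (-(u - (a + b))) y ∈ M := fun y hy => by
      have := eich_conj_mem (hH hk') (hgood _ (h7 y hy))
      rw [h6, O_apply_inv] at this
      rw [eich_neg_left]
      exact eich_neg_mem this
    have h9 : Q (-(u - (a + b))) = 0 := by rw [QuadraticMap.map_neg, ← h6, O_map, hQu]
    have h10 : -(u - (a + b)) ∈ perp Q (D l) :=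
      (perp Q (D l)).neg_mem ((perp Q (D l)).sub_mem hu (hp l hil hjl))
    have h11 : polar Q u (-(u - (a + b))) = 0 := by
      rw [polar_neg_right, polar_sub_right, polar_add_right, h1, h2, hab, polar_self', hQu]; simp
    intro y hy
    by_cases hy0 : y = 0
    · rw [hy0, eich_zero]; exact M.one_mem
    obtain ⟨y', hy', h12⟩ := (hD.nd l).exists_polar_eq_one hy hy0
    have h13 := eich_conj_mem (h8 _ ((D l).smul_mem (Q y) hy')) (hgood y hy)
    rw [eich_apply_of_orth h11 (mem_perp'.1 hu _ ((D l).smul_mem (Q y) hy')),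
      eich_apply_of_orth_left h9 (mem_perp'.1 h10 _ ((D l).smul_mem (Q y) hy'))
        (mem_perp.1 h10 y hy), polar_smul_right', h12, mul_one] at h13
    rw [show a + b = u + -(u - (a + b)) by abel,
      eich_add_left hQu h9 h11 (mem_perp'.1 hu y hy) (mem_perp'.1 h10 y hy)]
    exact M.mul_mem h13 (h8 y hy)
  have hall : ∀ m, m ≠ i → m ≠ j → ∀ y ∈ D m, eich Q (a + b) y ∈ M := fun m hmi hmj y hy => by
    by_cases hml : m = l
    · exact hgood' y (hml ▸ hy)
    obtain ⟨s, hs, h5, h6⟩ := hD.exists_swap_kerDS (hQ := hQ) hirr hiso hml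
    have h7 := eich_conj_mem (M.inv_mem (hH hs)) (hgood' _ (h5 y hy))
    rwa [O_inv_apply, O_inv_apply_eq.2 (h6 _ (hD.pr_eq_zero_iff.2 (hp m hmi hmj))
      (hD.pr_eq_zero_iff.2 (hp l hil hjl))).symm] at h7
  obtain ⟨m, hmi, hmj, hml⟩ := exists_ne_ne_ne h4 i j l
  obtain ⟨x, hx, hQx⟩ := (hD.nd l).exists_Q_eq (hirr l).two 1
  obtain ⟨x', hx', hQx'⟩ := (hD.nd m).exists_Q_eq (hirr m).two (-1)
  have hx0 : x ≠ 0 := ne_zero_of_Q_ne_zero (Q := Q) (by rw [hQx]; exact one_ne_zero)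
  have hQx1 : Q (x + x') = 0 := by rw [Q_add, hQx, hQx', hD.orth l m hml.symm x hx x' hx']; ring
  have hY : ∀ s : F, s • (x + x') ∈ eichAddSubgroup M hQab := fun s => by
    rw [smul_add]
    exact (eichAddSubgroup M hQab).add_mem
      ⟨mem_perp'.1 (hp l hil hjl) _ ((D l).smul_mem s hx), hgood' _ ((D l).smul_mem s hx)⟩
      ⟨mem_perp'.1 (hp m hmi hmj) _ ((D m).smul_mem s hx'), hall m hmi hmj _ ((D m).smul_mem s hx')⟩
  have hY1 := hY 1
  rw [one_smul] at hY1
  have hx2 : ∀ n, n ≠ l → n ≠ m → x + x' ∈ perp Q (D n) := fun n h1 h2 =>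
    (perp Q (D n)).add_mem (hD.mem_perp_of_ne h1 hx) (hD.mem_perp_of_ne h2 hx')
  have h5 : ∀ n, n ≠ l → n ≠ m → hD.pr n (a + b) ≠ 0 → ∀ y ∈ D n, eich Q (x + x') y ∈ M :=
    fun n h1 h2 h3 y hy => hD.eich_mem_of_aniso hH hirr hk (han n) hQx1 (hx2 n h1 h2)
      (w := -(a + b)) (by rw [polar_neg_right, polar_comm, hY1.1, neg_zero])
      (by rw [← eich_swap hQab hQx1]; exact hY1.2) (by rwa [map_neg, neg_ne_zero]) hy
  have h6 := h5 i hil.symm hmi.symm (by
    rw [map_add, hD.pr_of_mem ha, hD.pr_of_ne hji.symm hb, add_zero]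
    exact ne_zero_of_Q_ne_zero hQa)
  have h7 := h5 j hjl.symm hmj.symm (by
    rw [map_add, hD.pr_of_mem hb, hD.pr_of_ne hji ha, zero_add]
    exact ne_zero_of_Q_ne_zero hQb)
  obtain ⟨z, hz, hxz⟩ := (hD.nd l).exists_polar_eq_one hx hx0
  have hfull : FullAt M (a + b) := ⟨hQab, fun w hw => by
    have h8 : ∑ n ∈ Finset.univ \ {i, j}, hD.pr n w ∈ eichAddSubgroup M hQab :=
      AddSubgroup.sum_mem _ fun n hn => by
        simp only [Finset.mem_sdiff, Finset.mem_univ, Finset.mem_insert, Finset.mem_singleton,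
          true_and, not_or] at hn
        exact ⟨mem_perp'.1 (hp n hn.1 hn.2) _ (hD.pr_mem n w), hall n hn.1 hn.2 _ (hD.pr_mem n w)⟩
    have h9 := hD.sum_pr w
    rw [← Finset.sum_sdiff (Finset.subset_univ {i, j}), Finset.sum_pair hji.symm] at h9
    have h10 : polar Q (a + b) (hD.pr i w + hD.pr j w) = 0 := by
      rw [← h9, polar_add_right, h8.1, zero_add] at hw
      exact hw
    have h11 := mem_perp'.1 (hx2 i hil.symm hmi.symm) _ (hD.pr_mem i w)
    have h12 := mem_perp'.1 (hx2 j hjl.symm hmj.symm) _ (hD.pr_mem j w)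
    have h13 : polar Q (x + x') (hD.pr i w + hD.pr j w) = 0 := by
      rw [polar_add_right, h11, h12, add_zero]
    have h14 := eich_conj_mem (eich_add_mem hQx1 h11 h12 (h6 _ (hD.pr_mem i w))
      (h7 _ (hD.pr_mem j w))) (hgood' z hz)
    have h15 : polar Q z (x + x') = 1 := by
      rw [polar_add_right, polar_comm, hxz, hD.orth l m hml.symm z hz x' hx', add_zero]
    rw [eich_apply_of_orth hY1.1 h10, eich_apply hQx1 h13, h15, one_smul, sub_sub, ← add_smul]
      at h14
    generalize polar Q z (hD.pr i w + hD.pr j w) + Q (hD.pr i w + hD.pr j w) * 1 = s at h14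
    have hz' : z ∈ eichAddSubgroup M hQab := ⟨mem_perp'.1 (hp l hil hjl) _ hz, hgood' z hz⟩
    have h16 := (eichAddSubgroup M hQab).sub_mem ((eichAddSubgroup M hQab).add_mem
      ⟨by rw [polar_sub_right, polar_add_right, hz'.1, h10, (hY s).1]; simp, h14⟩ (hY s)) hz'
    rw [sub_add_cancel, add_sub_cancel_left] at h16
    rw [← h9]
    exact ((eichAddSubgroup M hQab).add_mem h8 h16).2⟩
  obtain ⟨y, hy, hQy, hy1⟩ := (hirr i).exists_polar_ne_zero (hD.nd i) (x := a + b)
    (hD.exists_polar_ne_zero_of_pr (by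
      rw [map_add, hD.pr_of_mem ha, hD.pr_of_ne hji.symm hb, add_zero]
      exact ne_zero_of_Q_ne_zero hQa)) one_ne_zero
  have h8 := hfull.conj (hD.refl_mul_refl_mem hH hy hx (by rw [hQy]; exact one_ne_zero)
    (hQy.trans hQx.symm))
  refine hfull.eichGroup_le hQ h8 ?_
  rw [O_mul_apply, refl_apply_of_orth (mem_perp'.1 (hp l hil hjl) x hx), refl_apply,
    polar_sub_right, polar_self', hQab, polar_smul_right', hQy]
  simpa using hy1

omit hH hirr hiso [Fintype F] [Finite κ] in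
theorem exists_rot_prod (hQ : (polarBilin Q).Nondegenerate) {ι : Type*} [DecidableEq F]
    {f : ι → κ} (hf : Function.Injective f) (x y z : ι → V) (hx : ∀ i, x i ∈ D (f i))
    (hy : ∀ i, y i ∈ D (f i)) (hz : ∀ i, z i ∈ D (f i)) (hQx : ∀ i, Q (x i) ≠ 0)
    (hQz : ∀ i, Q (z i) ≠ 0) (hxy : ∀ i, Q (y i) = Q (x i))
    (hxz : ∀ i, polar Q (x i) (z i) = 0) (I : Finset ι) : ∃ g ∈ stabDec Q D, dickson hQ g = 1 ∧
      SpinRel g (∏ i ∈ I, if Q (x i - y i) = 0 then 1 else Q (x i - y i) * Q (z i)) ∧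
      ∀ v, (∀ i ∈ I, hD.pr (f i) v = x i) → g.1 v = v - ∑ i ∈ I, (x i - y i) := by
  classical
  induction I using Finset.induction_on with
  | empty => exact ⟨1, (stabDec Q D).one_mem, map_one _, by simpa using spinRel_one, by simp⟩
  | insert a I ha ih =>
    obtain ⟨g, hg, h1, h2, h3⟩ := ih
    have hxy' := (D (f a)).sub_mem (hx a) (hy a)
    rw [Finset.prod_insert ha]
    simp only [Finset.sum_insert ha, Finset.forall_mem_insert]
    split_ifs with h
    · refine ⟨g, hg, h1, by rwa [one_mul], fun v hv => ?_⟩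
      rw [(hD.nd _).eq_of_Q_sub_eq_zero (hk _) (hx a) (hy a) (hQx a) (hxy a) h, sub_self, zero_add]
      exact h3 v hv.2
    · refine ⟨refl Q (x a - y a) * refl Q (z a) * g, (stabDec Q D).mul_mem ((stabDec Q D).mul_mem
        (hD.refl_mem_stabDec hxy') (hD.refl_mem_stabDec (hz a))) hg, ?_,
        ((spinRel_refl h).mul (spinRel_refl (hQz a))).mul h2, fun v hv => ?_⟩
      · rw [map_mul, map_mul, h1, dickson_refl hQ h, dickson_refl hQ (hQz a)]; simp
      · have h4 : hD.pr (f a) (v - ∑ i ∈ I, (x i - y i)) = x a := by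
          rw [map_sub, hv.1, map_sum, Finset.sum_eq_zero, sub_zero]
          exact fun i hi => hD.pr_of_ne (fun h => ha (by rw [hf h]; exact hi)) ((D (f i)).sub_mem (hx i) (hy i))
        rw [O_mul_apply, O_mul_apply, h3 v hv.2, refl_apply_of_orth (v := z a)
          (by rw [← hD.polar_pr_left _ (hz a), h4, hxz]), refl_apply, ← hD.polar_pr_left _ hxy', h4,
          show polar Q (x a) (x a - y a) = Q (x a - y a) by
            rw [polar_sub_right, polar_self', Q_sub, hxy]; ring, inv_mul_cancel₀ h, one_smul]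
        abel

omit hirr hiso [Finite κ] in
/-- A root with five non-singular components yields an Eichler transformation. -/
theorem exists_eich_of_five (h2 : (2 : F) ≠ 0)
    (hty : (∀ i, Aniso Q (D i)) ∨ ((∀ i, ¬ Aniso Q (D i)) ∧ 7 ≤ Fintype.card F)) {i : κ} {x v : V}
    (hx : x ∈ D i) (hQx : Q x ≠ 0) (hv : Rt M x v) {f : Fin 5 → κ} (hf : Function.Injective f)
    (hvf : ∀ i, Q (hD.pr (f i) v) ≠ 0) : ∃ u, u ≠ 0 ∧ Q u = 0 ∧ polar Q u v = 0 ∧ eich Q u v ∈ M ∧
      (∃ l, u ∈ perp Q (D (f l))) ∧ ∀ m, m ∉ Set.range f → u ∈ perp Q (D m) := by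
  classical
  choose z hz hQz hxz _ using fun i => (hD.nd (f i)).exists_orth_plane (hk _) (hD.pr_mem _ v) (hvf i)
  have hcard := fun i => ((hD.nd (f i)).card_trSet (hk _) (hD.pr_mem _ v) (hvf i)).2.2 h2
  have hx' := fun i => hD.pr_mem (f i) v
  set p : Fin 5 → V := fun i => hD.pr (f i) v with hp
  have h4 : (4 : F) ≠ 0 := by rw [show (4 : F) = 2 * 2 by ring]; exact mul_ne_zero h2 h2
  have hn : ∀ i a, (if a = 0 then 1 else a * Q (z i)) ≠ 0 := fun i a => by
    split_ifs with h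
    · exact one_ne_zero
    · exact mul_ne_zero h (hQz i)
  obtain ⟨a, ha, ⟨l, hl⟩, h5, h6, j, hj⟩ := par h2
    (fun i => (trSet Q (D (f i)) (p i)).image fun t => 2 * Q (p i) - t)
    (fun i a => quadraticChar F (if a = 0 then 1 else a * Q (z i)))
    (fun i => Finset.mem_image.2 ⟨_, mem_trSet.2 ⟨_, hx' i, rfl, polar_self' Q _⟩, sub_self _⟩)
    (fun i => by simp) (fun i a => quadraticChar_dichotomy (hn i a))
    (fun i => by rw [Finset.card_image_of_injective _ sub_right_injective]; exact (hcard i).1)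
    (hty.symm.imp And.right fun h i => by
      rw [Finset.card_image_of_injective _ sub_right_injective]; exact (hcard i).2 (h _))
    (fun i => 4 * Q (p i)) (mul_ne_zero h4 (hvf 0)) (by
      have h5 : ∀ i, quadraticChar F (if 4 * Q (p i) = 0 then 1 else 4 * Q (p i) * Q (z i)) =
          quadraticChar F (-4) * quadraticChar F (-(Q (p i) * Q (z i))) := fun i => by
        rw [if_neg (mul_ne_zero h4 (hvf i)), ← map_mul]; congr 1; ring
      have h6 := fun i => aniso_iff (hk (f i)) h2 (hx' i) (hz i) (hvf i) (hQz i) (hxz i)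
      simp only [h5]
      congr 1
      rcases hty with h | h
      · rw [quadraticChar_neg_one_iff_not_isSquare.2 ((h6 0).1 (h _)),
          quadraticChar_neg_one_iff_not_isSquare.2 ((h6 1).1 (h _))]
      · have h7 := fun i => (quadraticChar_one_iff_isSquare (neg_ne_zero.2
          (mul_ne_zero (hvf i) (hQz i)))).2 (not_not.1 fun h' => h.1 _ ((h6 i).2 h'))
        exact (h7 0).trans (h7 1).symm)
    (fun i a ha => by
      obtain ⟨_, ht, rfl⟩ := Finset.mem_image.1 ha
      obtain ⟨y, hy, hQy, rfl⟩ := mem_trSet.1 ht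
      refine ⟨Finset.mem_image.2 ⟨_, mem_trSet.2 ⟨-y, (D _).neg_mem hy,
        by rw [QuadraticMap.map_neg, hQy], rfl⟩, by rw [polar_neg_right]; ring⟩, ?_⟩
      have h5 := quadraticChar_dichotomy (hn i (4 * Q (p i)))
      by_cases h6 : 2 * Q (p i) - polar Q (p i) y = 0
      · simp [h6]
      by_cases h7 : 4 * Q (p i) - (2 * Q (p i) - polar Q (p i) y) = 0
      · rw [if_pos h7, ← sub_eq_zero.1 h7, map_one]
        rcases h5 with h5 | h5 <;> simp only [h5] <;> simp
      rw [if_neg h6, if_neg h7, if_neg (mul_ne_zero h4 (hvf i)), ← map_mul]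
      obtain ⟨s, t, rfl⟩ := exists_comb_of_notMem (hk _) (hx' i) (hz i)
        (ne_zero_of_Q_ne_zero (hvf i)) (fun t ht => by
          have h8 := hxz i
          rw [← ht, polar_smul_right', polar_self'] at h8
          simp only [mul_eq_zero, h2, hvf i, or_false] at h8
          exact hQz i (by rw [← ht, h8]; simp)) hy
      rw [Q_add, Q_smul, Q_smul, polar_smul_left', polar_smul_right', hxz] at hQy
      rw [polar_add_right, polar_smul_right', polar_smul_right', hxz, polar_self'] at h6 h7 ⊢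
      have h8 : t * Q (z i) ≠ 0 := fun h => mul_ne_zero h6 h7 (by
        linear_combination (-4 * Q (p i)) * hQy + 4 * Q (p i) * t * h)
      rw [← mul_one (quadraticChar F _), ← quadraticChar_sq_one' (mul_ne_zero h6 (hQz i)),
        ← map_mul, eq_comm, ← mul_one (quadraticChar F _), ← quadraticChar_sq_one' h8, ← map_mul]
      congr 1
      linear_combination (4 * Q (p i) * Q (z i) ^ 3 *
        (2 * Q (p i) - (s * (2 * Q (p i)) + t * 0))) * hQy)
    (fun i a r ha hr => by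
      rw [if_neg ha, if_neg (mul_ne_zero (mul_ne_zero hr hr) ha), mul_assoc, map_mul, ← pow_two,
        quadraticChar_sq_one' hr, one_mul])
  have h7 : ∀ i, ∃ y ∈ D (f i), Q y = Q (p i) ∧ Q (p i - y) = a i := fun i => by
    obtain ⟨_, ht, h⟩ := Finset.mem_image.1 (ha i)
    obtain ⟨y, hy, hQy, rfl⟩ := mem_trSet.1 ht
    exact ⟨y, hy, hQy, by rw [← h, Q_sub, hQy]; ring⟩
  choose y hy hQy hay using h7
  obtain ⟨g, hg, h8, h9, h10⟩ := hD.exists_rot_prod hk hQ hf p y z hx' hy hz hvf hQz hQy hxz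
    Finset.univ
  simp only [hay] at h9
  rw [← map_prod] at h6
  have h11 : (∏ i, if a i = 0 then 1 else a i * Q (z i)) ≠ 0 :=
    Finset.prod_ne_zero_iff.2 fun i _ => hn i _
  have h12 := hD.rt_apply hH hx hQx hv (g := g) ⟨hg, (mem_kerDS hQ).2 ⟨h8, by
    rw [spinorNorm_eq hQ (c := Units.mk0 _ h11) h9, sqCl_mk_eq_one_iff]
    exact (quadraticChar_one_iff_isSquare h11).1 h6⟩⟩
  have h13 : g.1 v - v = -∑ i, (p i - y i) := by rw [h10 v fun _ _ => rfl]; abel
  have hpy := fun i => (D (f i)).sub_mem (hx' i) (hy i)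
  have h14 : ∀ i, hD.pr (f i) (g.1 v - v) = -(p i - y i) := fun i => by
    rw [h13, map_neg, map_sum, Finset.sum_eq_single i (fun j _ hj => hD.pr_of_ne (hf.ne hj.symm)
      (hpy j)) (by simp), hD.pr_of_mem (hpy i)]
  have h15 : Q (g.1 v - v) = 0 := by
    rw [h13, QuadraticMap.map_neg, Fin.sum_univ_five]
    rw [Fin.sum_univ_five] at h5
    have : ∀ i j, i ≠ j → polar Q (p i - y i) (p j - y j) = 0 :=
      fun i j h => hD.orth _ _ (hf.ne h) _ (hpy i) _ (hpy j)
    simp (disch := decide) only [Q_add, polar_add_left, this, hay]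
    linear_combination h5
  obtain ⟨h16, h17⟩ := Rt.eich_mem hQx hv h12 h15
  refine ⟨_, smul_ne_zero (inv_ne_zero hQx) fun h => hj ?_, by rw [Q_smul, h15, mul_zero], h16, h17,
    ⟨l, Submodule.smul_mem _ _ (hD.pr_eq_zero_iff.1 ?_)⟩,
    fun m hm => Submodule.smul_mem _ _ (hD.pr_eq_zero_iff.1 ?_)⟩
  · have := h14 j
    rw [h, map_zero, eq_comm, neg_eq_zero] at this
    rw [← hay, this, map_zero]
  · rw [h14, (hD.nd _).eq_of_Q_sub_eq_zero (hk _) (hx' l) (hy l) (hvf l) (hQy l) ((hay l).trans hl)]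
    simp [p]
  · rw [h13, map_neg, map_sum, Finset.sum_eq_zero, neg_zero]
    exact fun i _ => hD.pr_of_ne (fun h => hm ⟨i, h.symm⟩) (hpy i)

theorem exists_root_grow {i j m l : κ} {x v y : V} (hx : x ∈ D i) (hQx : Q x ≠ 0)
    (hv : Rt M x v) (hjm : j ≠ m) (hj : hD.pr j v ≠ 0) (hm : Q (hD.pr m v) ≠ 0)
    (hl : hD.pr l v = 0) (hy : y ∈ D m) (hQy : Q y = Q (hD.pr m v)) {γ : F}
    (hγ : γ * Q x = 2 * (Q x - Q (hD.pr j v) - Q (hD.pr m v)) + polar Q (hD.pr m v) y)
    (h0 : γ ≠ 0) (h1 : hD.pr m v ≠ γ • y) : ∃ w, Rt M x w ∧ hD.pr l w ≠ 0 ∧ hD.pr j w ≠ 0 ∧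
      hD.pr m w ≠ 0 ∧ ∀ n, n ≠ j → n ≠ m → n ≠ l → hD.pr n w = (1 - γ) • hD.pr n v := by
  have hjl : j ≠ l := by rintro rfl; exact hj hl
  have hml : m ≠ l := by rintro rfl; exact hm (by rw [hl, map_zero])
  obtain ⟨g, hg⟩ := hiso j l
  obtain ⟨s, hs, h2, -, h3⟩ := hD.exists_swap hjl g hg
  have hmy := (D m).sub_mem (hD.pr_mem m v) hy
  obtain ⟨k, hk', h4⟩ := hD.exists_kerDS_eq_on hQ (hirr l).two
    ((stabDec Q D).mul_mem hs (hD.refl_mem_stabDec hmy))
  have h5 : (refl Q (hD.pr m v - y)).1 v = v - (hD.pr m v - y) := by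
    by_cases h : Q (hD.pr m v - y) = 0
    · rw [(hD.nd m).eq_of_Q_sub_eq_zero (hk m) (hD.pr_mem m v) hy hm hQy h, sub_self, sub_zero,
        refl_of_eq_zero (map_zero Q), O_one_apply]
    · rw [refl_apply, ← hD.polar_pr_left v hmy,
        show polar Q (hD.pr m v) (hD.pr m v - y) = Q (hD.pr m v - y) by
          rw [polar_sub_right, polar_self', Q_sub, hQy]; ring, inv_mul_cancel₀ h, one_smul]
  have h6 : g.1 (hD.pr j v) ∈ D l := (hg _).1 (hD.pr_mem j v)
  have h7 : k.1 v = v - hD.pr j v - (hD.pr m v - y) + g.1 (hD.pr j v) := by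
    rw [h4 v (hD.pr_eq_zero_iff.1 hl), O_mul_apply, h5, ← h2 _ (hD.pr_mem j v),
      ← h3 (v - hD.pr j v - (hD.pr m v - y))
        (by rw [map_sub, map_sub, hD.pr_pr, hD.pr_of_ne hjm hmy]; simp)
        (by rw [map_sub, map_sub, hl, hD.pr_pr_of_ne hjl.symm, hD.pr_of_ne hml.symm hmy]; simp),
      ← map_add]
    congr 1; abel
  have h8 := hD.rt_apply hH hx hQx hv hk'
  have h9 : (refl Q (k.1 v)).1 v = v - γ • k.1 v := by
    rw [refl_apply, h8.1, h7, polar_add_right, polar_sub_right, polar_sub_right, polar_sub_right,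
      polar_self', hv.1, ← hD.polar_pr_left v h6, hl, ← hD.polar_pr_left v (hD.pr_mem j v),
      ← hD.polar_pr_left v (hD.pr_mem m v), ← hD.polar_pr_left v hy, polar_self', polar_self']
    congr 2
    field_simp
    simp only [polar_zero_left]
    linear_combination -hγ
  refine ⟨_, h8.refl_apply hv, ?_, ?_, ?_, fun n hnj hnm hnl => ?_⟩
  all_goals rw [h9, h7]; simp only [map_sub, map_add, map_smul]
  · rw [hl, hD.pr_pr_of_ne hjl.symm, hD.pr_pr_of_ne hml.symm, hD.pr_of_ne hml.symm hy,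
      hD.pr_of_mem h6]
    simpa [h0] using hj
  · rw [hD.pr_pr, hD.pr_pr_of_ne hjm, hD.pr_of_ne hjm hy, hD.pr_of_ne hjl h6]
    simpa using hj
  · rw [hD.pr_pr, hD.pr_pr_of_ne hjm.symm, hD.pr_of_mem hy, hD.pr_of_ne hml h6]
    simpa [sub_eq_zero] using h1
  · rw [hD.pr_pr_of_ne hnj, hD.pr_pr_of_ne hnm, hD.pr_of_ne hnm hy, hD.pr_of_ne hnl h6]
    module

/-- Step II for planes. -/
theorem eichGroup_le_of_two [Fintype κ] (h5 : 5 ≤ Fintype.card κ) (hq3 : Fintype.card F ≠ 3)
    (hty : (∀ i, Aniso Q (D i)) ∨ ((∀ i, ¬ Aniso Q (D i)) ∧ 7 ≤ Fintype.card F ∧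
      (Fintype.card F ≠ 9 ∨ 6 ≤ Fintype.card κ))) {i : κ} {x v : V} (hx : x ∈ D i)
    (hQx : Q x ≠ 0) (hv : Rt M x v) (hvD : ∀ j, v ∉ D j) : eichGroup Q ≤ M := by
  classical
  by_contra hE
  have h3 : ∀ i j, i ≠ j → 3 ≤ finrank F (D i) ∨ ∃ l, l ≠ i ∧ l ≠ j := fun i j _ =>
    Or.inr (exists_ne_ne (by omega) i j)
  have hns : ∀ v, Rt M x v → ∀ j, hD.pr j v ≠ 0 → Q (hD.pr j v) ≠ 0 := fun v hv j hj h => by
    rcases hty with h1 | h1
    · exact hj (h1 j _ (hD.pr_mem j v) h)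
    · obtain ⟨a, ha, h2⟩ := exists_pow_ne_one (F := F) (n := 2) (by omega) (by omega)
      exact hE (hD.eichGroup_le_of_singular hH hirr hiso h3 ⟨a, ha, by rwa [← pow_two]⟩ hx hQx hv
        hj h)
  have htr := fun v hv j hj => (hD.nd j).card_trSet (hk j) (hD.pr_mem j v) (hns v hv j hj)
  obtain ⟨m, hm⟩ := hD.exists_pr_ne_zero (ne_zero_of_Q_ne_zero (hv.1 ▸ hQx : Q v ≠ 0))
  obtain ⟨j, hjm, hj⟩ := hD.exists_two_pr hvD m
  have hq1 : 1 < Fintype.card F := Fintype.one_lt_card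
  by_cases h2 : (2 : F) = 0
  · rcases hty with han | ⟨hp, h7, -⟩
    · obtain ⟨w, hw, l, hlj, hlm, hl, hj, hm⟩ : ∃ w, Rt M x w ∧ ∃ l, l ≠ j ∧ l ≠ m ∧
          hD.pr l w ≠ 0 ∧ hD.pr j w ≠ 0 ∧ hD.pr m w ≠ 0 := by
        obtain ⟨l, hlj, hlm⟩ := exists_ne_ne (by omega) j m
        by_cases hl : hD.pr l v = 0
        swap
        · exact ⟨v, hv, l, hlj, hlm, hl, hj, hm⟩
        obtain ⟨t, ht, ht0⟩ := Finset.exists_mem_notMem_of_card_lt_card (s := {0})
          (t := trSet Q (D m) (hD.pr m v)) (by have := (htr v hv m hm).1 (han m); simp; omega)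
        obtain ⟨y, hy, hQy, rfl⟩ := mem_trSet.1 ht
        rw [Finset.mem_singleton] at ht0
        obtain ⟨w, hw, h4, h6, h7, -⟩ := hD.exists_root_grow hH hirr hk hiso hx hQx hv hjm hj
          (hns v hv m hm) hl hy hQy (γ := polar Q (hD.pr m v) y / Q x) (by rw [h2]; field_simp; ring)
          (div_ne_zero ht0 hQx) fun h => ht0 (by
            rw [h, polar_smul_left', polar_self', h2]; simp)
        exact ⟨w, hw, l, hlj, hlm, h4, h6, h7⟩
      obtain ⟨a, ha, b, hb, hQa, hab, h4, h6⟩ := hD.exists_pair_reflections hk (han j) (han m)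
        (hD.pr_mem j w) (hD.pr_mem m w) hj hm
      rw [hD.polar_pr_left w ha] at h4
      rw [hD.polar_pr_left w hb] at h6
      have h7 : Q a = Q b := by linear_combination hab - Q b * h2
      have hba : polar Q b a = 0 := hD.orth m j hjm.symm b hb a ha
      have h8 := hD.rt_apply hH hx hQx hw (g := refl Q a * refl Q b)
        ⟨(stabDec Q D).mul_mem (hD.refl_mem_stabDec ha) (hD.refl_mem_stabDec hb),
          (refl_mul_refl_mem_kerDS_iff hQ hQa (h7 ▸ hQa)).2 ⟨Q a, by rw [← h7]⟩⟩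
      have h9 : (refl Q a * refl Q b).1 w - w = -(a + b) := by
        rw [O_mul_apply, refl_apply Q b, h6, inv_mul_cancel₀ (h7 ▸ hQa), one_smul, refl_apply,
          polar_sub_left, h4, hba, sub_zero, inv_mul_cancel₀ hQa, one_smul]
        abel
      have h10 : Q (-(a + b)) = 0 := by
        rw [QuadraticMap.map_neg, Q_add, hab, polar_comm, hba, add_zero]
      obtain ⟨h11, h12⟩ := Rt.eich_mem hQx hw h8 (by rw [h9, h10])
      rw [h9] at h11 h12
      refine hE (hD.eichGroup_le_of_spare_aniso hH hirr hk hiso (by omega) han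
        (smul_ne_zero (inv_ne_zero hQx) fun h => ?_) (by rw [Q_smul, h10, mul_zero])
        (Submodule.smul_mem _ _ (Submodule.neg_mem _ (Submodule.add_mem _
          (hD.mem_perp_of_ne hlj ha) (hD.mem_perp_of_ne hlm hb)))) h11 h12 hl)
      have := congrArg (hD.pr j) h
      rw [map_neg, map_add, hD.pr_of_mem ha, hD.pr_of_ne hjm hb] at this
      exact hQa (by rw [show a = 0 by simpa using this, map_zero])
    · have key : ∀ v, Rt M x v → ∀ j, hD.pr j v ≠ 0 → Q (hD.pr j v) = Q x := fun v hv j hj => by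
        by_contra h4
        obtain ⟨e, he, hQe, he0⟩ : ∃ e ∈ D j, Q e = 0 ∧ e ≠ 0 := by
          by_contra h1
          push Not at h1
          exact hp j h1
        obtain ⟨f, hf, h⟩ := (hD.nd j).exists_isHyp he hQe he0
        obtain ⟨a, b, hab⟩ := h.exists_comb_of_mem he hf (hk j) (hD.pr_mem j v)
        have h6 := hns v hv j hj
        rw [hab, h.Q_comb'] at h4 h6
        have ha := left_ne_zero_of_mul h6
        have h8 : Q x - a * b ≠ 0 := sub_ne_zero.2 (Ne.symm h4)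
        obtain ⟨r, hr⟩ := isSquare_of_two_eq_zero h2 (Q x / (Q x - a * b))
        have hr0 : r ≠ 0 := by rintro rfl; exact div_ne_zero hQx h8 (by rw [hr, mul_zero])
        have hy : r • (a • e + ((Q x - a * b) / a) • f) ∈ D j :=
          (D j).smul_mem _ ((D j).add_mem ((D j).smul_mem _ he) ((D j).smul_mem _ hf))
        have h9 := hv.refl_apply (hD.rt_of_mem hH hx hy hQx (by
          rw [Q_smul, h.Q_comb', ← hr]; field_simp))
        have h10 : hD.pr j ((refl Q v).1 (r • (a • e + ((Q x - a * b) / a) • f))) =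
            (r * Q x / a) • f := by
          rw [refl_apply, map_sub, map_smul, map_smul, hD.pr_of_mem ((D j).add_mem
            ((D j).smul_mem _ he) ((D j).smul_mem _ hf)), ← hD.polar_pr_right v hy, hab, hv.1]
          simp only [polar_add_left, polar_add_right, polar_smul_left', polar_smul_right', h.pol,
            h.pol', h.polar_left, h.polar_right]
          match_scalars
          · field_simp; ring
          · field_simp; linear_combination (-(Q x * a * b)) * h2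
        exact hns _ h9 j (by
          rw [h10]; exact smul_ne_zero (div_ne_zero (mul_ne_zero hr0 hQx) ha) h.right_ne_zero)
          (by rw [h10, Q_smul, h.right, mul_zero])
      obtain ⟨t, ht, ht0⟩ := Finset.exists_mem_notMem_of_card_lt_card (s := {0, Q x})
        (t := trSet Q (D m) (hD.pr m v)) (by
          have := (htr v hv m hm).2.1
          have := Finset.card_le_two (a := (0 : F)) (b := Q x)
          omega)
      obtain ⟨y, hy, hQy, rfl⟩ := mem_trSet.1 ht
      simp only [Finset.mem_insert, Finset.mem_singleton, not_or] at ht0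
      have h4 := hv.refl_apply (hD.rt_of_mem hH hx hy hQx (hQy.trans (key v hv m hm)))
      have h6 : hD.pr j ((refl Q v).1 y) = (-((Q x)⁻¹ * polar Q (hD.pr m v) y)) • hD.pr j v := by
        rw [refl_apply, map_sub, map_smul, hD.pr_of_ne hjm hy, hD.polar_pr_left v hy, polar_comm,
          hv.1, zero_sub, neg_smul]
      have h8 := key _ h4 j (by
        rw [h6]; exact smul_ne_zero (neg_ne_zero.2 (mul_ne_zero (inv_ne_zero hQx) ht0.1)) hj)
      rw [h6, Q_smul, key v hv j hj] at h8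
      refine ht0.2 (sub_eq_zero.1 (mul_self_eq_zero.1 ?_))
      field_simp at h8
      linear_combination h8 + (Q x * Q x - Q x * polar Q (hD.pr m v) y) * h2
  have hgrow : ∀ n : ℕ, n ≤ 3 → ∃ w, Rt M x w ∧
      n + 2 ≤ (Finset.univ.filter fun i => hD.pr i w ≠ 0).card := fun n hn => by
    induction n with
    | zero => exact ⟨v, hv, Finset.one_lt_card.2 ⟨j, by simpa, m, by simpa, hjm⟩⟩
    | succ n ih =>
      obtain ⟨w, hw, h4⟩ := ih (by omega)
      by_cases h6 : n + 1 + 2 ≤ (Finset.univ.filter fun i => hD.pr i w ≠ 0).card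
      · exact ⟨w, hw, h6⟩
      obtain ⟨l, hl⟩ := exists_notMem_finset (Finset.univ.filter fun i => hD.pr i w ≠ 0) (by omega)
      obtain ⟨j, hj, m, hm, hjm⟩ := Finset.one_lt_card.1
        (show 1 < (Finset.univ.filter fun i => hD.pr i w ≠ 0).card by omega)
      simp only [Finset.mem_filter, Finset.mem_univ, true_and, not_not] at hj hm hl
      obtain ⟨t, ht, ht0⟩ := Finset.exists_mem_notMem_of_card_lt_card
        (s := ({0, 1, -1} : Finset F).image fun γ =>
          γ * Q x - 2 * (Q x - Q (hD.pr j w) - Q (hD.pr m w)))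
        (t := trSet Q (D m) (hD.pr m w)) (by
          have h7 := (htr w hw m hm).2.2 h2
          have h8 := Finset.card_le_three (a := (0 : F)) (b := 1) (c := -1)
          obtain ⟨r, hr⟩ := two_ne_zero_iff_odd_card.1 h2
          refine (Finset.card_image_le.trans h8).trans_lt ?_
          rcases hty with h | h
          · have := h7.2 (h m); omega
          · omega)
      obtain ⟨y, hy, hQy, rfl⟩ := mem_trSet.1 ht
      set γ := (2 * (Q x - Q (hD.pr j w) - Q (hD.pr m w)) + polar Q (hD.pr m w) y) / Q x with hγ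
      have h7 : γ ∉ ({0, 1, -1} : Finset F) := fun h => ht0 (Finset.mem_image.2 ⟨γ, h, by
        rw [hγ]; field_simp; ring⟩)
      simp only [Finset.mem_insert, Finset.mem_singleton, not_or] at h7
      obtain ⟨w', hw', h8, h9, h10, h11⟩ := hD.exists_root_grow hH hirr hk hiso hx hQx hw hjm hj
        (hns w hw m hm) hl hy hQy (γ := γ) (by rw [hγ]; field_simp) h7.1 fun h => by
          have h8 := hns w hw m hm
          rw [← hQy] at h8
          rw [h, Q_smul] at hQy
          rcases mul_self_eq_one_iff.1 (mul_right_cancel₀ h8 (hQy.symm.trans (one_mul _).symm))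
            with h9 | h9
          · exact h7.2.1 h9
          · exact h7.2.2 h9
      refine ⟨w', hw', le_trans ?_ (Finset.card_le_card (s := insert l
        (Finset.univ.filter fun i => hD.pr i w ≠ 0)) fun n hn => ?_)⟩
      · rw [Finset.card_insert_of_notMem (by simpa)]; omega
      · simp only [Finset.mem_insert, Finset.mem_filter, Finset.mem_univ, true_and] at hn ⊢
        by_cases hnl : n = l
        · rwa [hnl]
        by_cases hnj : n = j
        · rwa [hnj]
        by_cases hnm : n = m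
        · rwa [hnm]
        rw [h11 n hnj hnm hnl]
        exact smul_ne_zero (sub_ne_zero.2 (Ne.symm h7.2.1)) (hn.resolve_left hnl)
  obtain ⟨w, hw, h4⟩ := hgrow 3 le_rfl
  obtain ⟨S, hS, h6⟩ := Finset.exists_subset_card_eq h4
  let f : Fin 5 → κ := fun i => S.equivFinOfCardEq h6 |>.symm i
  have hf : Function.Injective f := Subtype.val_injective.comp (Equiv.injective _)
  have hwf : ∀ i, hD.pr (f i) w ≠ 0 := fun i => by
    simpa using hS ((S.equivFinOfCardEq h6).symm i).2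
  obtain ⟨u, hu0, hQu, huw, h7, ⟨l, hl⟩, h8⟩ := hD.exists_eich_of_five hH hk h2
    (hty.imp_right fun h => ⟨h.1, h.2.1⟩) hx hQx hw hf fun i => hns w hw _ (hwf i)
  rcases hty with han | ⟨hp, h9, h10⟩
  · exact hE (hD.eichGroup_le_of_spare_aniso hH hirr hk hiso (by omega) han hu0 hQu hl huw h7
      (hwf l))
  · refine hE (hD.eichGroup_le_of_spare_plus hH hirr hk hiso (by omega) hp hu0 hQu hl huw h7
      (hwf l) ?_)
    by_cases h11 : Fintype.card F = 9
    · obtain ⟨m, hm⟩ := exists_notMem_finset (Finset.univ.image f) (by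
        have := Finset.card_image_le (s := Finset.univ) (f := f)
        simp only [Finset.card_univ, Fintype.card_fin] at this
        omega)
      exact Or.inr ⟨by omega, m, fun h => hm (h ▸ Finset.mem_image_of_mem f (Finset.mem_univ l)),
        h8 m fun ⟨i, hi⟩ => hm (hi ▸ Finset.mem_image_of_mem f (Finset.mem_univ i))⟩
    · exact Or.inl ⟨h2, h11⟩

end ODec

/-- Maximality of the stabiliser of an orthogonal decomposition into planes. -/
theorem ODec.le_or_le_of_two [Fintype F] [Fintype κ] [FiniteDimensional F V]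
    {D : κ → Submodule F V} (hD : ODec Q D) (hQ : (polarBilin Q).Nondegenerate)
    (hk : ∀ i, finrank F (D i) = 2) (h5 : 5 ≤ Fintype.card κ)
    (hiso : ∀ i j, ∃ g : O Q, ∀ x, x ∈ D i ↔ g.1 x ∈ D j) (hq3 : Fintype.card F ≠ 3)
    (hty : (∀ i, Aniso Q (D i)) ∨ ((∀ i, ¬ Aniso Q (D i)) ∧ 7 ≤ Fintype.card F ∧
      (Fintype.card F ≠ 9 ∨ 6 ≤ Fintype.card κ))) {M : Subgroup (O Q)}
    (hH : stabDec Q D ⊓ kerDS hQ ≤ M) (hM : M ≤ kerDS hQ) :
    M ≤ stabDec Q D ∨ kerDS hQ ≤ M := by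
  classical
  have hirr : ∀ j, Irr Q (D j) := fun j => (hD.nd j).irr (hk j).ge (fun h => absurd h hq3)
    (fun h _ ⟨U, h1, h2, h3⟩ => by
      obtain ⟨u, hu, hu0⟩ := Submodule.exists_mem_ne_zero_of_ne_bot
        (ne_bot_of_finrank_pos (W := U) (by rw [hk] at h3; omega))
      exact hu0 ((hty.resolve_right (by omega)) j u (h1 hu) (h2 u hu)))
    fun _ h => by rw [hk] at h; omega
  have hn := hD.finrank_eq_mul hk
  rw [← eichGroup_eq_kerDS hQ (not_isExc_of_finrank (by omega)) (by omega), or_iff_not_imp_right]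
  intro hE
  obtain ⟨i⟩ : Nonempty κ := Fintype.card_pos_iff.1 (by omega)
  obtain ⟨y, hy, hQy⟩ := (hD.nd i).exists_Q_eq (hk i).ge 1
  have hQ1 : Q y ≠ 0 := by rw [hQy]; exact one_ne_zero
  have h1 := (hD.nd i).card_trSet (hk i) hy hQ1
  have hq1 : 1 < Fintype.card F := Fintype.one_lt_card
  obtain ⟨t, ht, ht0⟩ := Finset.exists_mem_notMem_of_card_lt_card (s := {0, 2, -2})
    (t := trSet Q (D i) y) (by
      by_cases h2 : (2 : F) = 0
      · rw [h2, neg_zero]
        simp only [Finset.mem_singleton, Finset.insert_eq_of_mem, Finset.card_singleton]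
        rcases hty with h | h
        · have := h1.1 (h i); omega
        · omega
      · have h7 := h1.2.2 h2
        obtain ⟨r, hr⟩ := two_ne_zero_iff_odd_card.1 h2
        refine Finset.card_le_three.trans_lt ?_
        rcases hty with h | h
        · have := h7.2 (h i); omega
        · omega)
  obtain ⟨y', hy', hQy', rfl⟩ := mem_trSet.1 ht
  simp only [Finset.mem_insert, Finset.mem_singleton, not_or] at ht0
  refine hD.le_stabDec_of_two hH hirr hiso hM hk h5 hE (hty.imp_right fun h => ?_)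
    (fun j x hx hQx v hv => ?_) hy hy' hQ1 hQy' (fun s hs => ?_) (by rw [polar_comm]; exact ht0.1)
  · obtain ⟨a, ha, h2⟩ := exists_pow_ne_one (F := F) (n := 2) (by omega) (by omega)
    exact ⟨a, ha, by rwa [← pow_two]⟩
  · by_contra h
    push Not at h
    exact hE (hD.eichGroup_le_of_two hH hirr hk hiso h5 hq3 hty hx hQx hv h)
  · rw [← hs, Q_smul, hQy, mul_one] at hQy'
    rw [← hs, polar_smul_right', polar_self', hQy, mul_one] at ht0
    rcases mul_self_eq_one_iff.1 hQy' with rfl | rfl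
    · exact ht0.2.1 (one_mul _)
    · exact ht0.2.2 (neg_one_mul _)

section Geo

variable {F : Type*} [Field F] [Fintype F] {ι : Type} [Fintype ι] [DecidableEq ι]

/-- Maximality in `Ω` of the stabiliser of an orthogonal decomposition into at least five
isometric planes. -/
theorem omega_c2_two {Q : (ι → F) → F} (hQ : Geo.IsNondegenerateQuadraticForm Q) {t : ℕ}
    {D : Fin t → Submodule F (ι → F)} (hD : Geo.IsOrthogonalMDecomposition Q 2 D) (h5 : 5 ≤ t)
    (hq3 : Fintype.card F ≠ 3) (hp : (∀ i, Geo.IsPlusTypeOn Q (D i)) →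
      7 ≤ Fintype.card F ∧ (Fintype.card F ≠ 9 ∨ 6 ≤ t)) :
    Geo.IsMaximalIn (Geo.omegaGL Q) (Geo.decompositionStabilizer D ⊓ Geo.omegaGL Q) := by
  obtain ⟨Q, hQ', rfl⟩ := exists_quadraticForm_of_geo hQ
  have hO := oDec_of_geo hD.decomp
  have hk := hD.decomp.decomp.finrank_eq
  have hn := hO.finrank_eq_mul hk
  rw [Fintype.card_fin] at hn
  have hiso := fun i j => exists_isometry_of_geo hQ' (hD.isometric i j)
  refine isMaximalIn_geo hQ' (not_isExc_of_finrank (by omega)) ?_ fun M h1 h2 => ?_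
  · rw [comap_decompositionStabilizer]
    exact hO.not_kerDS_le hQ' (i := ⟨0, by omega⟩) (ne_bot_of_finrank_pos (by rw [hk]; omega))
      (by rw [hk]; omega)
  · rw [comap_decompositionStabilizer] at h1 ⊢
    refine hO.le_or_le_of_two hQ' hk (by simpa) hiso hq3 ?_ h1 h2
    by_cases h : ∀ i, PlusOn Q (D i)
    · refine Or.inr ⟨fun i hi => ?_, by simpa using hp h⟩
      obtain ⟨e, he, he0, hQe⟩ := exists_singular_of_isPlusTypeOn (h i) (by rw [hk]; omega)
      exact he0 (hi e he hQe)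
    · refine Or.inl fun i x hx hQx => ?_
      by_contra h0
      exact forall_not_plusOn hiso h i (plusOn_of_singular (hk i) hx h0 hQx)

/-- Maximality in `Ω` of the stabiliser of an orthogonal decomposition into isometric members of
dimension at least two, in dimension at least eleven. -/
theorem omega_c2 {Q : (ι → F) → F} (hQ : Geo.IsNondegenerateQuadraticForm Q)
    (hn : 11 ≤ Fintype.card ι) {t k : ℕ} {D : Fin t → Submodule F (ι → F)}
    (hD : Geo.IsOrthogonalMDecomposition Q k D) (hk : 2 ≤ k) (hko : Odd k → Odd (Fintype.card F))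
    (hex : ¬ ((k = 2 ∧ (Fintype.card F = 3 ∨ ((∀ i, Geo.IsPlusTypeOn Q (D i)) ∧
      (Fintype.card F = 2 ∨ Fintype.card F = 4 ∨ Fintype.card F = 5)))) ∨
      (k = 3 ∧ Fintype.card F = 3) ∨
      (k = 4 ∧ Fintype.card F = 2 ∧ ∀ i, Geo.IsPlusTypeOn Q (D i)))) :
    Geo.IsMaximalIn (Geo.omegaGL Q) (Geo.decompositionStabilizer D ⊓ Geo.omegaGL Q) := by
  have h1 : Fintype.card ι = t * k := by
    obtain ⟨Q, hQ', rfl⟩ := exists_quadraticForm_of_geo hQ
    have := (oDec_of_geo hD.decomp).finrank_eq_mul hD.decomp.decomp.finrank_eq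
    rwa [finrank_pi', Fintype.card_fin] at this
  simp only [not_or] at hex
  by_cases h2 : k = 2
  · subst h2
    have hq1 : 1 < Fintype.card F := Fintype.one_lt_card
    have h6 := card_ne_six (F := F)
    have h3 : Fintype.card F ≠ 3 := fun h => hex.1 ⟨rfl, Or.inl h⟩
    refine omega_c2_two hQ hD (by omega) h3 fun h => ⟨?_, Or.inr (by omega)⟩
    by_contra h7
    exact hex.1 ⟨rfl, Or.inr ⟨h, by omega⟩⟩
  · refine omega_c2_three_le hQ hD (by omega) ?_
      (fun h => ⟨hko (by rw [h]; decide), fun h' => hex.2.1 ⟨h, h'⟩⟩) hex.2.2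
    by_contra h
    push Not at h
    nlinarith

end Geo

end Cfsg.Agent.H30
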