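import Cfsg.Agent.H30.F2Defs2
import Cfsg.Agent.H4.CoprimeAction

/-!
Statement S3817, core argument: basic facts.
-/

set_option autoImplicit false
set_option linter.style.haveILetI false

namespace Cfsg.Agent.H30.F2

open Subgroup Cfsg Cfsg.Agent.H83 Cfsg.Agent.H7
open scoped commutatorElement

universe u

variable {G : Type u} [Group G] {p q : ℕ} {x : G}

theorem cj_zpowers (g x : G) : cj g (zpowers x) = zpowers (g * x * g⁻¹) :=
  MonoidHom.map_zpowers _ _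

theorem cj_closure_pair (g a b : G) :
    cj g (closure ({a, b} : Set G)) = closure ({g * a * g⁻¹, g * b * g⁻¹} : Set G) := by
  rw [cj_closure, Set.image_pair]

theorem cj_eq_top_iff {g : G} {H : Subgroup G} : cj g H = ⊤ ↔ H = ⊤ := by
  conv_lhs => rw [← cj_top g]
  exact cj_inj

theorem isCoatom_cj {K : Subgroup G} (h : IsCoatom K) (g : G) : IsCoatom (cj g K) := by
  refine ⟨fun e => h.1 (cj_eq_top_iff.mp e), fun L hL => ?_⟩
  have : K < cj g⁻¹ L := by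
    refine lt_of_le_of_ne (cj_le_iff.mp hL.le) fun e => hL.ne ?_
    rw [e, cj_cj_inv]
  exact cj_eq_top_iff.mp (h.2 _ this)

theorem mem_norm_cj {g a : G} {A : Subgroup G} (h : a ∈ normalizer (A : Set G)) :
    g * a * g⁻¹ ∈ normalizer (cj g A : Set G) := by
  rw [← cj_normalizer]; exact conj_mem_cj h

theorem le_norm_cj {g : G} {H A : Subgroup G} (h : H ≤ normalizer (A : Set G)) :
    cj g H ≤ normalizer (cj g A : Set G) := by
  rw [← cj_normalizer]; exact cj_mono g h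

theorem exists_coatom [Finite G] {H : Subgroup G} (h : H ≠ ⊤) : ∃ K, IsCoatom K ∧ H ≤ K :=
  (eq_top_or_exists_le_coatom H).resolve_left h

theorem mem_pair_left (a b : G) : a ∈ closure ({a, b} : Set G) := subset_closure (by simp)

theorem mem_pair_right (a b : G) : b ∈ closure ({a, b} : Set G) := subset_closure (by simp)

theorem pair_le {a b : G} {H : Subgroup G} (ha : a ∈ H) (hb : b ∈ H) :
    closure ({a, b} : Set G) ≤ H := by
  rw [closure_le]
  rintro _ (rfl | rfl)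
  exacts [ha, hb]

theorem mem_cent_zpowers {n : G} : n ∈ centralizer (zpowers x : Set G) ↔ n * x * n⁻¹ = x := by
  rw [← zpowers_le_cent, le_centralizer_iff, zpowers_le, mem_centralizer_iff]
  refine ⟨fun h => ?_, fun h g hg => ?_⟩
  · rw [h n (mem_zpowers n), mul_inv_cancel_right]
  · have : Commute n x := by
      rw [Commute, SemiconjBy, ← mul_inv_eq_iff_eq_mul, h]
    obtain ⟨k, rfl⟩ := mem_zpowers_iff.mp hg
    exact (this.zpow_left k).eq

theorem Good.cj {H : Subgroup G} (h : Good p x H) (g : G) : Good p (g * x * g⁻¹) (cj g H) := by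
  obtain ⟨A, K, h1, h2, h3, h4, h5, h6, h7, h8⟩ := h
  refine ⟨H83.cj g A, H83.cj g K, cj_mono g h1, cj_mono g h2, le_norm_cj h3, le_norm_cj h4,
    conj_mem_cj h5, ?_, by rwa [card_cj], fun k hk => ?_⟩
  · exact Group.nilpotent_of_mulEquiv ((MulAut.conj g).subgroupMap A)
  · obtain ⟨n, hn⟩ := h8 _ (mem_cj.mp hk)
    refine ⟨n, mem_cj.mpr ?_⟩
    have := conj_pow' g⁻¹ k (p ^ n)
    rw [inv_inv] at this
    rwa [← this]

theorem Ctx.conj (h : Ctx p x) (g : G) : Ctx p (g * x * g⁻¹) where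
  hp := h.hp
  ord := by rw [orderOf_conj', h.ord]
  sup := fun N hN h0 => by
    have := congrArg (cj g) (h.sup N hN h0)
    rwa [cj_sup, cj_zpowers, cj_top, cj_eq_self (by rw [normalizer_eq_top]; trivial)] at this
  ncl := by
    rw [eq_top_iff, ← h.ncl]
    refine normalClosure_le_normal ?_
    intro y hy
    rw [Set.mem_singleton_iff.mp hy]
    have : g * x * g⁻¹ ∈ normalClosure ({g * x * g⁻¹} : Set G) := subset_normalClosure rfl
    have h2 := (normalClosure_normal (s := ({g * x * g⁻¹} : Set G))).conj_mem _ this g⁻¹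
    simpa [mul_assoc] using h2
  nsol := h.nsol
  good := fun H hH hx => by
    have := (h.good (cj g⁻¹ H) (fun e => hH (cj_eq_top_iff.mp e))
      (mem_cj.mpr (by rwa [inv_inv]))).cj g
    rwa [cj_cj_inv] at this
  two := fun y e => by
    apply h.two (g⁻¹ * y * g)
    have := congrArg (cj g⁻¹) e
    rw [cj_closure_pair, cj_top] at this
    simpa [mul_assoc] using this

theorem Ctx.pow_eq (h : Ctx p x) : x ^ p = 1 := h.ord ▸ pow_orderOf_eq_one x

theorem Ctx.ne_one (h : Ctx p x) : x ≠ 1 := fun e => by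
  have := h.ord
  rw [e, orderOf_one] at this
  exact h.hp.one_lt.ne this

theorem Ctx.isPGroup (h : Ctx p x) : IsPGroup p (zpowers x) :=
  isPGroup_zpowers (k := 1) (by rw [pow_one, h.pow_eq])

theorem Ctx.card (h : Ctx p x) : Nat.card (zpowers x) = p := by rw [Nat.card_zpowers, h.ord]

theorem solv_zpowers (x : G) : Group.IsSolvable (zpowers x) :=
  H4.isSolvable_of_isMulCommutative _

theorem Ctx.coprime (h : Ctx p x) {A : Subgroup G} (hA : (Nat.card A).Coprime p) :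
    (Nat.card (zpowers x)).Coprime (Nat.card A) := by
  rw [h.card]; exact hA.symm

theorem Ctx.cop [Finite G] (h : Ctx p x) (hq : q.Prime) (hqp : q ≠ p) {A : Subgroup G}
    (hA : IsPGroup q A) : (Nat.card A).Coprime p :=
  haveI : Fact p.Prime := ⟨h.hp⟩
  haveI : Fact q.Prime := ⟨hq⟩
  coprime_card_of_isPGroup_ne hqp.symm hA

theorem Ctx.two' (h : Ctx p x) (g : G) : closure ({x, g * x * g⁻¹} : Set G) ≠ ⊤ := fun e => by
  apply h.two g
  rw [eq_top_iff, ← e]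
  exact pair_le (mem_pair_left _ _) (mul_mem (mul_mem (mem_pair_right _ _) (mem_pair_left _ _))
    (inv_mem (mem_pair_right _ _)))

/-- A nontrivial solvable subgroup is not normal. -/
theorem Ctx.norm_ne_top (h : Ctx p x) {A : Subgroup G} (h0 : A ≠ ⊥) (hs : Group.IsSolvable A) :
    normalizer (A : Set G) ≠ ⊤ := fun e => by
  haveI hn : A.Normal := normalizer_eq_top_iff.mp e
  apply h.nsol
  rw [Group.isSolvable_iff_subgroup_quotient A]
  refine ⟨hs, ?_⟩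
  haveI := solv_zpowers x
  refine Group.isSolvable_of_surjective
    (f := (QuotientGroup.mk' A).comp (zpowers x).subtype) fun y => ?_
  obtain ⟨y, rfl⟩ := QuotientGroup.mk'_surjective A y
  have hy : y ∈ A ⊔ zpowers x := h.sup A hn h0 ▸ mem_top y
  obtain ⟨a, ha, b, hb, rfl⟩ := (mem_sup_left_norm (by rw [e]; exact le_top)).mp hy
  refine ⟨⟨b, hb⟩, ?_⟩
  simp [(QuotientGroup.eq_one_iff a).mpr ha]

theorem Ctx.norm_ne_top_of_isPGroup [Finite G] (h : Ctx p x) (hq : q.Prime) {A : Subgroup G}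
    (h0 : A ≠ ⊥) (hA : IsPGroup q A) : normalizer (A : Set G) ≠ ⊤ :=
  haveI : Fact q.Prime := ⟨hq⟩
  h.norm_ne_top h0 (H4.isSolvable_of_isPGroup hA)

theorem Ctx.cent_ne_top (h : Ctx p x) {e : G} (he : e ≠ 1) :
    centralizer (zpowers e : Set G) ≠ ⊤ := fun h1 =>
  h.norm_ne_top (A := zpowers e) (by simpa using he) (solv_zpowers e)
    (eq_top_iff.mpr (h1 ▸ centralizer_le_normalizer _))

/-- Maximal subgroups containing `x` are primitive. -/
theorem Ctx.eq_of_coatom (h : Ctx p x) {K W : Subgroup G} (hK : IsCoatom K) (hx : x ∈ K)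
    (h0 : W ≠ ⊥) (hWK : W ≤ K) (hn : K ≤ normalizer (W : Set G)) : normalizer (W : Set G) = K := by
  by_contra hne
  have e : normalizer (W : Set G) = ⊤ := hK.2 _ (lt_of_le_of_ne hn (Ne.symm hne))
  have := h.sup W (normalizer_eq_top_iff.mp e) h0
  exact hK.1 (eq_top_iff.mpr (this ▸ sup_le hWK (zpowers_le.mpr hx)))

theorem Ctx.normalizer_coatom (h : Ctx p x) {K : Subgroup G} (hK : IsCoatom K) (hx : x ∈ K) :
    normalizer (K : Set G) = K :=
  h.eq_of_coatom hK hx (fun e => h.ne_one (by rw [e] at hx; exact hx)) le_rfl le_normalizer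

/-! ### `Kp` -/

theorem Kp_le (H : Subgroup G) : Kp p H ≤ H := sSup_le fun _ hK => hK.1

theorem le_Kp {H K : Subgroup G} (h1 : K ≤ H) (h2 : H ≤ normalizer (K : Set G))
    (h3 : PMod p K (FP p H)) : K ≤ Kp p H := le_sSup ⟨h1, h2, h3⟩

theorem Kp_spec [Finite G] (hp : p.Prime) (H : Subgroup G) :
    H ≤ normalizer (Kp p H : Set G) ∧ PMod p (Kp p H) (FP p H) := by
  haveI : Fact p.Prime := ⟨hp⟩
  obtain ⟨B, hB, -, hmax⟩ := exists_max_ge
    (fun K : Subgroup G => K ≤ H ∧ H ≤ normalizer (K : Set G) ∧ PMod p K (FP p H)) (A := ⊥)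
    ⟨bot_le, by rw [normalizer_eq_top]; exact le_top, PMod.of_le bot_le⟩
  have e : Kp p H = B := by
    refine le_antisymm (sSup_le fun K hK => ?_) (le_Kp hB.1 hB.2.1 hB.2.2)
    have := hmax (B ⊔ K) ⟨sup_le hB.1 hK.1, le_norm_sup hB.2.1 hK.2.1,
      hB.2.2.sup hK.2.2 (hB.1.trans (le_norm_sup hK.2.1 (le_norm_FP H)))
        (hB.1.trans (le_norm_FP H)) (hK.1.trans (le_norm_FP H))⟩ le_sup_left
    exact le_sup_right.trans this.le
  rw [e]
  exact hB.2

theorem le_norm_Kp [Finite G] (hp : p.Prime) (H : Subgroup G) :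
    H ≤ normalizer (Kp p H : Set G) := (Kp_spec hp H).1

theorem pMod_Kp [Finite G] (hp : p.Prime) (H : Subgroup G) : PMod p (Kp p H) (FP p H) :=
  (Kp_spec hp H).2

theorem FP_le (H : Subgroup G) : FP p H ≤ H := map_subtype_le _

theorem FP_le_Kp [Finite G] (hp : p.Prime) (H : Subgroup G) : FP p H ≤ Kp p H :=
  haveI : Fact p.Prime := ⟨hp⟩
  le_Kp (FP_le H) (le_norm_FP H) (PMod.of_le le_rfl)

theorem Ctx.mem_Kp [Finite G] (h : Ctx p x) {H : Subgroup G} (hH : H ≠ ⊤) (hx : x ∈ H) :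
    x ∈ Kp p H := by
  haveI : Fact p.Prime := ⟨h.hp⟩
  obtain ⟨A, K, h1, h2, h3, h4, h5, h6, h7, h8⟩ := h.good H hH hx
  have hA : A ≤ FP p H := fun a ha =>
    mem_FP_of_mem_FF (H52.le_map_fitting_subtype (h1.trans h2) h3 h6 ha)
      (coprime_orderOf_of_mem h7 ha)
  exact le_Kp h2 h4 (PMod.mono h8 le_rfl hA) h5

theorem mem_FP_of_mem_Kp [Finite G] (hp : p.Prime) {H : Subgroup G} {g : G} (hg : g ∈ Kp p H)
    (hc : (orderOf g).Coprime p) : g ∈ FP p H := by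
  obtain ⟨k, hk⟩ := pMod_Kp hp H g hg
  exact mem_of_ppow_mem hk hc

theorem le_pCoreOf_of_le_Kp [Finite G] (hp : p.Prime) (hq : q.Prime) (hqp : q ≠ p)
    {H A : Subgroup G} (hA : IsPGroup q A) (hK : A ≤ Kp p H) : A ≤ pCoreOf q H := by
  haveI : Fact p.Prime := ⟨hp⟩
  haveI : Fact q.Prime := ⟨hq⟩
  refine le_pCoreOf_of_le_FF (fun a ha => FP_le_FF p H (mem_FP_of_mem_Kp hp (hK ha) ?_)) hA
  exact coprime_orderOf_of_mem (coprime_card_of_isPGroup_ne hqp.symm hA) ha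

theorem mem_pCoreOf_of_mem_Kp [Finite G] (hp : p.Prime) (hq : q.Prime) (hqp : q ≠ p)
    {H : Subgroup G} {g : G} (hg : g ∈ Kp p H) {k : ℕ} (hk : g ^ q ^ k = 1) : g ∈ pCoreOf q H :=
  le_pCoreOf_of_le_Kp hp hq hqp (isPGroup_zpowers hk) (zpowers_le.mpr hg) (mem_zpowers g)

/-- (B1) -/
theorem comm_le_pCoreOf [Finite G] (hp : p.Prime) (hq : q.Prime) (hqp : q ≠ p)
    {H A W : Subgroup G} (hA : IsPGroup q A) (hAH : A ≤ H) (hW : W ≤ Kp p H)
    (hn : W ≤ normalizer (A : Set G)) : ⁅A, W⁆ ≤ pCoreOf q H :=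
  le_pCoreOf_of_le_Kp hp hq hqp (hA.to_le (comm_le_left hn))
    ((commutator_mono le_rfl hW).trans (comm_le_right (hAH.trans (le_norm_Kp hp H))))

/-- (B1) for `p'`-subgroups. -/
theorem comm_le_FP [Finite G] (hp : p.Prime)
    {H A W : Subgroup G} (hA : (Nat.card A).Coprime p) (hAH : A ≤ H) (hW : W ≤ Kp p H)
    (hn : W ≤ normalizer (A : Set G)) : ⁅A, W⁆ ≤ FP p H := fun _ ha =>
  mem_FP_of_mem_Kp hp
    ((commutator_mono le_rfl hW).trans (comm_le_right (hAH.trans (le_norm_Kp hp H))) ha)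
    (coprime_orderOf_of_mem hA (comm_le_left hn ha))

theorem comm_pCoreOf_ne [Finite G] {r : ℕ} (hq : q.Prime) (hr : r.Prime) (hqr : q ≠ r)
    (H : Subgroup G) : pCoreOf q H ≤ centralizer (pCoreOf r H : Set G) := by
  haveI : Fact q.Prime := ⟨hq⟩
  haveI : Fact r.Prime := ⟨hr⟩
  rw [← commutator_eq_bot_iff_le_centralizer, eq_bot_iff, ← commutator_pCoreOf_FP (p := q) H]
  exact commutator_mono le_rfl (pCoreOf_le_FP hqr H)

/-! ### `Sig`, `Mx`, `KK` -/

theorem Sig.cj {V : Subgroup G} (h : Sig q x V) (g : G) : Sig q (g * x * g⁻¹) (cj g V) :=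
  ⟨isPGroup_cj h.1 g, mem_norm_cj h.2.1, by rw [← cj_zpowers, ← cj_comm, h.2.2]⟩

theorem conj_inv_conj (g x : G) : g⁻¹ * (g * x * g⁻¹) * g⁻¹⁻¹ = x := by group

theorem Mx.cj {X : Subgroup G} (h : Mx q x X) (g : G) : Mx q (g * x * g⁻¹) (cj g X) := by
  refine ⟨h.1.cj g, fun e => h.2.1 (cj_eq_bot_iff.mp e), fun V hV hle => ?_⟩
  have h1 := hV.cj g⁻¹
  rw [conj_inv_conj] at h1
  rw [← h.2.2 _ h1 (cj_le_iff.mp hle), cj_cj_inv]

theorem KK.cj {K : Subgroup G} (h : KK q x K) (g : G) : KK q (g * x * g⁻¹) (cj g K) := by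
  obtain ⟨h1, X, h2, h3⟩ := h
  exact ⟨isCoatom_cj h1 g, _, h2.cj g, by rw [← cj_normalizer]; exact cj_mono g h3⟩

theorem KA.cj {K : Subgroup G} (h : KA p x K) (g : G) : KA p (g * x * g⁻¹) (cj g K) := by
  obtain ⟨q, h1, h2, h3⟩ := h
  exact ⟨q, h1, h2, h3.cj g⟩

theorem KK_cj_iff {K : Subgroup G} {g : G} : KK q (g * x * g⁻¹) K ↔ KK q x (cj g⁻¹ K) := by
  refine ⟨fun h => ?_, fun h => ?_⟩
  · have := h.cj g⁻¹
    rwa [conj_inv_conj] at this
  · have := h.cj g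
    rwa [cj_cj_inv] at this

theorem KA_cj_iff {K : Subgroup G} {g : G} : KA p (g * x * g⁻¹) K ↔ KA p x (cj g⁻¹ K) := by
  simp only [KA, KK_cj_iff]

theorem Eqv.refl (x : G) : Eqv p x x := fun _ _ _ _ => Iff.rfl

theorem Eqv.symm {c : G} (h : Eqv p x c) : Eqv p c x := fun q K h1 h2 => (h q K h1 h2).symm

theorem Eqv.trans {c e : G} (h : Eqv p x c) (h' : Eqv p c e) : Eqv p x e :=
  fun q K h1 h2 => (h q K h1 h2).trans (h' q K h1 h2)

theorem Eqv.cj {c : G} (h : Eqv p x c) (g : G) : Eqv p (g * x * g⁻¹) (g * c * g⁻¹) :=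
  fun q K h1 h2 => by rw [KK_cj_iff, KK_cj_iff]; exact h q _ h1 h2

theorem Eqv.ka {c : G} (h : Eqv p x c) {K : Subgroup G} (hK : KA p x K) : KA p c K := by
  obtain ⟨q, h1, h2, h3⟩ := hK
  exact ⟨q, h1, h2, (h q K h1 h2).mp h3⟩

/-- The stabilizer of the class of `x` under `Eqv`. -/
def YY (p : ℕ) (x : G) : Subgroup G where
  carrier := {g | Eqv p x (g * x * g⁻¹)}
  one_mem' := by simpa using Eqv.refl x
  mul_mem' := fun {a b} ha hb => by
    have := ha.trans (hb.cj a)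
    simpa [mul_assoc] using this
  inv_mem' := fun {a} ha => by
    have := (Eqv.cj ha a⁻¹).symm
    rwa [conj_inv_conj] at this

theorem mem_YY {g : G} : g ∈ YY p x ↔ Eqv p x (g * x * g⁻¹) := Iff.rfl

theorem KK.mem {K : Subgroup G} (h : KK q x K) : x ∈ K := by
  obtain ⟨-, X, h2, h3⟩ := h
  exact h3 h2.1.2.1

theorem KA.mem {K : Subgroup G} (h : KA p x K) : x ∈ K := by
  obtain ⟨q, -, -, h3⟩ := h
  exact h3.mem

theorem KA.coatom {K : Subgroup G} (h : KA p x K) : IsCoatom K := by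
  obtain ⟨q, -, -, h3⟩ := h
  exact h3.1

theorem Sig.le_norm {V : Subgroup G} (h : Sig q x V) : zpowers x ≤ normalizer (V : Set G) :=
  zpowers_le.mpr h.2.1

theorem Sig.sup {V W : Subgroup G} (hV : Sig q x V) (hW : Sig q x W)
    (h : IsPGroup q (V ⊔ W : Subgroup G)) : Sig q x (V ⊔ W) := by
  have hn := le_norm_sup hV.le_norm hW.le_norm
  refine ⟨h, zpowers_le.mp hn, le_antisymm (comm_le_left hn) (sup_le ?_ ?_)⟩
  · exact hV.2.2.ge.trans (commutator_mono le_sup_left le_rfl)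
  · exact hW.2.2.ge.trans (commutator_mono le_sup_right le_rfl)

theorem sig_bot : Sig q x (⊥ : Subgroup G) :=
  ⟨IsPGroup.of_bot, by rw [normalizer_eq_top]; trivial, commutator_bot_left _⟩

section finite
variable [Finite G]

theorem Ctx.sig_comm (h : Ctx p x) (hq : q.Prime) (hqp : q ≠ p) {A : Subgroup G}
    (hA : IsPGroup q A) (hx : x ∈ normalizer (A : Set G)) : Sig q x ⁅A, zpowers x⁆ := by
  have hn := zpowers_le.mpr hx
  exact ⟨hA.to_le (comm_le_left hn), zpowers_le.mp (le_norm_comm hn le_normalizer),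
    H4.commutator_commutator_eq hn (h.coprime (h.cop hq hqp hA)) (Or.inl (solv_zpowers x))⟩

theorem Ctx.sig_core (h : Ctx p x) (hq : q.Prime) (hqp : q ≠ p) {H : Subgroup G} (hx : x ∈ H) :
    Sig q x ⁅pCoreOf q H, zpowers x⁆ :=
  h.sig_comm hq hqp (pCoreOf_isPGroup H) (le_norm_pCoreOf H hx)

theorem Ctx.comm_le (h : Ctx p x) (hq : q.Prime) (hqp : q ≠ p) {A H : Subgroup G}
    (hA : IsPGroup q A) (hx : x ∈ normalizer (A : Set G)) (hAH : A ≤ H) (hH : H ≠ ⊤)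
    (hxH : x ∈ H) : ⁅A, zpowers x⁆ ≤ pCoreOf q H :=
  comm_le_pCoreOf h.hp hq hqp hA hAH (zpowers_le.mpr (h.mem_Kp hH hxH)) (zpowers_le.mpr hx)

theorem Ctx.sig_le_core (h : Ctx p x) (hq : q.Prime) (hqp : q ≠ p) {V H : Subgroup G}
    (hV : Sig q x V) (hVH : V ≤ H) (hH : H ≠ ⊤) (hxH : x ∈ H) : V ≤ pCoreOf q H :=
  hV.2.2.ge.trans (h.comm_le hq hqp hV.1 hV.2.1 hVH hH hxH)

theorem Ctx.sig_le (h : Ctx p x) (hq : q.Prime) (hqp : q ≠ p) {V H : Subgroup G}
    (hV : Sig q x V) (hVH : V ≤ H) (hH : H ≠ ⊤) (hxH : x ∈ H) :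
    V ≤ ⁅pCoreOf q H, zpowers x⁆ :=
  hV.2.2.ge.trans (commutator_mono (h.sig_le_core hq hqp hV hVH hH hxH) le_rfl)

/-- `A = [A, x] C_A(x)`. -/
theorem Ctx.le_of_comm_le (h : Ctx p x) {A K : Subgroup G} (hA : (Nat.card A).Coprime p)
    (hx : x ∈ normalizer (A : Set G)) (h1 : ⁅A, zpowers x⁆ ≤ K)
    (h2 : A ⊓ centralizer (zpowers x : Set G) ≤ K) : A ≤ K := by
  rw [← H4.commutator_sup_centralizer (zpowers_le.mpr hx) (h.coprime hA) (Or.inl (solv_zpowers x))]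
  exact sup_le h1 h2

/-- (G2), for two elements of a proper subgroup. -/
theorem Ctx.g2' {c : G} (h : Ctx p x) (hc : Ctx p c) (hJ : closure ({x, c} : Set G) ≠ ⊤) :
    ∃ d ∈ FP p (closure ({x, c} : Set G)), IsPGroup p (closure ({x, d * c * d⁻¹} : Set G)) := by
  haveI : Fact p.Prime := ⟨h.hp⟩
  set J := closure ({x, c} : Set G) with hJd
  have hK : J ≤ Kp p J :=
    pair_le (h.mem_Kp hJ (mem_pair_left _ _)) (hc.mem_Kp hJ (mem_pair_right _ _))
  obtain ⟨S, hS, hxS⟩ := exists_isSylowIn_ge (zpowers_le.mpr (mem_pair_left x c)) h.isPGroup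
  obtain ⟨g, hg, hle⟩ := hS.exists_conj_le (zpowers_le.mpr (mem_pair_right x c)) hc.isPGroup
  have h1 : g ∈ FP p J ⊔ S :=
    hS.le_sup_of_pMod (le_norm_FP J) ((pMod_Kp h.hp J).mono hK le_rfl) hg
  obtain ⟨s, hs, d, hd, rfl⟩ := (mem_sup_left_norm' (hS.le.trans (le_norm_FP J))).mp h1
  refine ⟨d, hd, hS.isPGroup.to_le (pair_le (hxS (mem_zpowers x)) ?_)⟩
  have h2 : s * d * c * (s * d)⁻¹ ∈ S := hle (conj_mem_cj (mem_zpowers c))
  have h3 := mul_mem (mul_mem (inv_mem hs) h2) hs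
  have e : s⁻¹ * (s * d * c * (s * d)⁻¹) * s = d * c * d⁻¹ := by group
  rwa [e] at h3

/-- (G2) -/
theorem Ctx.g2 (h : Ctx p x) (g : G) :
    ∃ d ∈ FP p (closure ({x, g * x * g⁻¹} : Set G)),
      IsPGroup p (closure ({x, d * (g * x * g⁻¹) * d⁻¹} : Set G)) :=
  h.g2' (h.conj g) (h.two' g)

/-- If `d x d⁻¹ ∈ H ∋ x` with `d` in an `x`-invariant `p'`-group `A`, then `d` can be taken in
`A ∩ H`. -/
theorem Ctx.exists_conj_mem (h : Ctx p x) {A H : Subgroup G} (hA : (Nat.card A).Coprime p)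
    (hx : x ∈ normalizer (A : Set G)) {d : G} (hd : d ∈ A) (hxH : x ∈ H)
    (hdH : d * x * d⁻¹ ∈ H) : ∃ m ∈ A ⊓ H, m * x * m⁻¹ = d * x * d⁻¹ := by
  have hn : zpowers x ≤ normalizer ((A ⊓ H : Subgroup G) : Set G) :=
    le_norm_inf (zpowers_le.mpr hx) (le_norm_of_le (zpowers_le.mpr hxH))
  obtain ⟨n, hn1, hn2⟩ := H4.exists_centralizer_of_fixed_mod (k := d) hn
    (H4.coprime_of_le_right (h.coprime hA) inf_le_left) (Or.inl (solv_zpowers x)) fun a ha => by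
      refine ⟨?_, ?_⟩
      · exact A.mul_mem (conj_mem (zpowers_le.mpr hx) ha hd) (A.inv_mem hd)
      · have h1 : d * a⁻¹ * d⁻¹ ∈ H := by
          have : d * a⁻¹ * d⁻¹ ∈ cj d (zpowers x) := conj_mem_cj (inv_mem ha)
          rw [cj_zpowers] at this
          exact zpowers_le.mpr hdH this
        have := mul_mem (zpowers_le.mpr hxH ha) h1
        simpa [commutatorElement_def, mul_assoc] using this
  refine ⟨n⁻¹, inv_mem hn1, ?_⟩
  have e := mem_cent_zpowers.mp hn2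
  conv_lhs => rw [← e]
  group

/-- (T1) -/
theorem Ctx.t1 (h : Ctx p x) {A : Subgroup G} (hA : (Nat.card A).Coprime p)
    (hx : x ∈ normalizer (A : Set G)) {d n : G} (hd : d ∈ A)
    (hn : n ∈ centralizer (zpowers x : Set G)) :
    ∃ H : Subgroup G, H ≠ ⊤ ∧ x ∈ H ∧ n ∈ H ∧ d * x * d⁻¹ ∈ H := by
  obtain ⟨m, hm, e⟩ := h.exists_conj_mem hA hx hd (mem_pair_left x (d * x * d⁻¹))
    (mem_pair_right _ _)
  have h1 : d * x * d⁻¹ ∈ closure ({x, m * n} : Set G) := by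
    have := mul_mem (mul_mem (mem_pair_right x (m * n)) (mem_pair_left x (m * n)))
      (inv_mem (mem_pair_right x (m * n)))
    have e2 : m * n * x * (m * n)⁻¹ = m * (n * x * n⁻¹) * m⁻¹ := by group
    rwa [e2, mem_cent_zpowers.mp hn, e] at this
  refine ⟨_, h.two (m * n), mem_pair_left _ _, ?_, h1⟩
  have h2 : m ∈ closure ({x, m * n} : Set G) := pair_le (mem_pair_left _ _) h1 hm.2
  simpa using mul_mem (inv_mem h2) (mem_pair_right x (m * n))

theorem exists_mx {V : Subgroup G} (hV : Sig q x V) (h0 : V ≠ ⊥) : ∃ X, Mx q x X ∧ V ≤ X := by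
  obtain ⟨X, h1, h2, h3⟩ := exists_max_ge (Sig q x) hV
  exact ⟨X, ⟨h1, ne_bot_of_le_ne_bot h0 h2, h3⟩, h2⟩

theorem Ctx.exists_kk (h : Ctx p x) (hq : q.Prime) {X : Subgroup G} (hX : Mx q x X) :
    ∃ K, IsCoatom K ∧ normalizer (X : Set G) ≤ K :=
  exists_coatom (h.norm_ne_top_of_isPGroup hq hX.2.1 hX.1.1)

theorem Ctx.exists_mx (h : Ctx p x) (hq : q.Prime) {V : Subgroup G} (hV : Sig q x V)
    (h0 : V ≠ ⊥) : ∃ X K, Mx q x X ∧ V ≤ X ∧ IsCoatom K ∧ normalizer (X : Set G) ≤ K := by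
  obtain ⟨X, h1, h2⟩ := F2.exists_mx hV h0
  obtain ⟨K, h3, h4⟩ := h.exists_kk hq h1
  exact ⟨X, K, h1, h2, h3, h4⟩

/-! ### Consequences of (U) -/

theorem Ctx.le_mx (hU : UStmt.{u}) (h : Ctx p x) (hq : q.Prime) (hqp : q ≠ p) {X V : Subgroup G}
    (hX : Mx q x X) (hV : Sig q x V) (h0 : X ⊓ V ≠ ⊥) : V ≤ X :=
  le_sup_right.trans
    (hX.2.2 _ (hX.1.sup hV (hU G p x h q hq hqp X V hX.1 hV h0)) le_sup_left).le

theorem Ctx.mx_eq (hU : UStmt.{u}) (h : Ctx p x) (hq : q.Prime) (hqp : q ≠ p) {X X' : Subgroup G}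
    (hX : Mx q x X) (hX' : Mx q x X') (h0 : X ⊓ X' ≠ ⊥) : X = X' :=
  le_antisymm (h.le_mx hU hq hqp hX' hX.1 (by rwa [inf_comm])) (h.le_mx hU hq hqp hX hX'.1 h0)

/-- If a proper `H ∋ x` contains a nontrivial member of `Sig` inside `X`, then
`[O_q(H), x] ≤ X`. -/
theorem Ctx.core_le_mx (hU : UStmt.{u}) (h : Ctx p x) (hq : q.Prime) (hqp : q ≠ p)
    {X V H : Subgroup G} (hX : Mx q x X) (hV : Sig q x V) (h0 : V ≠ ⊥) (hVX : V ≤ X)
    (hVH : V ≤ H) (hH : H ≠ ⊤) (hx : x ∈ H) : ⁅pCoreOf q H, zpowers x⁆ ≤ X :=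
  h.le_mx hU hq hqp hX (h.sig_core hq hqp hx)
    (ne_bot_of_le_ne_bot h0 (le_inf hVX (h.sig_le hq hqp hV hVH hH hx)))

/-- (NX) -/
theorem Ctx.nx (hU : UStmt.{u}) (h : Ctx p x) (hq : q.Prime) (hqp : q ≠ p) {X : Subgroup G}
    (hX : Mx q x X) : centralizer (zpowers x : Set G) ≤ normalizer (X : Set G) := by
  intro n hn
  have hcop := h.cop hq hqp hX.1.1
  obtain ⟨d, hd, hdx⟩ : ∃ d ∈ X, d * x * d⁻¹ ≠ x := by
    by_contra hcon
    push Not at hcon
    apply hX.2.1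
    rw [← hX.1.2.2, commutator_eq_bot_iff_le_centralizer]
    exact fun d hd => mem_cent_zpowers.mpr (hcon d hd)
  obtain ⟨H, hH, hxH, hnH, hdH⟩ := h.t1 hcop hX.1.2.1 hd hn
  obtain ⟨m, hm, e⟩ := h.exists_conj_mem hcop hX.1.2.1 hd hxH hdH
  have hxn : x ∈ normalizer ((X ⊓ H : Subgroup G) : Set G) :=
    zpowers_le.mp (le_norm_inf hX.1.le_norm (le_norm_of_le (zpowers_le.mpr hxH)))
  have hV := h.sig_comm hq hqp (hX.1.1.to_inf_left (K := H)) hxn
  have hle := comm_le_left (zpowers_le.mpr hxn)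
  have h0 : ⁅X ⊓ H, zpowers x⁆ ≠ ⊥ := fun h0 => by
    rw [commutator_eq_bot_iff_le_centralizer] at h0
    exact hdx (e ▸ mem_cent_zpowers.mp (h0 hm))
  have hW := h.core_le_mx hU hq hqp hX hV h0 (hle.trans inf_le_left) (hle.trans inf_le_right) hH hxH
  have hW0 : ⁅pCoreOf q H, zpowers x⁆ ≠ ⊥ :=
    ne_bot_of_le_ne_bot h0 (h.sig_le hq hqp hV (hle.trans inf_le_right) hH hxH)
  have hnW : n ∈ normalizer ((⁅pCoreOf q H, zpowers x⁆ : Subgroup G) : Set G) :=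
    zpowers_le.mp (le_norm_comm (zpowers_le.mpr (le_norm_pCoreOf H hnH))
      (zpowers_le.mpr (centralizer_le_normalizer _ hn)))
  have hX' := hX.cj n
  rw [mem_cent_zpowers.mp hn] at hX'
  refine cj_eq_self_iff.mp (h.mx_eq hU hq hqp hX' hX (ne_bot_of_le_ne_bot hW0 (le_inf ?_ hW)))
  exact (cj_eq_self hnW).ge.trans (cj_mono n hW)

end finite

theorem eqns3 : True := by
  have := @YY.eq_1.{0}
  trivial

end Cfsg.Agent.H30.F2
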