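import Cfsg.Agent.H30.F2Defs
import Cfsg.Agent.H7.Bender2

/-!
Statement S3817: the notions used inside the core argument and the pieces it is split into.
-/

set_option autoImplicit false

namespace Cfsg.Agent.H30.F2

open Subgroup Cfsg Cfsg.Agent.H83 Cfsg.Agent.H7

universe u

/-- The hypotheses of `CoreStmt`. -/
structure Ctx {G : Type u} [Group G] (p : ℕ) (x : G) : Prop where
  hp : p.Prime
  ord : orderOf x = p
  sup : ∀ N : Subgroup G, N.Normal → N ≠ ⊥ → N ⊔ zpowers x = ⊤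
  ncl : normalClosure ({x} : Set G) = ⊤
  nsol : ¬ Group.IsSolvable G
  good : ∀ H : Subgroup G, H ≠ ⊤ → x ∈ H → Good p x H
  two : ∀ y : G, closure ({x, y} : Set G) ≠ ⊤

section defs
variable {G : Type u} [Group G]

/-- The preimage of `O_p(H / O_{p'}(F(H)))`. -/
def Kp (p : ℕ) (H : Subgroup G) : Subgroup G :=
  sSup {K : Subgroup G | K ≤ H ∧ H ≤ normalizer (K : Set G) ∧ PMod p K (FP p H)}

/-- `V` is a `q`-group with `V = [V, x]`. -/
def Sig (q : ℕ) (x : G) (V : Subgroup G) : Prop :=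
  IsPGroup q V ∧ x ∈ normalizer (V : Set G) ∧ ⁅V, zpowers x⁆ = V

/-- A nontrivial maximal member of `Sig q x`. -/
def Mx (q : ℕ) (x : G) (X : Subgroup G) : Prop :=
  Sig q x X ∧ X ≠ ⊥ ∧ ∀ V : Subgroup G, Sig q x V → X ≤ V → V = X

/-- A maximal subgroup containing the normalizer of a member of `Mx q x`. -/
def KK (q : ℕ) (x : G) (K : Subgroup G) : Prop :=
  IsCoatom K ∧ ∃ X : Subgroup G, Mx q x X ∧ normalizer (X : Set G) ≤ K

/-- The lines through `x`. -/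
def KA (p : ℕ) (x : G) (K : Subgroup G) : Prop := ∃ q : ℕ, q.Prime ∧ q ≠ p ∧ KK q x K

/-- `x` and `c` have the same lines, prime by prime. -/
def Eqv (p : ℕ) (x c : G) : Prop :=
  ∀ (q : ℕ) (K : Subgroup G), q.Prime → q ≠ p → (KK q x K ↔ KK q c K)

end defs

/-- (U): two members of `Sig q x` that meet nontrivially generate a `q`-group. -/
def UStmt : Prop := ∀ (G : Type u) [Group G] [Finite G] (p : ℕ) (x : G), Ctx p x →
  ∀ q : ℕ, q.Prime → q ≠ p → ∀ V W : Subgroup G, Sig q x V → Sig q x W → V ⊓ W ≠ ⊥ →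
    IsPGroup q (V ⊔ W : Subgroup G)

/-- (FN) -/
def FNStmt : Prop := ∀ (G : Type u) [Group G] [Finite G] (p : ℕ) (x : G), Ctx p x →
  ∀ q : ℕ, q.Prime → q ≠ p → ∀ X L : Subgroup G, Mx q x X → L ≠ ⊤ → x ∈ L → X ≤ L →
    X = ⁅pCoreOf q L, zpowers x⁆ ∧ FS L ≤ normalizer (X : Set G)

/-- (PAIR) -/
def PairStmt : Prop := ∀ (G : Type u) [Group G] [Finite G] (p : ℕ) (x c : G), Ctx p x → Ctx p c →
  ∀ q s : ℕ, q.Prime → q ≠ p → s.Prime → s ≠ p → ∀ X X' K L : Subgroup G, Mx q x X → Mx s c X' →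
    IsCoatom K → IsCoatom L → normalizer (X : Set G) ≤ K → normalizer (X' : Set G) ≤ L →
    c ∈ K → x ∈ L → X ≤ L → K = L

/-- (BP): conjugates of `x` generating a `p`-group with `x` have the same lines. -/
def EqvStmt : Prop := ∀ (G : Type u) [Group G] [Finite G] (p : ℕ) (x : G), Ctx p x →
  ∀ g : G, IsPGroup p (closure ({x, g * x * g⁻¹} : Set G)) → Eqv p x (g * x * g⁻¹)

/-- (Z''): the fixed points of `x` in `Z(O_r(K₃))` centralize `X₁`. -/
def ZStmt : Prop := ∀ (G : Type u) [Group G] [Finite G] (p : ℕ) (x : G), Ctx p x →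
  ∀ q r : ℕ, q.Prime → q ≠ p → r.Prime → r ≠ p → q ≠ r → ∀ X₁ X₃ K₃ : Subgroup G,
    Mx q x X₁ → Mx r x X₃ → IsCoatom K₃ → normalizer (X₃ : Set G) ≤ K₃ →
    ctr (pCoreOf r K₃) ⊓ centralizer (zpowers x : Set G) ≤ centralizer (X₁ : Set G)

/-- (C0) -/
def C0Stmt : Prop := ∀ (G : Type u) [Group G] [Finite G] (p : ℕ) (x : G), Ctx p x →
  ∀ q r : ℕ, q.Prime → q ≠ p → r.Prime → r ≠ p → q ≠ r → ∀ V W X K : Subgroup G,
    Sig q x V → Sig r x W → W ≠ ⊥ → V ≤ centralizer (W : Set G) → Mx r x X → W ≤ X →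
    IsCoatom K → normalizer (X : Set G) ≤ K → V ≤ K

/-- (U3): two lines through `x` that share a nontrivial member of `Sig` are equal. -/
def U3Stmt : Prop := ∀ (G : Type u) [Group G] [Finite G] (p : ℕ) (x : G), Ctx p x →
  ∀ K K' : Subgroup G, KA p x K → KA p x K' → ∀ q : ℕ, q.Prime → q ≠ p → ∀ V : Subgroup G,
    Sig q x V → V ≠ ⊥ → V ≤ K → V ≤ K' → K = K'

theorem eqns2 : True := by
  have := @Kp.eq_1.{0}
  have := @Sig.eq_1.{0}
  have := @Mx.eq_1.{0}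
  have := @KK.eq_1.{0}
  have := @KA.eq_1.{0}
  have := @Eqv.eq_1.{0}
  have := @UStmt.eq_1.{0}
  have := @FNStmt.eq_1.{0}
  have := @PairStmt.eq_1.{0}
  have := @EqvStmt.eq_1.{0}
  have := @ZStmt.eq_1.{0}
  have := @C0Stmt.eq_1.{0}
  have := @U3Stmt.eq_1.{0}
  trivial

end Cfsg.Agent.H30.F2
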