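import Cfsg.Agent.H30.FrStep
import Cfsg.Agent.H26.UFrame

/-!
# Overgroups of the monomial group of an orthogonal frame in dimensions five and six: new roots
-/

set_option autoImplicit false

namespace Cfsg.Agent.H30

open QuadraticMap Module

variable {F V : Type*} [Field F] [AddCommGroup V] [Module F V] {Q : QuadraticForm F V}
  {ι : Type*} {b : Basis ι F V} {c : F}

theorem mem_of_nodup_of_card [Fintype ι] {l : List ι} (h : l.Nodup) (hl : l.length = Fintype.card ι)
    (j : ι) : j ∈ l := by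
  classical
  have : l.toFinset = Finset.univ :=
    Finset.eq_univ_of_card _ (by rw [List.toFinset_card_of_nodup h, hl])
  rw [← List.mem_toFinset, this]
  exact Finset.mem_univ _

namespace Frame

variable [Fintype ι] [Fintype F] (hb : Frame Q c b) (hp : (Fintype.card F).Prime) {R : V → Prop}
  (h : RootSet Q c R) (hR : ∀ i, R (b i))
include hb h hR

omit h hR [Fintype F] in
theorem co_refl_sub [DecidableEq ι] (i j : ι) (v : V) (k : ι) :
    co b k ((refl Q (b i - b j)).1 v) = co b (Equiv.swap i j k) v := by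
  have := co_apply_of_perm (b := b) (g := refl Q (b i - b j)) (π := Equiv.swap i j)
    (ε := fun _ => 1) (fun l => by rw [hb.refl_sub_b i j, one_smul]) v (Equiv.swap i j k)
  rwa [Equiv.swap_apply_self, one_mul] at this

omit h hR [Fintype F] in
theorem co_refl_b [DecidableEq ι] (i : ι) (v : V) (k : ι) :
    co b k ((refl Q (b i)).1 v) = if k = i then -co b k v else co b k v := by
  rw [hb.refl_b, map_sub, map_smul, co_b, smul_eq_mul]
  split_ifs with h
  · rw [h]; ring
  · ring

section ND

variable (hnd : ∀ v w, R v → R w → Q (w - v) = 0 → w = v)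
include hnd

omit [Fintype F] in
theorem card_supp_ne_four (h3 : (3 : F) ≠ 0) (h5 : 5 ≤ Fintype.card ι)
    (hsw : ∀ v, R v → ∀ i j k l, i ≠ j → k ≠ l → R ((refl Q (b i - b j) * refl Q (b k - b l)).1 v))
    (h4 : ∀ v, R v → (supp b v).card ≤ 4) {v : V} (hv : R v) : (supp b v).card ≠ 4 := by
  classical
  intro hc
  have h2 := hb.two
  obtain ⟨e, he⟩ : ∃ e, co b e v = 0 := by
    obtain ⟨e, -, he⟩ := Finset.exists_mem_notMem_of_card_lt_card (t := Finset.univ)
      (s := supp b v) (by rw [Finset.card_univ]; omega)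
    exact ⟨e, by simpa [mem_supp] using he⟩
  have key : ∀ i j k l : ι, [i, j, k, l].Nodup → supp b v = {i, j, k, l} →
      2 * (co b k v * co b k v) = 1 ∨ 2 * (co b k v * co b k v) = -1 := by
    intro i j k l hn hs
    have h0 : ∀ m, m ∉ ({i, j, k, l} : Finset ι) → co b m v = 0 := fun m hm => by
      rwa [← hs, mem_supp, not_not] at hm
    have h1 : ∀ m, m ∈ ({i, j, k, l} : Finset ι) → co b m v ≠ 0 := fun m hm => by
      rwa [← hs, mem_supp] at hm
    have hi := h1 i (by simp)
    have hj := h1 j (by simp)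
    have hk := h1 k (by simp)
    have hl := h1 l (by simp)
    have a1 : e ≠ i := fun h => hi (h ▸ he)
    have a2 : e ≠ j := fun h => hj (h ▸ he)
    have a3 : e ≠ k := fun h => hk (h ▸ he)
    have a4 : e ≠ l := fun h => hl (h ▸ he)
    simp only [List.nodup_cons, List.mem_cons, List.not_mem_nil, or_false, not_or,
      List.nodup_nil, and_true, not_false_eq_true] at hn
    obtain ⟨⟨b1, b2, b3⟩, ⟨b4, b5⟩, b6⟩ := hn
    have hw := hsw v hv i j l e b1 a4.symm
    have hw' : ∀ m, co b m ((refl Q (b i - b j) * refl Q (b l - b e)).1 v) =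
        co b (Equiv.swap l e (Equiv.swap i j m)) v := fun m => by
      rw [O_mul_apply, hb.co_refl_sub, hb.co_refl_sub]
    generalize (refl Q (b i - b j) * refl Q (b l - b e)).1 v = w at hw hw'
    have c1 : co b i w = co b j v := by
      rw [hw', Equiv.swap_apply_left, Equiv.swap_apply_of_ne_of_ne b5 a2.symm]
    have c2 : co b j w = co b i v := by
      rw [hw', Equiv.swap_apply_right, Equiv.swap_apply_of_ne_of_ne b3 a1.symm]
    have c3 : co b k w = co b k v := by
      rw [hw', Equiv.swap_apply_of_ne_of_ne (Ne.symm b2) (Ne.symm b4),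
        Equiv.swap_apply_of_ne_of_ne b6 a3.symm]
    have c4 : co b l w = 0 := by
      rw [hw', Equiv.swap_apply_of_ne_of_ne (Ne.symm b3) (Ne.symm b5), Equiv.swap_apply_left, he]
    have c5 : co b e w = co b l v := by
      rw [hw', Equiv.swap_apply_of_ne_of_ne a1 a2, Equiv.swap_apply_right]
    have step : ∀ (w : V) (s : F), R w → co b i w = s * co b j v → co b j w = -(s * co b i v) →
        co b k w = co b k v → co b l w = 0 → co b e w = co b l v →
        2 * (co b k v * co b k v) = 1 ∨ s * co b j v = 2 * (co b k v * co b k v) * co b i v ∨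
          -(s * co b i v) = 2 * (co b k v * co b k v) * co b j v := by
      intro w s hw d1 d2 d3 d4 d5
      have h6 := h.sub (κ := 2 * (co b k v * co b k v)) hv hw (by
        rw [hb.polar_eq, ← Finset.sum_subset (Finset.subset_univ {i, j, k, l})
          fun m _ hm => by rw [h0 m hm, mul_zero], Finset.sum_insert (by simp [b1, b2, b3]),
          Finset.sum_insert (by simp [b4, b5]), Finset.sum_pair b6, d1, d2, d3, d4]
        ring)
      by_contra hcon
      push Not at hcon
      have h7 : ({e, i, j, k, l} : Finset ι) ⊆ supp b (w - (2 * (co b k v * co b k v)) • v) := by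
        intro m hm
        simp only [Finset.mem_insert, Finset.mem_singleton] at hm
        rw [mem_supp, map_sub, map_smul, smul_eq_mul]
        rcases hm with rfl | rfl | rfl | rfl | rfl
        · rwa [d5, he, mul_zero, sub_zero]
        · rw [d1]; exact sub_ne_zero.2 hcon.2.1
        · rw [d2]; exact sub_ne_zero.2 hcon.2.2
        · rw [d3]
          exact fun h8 => mul_ne_zero hk (sub_ne_zero.2 hcon.1) (by linear_combination -h8)
        · rw [d4, zero_sub, neg_ne_zero]
          exact mul_ne_zero (mul_ne_zero h2 (mul_ne_zero hk hk)) hl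
      have h8 := (Finset.card_le_card h7).trans (h4 _ h6)
      rw [Finset.card_insert_of_notMem (by simp [a1, a2, a3, a4]),
        Finset.card_insert_of_notMem (by simp [b1, b2, b3]),
        Finset.card_insert_of_notMem (by simp [b4, b5]), Finset.card_pair b6] at h8
      omega
    have e1 := step _ 1 (h.refl (hR j) hw) (by simp [hb.co_refl_b, b1, c1])
      (by simp [hb.co_refl_b, c2]) (by simp [hb.co_refl_b, Ne.symm b4, c3])
      (by simp [hb.co_refl_b, c4]) (by simp [hb.co_refl_b, a2, c5])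
    have e2 := step _ (-1) (h.refl (hR i) hw) (by simp [hb.co_refl_b, c1])
      (by simp [hb.co_refl_b, Ne.symm b1, c2]) (by simp [hb.co_refl_b, Ne.symm b2, c3])
      (by simp [hb.co_refl_b, c4]) (by simp [hb.co_refl_b, a1, c5])
    generalize 2 * (co b k v * co b k v) = κ at e1 e2 ⊢
    rw [← mul_self_eq_one_iff]
    rcases e1 with e1 | e1 | e1
    · rw [e1, mul_one]
    all_goals rcases e2 with e2 | e2 | e2
    · rw [e2, mul_one]
    · exact absurd (by linear_combination e1 - e2) (mul_ne_zero h2 hj)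
    · exact mul_right_cancel₀ hi (by linear_combination -κ * e1 - e2)
    · rw [e2, mul_one]
    · exact mul_right_cancel₀ hi (by linear_combination -κ * e2 + e1)
    · exact absurd (by linear_combination e2 - e1) (mul_ne_zero h2 hi)
  have key' : ∀ k ∈ supp b v,
      2 * (co b k v * co b k v) = 1 ∨ 2 * (co b k v * co b k v) = -1 := by
    intro k hk
    obtain ⟨i, j, l, h1, h5, h6, h7⟩ := Finset.card_eq_three.1
      (show ((supp b v).erase k).card = 3 by rw [Finset.card_erase_of_mem hk, hc])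
    have h8 : ∀ m ∈ ({i, j, l} : Finset ι), m ≠ k := fun m hm =>
      Finset.ne_of_mem_erase (h7 ▸ hm)
    refine key i j k l (by
      simp [h1, h5, h6, h8 i (by simp), h8 j (by simp), (h8 l (by simp)).symm]) ?_
    rw [← Finset.insert_erase hk, h7]
    ext m
    simp only [Finset.mem_insert, Finset.mem_singleton]
    tauto
  have hsum : ∑ k ∈ supp b v, 2 * (co b k v * co b k v) = 2 := by
    have := (hb.Q_eq v).symm.trans (h.norm hv)
    rw [← Finset.mul_sum, Finset.sum_subset (Finset.subset_univ _) fun m _ hm => by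
      rw [mem_supp, not_not] at hm; rw [hm, mul_zero], mul_left_cancel₀ hb.hc
        (this.trans (mul_one c).symm), mul_one]
  by_cases hA : ∀ k ∈ supp b v, 2 * (co b k v * co b k v) = 1
  · rw [Finset.sum_congr rfl hA, Finset.sum_const, hc] at hsum
    exact h2 (by simp at hsum; linear_combination hsum)
  by_cases hB : ∀ k ∈ supp b v, 2 * (co b k v * co b k v) = -1
  · rw [Finset.sum_congr rfl hB, Finset.sum_const, hc] at hsum
    exact mul_ne_zero h2 h3 (by simp at hsum; linear_combination -hsum)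
  push Not at hA hB
  obtain ⟨k, hk, h6⟩ := hA
  obtain ⟨l, hl, h7⟩ := hB
  have h8 := (key' k hk).resolve_left h6
  have h9 := (key' l hl).resolve_right h7
  have hkl : k ≠ l := by rintro rfl; exact h6 h9
  have h10 : (refl Q (b k)).1 ((refl Q (b l)).1 v) - v =
      (-2 * co b k v) • b k + (-2 * co b l v) • b l := by
    rw [hb.refl_b, hb.refl_b, map_sub, map_smul, co_ne hkl]
    module
  have h11 := hnd _ _ hv (h.refl (hR k) (h.refl (hR l) hv)) (by
    rw [h10, hb.Q_comb hkl]
    linear_combination 2 * c * (h8 + h9))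
  rw [h11, sub_self] at h10
  have := congrArg (co b k) h10
  simp [co_ne hkl, h2, mem_supp.1 hk] at this

include hp in
theorem old_of_nd5 (h7 : 5 ≤ Fintype.card ι)
    (hsw : ∀ v, R v → ∀ i j k l, i ≠ j → k ≠ l → R ((refl Q (b i - b j) * refl Q (b k - b l)).1 v))
    (hperm : ∀ v, R v → ∀ a a', a ≠ a' → co b a v ≠ 0 → co b a' v ≠ 0 → ∀ π : Equiv.Perm ι,
      ∃ w, R w ∧ ∀ i, co b (π i) w ≠ 0 ↔ co b i v ≠ 0) {v : V} (hv : R v) : Old b v := by
  classical
  by_contra hv'
  by_cases h3 : (3 : F) = 0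
  · obtain ⟨i, j, hij, hi, hj, -⟩ := exists_of_not_old hv'
    exact hj (hb.co_eq_zero_of_nd h hR hnd hv hij (mul_self_eq_one_of_three hp h3 hi))
  have h4 : ∀ v, R v → (supp b v).card ≤ 4 := fun v hv => by
    by_contra h4
    obtain ⟨f, hf, h5⟩ := exists_inj_of_card (n := 5) (not_le.1 h4)
    obtain ⟨i, hi⟩ := h.exists_orth_of_five hp hb.two h3 hnd (fun i => b (f i)) (fun i => hR _)
      (fun i j hij => hb.orth _ _ (hf.ne hij)) hv
    rw [hb.polar_b] at hi
    exact mul_ne_zero hb.two_c (mem_supp.1 (h5 i)) hi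
  suffices H : ∀ n, ∃ v, R v ∧ ¬ Old b v ∧ n ≤ (supp b v).card by
    obtain ⟨v, hv, -, h5⟩ := H 5
    have := h4 v hv
    omega
  intro n
  induction n with
  | zero => exact ⟨v, hv, hv', Nat.zero_le _⟩
  | succ n ih =>
    obtain ⟨v, hv, hv', hn⟩ := ih
    obtain ⟨a, a', haa, ha, ha', h5⟩ := exists_of_not_old hv'
    obtain ⟨i, hi, h6⟩ : ∃ i, co b i v ≠ 0 ∧ 2 * (co b i v * co b i v) ≠ 1 := by
      by_contra H
      push Not at H
      obtain ⟨k, hk, hk', h7⟩ := h5 (mul_left_cancel₀ hb.two ((H a ha).trans (H a' ha').symm))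
      have h8 := hb.co_eq_zero_of_nd h hR hnd (h.sub (κ := 2 * co b a v) hv (hR a)
        (by rw [hb.b_polar]; ring)) hk'.symm (by
          simp only [map_sub, map_smul, smul_eq_mul, co_ne haa.symm]
          linear_combination 2 * co b a' v * co b a' v * H a ha + H a' ha')
      simp only [map_sub, map_smul, smul_eq_mul, co_ne hk, zero_sub, neg_eq_zero] at h8
      exact mul_ne_zero (mul_ne_zero hb.two ha) h7 h8
    have h7' : (supp b v).card ≤ 3 := Nat.lt_succ_iff.1 (lt_of_le_of_ne (h4 v hv)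
      (hb.card_supp_ne_four h hR hnd h3 h7 hsw h4 hv))
    have h8 : 1 < (supp b v).card := Finset.one_lt_card.2 ⟨a, mem_supp.2 ha, a', mem_supp.2 ha', haa⟩
    obtain ⟨S, hS, h9⟩ := Finset.exists_subset_card_eq (s := (supp b v)ᶜ)
      (n := (supp b v).card - 1) (by rw [Finset.card_compl]; omega)
    have hS' : ∀ l ∈ S, co b l v = 0 := fun l hl => by
      simpa [mem_supp] using hS hl
    have hiS : i ∉ S := fun h => hi (hS' i h)
    obtain ⟨π, hπ⟩ := Equiv.Perm.exists_map_finset_eq (supp b v) (insert i S)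
      (by rw [Finset.card_insert_of_notMem hiS]; omega)
    obtain ⟨w, hw, h10⟩ := hperm v hv a a' haa ha ha' π
    have h11 : ∀ l, co b l w ≠ 0 ↔ l ∈ insert i S := fun l => by
      obtain ⟨l, rfl⟩ := π.surjective l
      rw [h10, ← hπ, ← mem_supp]
      exact (Finset.mem_map' π.toEmbedding).symm
    have h12 := h.sub (κ := 2 * (co b i w * co b i v)) hv hw (by
      rw [hb.polar_eq, Finset.sum_eq_single i (fun l _ hl => ?_) (by simp)]
      · ring
      · by_cases h13 : l ∈ S
        · rw [hS' l h13, mul_zero]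
        · rw [not_not.1 (mt (h11 l).1 (by simp [hl, h13])), zero_mul])
    have hiw := (h11 i).2 (Finset.mem_insert_self _ _)
    have h13 : supp b v ∪ S ⊆ supp b (w - (2 * (co b i w * co b i v)) • v) := fun l hl => by
      rw [mem_supp, map_sub, map_smul, smul_eq_mul]
      by_cases h14 : l ∈ S
      · rw [hS' l h14, mul_zero, sub_zero]
        exact (h11 l).2 (Finset.mem_insert_of_mem h14)
      by_cases h15 : l = i
      · exact fun h16 => mul_ne_zero hiw (sub_ne_zero.2 h6) (by
          rw [h15] at h16; linear_combination -h16)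
      · rw [not_not.1 (mt (h11 l).1 (by simp [h14, h15])), zero_sub, neg_ne_zero]
        exact mul_ne_zero (mul_ne_zero hb.two (mul_ne_zero hiw hi))
          (mem_supp.1 ((Finset.mem_union.1 hl).resolve_right h14))
    have h14 := Finset.card_le_card h13
    rw [Finset.card_union_of_disjoint (Finset.disjoint_right.2 fun l hl h => mem_supp.1 h
      (hS' l hl))] at h14
    exact ⟨_, h12, fun h => by have := h.card_supp; omega, by omega⟩

end ND

variable {M : Subgroup (O Q)} (hpair : ∀ v w, R v → R w → refl Q v * refl Q w ∈ M)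
  (hst : ∀ g ∈ M, ∀ v, R v → R (g.1 v)) {i : ι} {u : V} (hu : Q u = 0) (hi : co b i u = 0)
  (hiu : R (b i + u))
include hpair hst hi hiu

theorem sub_mem_of_four
    (hsw : ∀ v, R v → ∀ i j k l, i ≠ j → k ≠ l → R ((refl Q (b i - b j) * refl Q (b k - b l)).1 v))
    {k l m o : ι} (hn : [i, k, l, m, o].Nodup) {α β γ δ : F}
    (hu' : u = α • b k + β • b l + γ • b m + δ • b o) :
    β • b k - α • b l ∈ eichSp hp M hu ∧ δ • b m - γ • b o ∈ eichSp hp M hu := by
  classical
  have h2 := hb.two
  have h3 := hb.b_mem_eichSp hp h hR hpair hu hiu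
  simp only [List.nodup_cons, List.mem_cons, List.not_mem_nil, or_false, not_or,
    List.nodup_nil, and_true, not_false_eq_true] at hn
  obtain ⟨⟨a1, a2, a3, a4⟩, ⟨a5, a6, a7⟩, ⟨a8, a9⟩, a10⟩ := hn
  have h4 := hsw _ hiu k l m o a5 a10
  have h5 : (refl Q (b k - b l) * refl Q (b m - b o)).1 (b i + u) =
      b i + β • b k + α • b l + δ • b m + γ • b o := by
    rw [hu', O_mul_apply]
    simp only [map_add, map_smul, hb.refl_sub_b, Equiv.swap_apply_left, Equiv.swap_apply_right,
      Equiv.swap_apply_of_ne_of_ne a1 a2, Equiv.swap_apply_of_ne_of_ne a3 a4,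
      Equiv.swap_apply_of_ne_of_ne a6 a7, Equiv.swap_apply_of_ne_of_ne a8 a9,
      Equiv.swap_apply_of_ne_of_ne (Ne.symm a6) (Ne.symm a8),
      Equiv.swap_apply_of_ne_of_ne (Ne.symm a7) (Ne.symm a9)]
    abel
  rw [h5] at h4
  have key : ∀ s : F, R (b i + (β • b k - α • b l) + s • (δ • b m - γ • b o)) →
      (β • b k - α • b l) + s • (δ • b m - γ • b o) ∈ eichSp hp M hu := fun s hs => by
    have h6 := h.mem_eichSp hpair hst hs (by
      rw [hu']
      simp [polar_add_right, polar_sub_right, polar_smul_right', hb.polar_b, co_ne, *, eq_comm]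
      ring) h3 (by
      simp [hb.b_polar, co_ne, h2, hb.hc, *])
    have := sub_mem h6 h3
    rwa [add_assoc, add_sub_cancel_left] at this
  have e1 := key 1 (by
    convert h.refl (hR l) (h.refl (hR o) h4) using 1
    simp [hb.refl_b, co_ne, *, eq_comm]
    module)
  have e2 := key (-1) (by
    convert h.refl (hR l) (h.refl (hR m) h4) using 1
    simp [hb.refl_b, co_ne, *, eq_comm]
    module)
  constructor
  · refine ((eichSp hp M hu).smul_mem_iff h2).1 ?_
    convert add_mem e1 e2 using 1
    module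
  · refine ((eichSp hp M hu).smul_mem_iff h2).1 ?_
    convert sub_mem e1 e2 using 1
    module

theorem sub_mem_of_five
    (hsw : ∀ v, R v → ∀ i j k l, i ≠ j → k ≠ l → R ((refl Q (b i - b j) * refl Q (b k - b l)).1 v))
    {r k l m o : ι} (hn : [i, r, k, l, m, o].Nodup) {ρ α β γ δ : F} (hρ : ρ ≠ 0) (hγ : γ ≠ 0)
    (hu' : u = ρ • b r + α • b k + β • b l + γ • b m + δ • b o) :
    β • b k - α • b l ∈ eichSp hp M hu := by
  classical
  have h2 := hb.two
  have h3 := hb.b_mem_eichSp hp h hR hpair hu hiu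
  simp only [List.nodup_cons, List.mem_cons, List.not_mem_nil, or_false, not_or,
    List.nodup_nil, and_true, not_false_eq_true] at hn
  obtain ⟨⟨a0, a1, a2, a3, a4⟩, ⟨b1, b2, b3, b4⟩, ⟨a5, a6, a7⟩, ⟨a8, a9⟩, a10⟩ := hn
  have h4 : ∀ t : F, R ((t * ρ) • b i + b r + t • (β • b k + α • b l) + t • (γ • b m + δ • b o)) :=
    fun t => by
      convert hsw _ (h.line hp (hR i) hiu hu t) i r k l a0 a5 using 1
      rw [hu', O_mul_apply]
      simp only [map_add, map_smul, hb.refl_sub_b, Equiv.swap_apply_left, Equiv.swap_apply_right,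
        Equiv.swap_apply_of_ne_of_ne a1 a2, Equiv.swap_apply_of_ne_of_ne b1 b2,
        Equiv.swap_apply_of_ne_of_ne (Ne.symm a1) (Ne.symm b1),
        Equiv.swap_apply_of_ne_of_ne (Ne.symm a2) (Ne.symm b2),
        Equiv.swap_apply_of_ne_of_ne (Ne.symm a3) (Ne.symm b3),
        Equiv.swap_apply_of_ne_of_ne (Ne.symm a4) (Ne.symm b4),
        Equiv.swap_apply_of_ne_of_ne (Ne.symm a6) (Ne.symm a8),
        Equiv.swap_apply_of_ne_of_ne (Ne.symm a7) (Ne.symm a9)]
      module
  obtain ⟨t, s, ht, hs, h5⟩ : ∃ t s : F, ρ + t * (γ * γ + s * (δ * δ)) = 0 ∧ (s = 1 ∨ s = -1) ∧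
      t ≠ 0 := by
    by_cases h5 : γ * γ + δ * δ = 0
    · have h6 : γ * γ + -1 * (δ * δ) ≠ 0 := fun h6 =>
        mul_ne_zero h2 (mul_ne_zero hγ hγ) (by linear_combination h5 + h6)
      exact ⟨-ρ / (γ * γ + -1 * (δ * δ)), -1, by rw [div_mul_cancel₀ _ h6]; ring, Or.inr rfl,
        div_ne_zero (neg_ne_zero.2 hρ) h6⟩
    · exact ⟨-ρ / (γ * γ + δ * δ), 1, by rw [one_mul, div_mul_cancel₀ _ h5]; ring, Or.inl rfl,
        div_ne_zero (neg_ne_zero.2 hρ) h5⟩
  have h6 : R ((t * ρ) • b i + b r + t • (β • b k + α • b l) + t • (γ • b m + (s * δ) • b o)) := by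
    rcases hs with rfl | rfl
    · simpa using h4 t
    · convert h.refl (hR o) (h4 t) using 1
      simp [hb.refl_b, co_ne, *, eq_comm]
      module
  have key : ∀ e : F, R ((t * ρ) • b i + b r + (e * t) • (β • b k - α • b l) +
      t • (γ • b m + (s * δ) • b o)) → (t * ρ) • b i + b r + (e * t) • (β • b k - α • b l) +
      t • (γ • b m + (s * δ) • b o) ∈ eichSp hp M hu := fun e he =>
    h.mem_eichSp hpair hst he (by
      rw [hu']
      simp only [polar_add_right, polar_sub_right, polar_smul_right', hb.polar_b, map_add, map_smul,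
        co_b]
      simp [*, eq_comm]
      linear_combination (-2) * c * ht) h3 (by
      simp [hb.b_polar, co_ne, h2, hb.hc, *])
  have e1 := key 1 (by
    convert h.refl (hR l) h6 using 1
    simp [hb.refl_b, co_ne, *, eq_comm]
    module)
  have e2 := key (-1) (by
    convert h.refl (hR k) h6 using 1
    simp [hb.refl_b, co_ne, *, eq_comm]
    module)
  refine ((eichSp hp M hu).smul_mem_iff (mul_ne_zero h2 h5)).1 ?_
  convert sub_mem e1 e2 using 1
  module

include hp hu in
theorem eichGroup_le_of_pair56 (hQ : (polarBilin Q).Nondegenerate)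
    (h56 : Fintype.card ι = 5 ∨ Fintype.card ι = 6) (hu0 : u ≠ 0)
    (hconn : ∀ W : Submodule F V, (∀ a, R a → a ∈ W ∨ a ∈ perp Q W) → W = ⊥ ∨ W = ⊤)
    (hsw : ∀ v, R v → ∀ i j k l, i ≠ j → k ≠ l → R ((refl Q (b i - b j) * refl Q (b k - b l)).1 v)) :
    eichGroup Q ≤ M := by
  classical
  have h2 := hb.two
  have h3 := hb.b_mem_eichSp hp h hR hpair hu hiu
  let s : ι → F := fun k => co b k u * co b k u
  let P : ι → ι → Prop := fun k l => co b l u • b k - co b k u • b l ∈ eichSp hp M hu
  have fin : ∀ k l m o, [i, k, l, m, o].Nodup → P k l → P m o →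
      s k + s l ≠ 0 → s m + s o ≠ 0 → eichGroup Q ≤ M := fun k l m o hn h5 h6 h8 h9 => by
    simp only [List.nodup_cons, List.mem_cons, List.not_mem_nil, or_false, not_or,
      List.nodup_nil, and_true, not_false_eq_true] at hn
    obtain ⟨⟨a1, a2, a3, a4⟩, ⟨a5, a6, a7⟩, ⟨a8, a9⟩, a10⟩ := hn
    have hQ' : ∀ k l, k ≠ l → s k + s l ≠ 0 →
        Q (co b l u • b k - co b k u • b l) ≠ 0 := fun k l hkl h => by
      rw [sub_eq_add_neg, ← neg_smul, hb.Q_comb hkl, neg_mul_neg, add_comm]
      exact mul_ne_zero hb.hc h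
    refine h.eichGroup_le hpair hst hQ hb.two hu0 hconn (hR i) h3 h5 h6 (hQ' k l a5 h8)
      (hQ' m o a10 h9) ?_ ?_ ?_ <;>
    simp only [polar_sub_left, polar_sub_right, polar_smul_left', polar_smul_right',
      hb.orth _ _ a1, hb.orth _ _ a2, hb.orth _ _ a3, hb.orth _ _ a4, hb.orth _ _ a6,
      hb.orth _ _ a7, hb.orth _ _ a8, hb.orth _ _ a9, mul_zero, sub_zero]
  have h6 : ∀ k l m, s k ≠ 0 → s k + s l ≠ 0 ∨ s k + s m ≠ 0 ∨ s l + s m ≠ 0 := fun k l m hk => by
    by_contra H
    push Not at H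
    exact mul_ne_zero hb.two hk (by linear_combination H.1 + H.2.1 - H.2.2)
  have four : ∀ k l m o, [i, k, l, m, o].Nodup → (∀ j, j ∉ [k, l, m, o] → co b j u = 0) →
      co b k u ≠ 0 → eichGroup Q ≤ M := by
    intro k l m o hn h0 hk
    have hn' := hn
    simp only [List.nodup_cons, List.mem_cons, List.not_mem_nil, or_false, not_or,
      List.nodup_nil, and_true, not_false_eq_true] at hn'
    obtain ⟨⟨a1, a2, a3, a4⟩, ⟨a5, a6, a7⟩, ⟨a8, a9⟩, a10⟩ := hn'
    have hu' : u = co b k u • b k + co b l u • b l + co b m u • b m + co b o u • b o :=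
      ext_co (b := b) fun j => by
        by_cases hj : j ∈ [k, l, m, o]
        · simp only [List.mem_cons, List.not_mem_nil, or_false] at hj
          rcases hj with rfl | rfl | rfl | rfl <;> simp [co_b] <;> grind
        · rw [h0 j hj]
          simp only [List.mem_cons, List.not_mem_nil, or_false, not_or] at hj
          simp [co_ne, hj]
    have hs : s k + s l + s m + s o = 0 := by
      have h7 := hu
      rw [hu'] at h7
      simp only [Q_add, Q_smul, hb.norm, polar_add_left, polar_smul_left', polar_smul_right',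
        hb.orth _ _ a5, hb.orth _ _ a6, hb.orth _ _ a7, hb.orth _ _ a8, hb.orth _ _ a9,
        hb.orth _ _ a10] at h7
      exact mul_left_cancel₀ hb.hc (by simp only [s]; linear_combination h7)
    have key : ∀ k l m o, [i, k, l, m, o].Nodup →
        u = co b k u • b k + co b l u • b l + co b m u • b m + co b o u • b o →
        s k + s l ≠ 0 → s k + s l + s m + s o = 0 → eichGroup Q ≤ M := fun k l m o hn hu' h7 h8 =>
      have := hb.sub_mem_of_four hp h hR hpair hst hu hi hiu hsw hn hu'
      fin k l m o hn this.1 this.2 h7 fun h9 => h7 (by linear_combination h8 - h9)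
    rcases h6 k l m (mul_self_ne_zero.2 hk) with h7 | h7 | h7
    · exact key k l m o hn hu' h7 hs
    · exact key k m l o (by simp; grind) (hu'.trans (by abel)) h7 (by linear_combination hs)
    · exact key l m k o (by simp; grind) (hu'.trans (by abel)) h7 (by linear_combination hs)
  obtain ⟨k, hk⟩ := exists_co_ne_zero (b := b) hu0
  have hki : k ≠ i := fun h => hk (h ▸ hi)
  rcases h56 with h5 | h6'
  · obtain ⟨l, hl⟩ := H26.exists_notMem_list [k, i] (by simp; omega)
    obtain ⟨m, hm⟩ := H26.exists_notMem_list [l, k, i] (by simp; omega)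
    obtain ⟨o, ho⟩ := H26.exists_notMem_list [m, l, k, i] (by simp; omega)
    simp only [List.mem_cons, List.not_mem_nil, or_false, not_or] at hl hm ho
    have hn : [i, k, l, m, o].Nodup := by simp; grind
    refine four k l m o hn (fun j hj => ?_) hk
    rcases List.mem_cons.1 (mem_of_nodup_of_card hn (by simp [h5]) j) with h7 | h7
    · rw [h7, hi]
    · exact absurd h7 hj
  by_cases hZ : ∃ r, r ≠ i ∧ co b r u = 0
  · obtain ⟨r, hr, hr0⟩ := hZ
    have hkr : k ≠ r := fun h => hk (h ▸ hr0)
    obtain ⟨l, hl⟩ := H26.exists_notMem_list [k, r, i] (by simp; omega)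
    obtain ⟨m, hm⟩ := H26.exists_notMem_list [l, k, r, i] (by simp; omega)
    obtain ⟨o, ho⟩ := H26.exists_notMem_list [m, l, k, r, i] (by simp; omega)
    simp only [List.mem_cons, List.not_mem_nil, or_false, not_or] at hl hm ho
    have hn : [r, i, k, l, m, o].Nodup := by simp; grind
    refine four k l m o (List.nodup_cons.1 hn).2 (fun j hj => ?_) hk
    rcases List.mem_cons.1 (mem_of_nodup_of_card hn (by simp [h6']) j) with h7 | h7
    · rw [h7, hr0]
    rcases List.mem_cons.1 h7 with h7 | h7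
    · rw [h7, hi]
    · exact absurd h7 hj
  push Not at hZ
  have hP : ∀ k l, k ≠ i → l ≠ i → k ≠ l → P k l := by
    intro k l h7 h8 h9
    obtain ⟨r, hr⟩ := H26.exists_notMem_list [l, k, i] (by simp; omega)
    obtain ⟨m, hm⟩ := H26.exists_notMem_list [r, l, k, i] (by simp; omega)
    obtain ⟨o, ho⟩ := H26.exists_notMem_list [m, r, l, k, i] (by simp; omega)
    simp only [List.mem_cons, List.not_mem_nil, or_false, not_or] at hr hm ho
    have hn : [i, r, k, l, m, o].Nodup := by simp; grind
    refine hb.sub_mem_of_five hp h hR hpair hst hu hi hiu hsw hn (hZ r hr.2.2) (hZ m hm.2.2.2)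
      (δ := co b o u) (ext_co (b := b) fun j => ?_)
    have := mem_of_nodup_of_card hn (by simp [h6']) j
    simp only [List.mem_cons, List.not_mem_nil, or_false] at this
    rcases this with rfl | rfl | rfl | rfl | rfl | rfl <;> simp [co_b] <;> grind
  have three : ∀ k l, k ≠ i → l ≠ i → k ≠ l → s k + s l ≠ 0 → eichGroup Q ≤ M := by
    intro k l h7 h8 h9 h10
    obtain ⟨r, hr⟩ := H26.exists_notMem_list [l, k, i] (by simp; omega)
    obtain ⟨m, hm⟩ := H26.exists_notMem_list [r, l, k, i] (by simp; omega)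
    obtain ⟨o, ho⟩ := H26.exists_notMem_list [m, r, l, k, i] (by simp; omega)
    simp only [List.mem_cons, List.not_mem_nil, or_false, not_or] at hr hm ho
    rcases h6 r m o (mul_self_ne_zero.2 (hZ r hr.2.2)) with h11 | h11 | h11
    · exact fin k l r m (by simp; grind) (hP _ _ h7 h8 h9)
        (hP _ _ hr.2.2 hm.2.2.2 (Ne.symm hm.1)) h10 h11
    · exact fin k l r o (by simp; grind) (hP _ _ h7 h8 h9)
        (hP _ _ hr.2.2 ho.2.2.2.2 (Ne.symm ho.2.1)) h10 h11
    · exact fin k l m o (by simp; grind) (hP _ _ h7 h8 h9)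
        (hP _ _ hm.2.2.2 ho.2.2.2.2 (Ne.symm ho.1)) h10 h11
  obtain ⟨l, hl⟩ := H26.exists_notMem_list [k, i] (by simp; omega)
  obtain ⟨m, hm⟩ := H26.exists_notMem_list [l, k, i] (by simp; omega)
  simp only [List.mem_cons, List.not_mem_nil, or_false, not_or] at hl hm
  rcases h6 k l m (mul_self_ne_zero.2 hk) with h7 | h7 | h7
  · exact three k l hki hl.2 (Ne.symm hl.1) h7
  · exact three k m hki hm.2.2 (Ne.symm hm.2.1) h7
  · exact three l m hl.2 hm.2.2 (Ne.symm hm.1) h7

omit h hR hpair hst hi hiu in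
include hp in
/-- A new root of the norm of the frame. -/
theorem eichGroup_le_of_new56 [FiniteDimensional F V] {hQ : (polarBilin Q).Nondegenerate}
    (h56 : Fintype.card ι = 5 ∨ Fintype.card ι = 6) (hH : stabDec Q (fdec b) ⊓ kerDS hQ ≤ M) {v : V}
    (hv : Rt M (b i) v) (hv' : ¬ Old b v) : eichGroup Q ≤ M := by
  have h : RootSet Q c (Rt M (b i)) := hb.norm i ▸ Rt.rootSet (hb.Q_ne i)
  have hR : ∀ j, Rt M (b i) (b j) := fun j => hb.oDec.rt_of_mem hH
    (Submodule.mem_span_singleton_self _) (Submodule.mem_span_singleton_self _) (hb.Q_ne i)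
    ((hb.norm j).trans (hb.norm i).symm)
  have hH' := fun v hv g hg => hb.oDec.rt_apply hH (Submodule.mem_span_singleton_self (b i))
    (hb.Q_ne i) (v := v) hv (g := g) hg
  have hperm : ∀ v, Rt M (b i) v → ∀ a a', a ≠ a' → co b a v ≠ 0 → co b a' v ≠ 0 →
      ∀ π : Equiv.Perm ι, ∃ w, Rt M (b i) w ∧ ∀ i, co b (π i) w ≠ 0 ↔ co b i v ≠ 0 :=
    fun v hv a a' haa ha ha' π => by
      obtain ⟨g, hg, h1⟩ := hb.exists_perm_supp (hQ := hQ) haa ha ha' π
      exact ⟨_, hH' v hv g hg, h1⟩
  have hsw : ∀ k l m o : ι, k ≠ l → m ≠ o →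
      refl Q (b k - b l) * refl Q (b m - b o) ∈ stabDec Q (fdec b) ⊓ kerDS hQ :=
    fun k l m o hk hj => hb.refl_mul_refl_mem (hQ := hQ) (old_sub hk) (old_sub hj)
      ((hb.Q_sub' hk).trans_ne hb.two_c) ((hb.Q_sub' hk).trans (hb.Q_sub' hj).symm)
  by_cases hnd : ∀ v w, Rt M (b i) v → Rt M (b i) w → Q (w - v) = 0 → w = v
  · exact absurd (hb.old_of_nd5 hp h hR hnd (by omega)
      (fun v hv k l m o h1 h2 => hH' v hv _ (hsw k l m o h1 h2)) hperm hv) hv'
  push Not at hnd
  obtain ⟨x, y, hx, hy, h0, hne⟩ := hnd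
  obtain ⟨j, u, hu0, hu, hj, hju⟩ := hb.exists_pair hp h hx hy h0 hne
  have h1 : ∀ v, Rt M (b i) v → refl Q v ∈ stabSet Q {w | Rt M (b i) w} := fun v hv w =>
    ⟨h.refl hv, fun hw => refl_refl Q v w ▸ h.refl hv hw⟩
  refine (hb.eichGroup_le_of_pair56 hp h hR (M := M ⊓ stabSet Q {w | Rt M (b i) w})
    (fun v w hv hw => ⟨hv.pair hw, mul_mem (h1 v hv) (h1 w hw)⟩) (fun g hg v hv => (hg.2 v).1 hv)
    hu hj hju hQ h56 hu0 (fun W hW => ?_)
    fun v hv k l m o h1 h2 => hH' v hv _ (hsw k l m o h1 h2)).trans inf_le_left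
  · by_contra H
    push Not at H
    obtain ⟨k, hk⟩ : ∃ k, b k ∉ W := by
      by_contra h2
      push Not at h2
      exact H.2 (eq_top_iff.2 (b.span_eq ▸ Submodule.span_le.2 (Set.range_subset_iff.2 h2)))
    obtain ⟨l, hl⟩ : ∃ l, b l ∉ perp Q W := by
      by_contra h2
      push Not at h2
      exact H.1 (eq_bot_iff.2 fun w hw => ext_co (b := b) fun l => by
        have := mem_perp.1 (h2 l) w hw
        rw [hb.polar_b] at this
        rw [(mul_eq_zero.1 this).resolve_left hb.two_c, map_zero])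
    have hk' := (hW _ (hR k)).resolve_left hk
    have hl' := (hW _ (hR l)).resolve_right hl
    obtain ⟨a, a', haa, ha, ha', -⟩ := exists_of_not_old hv'
    obtain ⟨π, rfl, rfl⟩ := exists_perm_pair haa (fun h : k = l => hk (h ▸ hl'))
    obtain ⟨w, hw, h2⟩ := hperm v hv a a' haa ha ha' π
    rcases hW w hw with h3 | h3
    · have := mem_perp.1 hk' w h3
      rw [hb.polar_b] at this
      exact mul_ne_zero hb.two_c ((h2 a).2 ha) this
    · have := mem_perp.1 h3 _ hl'
      rw [hb.b_polar] at this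
      exact mul_ne_zero hb.two_c ((h2 a').2 ha') this

end Frame

end Cfsg.Agent.H30
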