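import Cfsg.Agent.H30.Fr56A
import Cfsg.Agent.H26.UMu

/-!
# Maximality of the monomial group of an orthogonal frame in dimensions five and six
-/

set_option autoImplicit false

namespace Cfsg.Agent.H30

open QuadraticMap Module

section Six

open H26

/-- A counting argument for a class of involutions indexed by pairs in a set of six points. -/
theorem le_of_six {G ι : Type*} [Group G] [Fintype ι] {H M : Subgroup G} [Finite M] (hHM : H ≤ M)
    (h6 : Fintype.card ι = 6) (z : ι → ι → G) (hzH : ∀ k l, k ≠ l → z k l ∈ H)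
    (hzz : ∀ k l, k ≠ l → z k l * z k l = 1) (hsymm : ∀ k l, k ≠ l → z k l = z l k)
    (hinj : ∀ k l p r, k ≠ l → p ≠ r → z k l = z p r → k = p ∨ k = r)
    (hcls : ∀ k l p r, k ≠ l → p ≠ r → ∃ g ∈ H, z p r = g * z k l * g⁻¹)
    (hπ : ∀ g ∈ H, ∃ π : Equiv.Perm ι, ∀ k l, g * z k l * g⁻¹ = z (π k) (π l))
    (hmul : ∀ k l p r, k ≠ l → p ≠ r → z k l * z p r ≠ 1 → ∃ a a', a ≠ a' ∧
      ∀ d : G, z k l * z p r * d = d * (z k l * z p r) → d * z a a' * d⁻¹ = z a a')
    {i j : ι} (hij : i ≠ j) (hF : ∀ g ∈ M, g * z i j * g⁻¹ ∈ H → g ∈ H) : M ≤ H := by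
  classical
  have hzM := hHM (hzH i j hij)
  have hc : ∀ k l, k ≠ l → Cls M (z i j) (z k l) := fun k l hkl => by
    obtain ⟨g, hg, h⟩ := hcls i j k l hij hkl
    exact ⟨g, hHM hg, h⟩
  have hO : ∀ d, Cls M (z i j) d → d ∉ H → ∃ y, Cls M (z i j) y ∧ y * z i j * y⁻¹ = d := by
    intro d hd hdH
    refine (dihedral_cases hzM (hzz i j hij) Cls.self hd).resolve_right ?_
    rintro ⟨t, ht, ht1, -, h1, h3, ⟨g, hg, h4⟩, -⟩
    have h5 := hF t ht (by rw [h1, mul_inv_cancel_right]; exact hzH i j hij)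
    obtain ⟨π, h7⟩ := hπ g (hF g hg (h4 ▸ mul_mem h5 (hzH i j hij)))
    have h8 : t = z (π i) (π j) * z i j := by
      rw [← h7, ← h4, mul_assoc, hzz i j hij, mul_one]
    obtain ⟨a, a', haa, h9⟩ := hmul _ _ i j (π.injective.ne hij) hij (h8 ▸ ht1)
    exact hdH ((hc a a' haa).mem_of_conj hF (hzH a a' haa) (hd.mem hzM)
      ((h9 d (h8 ▸ h3)).symm ▸ hzH a a' haa))
  intro g₀ hg₀
  by_contra hg₀'
  have hy₀ : Cls M (z i j) (g₀ * z i j * g₀⁻¹) := Cls.self.conj hg₀
  have hy₀' : g₀ * z i j * g₀⁻¹ ∉ H := fun H => hg₀' (hF g₀ hg₀ H)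
  set y₀ := g₀ * z i j * g₀⁻¹
  have hy₀M := hy₀.mem hzM
  let Y := {y // Cls M (z i j) y ∧ y ∉ H ∧ y₀⁻¹ * y ∈ H}
  choose π hπ' using fun y : Y => hπ _ y.2.2.2
  have hZ : ∀ (y : Y) k l, y₀⁻¹ * (y.1 * z k l * y.1⁻¹) * y₀ = z (π y k) (π y l) := by
    intro y k l
    rw [← hπ']
    group
  have hinj' : ∀ (y y' : Y) k l, k ≠ l → (π y k = π y' k ∧ π y l = π y' l ∨
      π y k = π y' l ∧ π y l = π y' k) → y = y' := by
    intro y y' k l hkl H
    refine Subtype.ext (odd_injective hHM hzM hF hO (hc k l hkl) (hzH k l hkl) y.2.1 y.2.2.1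
      y'.2.1 y'.2.2.1 ?_)
    have h1 := hZ y k l
    have h3 := hZ y' k l
    rcases H with H | H
    · rw [H.1, H.2] at h1
      simpa using h1.trans h3.symm
    · rw [H.1, H.2, hsymm _ _ ((π y').injective.ne hkl.symm)] at h1
      simpa using h1.trans h3.symm
  have hsurj : ∀ k l p r, k ≠ l → p ≠ r →
      ∃ y : Y, π y k = p ∧ π y l = r ∨ π y k = r ∧ π y l = p := by
    intro k l p r hkl hpr
    obtain ⟨y, hy, hy', H'⟩ := odd_exists hHM hF hO (hc k l hkl) (hzH k l hkl)
      ((hc p r hpr).conj hy₀M) fun H => hy₀' ((hc p r hpr).mem_of_conj hF (hzH p r hpr) hy₀M H)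
    have h1 : y₀⁻¹ * y ∈ H := (hc k l hkl).mem_of_conj hF (hzH k l hkl)
      (M.mul_mem (M.inv_mem hy₀M) (hy.mem hzM)) (by
        rw [show y₀⁻¹ * y * z k l * (y₀⁻¹ * y)⁻¹ = y₀⁻¹ * (y * z k l * y⁻¹) * y₀ by group, H']
        simpa [mul_assoc] using hzH p r hpr)
    refine ⟨⟨y, hy, hy', h1⟩, ?_⟩
    have h3 := hZ ⟨y, hy, hy', h1⟩ k l
    simp only [H', mul_assoc, inv_mul_cancel_left, inv_mul_cancel, mul_one] at h3
    have h0 := (π ⟨y, hy, hy', h1⟩).injective.ne hkl
    rcases hinj _ _ _ _ hpr h0 h3 with h4 | h4 <;>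
      rcases hinj _ _ _ _ hpr.symm h0 ((hsymm _ _ hpr.symm).trans h3) with h5 | h5
    · exact absurd (h4.trans h5.symm) hpr
    · exact Or.inl ⟨h4.symm, h5.symm⟩
    · exact Or.inr ⟨h5.symm, h4.symm⟩
    · exact absurd (h4.trans h5.symm) hpr
  have : Finite Y := Finite.of_injective (fun y : Y => (⟨y.1, y.2.1.mem hzM⟩ : M))
    fun a b hab => Subtype.ext (congrArg (fun z : M => (z : G)) hab)
  have := Fintype.ofFinite Y
  have key : ∀ k l, k ≠ l → (Finset.univ.filter fun y : Y => π y k = i).card +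
      (Finset.univ.filter fun y : Y => π y l = i).card = 5 := by
    intro k l hkl
    rw [← Finset.card_union_of_disjoint (Finset.disjoint_filter.2 fun y _ h1 h3 =>
      hkl ((π y).injective (h1.trans h3.symm))), ← Finset.filter_or,
      show 5 = (Finset.univ.erase i).card by simp [h6]]
    refine Finset.card_bij (fun y _ => if π y k = i then π y l else π y k) (fun y hy => ?_)
      (fun y hy y' hy' H => hinj' y y' k l hkl ?_) fun p hp => ?_
    · rw [Finset.mem_erase]
      split_ifs with h1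
      · exact ⟨fun h3 => hkl ((π y).injective (h1.trans h3.symm)), Finset.mem_univ _⟩
      · exact ⟨h1, Finset.mem_univ _⟩
    · simp only [Finset.mem_filter, Finset.mem_univ, true_and] at hy hy'
      split_ifs at H with h1 h3 h3
      · exact Or.inl ⟨h1.trans h3.symm, H⟩
      · exact Or.inr ⟨h1.trans (hy'.resolve_left h3).symm, H⟩
      · exact Or.inr ⟨H, (hy.resolve_left h1).trans h3.symm⟩
      · exact Or.inl ⟨H, (hy.resolve_left h1).trans (hy'.resolve_left h3).symm⟩
    · have hp' := Finset.ne_of_mem_erase hp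
      obtain ⟨y, hy | hy⟩ := hsurj k l i p hkl hp'.symm
      · exact ⟨y, by simp [hy.1], by simp [hy]⟩
      · exact ⟨y, by simp [hy.2], by simp [hy, hp']⟩
  obtain ⟨k, hk⟩ := exists_notMem_list [i, j] (by simp; omega)
  simp only [List.mem_cons, List.not_mem_nil, or_false, not_or] at hk
  have e1 := key i j hij
  have e2 := key k i hk.1
  have e3 := key k j hk.2
  omega

end Six

variable {F V : Type*} [Field F] [AddCommGroup V] [Module F V] {Q : QuadraticForm F V}
  {ι : Type*} {b : Basis ι F V} {c : F}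

namespace Frame

variable [Fintype ι] (hb : Frame Q c b)
include hb

theorem zz_b [DecidableEq ι] {k l : ι} (hkl : k ≠ l) (m : ι) :
    (refl Q (b k) * refl Q (b l)).1 (b m) = (if m = k ∨ m = l then -1 else 1 : F) • b m := by
  rw [O_mul_apply, hb.refl_b l, hb.refl_b k]
  by_cases h1 : m = k
  · subst h1
    simp [co_ne hkl.symm]
    module
  by_cases h2 : m = l
  · subst h2
    simp [co_ne hkl]
    module
  simp [h1, h2, co_ne (Ne.symm h1), co_ne (Ne.symm h2)]

omit hb [Fintype ι] in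
theorem O_ext_b {g h : O Q} (H : ∀ m, g.1 (b m) = h.1 (b m)) : g = h :=
  Subtype.ext (b.ext' H)

variable [FiniteDimensional F V] {hQ : (polarBilin Q).Nondegenerate} {M : Subgroup (O Q)}
  (hH : stabDec Q (fdec b) ⊓ kerDS hQ ≤ M)
include hH

theorem sq_eq_of_rt_sub [Fintype F] (hp : (Fintype.card F).Prime) (h7 : 5 ≤ Fintype.card ι)
    (hsq : ¬ IsSquare (2 : F)) (hΦ : ∀ i v, Rt M (b i) v → Old b v)
    {d v : V} (hd : Old b d) (hQd : Q d = 2 * c) (hv : Rt M d v) (hv' : ¬ Old b v) :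
    (∀ j, co b j v ≠ 0) ∧ ∀ i j, co b i v * co b i v = co b j v * co b j v := by
  classical
  have h2 := hb.two
  have hc := hb.hc
  have hd0 := hQd.trans_ne hb.two_c
  have h : RootSet Q (2 * c) (Rt M d) := hQd ▸ Rt.rootSet hd0
  have hR : ∀ i j, i ≠ j → ∀ t : F, t * t = 1 → Rt M d (b i + t • b j) := fun i j hij t ht => by
    have h3 := old_add (b := b) hij (s := 1) (t := t) (by rw [ht, mul_one])
    have h4 := hb.Q_comb hij 1 t
    rw [one_smul] at h3 h4
    exact hb.rt_of_old hH hd h3 hd0 (by rw [h4, hQd, ht]; ring)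
  have hzero : ∀ v, Rt M d v → ∀ j, co b j v = 0 → Old b v := fun v hv j hj => by
    obtain ⟨k, hk, l, hl, hkl⟩ := Finset.one_lt_card.1 (show 1 < (Finset.univ.erase j).card by
      rw [Finset.card_erase_of_mem (Finset.mem_univ _), Finset.card_univ]; omega)
    have hk := Finset.ne_of_mem_erase hk
    have hl := Finset.ne_of_mem_erase hl
    have h3 := hv.pair (hb.rt_of_old hH hd (old_sub hkl) hd0 ((hb.Q_sub' hkl).trans hQd.symm))
    have h4 : (refl Q v * refl Q (b k - b l)).1 (b j) = b j := by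
      rw [O_mul_apply, hb.refl_sub_b, Equiv.swap_apply_of_ne_of_ne hk.symm hl.symm,
        refl_apply_of_orth (by rw [hb.b_polar, hj, mul_zero])]
    have h5 : refl Q v * refl Q (b k - b l) ∈ stabDec Q (fdec b) := hb.mem_stabDec_of fun m => by
      have h5 := (hb.rt_of_old hH (old_b j) (old_b m) (hb.Q_ne j)
        ((hb.norm m).trans (hb.norm j).symm)).conj h3
      rw [h4] at h5
      have h6 := h5.1.trans (hb.norm j)
      rcases (hΦ j _ h5).cases (ne_zero_of_Q_ne_zero (h6.trans_ne hc)) with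
        ⟨i, t, -, h⟩ | ⟨i, j, hij, t, -, h | h⟩
      · exact ⟨i, t, h⟩
      · rw [h, Q_smul, hb.Q_sub' hij] at h6
        exact absurd ⟨2 * t, mul_right_cancel₀ hc (by linear_combination -2 * h6)⟩ hsq
      · rw [h, Q_smul, hb.Q_add' hij] at h6
        exact absurd ⟨2 * t, mul_right_cancel₀ hc (by linear_combination -2 * h6)⟩ hsq
    exact hb.old_of_refl_mem (h.ne hv) ((Subgroup.mul_mem_cancel_right _ (hb.refl_sub_mem k l)).1 h5)
  have hfull : ∀ j, co b j v ≠ 0 := fun j hj => hv' (hzero v hv j hj)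
  have hz : ∀ (S : Finset ι), S.card ≤ 2 → ∀ {w j}, Rt M d w → co b j w = 0 →
      (∀ l, l ∉ S → co b l w ≠ 0) → False := fun S hS w j hw hj h3 => by
    obtain ⟨k, l, m, hk, hl, hm, hkl, hkm, hlm⟩ := Finset.two_lt_card_iff.1
      (show 2 < Sᶜ.card by rw [Finset.card_compl]; omega)
    exact h3 m (Finset.mem_compl.1 hm) ((hzero w hw j hj).three hkl hkm hlm
      (h3 k (Finset.mem_compl.1 hk)) (h3 l (Finset.mem_compl.1 hl)))
  have heq : ∀ i j, co b i v * co b i v = co b j v * co b j v := fun i j => by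
    by_contra hne
    have hij : i ≠ j := by rintro rfl; exact hne rfl
    have h3 : (3 : F) ≠ 0 := fun h3 => hne ((mul_self_eq_one_of_three hp h3 (hfull i)).trans
      (mul_self_eq_one_of_three hp h3 (hfull j)).symm)
    obtain ⟨z, hz'⟩ : ∃ z, z = v - co b i v • b i - co b j v • b j := ⟨_, rfl⟩
    have hzi : co b i z = 0 := by simp [hz', co_ne hij]
    have hzj : co b j z = 0 := by simp [hz', co_ne hij.symm]
    have hzl : ∀ (x y t : F) l, l ∉ ({i, j} : Finset ι) → co b l (x • (b i + (1 : F) • b j) +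
        y • (b i + (-1 : F) • b j) + t • z) = t * co b l v := fun x y t l hl => by
      simp only [Finset.mem_insert, Finset.mem_singleton, not_or] at hl
      simp [hz', co_ne hl.1, co_ne hl.2]
    have hS : ({i, j} : Finset ι).card ≤ 2 := Finset.card_le_two
    rcases h.cases_three' (hR i j hij 1 (by simp)) (hR i j hij (-1) (by simp)) (z := z)
      (by simp [hb.polar_b, co_ne hij, co_ne hij.symm]) (by simp [hb.b_polar, hzi, hzj])
      (by simp [hb.b_polar, hzi, hzj]) hp h2 h3 hsq (x := (co b i v + co b j v) / 2)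
      (y := (co b i v - co b j v) / 2)
      (div_ne_zero (fun h => hne (by linear_combination (co b i v - co b j v) * h)) h2)
      (div_ne_zero (fun h => hne (by linear_combination (co b i v + co b j v) * h)) h2)
      (by convert hv using 1; rw [hz']; match_scalars <;> field_simp <;> ring) with
      H | ⟨hQz, H⟩ | ⟨H, H'⟩ | ⟨t, ht, H⟩
    · obtain ⟨k, hk⟩ : ∃ k, k ∈ ({i, j} : Finset ι)ᶜ := Finset.card_pos.1 (by
        rw [Finset.card_compl]; omega)
      simp only [Finset.mem_compl, Finset.mem_insert, Finset.mem_singleton, not_or] at hk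
      have h4 : co b i (((co b i v + co b j v) / 2) • (b i + (1 : F) • b j) +
          ((co b i v - co b j v) / 2) • (b i + (-1 : F) • b j)) = co b i v := by
        simp [co_ne hij]; field_simp; ring
      have h5 : co b j (((co b i v + co b j v) / 2) • (b i + (1 : F) • b j) +
          ((co b i v - co b j v) / 2) • (b i + (-1 : F) • b j)) = co b j v := by
        simp [co_ne hij.symm]; field_simp; ring
      have := (hzero _ H k (by simp [co_ne hk.1, co_ne hk.2]) i j hij (h4.trans_ne (hfull i))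
        (h5.trans_ne (hfull j))).1
      rw [h4, h5] at this
      exact hne this
    · obtain ⟨x, t, h4⟩ := exists_binary h2 (mul_ne_zero h2 hb.two_c) hQz (2 * c)
      refine hz _ hS (j := i) (H x (-x) t (by linear_combination h4)) (by simp [co_ne hij, hzi])
        fun l hl => hzl _ _ _ l hl ▸ mul_ne_zero ?_ (hfull l)
      rintro rfl
      exact hsq ⟨2 * x, mul_right_cancel₀ hb.two_c (by linear_combination -2 * h4)⟩
    · refine mul_ne_zero (mul_ne_zero h2 h2) (mul_ne_zero (hfull i) (hfull j)) ?_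
      field_simp at H H'
      linear_combination 2⁻¹ * 2⁻¹ * (H - H') + (2⁻¹ * 2 + 1) * 4 * co b i v * co b j v *
        (mul_inv_cancel₀ h2).symm
    · refine hz _ hS (j := i) H (by simp [hzi]) fun l hl => ?_
      have := hzl 0 0 t l hl ▸ mul_ne_zero ht (hfull l)
      simpa using this
  exact ⟨hfull, heq⟩

theorem old_of_rt_sub6 [Fintype F] (hp : (Fintype.card F).Prime) (h6 : Fintype.card ι = 6)
    (hsq : ¬ IsSquare (2 : F)) (hΦ : ∀ i v, Rt M (b i) v → Old b v)
    {d v : V} (hd : Old b d) (hQd : Q d = 2 * c) (hv : Rt M d v) : Old b v := by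
  classical
  by_contra hv'
  have h2 := hb.two
  have hd0 := hQd.trans_ne hb.two_c
  have h : RootSet Q (2 * c) (Rt M d) := hQd ▸ Rt.rootSet hd0
  obtain ⟨hfull, heq⟩ := hb.sq_eq_of_rt_sub hH hp (by omega) hsq hΦ hd hQd hv hv'
  obtain ⟨i, j, hij⟩ := Fintype.exists_pair_of_one_lt_card (α := ι) (by omega)
  have h3 : 3 * (co b i v * co b i v) = 1 := by
    have h5 := (hb.Q_eq v).symm.trans (h.norm hv)
    rw [Finset.sum_congr rfl fun k _ => heq k i, Finset.sum_const, Finset.card_univ, h6] at h5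
    exact mul_left_cancel₀ hb.two_c (by simp at h5; linear_combination h5)
  have h3' : (3 : F) ≠ 0 := fun h => by rw [h, zero_mul] at h3; exact zero_ne_one h3
  have h4 := h.refl (hb.rt_of_old hH hd (old_sub hij) hd0 ((hb.Q_sub' hij).trans hQd.symm))
    (h.refl (hb.rt_of_old hH hd (show Old b (b i + b j) by
      simpa using old_add (b := b) hij (s := 1) rfl) hd0 ((hb.Q_add' hij).trans hQd.symm)) hv)
  have h5 : (refl Q (b i - b j)).1 ((refl Q (b i + b j)).1 v) =
      v - (2 * co b i v) • b i - (2 * co b j v) • b j := by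
    have h7 : (refl Q (b i + b j)).1 v = v - (co b i v + co b j v) • (b i + b j) := by
      rw [refl_apply, hb.Q_add' hij, polar_add_right, hb.polar_b, hb.polar_b, ← mul_add,
        inv_mul_cancel_left₀ hb.two_c]
    rw [h7, hb.refl_sub hij]
    simp only [map_sub, map_add, map_smul, co_self, co_ne hij, co_ne hij.symm, smul_eq_mul]
    module
  rw [h5] at h4
  have h7 := h.sub (κ := 2 * (co b i v * co b i v)) hv h4 (by
    rw [polar_sub_left, polar_sub_left, polar_smul_left', polar_smul_left', hb.b_polar, hb.b_polar,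
      polar_self', h.norm hv]
    linear_combination 4 * c * h3 - 4 * c * heq i j)
  obtain ⟨k, hk⟩ := H26.exists_notMem_list [i, j] (by simp; omega)
  obtain ⟨l, hl⟩ := H26.exists_notMem_list [k, i, j] (by simp; omega)
  obtain ⟨m, hm⟩ := H26.exists_notMem_list [l, k, i, j] (by simp; omega)
  simp only [List.mem_cons, List.not_mem_nil, or_false, not_or] at hk hl hm
  have h8 : ∀ k, k ≠ i → k ≠ j → co b k (v - (2 * co b i v) • b i - (2 * co b j v) • b j -
      (2 * (co b i v * co b i v)) • v) = co b i v * co b i v * co b k v := fun k h1 h2 => by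
    simp only [map_sub, map_smul, co_ne h1, co_ne h2, smul_eq_mul]
    linear_combination (-co b k v) * h3
  have h9 := fun k => mul_ne_zero (mul_ne_zero (hfull i) (hfull i)) (hfull k)
  have h10 := (hb.sq_eq_of_rt_sub hH hp (by omega) hsq hΦ hd hQd h7 fun h10 => by
    have := h10.three (Ne.symm hl.1) (Ne.symm hm.2.1) (Ne.symm hm.1) (h8 k hk.1 hk.2 ▸ h9 k)
      (h8 l hl.2.1 hl.2.2 ▸ h9 l)
    rw [h8 m hm.2.2.1 hm.2.2.2] at this
    exact h9 m this).2 i k
  rw [h8 k hk.1 hk.2] at h10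
  simp only [map_sub, map_smul, co_self, co_ne hij, smul_eq_mul] at h10
  have h11 := heq k i
  generalize co b i v = x at *
  generalize co b k v = y at *
  refine mul_ne_zero (mul_ne_zero h2 h2) h2 ?_
  linear_combination 9 * h10 + 9 * x ^ 4 * h11 - (9 * x ^ 4 + 15 * x ^ 2 + 8) * h3

section Five

variable (h5 : Fintype.card ι = 5) (hΦ : ∀ i v, Rt M (b i) v → Old b v)
include h5 hΦ

theorem le_stabDec5 : M ≤ stabDec Q (fdec b) := by
  classical
  intro g hg
  have h1 : ∀ j, Rt M (b j) (g.1 (b j)) := fun j => by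
    obtain ⟨k, hk⟩ := H26.exists_notMem_list [j] (by simp; omega)
    obtain ⟨l, hl⟩ := H26.exists_notMem_list [k, j] (by simp; omega)
    obtain ⟨m, hm⟩ := H26.exists_notMem_list [l, k, j] (by simp; omega)
    obtain ⟨o, ho⟩ := H26.exists_notMem_list [m, l, k, j] (by simp; omega)
    simp only [List.mem_cons, List.not_mem_nil, or_false, not_or] at hk hl hm ho
    have hn : [j, k, l, m, o].Nodup := by simp; grind
    have hz := fun k l => hH (hb.refl_mul_refl_mem (hQ := hQ) (old_b k) (old_b l) (hb.Q_ne _)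
      ((hb.norm _).trans (hb.norm _).symm))
    have h2 := mul_mem (hz k l) (hz m o)
    have h3 : ∀ x, (refl Q (b k) * refl Q (b l) * (refl Q (b m) * refl Q (b o))).1 x =
        -(refl Q (b j)).1 x := fun x => by
      refine LinearMap.congr_fun (b.ext (f₁ := ((refl Q (b k) * refl Q (b l) *
        (refl Q (b m) * refl Q (b o))).1 : V →ₗ[F] V)) (f₂ := -((refl Q (b j)).1 : V →ₗ[F] V))
        fun r => ?_) x
      have := mem_of_nodup_of_card hn (by simp [h5]) r
      simp only [List.mem_cons, List.not_mem_nil, or_false] at this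
      rw [LinearEquiv.coe_coe, O_mul_apply, hb.zz_b (Ne.symm ho.1), map_smul, hb.zz_b (Ne.symm hl.1),
        LinearMap.neg_apply, LinearEquiv.coe_coe, hb.refl_b, co_b]
      split_ifs with a1 a2 a3 a3 a2 a3 a3
      all_goals first | (exfalso; grind) | (subst_vars; module)
    generalize refl Q (b k) * refl Q (b l) * (refl Q (b m) * refl Q (b o)) = t at h2 h3
    refine ⟨O_map _ _, ?_⟩
    convert mul_mem (mul_mem (mul_mem hg h2) (inv_mem hg)) h2 using 1
    refine O_ext fun x => ?_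
    rw [← refl_conj]
    simp only [O_mul_apply, h3, map_neg, neg_neg]
  by_cases hsq : IsSquare (2 : F)
  · obtain ⟨r, hr⟩ := hsq
    have hr0 : r ≠ 0 := by rintro rfl; exact hb.two (by rw [hr, mul_zero])
    have h2 : ∀ (i : ι) d, Old b d → Q d = 2 * c → Old b (g.1 d) := fun i d hd h => by
      have h3 := hb.rt_of_old hH (old_b i) (hd.smul r⁻¹) (hb.Q_ne i) (by
        rw [Q_smul, h, hb.norm, hr]; field_simp)
      have h4 := hΦ i _ ((h1 i).trans (h3.conj hg))
      rw [map_smul] at h4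
      exact h4.of_smul (inv_ne_zero hr0)
    exact hb.mem_stabDec_of_old (by omega) fun i j hij => ⟨h2 i _ (old_sub hij) (hb.Q_sub' hij),
      h2 i _ (by simpa using old_add (b := b) hij (s := 1) rfl) (hb.Q_add' hij)⟩
  · refine hb.mem_stabDec_of fun m => ?_
    have h6 := (h1 m).1.trans (hb.norm m)
    rcases (hΦ m _ (h1 m)).cases (ne_zero_of_Q_ne_zero (h6.trans_ne hb.hc)) with
      ⟨i, t, -, h⟩ | ⟨i, j, hij, t, -, h | h⟩
    · exact ⟨i, t, h⟩
    · rw [h, Q_smul, hb.Q_sub' hij] at h6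
      exact absurd ⟨2 * t, mul_right_cancel₀ hb.hc (by linear_combination -2 * h6)⟩ hsq
    · rw [h, Q_smul, hb.Q_add' hij] at h6
      exact absurd ⟨2 * t, mul_right_cancel₀ hb.hc (by linear_combination -2 * h6)⟩ hsq

end Five

section Six

variable (h7 : 5 ≤ Fintype.card ι) (hΦ : ∀ i v, Rt M (b i) v → Old b v)
  (hΨ : ∀ d v, Old b d → Q d = 2 * c → Rt M d v → Old b v)
include h7 hΦ hΨ

theorem mem_stabDec_of_old_apply5 {g : O Q} (hg : g ∈ M) {r : V} (hr0 : r ≠ 0) (hr : Old b r)
    (hgr : Old b (g.1 r)) : g ∈ stabDec Q (fdec b) := by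
  have key : ∀ {g : O Q}, g ∈ M → ∀ {r : V}, r ≠ 0 → Old b r → Old b (g.1 r) → ∀ d, Old b d →
      Q d = Q r → Rt M d (g.1 d) := fun {g} hg {r} hr0 hr hgr d hd h => by
    have h1 := hb.Q_ne_of_old hr hr0
    have h2 := hb.rt_of_old hH hr hd h1 h
    exact (h2.symm.trans (hb.rt_of_old hH hr hgr h1 (O_map _ _))).trans (h2.conj hg)
  have keyY : ∀ {g : O Q}, g ∈ M → ∀ {r : V}, Q r = 2 * c → Old b r → Old b (g.1 r) →
      g ∈ stabDec Q (fdec b) := fun {g} hg {r} h1 hr hgr => by
    have h2 := fun d hd (h : Q d = 2 * c) => hΨ _ _ hd h (key hg (ne_zero_of_Q_ne_zero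
      (h1.trans_ne hb.two_c)) hr hgr d hd (h.trans h1.symm))
    exact hb.mem_stabDec_of_old (by omega) fun i j hij => ⟨h2 _ (old_sub hij) (hb.Q_sub' hij),
      h2 _ (by simpa using old_add (b := b) hij (s := 1) rfl) (hb.Q_add' hij)⟩
  rcases hr.cases hr0 with ⟨i, t, ht, rfl⟩ | ⟨i, j, hij, t, ht, rfl | rfl⟩ <;>
    rw [map_smul] at hgr
  · by_contra H
    refine H (hb.mem_stabDec_of fun j => ?_)
    have h1 := hΦ _ _ (key hg (b.ne_zero i) (old_b i) (hgr.of_smul ht) _ (old_b j)
      ((hb.norm j).trans (hb.norm i).symm))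
    have h2 : ∀ {t : F} {r : V}, t ≠ 0 → g.1 (b j) = t • r → Old b ((g⁻¹).1 r) := fun ht h => by
      refine Old.of_smul ?_ ht
      rw [← map_smul, ← h, O_inv_apply]
      exact old_b j
    rcases h1.cases (O_apply_eq_zero.not.2 (b.ne_zero j)) with ⟨k, t, -, h⟩ | ⟨k, l, hkl, t, ht, h | h⟩
    · exact ⟨k, t, h⟩
    · exact absurd ((inv_mem_iff (x := g)).1 (keyY (inv_mem hg) (hb.Q_sub' hkl) (old_sub hkl)
        (h2 ht h))) H
    · exact absurd ((inv_mem_iff (x := g)).1 (keyY (inv_mem hg) (hb.Q_add' hkl)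
        (by simpa using old_add (b := b) hkl (s := 1) rfl) (h2 ht h))) H
  · exact keyY hg (hb.Q_sub' hij) (hr.of_smul ht) (hgr.of_smul ht)
  · exact keyY hg (hb.Q_add' hij) (hr.of_smul ht) (hgr.of_smul ht)

theorem mem_stabDec_of_zeros5 {g : O Q} (hg : g ∈ M) {r : V} (hr0 : r ≠ 0) (hr : Old b r)
    {T : Finset ι} (hT : 3 ≤ T.card) (h0 : ∀ l ∈ T, co b l (g.1 r) = 0) :
    g ∈ stabDec Q (fdec b) := by
  classical
  by_contra H
  obtain ⟨i, hi⟩ := Finset.card_pos.1 (show 0 < T.card by omega)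
  obtain ⟨q, hq⟩ := exists_co_apply_ne_zero (b := b) g i
  have key : ∀ i ∈ T, ∀ j ∈ T, i ≠ j → co b i (g.1 (b q)) ≠ 0 →
      ¬ Old b (co b i (g.1 (b q)) • b i + co b j (g.1 (b q)) • b j) ∧
      ((∃ k, k ≠ i ∧ k ≠ j ∧ co b k (g.1 (b q)) ≠ 0) → 2 * (co b i (g.1 (b q)) *
        co b i (g.1 (b q)) + co b j (g.1 (b q)) * co b j (g.1 (b q))) = 1) := by
    intro i hi j hj hij h1
    have h2 : g⁻¹ * (refl Q (b i) * refl Q (b j)) * g ∈ stabDec Q (fdec b) := by
      have h2 : (g⁻¹ * (refl Q (b i) * refl Q (b j)) * g).1 r = r := by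
        rw [O_mul_apply, O_mul_apply, O_mul_apply, hb.refl_b j, h0 j hj, mul_zero, zero_smul,
          sub_zero, hb.refl_b, h0 i hi, mul_zero, zero_smul, sub_zero, O_inv_apply]
      exact hb.mem_stabDec_of_old_apply5 hH h7 hΦ hΨ (mul_mem (mul_mem (inv_mem hg) (hH
        (hb.refl_mul_refl_mem (old_b i) (old_b j) (hb.Q_ne i) ((hb.norm i).trans
          (hb.norm j).symm)))) hg) hr0 hr (h2.symm ▸ hr)
    obtain ⟨π, ε, hε, h3⟩ := hb.exists_perm h2
    have h4 : g.1 (b q - ε q • b (π q)) =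
        (2 : F) • (co b i (g.1 (b q)) • b i + co b j (g.1 (b q)) • b j) := by
      rw [← h3, map_sub, O_mul_apply, O_mul_apply, O_apply_inv, O_mul_apply, hb.refl_b j, hb.refl_b]
      simp only [map_sub, map_smul, co_ne hij]
      module
    have h5 : b q - ε q • b (π q) ≠ 0 := fun h => by
      simpa [h, co_ne hij, hb.two, h1] using congrArg (co b i) h4
    refine ⟨fun h => H (hb.mem_stabDec_of_old_apply5 hH h7 hΦ hΨ hg h5 (old_sub_smul _ _ (hε q))
      (h4 ▸ h.smul 2)), fun ⟨k, hk, hk', h6⟩ => ?_⟩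
    by_cases h8 : q = π q
    · rw [← h8] at h4 h5
      rcases hε q with h | h
      · simp [h] at h5
      · have := congrArg (co b k) h4
        simp only [h, neg_smul, one_smul, sub_neg_eq_add, map_add, map_smul, co_ne hk, co_ne hk',
          smul_zero, add_zero] at this
        exact absurd (by linear_combination this) (mul_ne_zero hb.two h6)
    · have h9 := congrArg Q h4
      rw [O_map, Q_smul, hb.Q_comb hij, Q_sub, Q_smul, polar_smul_right', hb.orth _ _ h8, hb.norm,
        hb.norm, mul_self_eq_one_iff.2 (hε q)] at h9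
      exact mul_left_cancel₀ hb.two_c (by linear_combination -h9)
  have h1 : ∀ j ∈ T, co b j (g.1 (b q)) ≠ 0 := fun j hj h => by
    have hij : i ≠ j := by rintro rfl; exact hq h
    exact (key i hi j hj hij hq).1 (by rw [h, zero_smul, add_zero]; exact (old_b i).smul _)
  obtain ⟨k, l, m, hk, hl, hm, hkl, hkm, hlm⟩ := Finset.two_lt_card_iff.1 (show 2 < T.card by omega)
  have h2 := (key k hk m hm hkm (h1 k hk)).2 ⟨l, hkl.symm, hlm, h1 l hl⟩
  have h3 := (key l hl m hm hlm (h1 l hl)).2 ⟨k, hkl, hkm, h1 k hk⟩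
  exact (key k hk l hl hkl (h1 k hk)).1 (old_add hkl
    (mul_left_cancel₀ hb.two (by linear_combination h2 - h3)))

theorem le_stabDec6 [Finite F] (h6 : Fintype.card ι = 6) (hM : M ≤ kerDS hQ) :
    M ≤ stabDec Q (fdec b) := by
  classical
  have : Finite (O Q) := finite_O
  obtain ⟨i, j, hij⟩ := Fintype.exists_pair_of_one_lt_card (α := ι) (by omega)
  have hn : (-1 : F) ≠ 1 := fun h => hb.two (by linear_combination -h)
  have hs : ∀ {s t : F} {m}, s • b m = t • b m → s = t := fun h =>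
    smul_left_injective F (b.ne_zero _) h
  have hz := fun k l => hb.refl_mul_refl_mem (hQ := hQ) (old_b k) (old_b l) (hb.Q_ne _)
    ((hb.norm _).trans (hb.norm _).symm)
  have hsymm : ∀ k l, k ≠ l → refl Q (b k) * refl Q (b l) = refl Q (b l) * refl Q (b k) :=
    fun k l hkl => O_ext_b (b := b) fun m => by simp only [hb.zz_b hkl, hb.zz_b hkl.symm, or_comm]
  have hπ : ∀ g ∈ stabDec Q (fdec b), ∀ π : Equiv.Perm ι, (∀ k, ∃ t : F, t ≠ 0 ∧
      g.1 (b k) = t • b (π k)) → ∀ k l, g * (refl Q (b k) * refl Q (b l)) * g⁻¹ =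
        refl Q (b (π k)) * refl Q (b (π l)) := fun g hg π h k l => by
    obtain ⟨t, ht, h1⟩ := h k
    obtain ⟨s, hs, h2⟩ := h l
    rw [refl_mul_refl_conj, h1, h2, refl_smul ht, refl_smul hs]
  refine (le_of_six hH h6 (fun k l => refl Q (b k) * refl Q (b l)) (fun k l _ => hz k l)
    (fun k l hkl => ?_) hsymm (fun k l p r hkl hpr h => ?_) (fun k l p r hkl hpr => ?_)
    (fun g hg => ?_) (fun k l p r hkl hpr h => ?_) hij fun g hg h => ⟨?_, hM hg⟩).trans inf_le_left
  · nth_rewrite 1 [hsymm k l hkl]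
    rw [mul_assoc, ← mul_assoc (refl Q (b k)), refl_mul_self, one_mul, refl_mul_self]
  · by_contra H
    have := congrArg (fun g : O Q => g.1 (b k)) h
    simp only [hb.zz_b hkl, hb.zz_b hpr, if_neg H, true_or, if_true] at this
    exact hn (hs this)
  · obtain ⟨π, rfl, rfl⟩ := exists_perm_pair hkl hpr
    obtain ⟨g, hg, h1⟩ := hb.exists_perm_supp (hQ := hQ) (v := b k + b l) hkl
      (by simp [co_ne hkl]) (by simp [co_ne hkl.symm]) π
    obtain ⟨τ, ε, hε, h2⟩ := hb.exists_perm hg.1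
    have h3 : ∀ m, co b m (g.1 (b k + b l)) ≠ 0 → m = τ k ∨ m = τ l := fun m hm => by
      by_contra H
      push Not at H
      exact hm (by simp [h2, co_ne H.1, co_ne H.2])
    refine ⟨g, hg, ?_⟩
    rw [hπ g hg.1 τ fun k => ⟨ε k, by rcases hε k with h | h <;> simp [h], h2 k⟩]
    rcases h3 _ ((h1 k).2 (by simp [co_ne hkl])) with h4 | h4 <;>
      rcases h3 _ ((h1 l).2 (by simp [co_ne hkl.symm])) with h5 | h5
    · exact absurd (h4.trans h5.symm) hpr
    · rw [h4, h5]
    · rw [h4, h5, hsymm _ _ (τ.injective.ne hkl)]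
    · exact absurd (h4.trans h5.symm) hpr
  · obtain ⟨π, ε, hε, h1⟩ := hb.exists_perm hg.1
    exact ⟨π, hπ g hg.1 π fun k => ⟨ε k, by rcases hε k with h | h <;> simp [h], h1 k⟩⟩
  · suffices H : ∃ a a', a ≠ a' ∧ ∃ s : F, s ≠ 0 ∧ ∀ m, (if m = p ∨ m = r then -1 else 1 : F) *
        (if m = k ∨ m = l then -1 else 1) = s * (if m = a ∨ m = a' then -1 else 1) by
      obtain ⟨a, a', haa, s, hs, H⟩ := H
      have h1 : ∀ x, (refl Q (b k) * refl Q (b l) * (refl Q (b p) * refl Q (b r))).1 x =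
          s • (refl Q (b a) * refl Q (b a')).1 x := fun x =>
        LinearMap.congr_fun (b.ext (f₁ := ((refl Q (b k) * refl Q (b l) *
          (refl Q (b p) * refl Q (b r))).1 : V →ₗ[F] V))
          (f₂ := s • ((refl Q (b a) * refl Q (b a')).1 : V →ₗ[F] V)) fun m => by
            rw [LinearEquiv.coe_coe, O_mul_apply, hb.zz_b hpr, map_smul, hb.zz_b hkl,
              LinearMap.smul_apply, LinearEquiv.coe_coe, hb.zz_b haa, smul_smul, smul_smul, H]) x
      refine ⟨a, a', haa, fun d hd => mul_inv_eq_iff_eq_mul.2 (O_ext fun x => ?_)⟩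
      have h2 := congrArg (fun g : O Q => g.1 x) hd
      rw [O_mul_apply, O_mul_apply d, h1, h1, map_smul] at h2
      exact (smul_right_injective V hs h2).symm
    have h1 : ¬ ∀ m, m = p ∨ m = r ↔ m = k ∨ m = l := fun H => h (O_ext_b (b := b) fun m => by
      rw [O_mul_apply, hb.zz_b hpr, map_smul, hb.zz_b hkl, smul_smul]
      simp only [H]
      split_ifs <;> simp)
    have h2 : ∀ k l p r : ι, k ≠ l → p ≠ r → k = p → l ≠ r → ∀ m,
        (if m = p ∨ m = r then -1 else 1 : F) * (if m = k ∨ m = l then -1 else 1) =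
          1 * (if m = l ∨ m = r then -1 else 1) := fun k l p r h1 h2 h3 h4 m => by
      split_ifs <;> first | (exfalso; grind) | ring
    by_cases a1 : k = p
    · exact ⟨l, r, by grind, 1, one_ne_zero, h2 k l p r hkl hpr a1 (by grind)⟩
    by_cases a2 : k = r
    · exact ⟨l, p, by grind, 1, one_ne_zero, by
        simpa only [or_comm] using h2 k l r p hkl hpr.symm a2 (by grind)⟩
    by_cases a3 : l = p
    · exact ⟨k, r, a2, 1, one_ne_zero, by
        simpa only [or_comm] using h2 l k p r hkl.symm hpr a3 a2⟩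
    by_cases a4 : l = r
    · exact ⟨k, p, a1, 1, one_ne_zero, by
        simpa only [or_comm] using h2 l k r p hkl.symm hpr.symm a4 a1⟩
    obtain ⟨a, ha⟩ := H26.exists_notMem_list [k, l, p, r] (by simp; omega)
    obtain ⟨a', ha'⟩ := H26.exists_notMem_list [a, k, l, p, r] (by simp; omega)
    simp only [List.mem_cons, List.not_mem_nil, or_false, not_or] at ha ha'
    refine ⟨a, a', Ne.symm ha'.1, -1, by simp, fun m => ?_⟩
    have := mem_of_nodup_of_card (l := [k, l, p, r, a, a']) (by simp; grind) (by simp [h6]) m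
    simp only [List.mem_cons, List.not_mem_nil, or_false] at this
    split_ifs <;> first | (exfalso; grind) | ring
  · have hs0 : (refl Q (b i) * refl Q (b j)).1 (b i) ≠ b i := fun h => by
      rw [hb.zz_b hij, if_pos (Or.inl rfl)] at h
      exact hn (hs (h.trans (one_smul _ _).symm))
    obtain ⟨x, hx, h1⟩ := hb.exists_old_mov h.1 fun h => hs0 (by
      rw [mul_inv_eq_one, mul_eq_left] at h; rw [h]; rfl)
    refine (stabDec Q (fdec b)).inv_mem_iff.1 (hb.mem_stabDec_of_zeros5 hH h7 hΦ hΨ (inv_mem hg) hx h1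
      (T := {i, j}ᶜ) (by rw [Finset.card_compl, Finset.card_pair hij]; omega) fun l hl => ?_)
    simp only [Finset.mem_compl, Finset.mem_insert, Finset.mem_singleton, not_or] at hl
    rw [map_sub, O_mul_apply, O_mul_apply, O_inv_apply, O_mul_apply, hb.refl_b, hb.refl_b]
    simp [co_ne hl.1, co_ne hl.2]

end Six

/-- Overgroups of the monomial group of a frame over a prime field, dimensions five and six. -/
theorem le_or_le56 [Fintype F] (hp : (Fintype.card F).Prime)
    (h56 : Fintype.card ι = 5 ∨ Fintype.card ι = 6) (hM : M ≤ kerDS hQ) :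
    M ≤ stabDec Q (fdec b) ∨ kerDS hQ ≤ M := by
  rw [← eichGroup_eq_kerDS hQ (not_isExc_of_two hb.two) (by rw [finrank_eq_card_basis b]; omega),
    or_iff_not_imp_right]
  intro hE
  have hΦ : ∀ i v, Rt M (b i) v → Old b v := fun i v hv =>
    not_not.1 fun h => hE (hb.eichGroup_le_of_new56 hp h56 hH hv h)
  rcases h56 with h5 | h6
  · exact hb.le_stabDec5 hH h5 hΦ
  refine hb.le_stabDec6 hH (by omega) hΦ (fun d v hd hQd hv => ?_) h6 hM
  by_cases hsq : IsSquare (2 : F)
  · obtain ⟨r, hr⟩ := hsq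
    have hr0 : r ≠ 0 := by rintro rfl; exact hb.two (by rw [hr, mul_zero])
    obtain ⟨i⟩ : Nonempty ι := Fintype.card_pos_iff.1 (by omega)
    have h1 := (hb.rt_of_old hH ((old_b i).smul r) hd (by
      rw [Q_smul]; exact mul_ne_zero (mul_ne_zero hr0 hr0) (hb.Q_ne i))
      (by rw [Q_smul, hQd, hb.norm, hr])).trans hv
    refine (hΦ i (r⁻¹ • v) ⟨?_, ?_⟩).of_smul (inv_ne_zero hr0)
    · rw [Q_smul, h1.1, Q_smul]; field_simp
    · simpa only [refl_smul hr0, refl_smul (inv_ne_zero hr0)] using h1.2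
  · exact hb.old_of_rt_sub6 hH hp h6 hsq hΦ hd hQd hv

end Frame

end Cfsg.Agent.H30
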