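import Cfsg.Agent.H29.Dickson
import Cfsg.Agent.H29.Exceptional
import Cfsg.Agent.H30.DecBig

/-!
# Reflection-closed sets of vectors in a three-dimensional space over a prime field
-/

set_option autoImplicit false

namespace Cfsg.Agent.H30

open QuadraticMap Module H29
open scoped MatrixGroups

variable {F V : Type*} [Field F] [AddCommGroup V] [Module F V] {Q : QuadraticForm F V}

theorem exists_nat_cast_of_prime [Fintype F] (hp : (Fintype.card F).Prime) (a : F) :
    ∃ n : ℕ, (n : F) = a := by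
  have := Fact.mk hp
  obtain ⟨n, hn⟩ := mem_multiples_of_prime_card (G := F) (g := 1) (g' := a)
    Nat.card_eq_fintype_card one_ne_zero
  exact ⟨n, by simpa using hn⟩

theorem subfield_eq_top_of_prime [Fintype F] (hp : (Fintype.card F).Prime) (k : Subfield F) :
    k = ⊤ := eq_top_iff.2 fun a _ => by
  obtain ⟨n, rfl⟩ := exists_nat_cast_of_prime hp a
  exact natCast_mem k n

theorem exists_binary [Finite F] (h2 : (2 : F) ≠ 0) {a b : F} (ha : a ≠ 0) (hb : b ≠ 0) (t : F) :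
    ∃ x y, a * (x * x) + b * (y * y) = t := by
  obtain ⟨x, y, z, h, h0⟩ := chevalley_three a b (-t) 0 0 0
  by_cases hz : z = 0
  · have hx : x ≠ 0 := by
      rintro rfl
      exact mul_ne_zero hb (mul_self_ne_zero.2 ((h.resolve_left (by simp)).resolve_right
        (by simpa))) (by rw [hz] at h0; linear_combination h0)
    refine ⟨(1 + t / (4 * a * x * x)) * x, (1 - t / (4 * a * x * x)) * y, ?_⟩
    have h4 : (4 : F) ≠ 0 := by rw [show (4 : F) = 2 * 2 by norm_num]; exact mul_ne_zero h2 h2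
    rw [hz] at h0
    field_simp
    linear_combination (4 * a * x ^ 2 - t) ^ 2 * h0
  · exact ⟨x / z, y / z, by field_simp; linear_combination h0⟩

theorem exists_ternary [Finite F] (h2 : (2 : F) ≠ 0) {a b : F} (ha : a ≠ 0) (hb : b ≠ 0) (d t : F) :
    ∃ x y z, (x ≠ 0 ∨ y ≠ 0 ∨ z ≠ 0) ∧ a * (x * x) + b * (y * y) + d * (z * z) = t := by
  by_cases ht : t = 0
  · obtain ⟨x, y, z, h, h0⟩ := chevalley_three a b d 0 0 0
    exact ⟨x, y, z, h, by rw [ht]; linear_combination h0⟩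
  · obtain ⟨x, y, h⟩ := exists_binary h2 ha hb t
    refine ⟨x, y, 0, ?_, by linear_combination h⟩
    by_contra h1
    push Not at h1
    exact ht (by rw [← h, h1.1, h1.2.1]; ring)

/-- A subgroup of `PGL₂(p)` containing three suitable involutions. -/
theorem pgl_invol_cases [Fintype F] (hp : (Fintype.card F).Prime) (h2 : (2 : F) ≠ 0)
    (h3 : (3 : F) ≠ 0) (L : Subgroup PGL(2, F)) {a b v : PGL(2, F)} (ha : a ∈ L) (hb : b ∈ L)
    (hv : v ∈ L) (ha1 : a ≠ 1) (hb1 : b ≠ 1) (haa : a * a = 1) (hbb : b * b = 1) (hvv : v * v = 1)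
    (hab1 : a * b ≠ 1) (hab : a * b * (a * b) = 1) (hav : a * v * (a * v) ≠ 1)
    (hbv : b * v * (b * v) ≠ 1) (habv : a * b * v * (a * b * v) ≠ 1) :
    Lsub F ≤ L ∨ ∀ g ∈ L, g ^ 3 = 1 ∨ g ^ 4 = 1 ∨ g ^ 5 = 1 := by
  obtain ⟨p, hchar, n, hpp, -⟩ := FiniteField.card' F
  have := Fact.mk hpp
  have h4 : ∀ {G : Type} [Group G] (_ : L ≃* G), (∀ g : G, g ^ 3 = 1 ∨ g ^ 4 = 1 ∨ g ^ 5 = 1) →
      ∀ g ∈ L, g ^ 3 = 1 ∨ g ^ 4 = 1 ∨ g ^ 5 = 1 := fun e h g hg => by
    simpa only [← map_pow, EmbeddingLike.map_eq_one_iff, Subtype.ext_iff, Subgroup.coe_pow,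
      Subgroup.coe_one] using h (e ⟨g, hg⟩)
  have h5 : ∀ {G : Type} [Group G] {g : G}, g ^ 2 = 1 → g ^ 4 = 1 := fun h => by
    rw [show 4 = 2 * 2 by rfl, pow_mul, h, one_pow]
  rcases H29.dickson p L with ⟨x, hx⟩ | ⟨T, D, hT, -, hD⟩ | ⟨-, ⟨⟨e⟩⟩ | ⟨⟨e⟩⟩ | ⟨⟨e⟩⟩⟩ | ⟨rfl, -⟩ |
    ⟨c, k, -, h⟩
  · obtain ⟨c, hc⟩ := exists_smul_eq_inf x
    have key : ∀ g ∈ L, g ≠ 1 → g * g = 1 → ∃ β, c * g * c⁻¹ = aff (-1) β := fun g hg h1 hgg => by
      obtain ⟨α, β, h⟩ := (smul_inf_eq_inf_iff (c * g * c⁻¹)).1 (by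
        rw [← hc, conj_smul_eq_iff]; exact hx hg)
      have h6 : aff α β * aff α β = 1 := by
        rw [← h, show c * g * c⁻¹ * (c * g * c⁻¹) = c * (g * g) * c⁻¹ by group, hgg]; group
      rw [aff_mul, aff_eq_one] at h6
      rcases mul_self_eq_one_iff.1 (congrArg Units.val h6.1) with h7 | h7
      · refine absurd ?_ h1
        rw [Units.val_eq_one.1 h7] at h h6
        rw [(mul_eq_zero.1 (show 2 * β = 0 by simpa [two_mul] using h6.2)).resolve_left h2,
          aff_one_zero] at h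
        simpa using h
      · exact ⟨β, by rw [h, Units.ext (h7.trans (by simp) : (α : F) = (-1 : Fˣ))]⟩
    obtain ⟨β, h6⟩ := key a ha ha1 haa
    obtain ⟨β', h7⟩ := key b hb hb1 hbb
    obtain ⟨β'', h8⟩ := key _ (L.mul_mem ha hb) hab1 hab
    rw [show c * (a * b) * c⁻¹ = c * a * c⁻¹ * (c * b * c⁻¹) by group, h6, h7, aff_mul,
      aff_inj] at h8
    exact absurd (by have := congrArg Units.val h8.1; simp at this; linear_combination this) h2
  · have h6 := hT.mem_T_of_mul_self_ne (hD (L.mul_mem ha hv)) hav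
    have h7 := hT.mem_T_of_mul_self_ne (hD (L.mul_mem hb hv)) hbv
    have h8 : a * b ∈ T := by
      have := T.mul_mem h6 (T.inv_mem h7)
      rwa [show a * v * (b * v)⁻¹ = a * b⁻¹ by group, inv_eq_of_mul_eq_one_right hbb] at this
    have h9 := hT.comm h8 h6
    have h10 : b * a = a * b := by
      rw [← inv_eq_of_mul_eq_one_right hab, mul_inv_rev, inv_eq_of_mul_eq_one_right haa,
        inv_eq_of_mul_eq_one_right hbb]
    refine absurd ?_ habv
    have h11 : a * b * v = v * (a * b) := mul_left_cancel (a := a) (by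
      rw [← mul_assoc a v, ← h9, ← mul_assoc, ← mul_assoc, ← mul_assoc, mul_assoc a b a, h10,
        ← mul_assoc])
    rw [h11, mul_assoc, ← mul_assoc (a * b), h11, mul_assoc, hab, mul_one, hvv]
  · exact Or.inr (h4 e fun g => (A4_pow g).elim (fun h => Or.inr (Or.inl (h5 h))) Or.inl)
  · exact Or.inr (h4 e fun g => (S4_pow g).imp_right Or.inl)
  · exact Or.inr (h4 e fun g => (A5_pow g).elim (fun h => Or.inr (Or.inl (h5 h)))
      (Or.imp_right Or.inr))
  · exact absurd (by exact_mod_cast CharP.cast_eq_zero F 3) h3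
  · have h6 : Lsub F ≤ L.map (MulAut.conj c).toMonoidHom := by
      rw [subfield_eq_top_of_prime hp k] at h
      rw [← PSLsub_top]
      exact h.elim (fun h => (PSLsub_le_PGLsub _).trans h.ge) fun h => h.ge
    exact Or.inl fun g hg => conj_mem_map_conj_iff.1 (h6 (Lsub_normal.conj_mem g hg c))

/-- The values of `4 cos²` of the angle between two non-orthogonal lines of a finite reflection
group of type `A₃`, `B₃` or `H₃`. -/
def SmallTr (s : F) : Prop := s = 1 ∨ s = 2 ∨ s * s - 3 * s + 1 = 0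

open Classical in
/-- The involution of `PGL₂` attached to a non-singular vector of a ternary quadratic space. -/
noncomputable def ivl (α β x y z : F) : PGL(2, F) :=
  if h : z * z - (α * α + β * β) * (x * x + y * y) ≠ 0 then
    pmk (mat (x * α - y * β) (x * β + y * α + z) (x * β + y * α - z) (-(x * α - y * β))
      fun h' => h (by linear_combination h'))
  else 1

section Ivl

variable {α β x y z x' y' z' : F}

theorem ivl_eq (h : z * z - (α * α + β * β) * (x * x + y * y) ≠ 0) : ivl α β x y z =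
    pmk (mat (x * α - y * β) (x * β + y * α + z) (x * β + y * α - z) (-(x * α - y * β))
      fun h' => h (by linear_combination h')) := dif_pos h

theorem ivl_mul_self : ivl α β x y z * ivl α β x y z = 1 := by
  by_cases h : z * z - (α * α + β * β) * (x * x + y * y) ≠ 0
  · rw [ivl_eq h, ← map_mul, pmk_eq_one_iff]
    simp only [GL2_mul_apply, mat_00, mat_01, mat_10, mat_11]
    refine ⟨?_, ?_, ?_⟩ <;> ring
  · rw [ivl, dif_neg h, one_mul]

theorem ivl_ne_one (h2 : (2 : F) ≠ 0) (h : z * z - (α * α + β * β) * (x * x + y * y) ≠ 0) :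
    ivl α β x y z ≠ 1 := by
  rw [ivl_eq h, Ne, pmk_eq_one_iff]
  simp only [mat_00, mat_01, mat_10, mat_11]
  rintro ⟨h3, h4, h5⟩
  have h6 : x * α - y * β = 0 := mul_left_cancel₀ h2 (by linear_combination h5)
  exact h (by linear_combination (z - x * β - y * α) * h3 - (x * α - y * β) * h6)

theorem tri_ivl_mul (h : z * z - (α * α + β * β) * (x * x + y * y) ≠ 0)
    (h' : z' * z' - (α * α + β * β) * (x' * x' + y' * y') ≠ 0) :
    tri (ivl α β x y z * ivl α β x' y' z') =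
      (2 * (z * z' - (α * α + β * β) * (x * x' + y * y'))) ^ 2 /
        ((z * z - (α * α + β * β) * (x * x + y * y)) *
          (z' * z' - (α * α + β * β) * (x' * x' + y' * y'))) := by
  rw [ivl_eq h, ivl_eq h', ← map_mul, tri_pmk]
  simp only [GL2_mul_apply, mat_00, mat_01, mat_10, mat_11]
  congr 1 <;> ring

theorem exists_of_ivl_eq (h2 : (2 : F) ≠ 0) (h0 : α * α + β * β ≠ 0)
    (h : z * z - (α * α + β * β) * (x * x + y * y) ≠ 0)
    (h' : z' * z' - (α * α + β * β) * (x' * x' + y' * y') ≠ 0)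
    (he : ivl α β x y z = ivl α β x' y' z') : ∃ μ, x = μ * x' ∧ y = μ * y' ∧ z = μ * z' := by
  rw [ivl_eq h, ivl_eq h', pmk_eq_pmk_iff] at he
  simp only [mat_00, mat_01, mat_10, mat_11] at he
  obtain ⟨μ, h3, h4, h5, -⟩ := he
  refine ⟨μ, mul_left_cancel₀ (mul_ne_zero h2 h0) ?_, mul_left_cancel₀ (mul_ne_zero h2 h0) ?_,
    mul_left_cancel₀ h2 ?_⟩
  · linear_combination 2 * α * h3 + β * h4 + β * h5
  · linear_combination -2 * β * h3 + α * h4 + α * h5
  · linear_combination h4 - h5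

theorem ivl_conj {d κ : F} (hd : d ≠ 0) (h : z * z - (α * α + β * β) * (x * x + y * y) = d)
    (h' : z' * z' - (α * α + β * β) * (x' * x' + y' * y') = d)
    (hκ : κ * d = 2 * (z * z' - (α * α + β * β) * (x * x' + y * y'))) :
    ivl α β x y z * ivl α β x' y' z' * (ivl α β x y z)⁻¹ =
      ivl α β (x' - κ * x) (y' - κ * y) (z' - κ * z) := by
  have h1 : (z' - κ * z) * (z' - κ * z) - (α * α + β * β) *
      ((x' - κ * x) * (x' - κ * x) + (y' - κ * y) * (y' - κ * y)) = d := by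
    linear_combination h' + κ * κ * h + κ * hκ
  rw [mul_inv_eq_iff_eq_mul, ivl_eq (h.trans_ne hd), ivl_eq (h'.trans_ne hd),
    ivl_eq (h1.trans_ne hd), ← map_mul pmk, ← map_mul pmk, pmk_eq_pmk_iff]
  simp only [GL2_mul_apply, mat_00, mat_01, mat_10, mat_11]
  refine ⟨-1, ?_, ?_, ?_, ?_⟩
  · linear_combination κ * h + hκ
  · ring
  · ring
  · linear_combination κ * h + hκ

end Ivl

/-- Dickson's theorem for reflection-closed sets of vectors, in coordinates. -/
theorem triple_cases [Fintype F] (hp : (Fintype.card F).Prime) (h2 : (2 : F) ≠ 0)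
    (h3 : (3 : F) ≠ 0) {c δ : F} (hc : c ≠ 0) (hδ : δ ≠ 0) (T : F → F → F → Prop)
    (hN : ∀ x y z, T x y z → c * (x * x + y * y) + δ * (z * z) = c)
    (hR : ∀ x y z x' y' z' κ, T x y z → T x' y' z' →
      κ * c = 2 * (c * (x * x' + y * y') + δ * (z * z')) → T (x' - κ * x) (y' - κ * y) (z' - κ * z))
    (hneg : ∀ x y z, T x y z → T (-x) (-y) (-z)) (ha : T 1 0 0) (hb : T 0 1 0) {x y z : F}
    (hv : T x y z) (hx : x ≠ 0) (hy : y ≠ 0) (hz : z ≠ 0) :
    (∀ x y z, c * (x * x + y * y) + δ * (z * z) = c → T x y z) ∨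
      ∀ x y z, T x y z → z ≠ 0 → (x ≠ 0 → SmallTr (4 * (x * x))) ∧
        (y ≠ 0 → SmallTr (4 * (y * y))) := by
  obtain ⟨α, β, h0⟩ := exists_binary h2 one_ne_zero one_ne_zero (-c / δ)
  rw [one_mul, one_mul] at h0
  have h0' : α * α + β * β ≠ 0 := h0 ▸ div_ne_zero (neg_ne_zero.2 hc) hδ
  have hd : c / δ ≠ 0 := div_ne_zero hc hδ
  have hD : ∀ {x y z}, c * (x * x + y * y) + δ * (z * z) = c →
      z * z - (α * α + β * β) * (x * x + y * y) = c / δ := fun h => by
    rw [h0]; field_simp; linear_combination h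
  have hD' : ∀ {x y z}, T x y z → z * z - (α * α + β * β) * (x * x + y * y) ≠ 0 :=
    fun h => hD (hN _ _ _ h) ▸ hd
  let S : Set PGL(2, F) := {g | ∃ x y z, T x y z ∧ g = ivl α β x y z}
  have hS : ∀ {x y z}, T x y z → ∀ g ∈ S, ivl α β x y z * g * (ivl α β x y z)⁻¹ ∈ S := by
    rintro x y z h _ ⟨x', y', z', h', rfl⟩
    refine ⟨_, _, _, hR _ _ _ _ _ _ (2 * (c * (x * x' + y * y') + δ * (z * z')) / c) h h'
      (by field_simp), ivl_conj hd (hD (hN _ _ _ h)) (hD (hN _ _ _ h')) ?_⟩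
    rw [h0]; field_simp; ring
  have hL : ∀ {x y z}, T x y z → ivl α β x y z ∈ Subgroup.normalizer S := fun h g =>
    ⟨hS h g, fun hg => by
      have := hS h _ hg
      rwa [inv_eq_of_mul_eq_one_right ivl_mul_self, ← mul_assoc, ← mul_assoc, ivl_mul_self,
        one_mul, mul_assoc, ivl_mul_self, mul_one] at this⟩
  have hne : ∀ {x y z x' y' z'}, z * z - (α * α + β * β) * (x * x + y * y) ≠ 0 → T x' y' z' →
      (∀ μ, x = μ * x' → y = μ * y' → z ≠ μ * z') → ivl α β x y z * ivl α β x' y' z' ≠ 1 :=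
    fun h h' h1 he => by
      obtain ⟨μ, h4, h5, h6⟩ := exists_of_ivl_eq h2 h0' h (hD' h')
        (by rw [eq_inv_of_mul_eq_one_left he, inv_eq_of_mul_eq_one_right ivl_mul_self])
      exact h1 μ h4 h5 h6
  have hsq : ∀ {x' y' z'}, z' * z' - (α * α + β * β) * (x' * x' + y' * y') ≠ 0 →
      (∀ μ, x' = μ * x → y' = μ * y → z' ≠ μ * z) →
      z' * z - (α * α + β * β) * (x' * x + y' * y) ≠ 0 →
      ivl α β x' y' z' * ivl α β x y z * (ivl α β x' y' z' * ivl α β x y z) ≠ 1 :=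
    fun h h1 h4 => by
      rw [Ne, mul_self_eq_one_iff_tri (hne h hv h1), tri_ivl_mul h (hD' hv)]
      exact div_ne_zero (pow_ne_zero _ (mul_ne_zero h2 h4)) (mul_ne_zero h (hD' hv))
  have h1 : (1 : F) * 1 - (α * α + β * β) * (0 * 0 + 0 * 0) ≠ 0 := by simp
  have hab : ivl α β 1 0 0 * ivl α β 0 1 0 = ivl α β 0 0 1 := by
    rw [ivl_eq (hD' ha), ivl_eq (hD' hb), ivl_eq h1, ← map_mul, pmk_eq_pmk_iff]
    simp only [GL2_mul_apply, mat_00, mat_01, mat_10, mat_11]
    refine ⟨α * α + β * β, ?_, ?_, ?_, ?_⟩ <;> ring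
  refine (pgl_invol_cases hp h2 h3 _ (hL ha) (hL hb) (hL hv) (ivl_ne_one h2 (hD' ha))
    (ivl_ne_one h2 (hD' hb)) ivl_mul_self ivl_mul_self ivl_mul_self (hab ▸ ivl_ne_one h2 h1)
    (hab ▸ ivl_mul_self) (hsq (hD' ha) (fun μ h h' _ => ?_) (by simp [hx, h0']))
    (hsq (hD' hb) (fun μ h h' _ => ?_) (by simp [hy, h0']))
    (hab ▸ hsq h1 (fun μ h h' h'' => ?_) (by simp [hz]))).imp (fun h x' y' z' h' => ?_)
    fun h x' y' z' h' hz' => ?_
  · simp [(mul_eq_zero.1 h'.symm).resolve_right hy] at h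
  · simp [(mul_eq_zero.1 h.symm).resolve_right hx] at h'
  · simp [(mul_eq_zero.1 h.symm).resolve_right hx] at h''
  · have h4 := hD h' ▸ hd
    obtain ⟨T', D', hT, h5⟩ := exists_torus_of_pow_ne (ivl_ne_one h2 (hD' ha)) (n := 2)
      (by rw [pow_two, ivl_mul_self]) (by exact_mod_cast h2)
    obtain ⟨g, hg, h6⟩ := hT.isConj_L h5 (g' := ivl α β x' y' z') (by
      have h7 := ivl_ne_one h2 (hD' ha)
      have h8 := ivl_ne_one h2 h4
      rw [ivl_eq (hD' ha)] at h7 ⊢
      rw [ivl_eq h4] at h8 ⊢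
      refine pmk.map_isConj (GL2_isConj_of_trace_det h7 h8 (by simp) ?_)
      simp only [mat_00, mat_01, mat_10, mat_11]
      linear_combination hD (hN _ _ _ ha) - hD h')
    obtain ⟨x'', y'', z'', h7, h8⟩ := h6 ▸ (h hg _).1 ⟨_, _, _, ha, rfl⟩
    obtain ⟨μ, rfl, rfl, rfl⟩ := exists_of_ivl_eq h2 h0' h4 (hD' h7) h8
    rcases mul_self_eq_one_iff.1 (mul_left_cancel₀ hc (show c * (μ * μ) = c * 1 by
      linear_combination h' - μ * μ * hN _ _ _ h7)) with rfl | rfl
    · simpa using h7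
    · simpa using hneg _ _ _ h7
  · have key : ∀ {x'' y'' t}, T x'' y'' 0 → x'' * x' + y'' * y' = t → t ≠ 0 →
        SmallTr (4 * (t * t)) := fun {x'' y'' t} h4 ht ht0 => by
      have h5 := hne (hD' h') h4 fun μ _ _ h => hz' (by rw [h, mul_zero])
      have h6 : tri (ivl α β x' y' z' * ivl α β x'' y'' 0) = 4 * (t * t) := by
        rw [tri_ivl_mul (hD' h') (hD' h4), hD (hN _ _ _ h'), hD (hN _ _ _ h4), h0, ← ht]
        field_simp; ring
      have h7 := h _ (Subgroup.mul_mem _ (hL h') (hL h4))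
      rw [cube_eq_one_iff_tri h5, pow_four_eq_one_iff_tri h5, pow_five_eq_one_iff_tri h5, h6] at h7
      rcases h7 with h7 | (h7 | h7) | h7
      · exact Or.inl h7
      · exact absurd (show 2 * (2 * (t * t)) = 0 by linear_combination h7)
          (mul_ne_zero h2 (mul_ne_zero h2 (mul_ne_zero ht0 ht0)))
      · exact Or.inr (Or.inl h7)
      · exact Or.inr (Or.inr (by linear_combination h7))
    exact ⟨key ha (by ring), key hb (by ring)⟩

end Cfsg.Agent.H30
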