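import Cfsg.Agent.H30.FrRoot

/-!
# Growing the space of Eichler transformations with a fixed first vector
-/

set_option autoImplicit false

namespace Cfsg.Agent.H30

open QuadraticMap Module

variable {F V : Type*} [Field F] [AddCommGroup V] [Module F V] {Q : QuadraticForm F V}
  [Fintype F]

/-- The second vectors of the Eichler transformations in `M` with first vector `u`. -/
def eichSp (hp : (Fintype.card F).Prime) (M : Subgroup (O Q)) {u : V} (hu : Q u = 0) :
    Submodule F V where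
  carrier := {y | polar Q u y = 0 ∧ eich Q u y ∈ M}
  add_mem' {a b} ha hb := ⟨by rw [polar_add_right, ha.1, hb.1, add_zero],
    eich_mul hu ha.1 hb.1 ▸ M.mul_mem ha.2 hb.2⟩
  zero_mem' := ⟨by simp, eich_zero (Q := Q) u ▸ M.one_mem⟩
  smul_mem' t {y} hy := by
    obtain ⟨n, rfl⟩ := exists_nat_cast_of_prime hp t
    refine ⟨by rw [polar_smul_right', hy.1, mul_zero], ?_⟩
    induction n with
    | zero => simp [eich_zero]
    | succ n ih =>
      rw [Nat.cast_succ, add_smul, one_smul,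
        ← eich_mul hu (by rw [polar_smul_right', hy.1, mul_zero]) hy.1]
      exact M.mul_mem ih hy.2

variable {hp : (Fintype.card F).Prime} {M : Subgroup (O Q)} {u : V} {hu : Q u = 0}

theorem self_mem_eichSp : u ∈ eichSp hp M hu :=
  ⟨by rw [polar_self', hu, mul_zero], by
    have := eich_smul_self (Q := Q) u 1
    rw [one_smul] at this
    exact this ▸ M.one_mem⟩

theorem apply_mem_eichSp {g : O Q} (hg : g ∈ M) (hgu : g.1 u = u) {y : V}
    (hy : y ∈ eichSp hp M hu) : g.1 y ∈ eichSp hp M hu :=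
  ⟨by rw [← hgu, O_polar, hy.1], by have := eich_conj_mem hg hy.2; rwa [hgu] at this⟩

namespace RootSet

variable {c : F} {R : V → Prop} (h : RootSet Q c R)
  (hpair : ∀ v w, R v → R w → H30.refl Q v * H30.refl Q w ∈ M)
  (hst : ∀ g ∈ M, ∀ v, R v → R (g.1 v))
include h hpair hst

theorem mem_eichSp {y z : V} (hz : R z) (huz : polar Q u z = 0) (hy : y ∈ eichSp hp M hu)
    (hyz : polar Q y z ≠ 0) : z ∈ eichSp hp M hu := by
  refine mem_of_refl_apply_mem (h.ne hz) hyz hy ⟨?_, ?_⟩
  · rw [← refl_apply_of_orth huz, O_polar, hy.1]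
  · have h1 := M.mul_mem (hpair _ _ hz (hst _ hy.2 _ hz)) hy.2
    have h2 := eich_conj (H30.refl Q z) u y
    rw [refl_inv, refl_apply_of_orth huz] at h2
    rwa [mul_assoc, ← mul_refl, ← mul_assoc, h2] at h1

theorem sub_mem_eichSp {r x y a : V} {κ : F} (hr : R r) (hx : R x) (hy : y ∈ eichSp hp M hu)
    (ha : a ∈ eichSp hp M hu) (hκ : κ * polar Q r u = polar Q x u)
    (h1 : κ * c = polar Q x r + polar Q x u * polar Q y r - polar Q x y * polar Q r u -
      Q y * polar Q x u * polar Q r u)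
    (h2 : polar Q a x + polar Q x u * polar Q a y - κ * polar Q a r ≠ 0) :
    x - κ • r ∈ eichSp hp M hu := by
  have h3 := hst _ hy.2 _ hx
  rw [eich_apply hu hy.1] at h3
  have h4 := h.sub (κ := κ) hr h3 (by
    simp only [polar_add_left, polar_sub_left, polar_smul_left', polar_comm Q u r]
    rw [h1])
  have h5 := h.mem_eichSp hpair hst h4 (by
    simp only [polar_add_right, polar_sub_right, polar_smul_right', polar_self', hu, hy.1,
      polar_comm Q u x, polar_comm Q u r]
    linear_combination -hκ) ha (by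
    simp only [polar_add_right, polar_sub_right, polar_smul_right', polar_comm Q a u, ha.1]
    simpa using h2)
  convert (eichSp hp M hu).add_mem ((eichSp hp M hu).sub_mem h5 ((eichSp hp M hu).smul_mem
    (polar Q x u) hy)) ((eichSp hp M hu).smul_mem (polar Q x y + Q y * polar Q x u)
      self_mem_eichSp) using 1
  module

/-- Three orthogonal non-singular second vectors give all of them. -/
theorem eichGroup_le (hQ : (polarBilin Q).Nondegenerate) (h2 : (2 : F) ≠ 0) (hu0 : u ≠ 0)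
    (hconn : ∀ W : Submodule F V, (∀ a, R a → a ∈ W ∨ a ∈ perp Q W) → W = ⊥ ∨ W = ⊤)
    {y₁ y₂ y₃ : V} (hy₁ : R y₁) (h₁ : y₁ ∈ eichSp hp M hu) (h₂ : y₂ ∈ eichSp hp M hu)
    (h₃ : y₃ ∈ eichSp hp M hu) (hQ₂ : Q y₂ ≠ 0) (hQ₃ : Q y₃ ≠ 0) (h₁₂ : polar Q y₁ y₂ = 0)
    (h₁₃ : polar Q y₁ y₃ = 0) (h₂₃ : polar Q y₂ y₃ = 0) : eichGroup Q ≤ M := by
  have hQ₁ := h.ne hy₁
  obtain ⟨r, hr, hru⟩ : ∃ r, R r ∧ polar Q r u ≠ 0 := by
    by_contra H
    push Not at H
    rcases hconn (F ∙ u) fun a ha => Or.inr (mem_perp_singleton.2 (by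
      rw [polar_comm, H a ha])) with h3 | h3
    · exact hu0 (Submodule.span_singleton_eq_bot.1 h3)
    · obtain ⟨t, rfl⟩ := Submodule.mem_span_singleton.1 (h3 ▸ Submodule.mem_top : y₁ ∈ F ∙ u)
      exact hQ₁ (by rw [Q_smul, hu, mul_zero])
  have key : ∀ x, R x → polar Q x u ≠ 0 →
      x - (polar Q x u / polar Q r u) • r ∈ eichSp hp M hu := fun x hx hxu => by
    set κ := polar Q x u / polar Q r u with hκ
    obtain ⟨l₁, hl₁⟩ : ∃ l, polar Q x y₁ - κ * polar Q r y₁ = polar Q x u * (2 * Q y₁ * l) :=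
      ⟨_, by rw [mul_div_cancel₀ _ (mul_ne_zero h2 hQ₁), mul_div_cancel₀ _ hxu]⟩
    obtain ⟨l₂, hl₂⟩ : ∃ l, polar Q x y₂ - κ * polar Q r y₂ = polar Q x u * (2 * Q y₂ * l) :=
      ⟨_, by rw [mul_div_cancel₀ _ (mul_ne_zero h2 hQ₂), mul_div_cancel₀ _ hxu]⟩
    obtain ⟨l₃, hl₃⟩ : ∃ l, polar Q x y₃ - κ * polar Q r y₃ = polar Q x u * (2 * Q y₃ * l) :=
      ⟨_, by rw [mul_div_cancel₀ _ (mul_ne_zero h2 hQ₃), mul_div_cancel₀ _ hxu]⟩
    have hκ' : κ * polar Q r u = polar Q x u := div_mul_cancel₀ _ hru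
    obtain ⟨a, b, d, habd, h3⟩ := exists_ternary h2 hQ₁ hQ₂ (Q y₃) (Q y₁ * (l₁ * l₁) +
      Q y₂ * (l₂ * l₂) + Q y₃ * (l₃ * l₃) + (polar Q x r - κ * c) / (polar Q r u * polar Q x u))
    have hy : (a - l₁) • y₁ + (b - l₂) • y₂ + (d - l₃) • y₃ ∈ eichSp hp M hu :=
      add_mem (add_mem (Submodule.smul_mem _ _ h₁) (Submodule.smul_mem _ _ h₂))
        (Submodule.smul_mem _ _ h₃)
    have h4 : κ * c = polar Q x r + polar Q x u * polar Q ((a - l₁) • y₁ + (b - l₂) • y₂ +
        (d - l₃) • y₃) r - polar Q x ((a - l₁) • y₁ + (b - l₂) • y₂ + (d - l₃) • y₃) * polar Q r u -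
        Q ((a - l₁) • y₁ + (b - l₂) • y₂ + (d - l₃) • y₃) * polar Q x u * polar Q r u := by
      simp only [Q_add, Q_smul, polar_add_left, polar_add_right, polar_smul_left',
        polar_smul_right', h₁₂, h₁₃, h₂₃, polar_comm Q _ r]
      rw [← sub_eq_iff_eq_add', eq_div_iff (mul_ne_zero hru hxu), polar_comm Q x r] at h3
      linear_combination h3 + polar Q r u * ((a - l₁) * hl₁ + (b - l₂) * hl₂ + (d - l₃) * hl₃) +
        ((a - l₁) * polar Q r y₁ + (b - l₂) * polar Q r y₂ + (d - l₃) * polar Q r y₃) * hκ'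
    rcases habd with h5 | h5 | h5
    · refine h.sub_mem_eichSp hpair hst hr hx hy h₁ hκ' h4 fun h6 =>
        mul_ne_zero hxu (mul_ne_zero (mul_ne_zero h2 hQ₁) h5) ?_
      simp only [polar_add_right, polar_smul_right', polar_self', h₁₂, h₁₃, polar_comm Q y₁ x,
        polar_comm Q y₁ r] at h6
      linear_combination h6 - hl₁
    · refine h.sub_mem_eichSp hpair hst hr hx hy h₂ hκ' h4 fun h6 =>
        mul_ne_zero hxu (mul_ne_zero (mul_ne_zero h2 hQ₂) h5) ?_
      simp only [polar_add_right, polar_smul_right', polar_self', h₁₂, h₂₃, polar_comm Q y₂ x,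
        polar_comm Q y₂ r, polar_comm Q y₂ y₁] at h6
      linear_combination h6 - hl₂
    · refine h.sub_mem_eichSp hpair hst hr hx hy h₃ hκ' h4 fun h6 =>
        mul_ne_zero hxu (mul_ne_zero (mul_ne_zero h2 hQ₃) h5) ?_
      simp only [polar_add_right, polar_smul_right', polar_self', h₁₃, h₂₃, polar_comm Q y₃ x,
        polar_comm Q y₃ r, polar_comm Q y₃ y₁, polar_comm Q y₃ y₂] at h6
      linear_combination h6 - hl₃
  have hW : Submodule.span F {x | R x ∧ polar Q x u ≠ 0} = ⊤ := by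
    refine (hconn _ fun a ha => ?_).resolve_left fun h3 => ?_
    · by_cases h3 : polar Q a u = 0
      · refine or_iff_not_imp_right.2 fun h4 => ?_
        rw [mem_perp_span] at h4
        push Not at h4
        obtain ⟨x, hx, h4⟩ := h4
        refine mem_of_refl_apply_mem (h.ne ha) h4 (Submodule.subset_span hx)
          (Submodule.subset_span ⟨h.refl ha hx.1, ?_⟩)
        rw [refl_apply, polar_sub_left, polar_smul_left', h3, mul_zero, sub_zero]
        exact hx.2
      · exact Or.inl (Submodule.subset_span ⟨ha, h3⟩)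
    · exact ne_zero_of_Q_ne_zero (h.ne hr) (Submodule.span_eq_bot.1 h3 r ⟨hr, hru⟩)
  have hfull : FullAt M u := ⟨hu, fun w hw => by
    have h3 : ∀ w ∈ Submodule.span F {x | R x ∧ polar Q x u ≠ 0},
        w - (polar Q w u / polar Q r u) • r ∈ eichSp hp M hu := fun w hw => by
      induction hw using Submodule.span_induction with
      | mem x hx => exact key x hx.1 hx.2
      | zero => simp
      | add x y _ _ hx hy =>
        convert add_mem hx hy using 1
        rw [polar_add_left, add_div]; module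
      | smul t x _ hx =>
        convert Submodule.smul_mem _ t hx using 1
        rw [polar_smul_left', mul_div_assoc]; module
    have h4 := h3 w (hW ▸ Submodule.mem_top)
    rw [polar_comm, hw, zero_div, zero_smul, sub_zero] at h4
    exact h4.2⟩
  refine hfull.eichGroup_le hQ (hfull.conj (hpair _ _ hr hy₁)) ?_
  rw [O_mul_apply, refl_apply_of_orth h₁.1, refl_apply, polar_sub_right, polar_self', hu,
    polar_smul_right', polar_comm Q u r, mul_zero, zero_sub]
  exact neg_ne_zero.2 (mul_ne_zero (mul_ne_zero (inv_ne_zero (h.ne hr)) hru) hru)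

end RootSet

end Cfsg.Agent.H30
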