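import Cfsg.Agent.H30.FrBasic
import Cfsg.Agent.H30.FrGrow

/-!
# Overgroups of the monomial group of an orthogonal frame: new roots of the norm of the frame
-/

set_option autoImplicit false

namespace Cfsg.Agent.H30

open QuadraticMap Module

variable {F V : Type*} [Field F] [AddCommGroup V] [Module F V] {Q : QuadraticForm F V}
  {ι : Type*} {b : Basis ι F V} {c : F}

theorem mul_self_eq_one_of_three [Fintype F] (hp : (Fintype.card F).Prime) (h3 : (3 : F) = 0)
    {t : F} (ht : t ≠ 0) : t * t = 1 := by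
  obtain ⟨n, rfl⟩ := exists_nat_cast_of_prime hp t
  rw [← Nat.div_add_mod n 3] at ht ⊢
  have : n % 3 = 0 ∨ n % 3 = 1 ∨ n % 3 = 2 := by omega
  rcases this with h | h | h <;> rw [h] at ht ⊢ <;> push_cast at ht ⊢ <;> rw [h3] at ht ⊢
  · simp at ht
  · simp
  · linear_combination h3

theorem exists_of_not_old {v : V} (h : ¬ Old b v) : ∃ i j, i ≠ j ∧ co b i v ≠ 0 ∧ co b j v ≠ 0 ∧
    (co b i v * co b i v = co b j v * co b j v → ∃ k, k ≠ i ∧ k ≠ j ∧ co b k v ≠ 0) := by
  unfold Old at h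
  push Not at h
  exact h

open Classical in
/-- The support of a vector. -/
noncomputable def supp [Fintype ι] (b : Basis ι F V) (v : V) : Finset ι :=
  Finset.univ.filter fun i => co b i v ≠ 0

theorem mem_supp [Fintype ι] {v : V} {i : ι} : i ∈ supp b v ↔ co b i v ≠ 0 := by simp [supp]

theorem Old.card_supp [Fintype ι] {v : V} (h : Old b v) : (supp b v).card ≤ 2 := by
  classical
  by_contra h1
  obtain ⟨i, j, k, hi, hj, hk, hij, hik, hjk⟩ := Finset.two_lt_card_iff.1 (not_le.1 h1)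
  exact mem_supp.1 hk (h.three hij hik hjk (mem_supp.1 hi) (mem_supp.1 hj))

theorem exists_inj_of_card {T : Finset ι} {n : ℕ} (h : n ≤ T.card) :
    ∃ f : Fin n → ι, Function.Injective f ∧ ∀ i, f i ∈ T := by
  obtain ⟨f⟩ := Function.Embedding.nonempty_of_card_le (α := Fin n) (β := T) (by simpa)
  exact ⟨fun i => f i, Subtype.val_injective.comp f.injective, fun i => (f i).2⟩

theorem exists_perm_pair {a a' k l : ι} (h : a ≠ a') (h' : k ≠ l) :
    ∃ π : Equiv.Perm ι, π a = k ∧ π a' = l := by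
  obtain ⟨π, hπ⟩ := Equiv.Perm.exists_extending_pair ![a, a'] ![k, l]
    (Fin.cons_injective_iff.2 ⟨by simpa using h, Function.injective_of_subsingleton _⟩)
    (Fin.cons_injective_iff.2 ⟨by simpa using h', Function.injective_of_subsingleton _⟩)
  exact ⟨π, hπ 0, hπ 1⟩

namespace Frame

variable [Fintype ι] [Fintype F] (hb : Frame Q c b) (hp : (Fintype.card F).Prime) {R : V → Prop}
  (h : RootSet Q c R) (hR : ∀ i, R (b i))
include hb h hR

section ND

variable (hnd : ∀ v w, R v → R w → Q (w - v) = 0 → w = v)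
include hnd

omit [Fintype F] in
theorem co_eq_zero_of_nd {v : V} (hv : R v) {i j : ι} (hij : i ≠ j)
    (hi : co b i v * co b i v = 1) : co b j v = 0 := by
  have key : ∀ v, R v → co b i v = 1 → co b j v = 0 := fun v hv hi => by
    rw [hnd _ _ (hR i) hv (by rw [Q_sub, h.norm hv, hb.norm, hb.polar_b, hi]; ring), co_ne hij.symm]
  rcases mul_self_eq_one_iff.1 hi with hi | hi
  · exact key v hv hi
  · simpa using key _ (h.neg hv) (by simp [hi])

include hp in
theorem old_of_nd (h7 : 7 ≤ Fintype.card ι)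
    (hperm : ∀ v, R v → ∀ a a', a ≠ a' → co b a v ≠ 0 → co b a' v ≠ 0 → ∀ π : Equiv.Perm ι,
      ∃ w, R w ∧ ∀ i, co b (π i) w ≠ 0 ↔ co b i v ≠ 0) {v : V} (hv : R v) : Old b v := by
  classical
  by_contra hv'
  by_cases h3 : (3 : F) = 0
  · obtain ⟨i, j, hij, hi, hj, -⟩ := exists_of_not_old hv'
    exact hj (hb.co_eq_zero_of_nd h hR hnd hv hij (mul_self_eq_one_of_three hp h3 hi))
  have h4 : ∀ v, R v → (supp b v).card ≤ 4 := fun v hv => by
    by_contra h4
    obtain ⟨f, hf, h5⟩ := exists_inj_of_card (n := 5) (not_le.1 h4)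
    obtain ⟨i, hi⟩ := h.exists_orth_of_five hp hb.two h3 hnd (fun i => b (f i)) (fun i => hR _)
      (fun i j hij => hb.orth _ _ (hf.ne hij)) hv
    rw [hb.polar_b] at hi
    exact mul_ne_zero hb.two_c (mem_supp.1 (h5 i)) hi
  suffices H : ∀ n, ∃ v, R v ∧ ¬ Old b v ∧ n ≤ (supp b v).card by
    obtain ⟨v, hv, -, h5⟩ := H 5
    have := h4 v hv
    omega
  intro n
  induction n with
  | zero => exact ⟨v, hv, hv', Nat.zero_le _⟩
  | succ n ih =>
    obtain ⟨v, hv, hv', hn⟩ := ih
    obtain ⟨a, a', haa, ha, ha', h5⟩ := exists_of_not_old hv'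
    obtain ⟨i, hi, h6⟩ : ∃ i, co b i v ≠ 0 ∧ 2 * (co b i v * co b i v) ≠ 1 := by
      by_contra H
      push Not at H
      obtain ⟨k, hk, hk', h7⟩ := h5 (mul_left_cancel₀ hb.two ((H a ha).trans (H a' ha').symm))
      have h8 := hb.co_eq_zero_of_nd h hR hnd (h.sub (κ := 2 * co b a v) hv (hR a)
        (by rw [hb.b_polar]; ring)) hk'.symm (by
          simp only [map_sub, map_smul, smul_eq_mul, co_ne haa.symm]
          linear_combination 2 * co b a' v * co b a' v * H a ha + H a' ha')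
      simp only [map_sub, map_smul, smul_eq_mul, co_ne hk, zero_sub, neg_eq_zero] at h8
      exact mul_ne_zero (mul_ne_zero hb.two ha) h7 h8
    have h7' := h4 v hv
    have h8 : 1 < (supp b v).card := Finset.one_lt_card.2 ⟨a, mem_supp.2 ha, a', mem_supp.2 ha', haa⟩
    obtain ⟨S, hS, h9⟩ := Finset.exists_subset_card_eq (s := (supp b v)ᶜ)
      (n := (supp b v).card - 1) (by rw [Finset.card_compl]; omega)
    have hS' : ∀ l ∈ S, co b l v = 0 := fun l hl => by
      simpa [mem_supp] using hS hl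
    have hiS : i ∉ S := fun h => hi (hS' i h)
    obtain ⟨π, hπ⟩ := Equiv.Perm.exists_map_finset_eq (supp b v) (insert i S)
      (by rw [Finset.card_insert_of_notMem hiS]; omega)
    obtain ⟨w, hw, h10⟩ := hperm v hv a a' haa ha ha' π
    have h11 : ∀ l, co b l w ≠ 0 ↔ l ∈ insert i S := fun l => by
      obtain ⟨l, rfl⟩ := π.surjective l
      rw [h10, ← hπ, ← mem_supp]
      exact (Finset.mem_map' π.toEmbedding).symm
    have h12 := h.sub (κ := 2 * (co b i w * co b i v)) hv hw (by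
      rw [hb.polar_eq, Finset.sum_eq_single i (fun l _ hl => ?_) (by simp)]
      · ring
      · by_cases h13 : l ∈ S
        · rw [hS' l h13, mul_zero]
        · rw [not_not.1 (mt (h11 l).1 (by simp [hl, h13])), zero_mul])
    have hiw := (h11 i).2 (Finset.mem_insert_self _ _)
    have h13 : supp b v ∪ S ⊆ supp b (w - (2 * (co b i w * co b i v)) • v) := fun l hl => by
      rw [mem_supp, map_sub, map_smul, smul_eq_mul]
      by_cases h14 : l ∈ S
      · rw [hS' l h14, mul_zero, sub_zero]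
        exact (h11 l).2 (Finset.mem_insert_of_mem h14)
      by_cases h15 : l = i
      · exact fun h16 => mul_ne_zero hiw (sub_ne_zero.2 h6) (by
          rw [h15] at h16; linear_combination -h16)
      · rw [not_not.1 (mt (h11 l).1 (by simp [h14, h15])), zero_sub, neg_ne_zero]
        exact mul_ne_zero (mul_ne_zero hb.two (mul_ne_zero hiw hi))
          (mem_supp.1 ((Finset.mem_union.1 hl).resolve_right h14))
    have h14 := Finset.card_le_card h13
    rw [Finset.card_union_of_disjoint (Finset.disjoint_right.2 fun l hl h => mem_supp.1 h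
      (hS' l hl))] at h14
    exact ⟨_, h12, fun h => by have := h.card_supp; omega, by omega⟩

end ND

omit hR in
include hp in
theorem exists_pair {v w : V} (hv : R v) (hw : R w) (h0 : Q (w - v) = 0) (hne : w ≠ v) :
    ∃ i u, u ≠ 0 ∧ Q u = 0 ∧ co b i u = 0 ∧ R (b i + u) := by
  obtain ⟨i, hi⟩ := exists_co_ne_zero (b := b) (sub_ne_zero.2 hne)
  have h1 := h.line hp hv (u := w - v) (by simpa) h0
  have key : ∀ a, R a → co b i a = 1 → a ≠ b i → ∃ i u, u ≠ 0 ∧ Q u = 0 ∧ co b i u = 0 ∧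
      R (b i + u) := fun a ha h2 h3 => ⟨i, a - b i, sub_ne_zero.2 h3, by
    rw [Q_sub, h.norm ha, hb.norm, hb.polar_b, h2]; ring, by simp [h2], by simpa⟩
  generalize w - v = u at *
  by_cases h2 : v + ((1 - co b i v) / co b i u) • u = b i
  · refine key _ (h.neg (h1 ((-1 - co b i v) / co b i u))) (by
      simp only [map_neg, map_add, map_smul, smul_eq_mul]; field_simp; ring) fun h3 => ?_
    have h4 : (2 : F) • b i = (2 / co b i u) • u := by
      rw [two_smul]
      nth_rewrite 1 [← h2]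
      rw [← h3]
      match_scalars
      · ring
      · field_simp; ring
    have h5 := congrArg Q h4
    rw [Q_smul, Q_smul, h0, mul_zero] at h5
    exact mul_ne_zero (mul_ne_zero hb.two hb.two) (hb.Q_ne i) h5
  · exact key _ (h1 _) (by simp only [map_add, map_smul, smul_eq_mul]; field_simp; ring) h2

variable {M : Subgroup (O Q)} (hpair : ∀ v w, R v → R w → refl Q v * refl Q w ∈ M)
  (hst : ∀ g ∈ M, ∀ v, R v → R (g.1 v)) {i : ι} {u : V} (hu : Q u = 0) (hi : co b i u = 0)
  (hiu : R (b i + u))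
include hpair hst hi hiu

omit hst hi [Fintype ι] in
theorem b_mem_eichSp : b i ∈ eichSp hp M hu := by
  obtain ⟨h1, h2⟩ := eich_mem_of_roots (hb.Q_ne i) ((h.norm hiu).trans (hb.norm i).symm)
    (by simpa) (hpair _ _ (hR i) hiu)
  have h3 := inv_ne_zero (hb.Q_ne i)
  rw [add_sub_cancel_left] at h1 h2
  rw [eich_smul_left h3] at h2
  rw [polar_smul_left', mul_eq_zero, or_iff_right h3] at h1
  exact ((eichSp hp M hu).smul_mem_iff h3).1 ⟨by rw [polar_smul_right', h1, mul_zero], h2⟩

theorem sub_mem_of_sq {J : Finset ι} (hiJ : i ∉ J) (hσ : IsSquare (∑ j ∈ J, co b j u * co b j u))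
    (hσ0 : ∑ j ∈ J, co b j u * co b j u ≠ 0) {k l : ι} (hk : k ∈ J) (hl : l ∈ J)
    (hk0 : co b k u ≠ 0) (hl0 : co b l u ≠ 0) :
    co b l u • b k - co b k u • b l ∈ eichSp hp M hu := by
  classical
  obtain ⟨ρ, hρ⟩ := hσ
  have hρ0 : ρ ≠ 0 := by rintro rfl; exact hσ0 (by rw [hρ, mul_zero])
  have hc := hb.hc
  have h2 := hb.two
  have h1 := h.flip hR hb.orth hiu J
  rw [Finset.sum_congr rfl fun j hj => show _ = (2 : F) • co b j u • b j by
    rw [hb.polar_b, map_add, co_ne (by rintro rfl; exact hiJ hj), smul_smul]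
    congr 1; field_simp; ring, ← Finset.smul_sum] at h1
  have h3 := hb.b_mem_eichSp hp h hR hpair hu hiu
  have h4 : polar Q (b i + u - (2 : F) • ∑ j ∈ J, co b j u • b j) u = -(4 * c * (ρ * ρ)) := by
    rw [polar_sub_left, polar_add_left, hb.b_polar, hi, polar_self', hu, polar_smul_left',
      polar_comm, hb.polar_sum, hρ]
    ring
  have key : ∀ k ∈ J, co b k u ≠ 0 →
      b k - (co b k u / (ρ * ρ)) • ∑ j ∈ J, co b j u • b j ∈ eichSp hp M hu := fun k hk hk0 => by
    have hki : k ≠ i := by rintro rfl; exact hiJ hk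
    have h5 := h.sub_mem_eichSp hpair hst (κ := -(co b k u / (2 * (ρ * ρ)))) h1 (hR k)
      (Submodule.smul_mem _ ((2 * ρ - 1) / (2 * (2 * c * (ρ * ρ)))) h3) h3
      (by rw [h4, hb.b_polar]; field_simp; ring) (by
        simp only [h4, hb.b_polar, polar_smul_left', Q_smul, hb.norm, map_sub, map_add, map_smul,
          smul_eq_mul, co_sum, co_self, co_ne hki, hi, if_pos hk, if_neg hiJ]
        field_simp; ring) (fun h6 => by
        simp only [hb.b_polar, map_sub, map_add, map_smul, smul_eq_mul, co_sum, co_self,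
          co_ne hki.symm, hi, if_neg hiJ] at h6
        refine mul_ne_zero (mul_ne_zero h2 hc) (div_ne_zero hk0 hρ0) ?_
        rw [← h6]; field_simp; ring)
    convert sub_mem h5 (Submodule.smul_mem _ (co b k u / (2 * (ρ * ρ)))
      (add_mem h3 self_mem_eichSp)) using 1
    match_scalars <;> field_simp <;> ring
  convert sub_mem (Submodule.smul_mem _ (co b l u) (key k hk hk0))
    (Submodule.smul_mem _ (co b k u) (key l hl hl0)) using 1
  match_scalars <;> ring

include hp hu in
theorem eichGroup_le_of_pair (hQ : (polarBilin Q).Nondegenerate) (h7 : 7 ≤ Fintype.card ι)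
    (hu0 : u ≠ 0) (hconn : ∀ W : Submodule F V, (∀ a, R a → a ∈ W ∨ a ∈ perp Q W) → W = ⊥ ∨ W = ⊤)
    (hM : ∀ i j k : ι, i ≠ k → j ≠ k → refl Q (b j - b k) * refl Q (b i - b k) ∈ M) :
    eichGroup Q ≤ M := by
  classical
  have h3 := hb.b_mem_eichSp hp h hR hpair hu hiu
  by_cases hZ : ∃ j k, j ≠ i ∧ k ≠ i ∧ j ≠ k ∧ co b j u = 0 ∧ co b k u = 0
  · have key : ∀ j k, j ≠ i → k ≠ i → j ≠ k → co b j u = 0 → co b k u = 0 →
        b j ∈ eichSp hp M hu := fun j k hj hk hjk hj0 hk0 => by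
      have := apply_mem_eichSp (hM i j k hk.symm hjk) (by
        rw [O_mul_apply, hb.refl_sub hk.symm, hi, hk0, sub_self, zero_smul, sub_zero,
          hb.refl_sub hjk, hj0, hk0, sub_self, zero_smul, sub_zero]) h3
      rwa [O_mul_apply, hb.refl_sub_b, hb.refl_sub_b, Equiv.swap_apply_left,
        Equiv.swap_apply_right] at this
    obtain ⟨j, k, hj, hk, hjk, hj0, hk0⟩ := hZ
    exact h.eichGroup_le hpair hst hQ hb.two hu0 hconn (hR i) h3 (key j k hj hk hjk hj0 hk0)
      (key k j hk hj hjk.symm hk0 hj0) (hb.Q_ne j) (hb.Q_ne k) (hb.orth _ _ hj.symm)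
      (hb.orth _ _ hk.symm) (hb.orth _ _ hjk)
  obtain ⟨f, hf, h4⟩ := exists_inj_of_card (n := 5) (T := supp b u) (by
    have h4 : (supp b u)ᶜ.card ≤ 2 := by
      by_contra h4
      obtain ⟨j, hj, k, hk, hjk⟩ := Finset.one_lt_card.1 (show 1 < ((supp b u)ᶜ.erase i).card by
        have := Finset.pred_card_le_card_erase (s := (supp b u)ᶜ) (a := i); omega)
      simp only [Finset.mem_erase, Finset.mem_compl, mem_supp, not_not] at hj hk
      exact hZ ⟨j, k, hj.1, hk.1, hjk, hj.2, hk.2⟩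
    rw [Finset.card_compl] at h4
    omega)
  simp only [mem_supp] at h4
  have hfi : ∀ k, f k ≠ i := fun k h => h4 k (h ▸ hi)
  set s : Fin 5 → F := fun k => co b (f k) u * co b (f k) u with hs
  let P : Fin 5 → Fin 5 → Prop := fun k l =>
    co b (f l) u • b (f k) - co b (f k) u • b (f l) ∈ eichSp hp M hu
  have fin : ∀ k l m o, k ≠ l → m ≠ o → k ≠ m → k ≠ o → l ≠ m → l ≠ o → P k l → P m o →
      s k + s l ≠ 0 → s m + s o ≠ 0 → eichGroup Q ≤ M :=
    fun k l m o h1 h2 a1 a2 a3 a4 h5 h6 h8 h9 => by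
      have hQ' : ∀ k l, k ≠ l → s k + s l ≠ 0 →
          Q (co b (f l) u • b (f k) - co b (f k) u • b (f l)) ≠ 0 := fun k l hkl h => by
        rw [sub_eq_add_neg, ← neg_smul, hb.Q_comb (hf.ne hkl), neg_mul_neg, add_comm]
        exact mul_ne_zero hb.hc h
      refine h.eichGroup_le hpair hst hQ hb.two hu0 hconn (hR i) h3 h5 h6 (hQ' k l h1 h8)
        (hQ' m o h2 h9) ?_ ?_ ?_ <;>
      simp only [polar_sub_left, polar_sub_right, polar_smul_left', polar_smul_right',
        hb.orth _ _ (hfi _).symm, hb.orth _ _ (hf.ne a1), hb.orth _ _ (hf.ne a2),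
        hb.orth _ _ (hf.ne a3), hb.orth _ _ (hf.ne a4), mul_zero, sub_zero]
  have htot : ∀ J : Finset ι, ∑ j ∈ (insert i J)ᶜ, co b j u * co b j u =
      -∑ j ∈ J, co b j u * co b j u := fun J => by
    have h5 := hb.Q_eq u
    rw [hu, eq_comm, mul_eq_zero, or_iff_right hb.hc, ← Finset.sum_compl_add_sum (insert i J),
      Finset.sum_insert_of_eq_zero_if_notMem fun _ => by rw [hi, mul_zero]] at h5
    exact eq_neg_of_add_eq_zero_left h5
  have hJ := fun J hiJ hσ hσ0 k l hk hl => hb.sub_mem_of_sq hp h hR hpair hst hu hi hiu (J := J)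
    hiJ hσ hσ0 (k := f k) (l := f l) hk hl (h4 k) (h4 l)
  have hs0 : ∀ k, s k ≠ 0 := fun k => mul_self_ne_zero.2 (h4 k)
  by_cases hm : IsSquare (-1 : F)
  · have h5 : ∀ k l, P k l := fun k l => by
      obtain ⟨m, h5, h6⟩ : ∃ m, k ≠ m ∧ l ≠ m := by clear fin; revert k l; decide
      refine hJ (insert i {f m})ᶜ (by simp) ?_ ?_ k l (by simp [hfi, hf.ne h5])
        (by simp [hfi, hf.ne h6]) <;> rw [htot, Finset.sum_singleton]
      · rw [← neg_one_mul]; exact hm.mul ⟨_, rfl⟩
      · exact neg_ne_zero.2 (hs0 m)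
    have h6 : ∀ k l m, s k + s l ≠ 0 ∨ s k + s m ≠ 0 ∨ s l + s m ≠ 0 := fun k l m => by
      by_contra H
      push Not at H
      exact mul_ne_zero hb.two (hs0 k) (by linear_combination H.1 + H.2.1 - H.2.2)
    rcases h6 0 1 2 with a | a | a
    · rcases h6 2 3 4 with a' | a' | a' <;> exact fin _ _ _ _ (by decide) (by decide) (by decide)
        (by decide) (by decide) (by decide) (h5 _ _) (h5 _ _) a a'
    · rcases h6 1 3 4 with a' | a' | a' <;> exact fin _ _ _ _ (by decide) (by decide) (by decide)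
        (by decide) (by decide) (by decide) (h5 _ _) (h5 _ _) a a'
    · rcases h6 0 3 4 with a' | a' | a' <;> exact fin _ _ _ _ (by decide) (by decide) (by decide)
        (by decide) (by decide) (by decide) (h5 _ _) (h5 _ _) a a'
  have h5 : ∀ k l, s k + s l ≠ 0 := fun k l h => hm ⟨co b (f k) u / co b (f l) u, by
    have := h4 l
    field_simp
    linear_combination -h⟩
  have h6 : ∀ k l, k ≠ l → P k l ∨ ∀ m o, m ≠ k → m ≠ l → o ≠ k → o ≠ l → P m o := fun k l hkl => by
    have h6 := Finset.sum_pair (f := fun j => co b j u * co b j u) (hf.ne hkl)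
    by_cases h8 : IsSquare (s k + s l)
    · exact Or.inl (hJ {f k, f l} (by simp [(hfi _).symm]) (h6 ▸ h8) (h6 ▸ h5 k l) k l (by simp)
        (by simp))
    · refine Or.inr fun m o a1 a2 a3 a4 => hJ (insert i {f k, f l})ᶜ (by simp) ?_ ?_ m o
        (by simp [hfi, hf.ne a1, hf.ne a2]) (by simp [hfi, hf.ne a3, hf.ne a4]) <;> rw [htot, h6]
      · rw [← neg_one_mul]; exact H29.isSquare_mul_of_not hm h8
      · exact neg_ne_zero.2 (h5 k l)
  have fin' : ∀ k l m o, (k ≠ l ∧ m ≠ o) ∧ k ≠ m ∧ k ≠ o ∧ l ≠ m ∧ l ≠ o → P k l → P m o →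
      eichGroup Q ≤ M := fun k l m o a h1 h2 =>
    fin k l m o a.1.1 a.1.2 a.2.1 a.2.2.1 a.2.2.2.1 a.2.2.2.2 h1 h2 (h5 _ _) (h5 _ _)
  rcases h6 0 1 (by decide) with a | a
  · rcases h6 2 3 (by decide) with a' | a'
    · exact fin' _ _ _ _ (by decide) a a'
    · rcases h6 2 0 (by decide) with a'' | a''
      · exact fin' _ _ _ _ (by decide) a'' (a' 1 4 (by decide) (by decide) (by decide) (by decide))
      · exact fin' _ _ _ _ (by decide) a (a'' 3 4 (by decide) (by decide) (by decide) (by decide))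
  · rcases h6 0 2 (by decide) with a' | a'
    · exact fin' _ _ _ _ (by decide) a' (a 3 4 (by decide) (by decide) (by decide) (by decide))
    · exact fin' _ _ _ _ (by decide) (a 2 3 (by decide) (by decide) (by decide) (by decide))
        (a' 1 4 (by decide) (by decide) (by decide) (by decide))

omit h hR hpair hst hi hiu in
include hp in
/-- A new root of the norm of the frame. -/
theorem eichGroup_le_of_new [FiniteDimensional F V] {hQ : (polarBilin Q).Nondegenerate}
    (h7 : 7 ≤ Fintype.card ι) (hH : stabDec Q (fdec b) ⊓ kerDS hQ ≤ M) {v : V}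
    (hv : Rt M (b i) v) (hv' : ¬ Old b v) : eichGroup Q ≤ M := by
  have h : RootSet Q c (Rt M (b i)) := hb.norm i ▸ Rt.rootSet (hb.Q_ne i)
  have hR : ∀ j, Rt M (b i) (b j) := fun j => hb.oDec.rt_of_mem hH
    (Submodule.mem_span_singleton_self _) (Submodule.mem_span_singleton_self _) (hb.Q_ne i)
    ((hb.norm j).trans (hb.norm i).symm)
  have hH' := fun v hv g hg => hb.oDec.rt_apply hH (Submodule.mem_span_singleton_self (b i))
    (hb.Q_ne i) (v := v) hv (g := g) hg
  have hperm : ∀ v, Rt M (b i) v → ∀ a a', a ≠ a' → co b a v ≠ 0 → co b a' v ≠ 0 →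
      ∀ π : Equiv.Perm ι, ∃ w, Rt M (b i) w ∧ ∀ i, co b (π i) w ≠ 0 ↔ co b i v ≠ 0 :=
    fun v hv a a' haa ha ha' π => by
      obtain ⟨g, hg, h1⟩ := hb.exists_perm_supp (hQ := hQ) haa ha ha' π
      exact ⟨_, hH' v hv g hg, h1⟩
  by_cases hnd : ∀ v w, Rt M (b i) v → Rt M (b i) w → Q (w - v) = 0 → w = v
  · exact absurd (hb.old_of_nd hp h hR hnd h7 hperm hv) hv'
  push Not at hnd
  obtain ⟨x, y, hx, hy, h0, hne⟩ := hnd
  obtain ⟨j, u, hu0, hu, hj, hju⟩ := hb.exists_pair hp h hx hy h0 hne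
  have h1 : ∀ v, Rt M (b i) v → refl Q v ∈ stabSet Q {w | Rt M (b i) w} := fun v hv w =>
    ⟨h.refl hv, fun hw => refl_refl Q v w ▸ h.refl hv hw⟩
  refine (hb.eichGroup_le_of_pair hp h hR (M := M ⊓ stabSet Q {w | Rt M (b i) w})
    (fun v w hv hw => ⟨hv.pair hw, mul_mem (h1 v hv) (h1 w hw)⟩) (fun g hg v hv => (hg.2 v).1 hv)
    hu hj hju hQ h7 hu0 (fun W hW => ?_) fun j k l hj hk => ?_).trans inf_le_left
  · by_contra H
    push Not at H
    obtain ⟨k, hk⟩ : ∃ k, b k ∉ W := by
      by_contra h2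
      push Not at h2
      exact H.2 (eq_top_iff.2 (b.span_eq ▸ Submodule.span_le.2 (Set.range_subset_iff.2 h2)))
    obtain ⟨l, hl⟩ : ∃ l, b l ∉ perp Q W := by
      by_contra h2
      push Not at h2
      exact H.1 (eq_bot_iff.2 fun w hw => ext_co (b := b) fun l => by
        have := mem_perp.1 (h2 l) w hw
        rw [hb.polar_b] at this
        rw [(mul_eq_zero.1 this).resolve_left hb.two_c, map_zero])
    have hk' := (hW _ (hR k)).resolve_left hk
    have hl' := (hW _ (hR l)).resolve_right hl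
    obtain ⟨a, a', haa, ha, ha', -⟩ := exists_of_not_old hv'
    obtain ⟨π, rfl, rfl⟩ := exists_perm_pair haa (fun h : k = l => hk (h ▸ hl'))
    obtain ⟨w, hw, h2⟩ := hperm v hv a a' haa ha ha' π
    rcases hW w hw with h3 | h3
    · have := mem_perp.1 hk' w h3
      rw [hb.polar_b] at this
      exact mul_ne_zero hb.two_c ((h2 a).2 ha) this
    · have := mem_perp.1 h3 _ hl'
      rw [hb.b_polar] at this
      exact mul_ne_zero hb.two_c ((h2 a').2 ha') this
  · have h2 := hb.refl_mul_refl_mem (hQ := hQ) (old_sub hk) (old_sub hj)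
      ((hb.Q_sub' hk).trans_ne hb.two_c) ((hb.Q_sub' hk).trans (hb.Q_sub' hj).symm)
    exact ⟨hH h2, mem_stabSet_of_mapsTo (by have := Module.finite_of_finite F (M := V); toFinite_tac)
      fun v hv => hH' v hv _ h2⟩

end Frame

end Cfsg.Agent.H30
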