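import Cfsg.Agent.H30.FrPhi

/-!
# Overgroups of the monomial group of an orthogonal frame: roots of twice the norm of the frame
-/

set_option autoImplicit false

namespace Cfsg.Agent.H30

open QuadraticMap Module

variable {F V : Type*} [Field F] [AddCommGroup V] [Module F V] {Q : QuadraticForm F V}
  {ι : Type*} {b : Basis ι F V} {c : F}

namespace Frame

variable [Fintype ι] (hb : Frame Q c b)
include hb

theorem old_of_refl_mem {v : V} (hv : Q v ≠ 0) (h : refl Q v ∈ stabDec Q (fdec b)) : Old b v := by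
  intro i j hij hi hj
  obtain ⟨π, ε, hε, h1⟩ := hb.exists_perm h
  have h2 := fun k => congrArg (co b k) (h1 i)
  simp only [refl_apply, hb.b_polar, map_sub, map_smul, smul_eq_mul] at h2
  have h3 := mul_ne_zero (inv_ne_zero hv) (mul_ne_zero hb.two_c hi)
  generalize (Q v)⁻¹ * (2 * c * co b i v) = κ at h2 h3
  have h4 : ∀ k, k ≠ i → k ≠ π i → co b k v = 0 := fun k hk hk' => by
    simpa [co_ne hk, co_ne hk', h3] using h2 k
  obtain rfl : j = π i := not_not.1 fun h => hj (h4 j hij.symm h)
  refine ⟨mul_left_cancel₀ (mul_ne_zero h3 h3) ?_, h4⟩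
  have h5 := h2 i
  have h6 := h2 (π i)
  rw [co_self, co_ne hij] at h5
  rw [co_self, co_ne hij.symm] at h6
  have h7 : ε i * ε i = 1 := mul_self_eq_one_iff.2 (hε i)
  linear_combination -(ε i - κ * co b (π i) v) * h6 - (1 + κ * co b i v) * h5 - h7

variable [FiniteDimensional F V] {hQ : (polarBilin Q).Nondegenerate} {M : Subgroup (O Q)}
  (hH : stabDec Q (fdec b) ⊓ kerDS hQ ≤ M)
include hH

theorem rt_of_old {v w : V} (hv : Old b v) (hw : Old b w) (h0 : Q v ≠ 0) (h : Q w = Q v) :
    Rt M v w := ⟨h, hH (hb.refl_mul_refl_mem hw hv (h ▸ h0) h)⟩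

theorem old_of_rt_sub [Fintype F] (hp : (Fintype.card F).Prime) (h7 : 7 ≤ Fintype.card ι)
    (h8 : Fintype.card ι ≠ 8) (hsq : ¬ IsSquare (2 : F)) (hΦ : ∀ i v, Rt M (b i) v → Old b v)
    {d v : V} (hd : Old b d) (hQd : Q d = 2 * c) (hv : Rt M d v) : Old b v := by
  classical
  have h2 := hb.two
  have hc := hb.hc
  have hd0 := hQd.trans_ne hb.two_c
  have h : RootSet Q (2 * c) (Rt M d) := hQd ▸ Rt.rootSet hd0
  have hR : ∀ i j, i ≠ j → ∀ t : F, t * t = 1 → Rt M d (b i + t • b j) := fun i j hij t ht => by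
    have h3 := old_add (b := b) hij (s := 1) (t := t) (by rw [ht, mul_one])
    have h4 := hb.Q_comb hij 1 t
    rw [one_smul] at h3 h4
    exact hb.rt_of_old hH hd h3 hd0 (by rw [h4, hQd, ht]; ring)
  have hzero : ∀ v, Rt M d v → ∀ j, co b j v = 0 → Old b v := fun v hv j hj => by
    obtain ⟨k, hk, l, hl, hkl⟩ := Finset.one_lt_card.1 (show 1 < (Finset.univ.erase j).card by
      rw [Finset.card_erase_of_mem (Finset.mem_univ _), Finset.card_univ]; omega)
    have hk := Finset.ne_of_mem_erase hk
    have hl := Finset.ne_of_mem_erase hl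
    have h3 := hv.pair (hb.rt_of_old hH hd (old_sub hkl) hd0 ((hb.Q_sub' hkl).trans hQd.symm))
    have h4 : (refl Q v * refl Q (b k - b l)).1 (b j) = b j := by
      rw [O_mul_apply, hb.refl_sub_b, Equiv.swap_apply_of_ne_of_ne hk.symm hl.symm,
        refl_apply_of_orth (by rw [hb.b_polar, hj, mul_zero])]
    have h5 : refl Q v * refl Q (b k - b l) ∈ stabDec Q (fdec b) := hb.mem_stabDec_of fun m => by
      have h5 := (hb.rt_of_old hH (old_b j) (old_b m) (hb.Q_ne j)
        ((hb.norm m).trans (hb.norm j).symm)).conj h3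
      rw [h4] at h5
      have h6 := h5.1.trans (hb.norm j)
      rcases (hΦ j _ h5).cases (ne_zero_of_Q_ne_zero (h6.trans_ne hc)) with
        ⟨i, t, -, h⟩ | ⟨i, j, hij, t, -, h | h⟩
      · exact ⟨i, t, h⟩
      · rw [h, Q_smul, hb.Q_sub' hij] at h6
        exact absurd ⟨2 * t, mul_right_cancel₀ hc (by linear_combination -2 * h6)⟩ hsq
      · rw [h, Q_smul, hb.Q_add' hij] at h6
        exact absurd ⟨2 * t, mul_right_cancel₀ hc (by linear_combination -2 * h6)⟩ hsq
    exact hb.old_of_refl_mem (h.ne hv) ((Subgroup.mul_mem_cancel_right _ (hb.refl_sub_mem k l)).1 h5)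
  by_contra hv'
  have hfull : ∀ j, co b j v ≠ 0 := fun j hj => hv' (hzero v hv j hj)
  have hz : ∀ (S : Finset ι), S.card ≤ 4 → ∀ {w j}, Rt M d w → co b j w = 0 →
      (∀ l, l ∉ S → co b l w ≠ 0) → False := fun S hS w j hw hj h3 => by
    obtain ⟨k, l, m, hk, hl, hm, hkl, hkm, hlm⟩ := Finset.two_lt_card_iff.1
      (show 2 < Sᶜ.card by rw [Finset.card_compl]; omega)
    exact h3 m (Finset.mem_compl.1 hm) ((hzero w hw j hj).three hkl hkm hlm
      (h3 k (Finset.mem_compl.1 hk)) (h3 l (Finset.mem_compl.1 hl)))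
  have heq : ∀ i j, co b i v * co b i v = co b j v * co b j v := fun i j => by
    by_contra hne
    have hij : i ≠ j := by rintro rfl; exact hne rfl
    have h3 : (3 : F) ≠ 0 := fun h3 => hne ((mul_self_eq_one_of_three hp h3 (hfull i)).trans
      (mul_self_eq_one_of_three hp h3 (hfull j)).symm)
    obtain ⟨z, hz'⟩ : ∃ z, z = v - co b i v • b i - co b j v • b j := ⟨_, rfl⟩
    have hzi : co b i z = 0 := by simp [hz', co_ne hij]
    have hzj : co b j z = 0 := by simp [hz', co_ne hij.symm]
    have hzl : ∀ (x y t : F) l, l ∉ ({i, j} : Finset ι) → co b l (x • (b i + (1 : F) • b j) +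
        y • (b i + (-1 : F) • b j) + t • z) = t * co b l v := fun x y t l hl => by
      simp only [Finset.mem_insert, Finset.mem_singleton, not_or] at hl
      simp [hz', co_ne hl.1, co_ne hl.2]
    have hS : ({i, j} : Finset ι).card ≤ 4 := Finset.card_le_two.trans (by omega)
    rcases h.cases_three' (hR i j hij 1 (by simp)) (hR i j hij (-1) (by simp)) (z := z)
      (by simp [hb.polar_b, co_ne hij, co_ne hij.symm]) (by simp [hb.b_polar, hzi, hzj])
      (by simp [hb.b_polar, hzi, hzj]) hp h2 h3 hsq (x := (co b i v + co b j v) / 2)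
      (y := (co b i v - co b j v) / 2)
      (div_ne_zero (fun h => hne (by linear_combination (co b i v - co b j v) * h)) h2)
      (div_ne_zero (fun h => hne (by linear_combination (co b i v + co b j v) * h)) h2)
      (by convert hv using 1; rw [hz']; match_scalars <;> field_simp <;> ring) with
      H | ⟨hQz, H⟩ | ⟨H, H'⟩ | ⟨t, ht, H⟩
    · obtain ⟨k, hk⟩ : ∃ k, k ∈ ({i, j} : Finset ι)ᶜ := Finset.card_pos.1 (by
        rw [Finset.card_compl]; omega)
      simp only [Finset.mem_compl, Finset.mem_insert, Finset.mem_singleton, not_or] at hk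
      have h4 : co b i (((co b i v + co b j v) / 2) • (b i + (1 : F) • b j) +
          ((co b i v - co b j v) / 2) • (b i + (-1 : F) • b j)) = co b i v := by
        simp [co_ne hij]; field_simp; ring
      have h5 : co b j (((co b i v + co b j v) / 2) • (b i + (1 : F) • b j) +
          ((co b i v - co b j v) / 2) • (b i + (-1 : F) • b j)) = co b j v := by
        simp [co_ne hij.symm]; field_simp; ring
      have := (hzero _ H k (by simp [co_ne hk.1, co_ne hk.2]) i j hij (h4.trans_ne (hfull i))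
        (h5.trans_ne (hfull j))).1
      rw [h4, h5] at this
      exact hne this
    · obtain ⟨x, t, h4⟩ := exists_binary h2 (mul_ne_zero h2 hb.two_c) hQz (2 * c)
      refine hz _ hS (j := i) (H x (-x) t (by linear_combination h4)) (by simp [co_ne hij, hzi])
        fun l hl => hzl _ _ _ l hl ▸ mul_ne_zero ?_ (hfull l)
      rintro rfl
      exact hsq ⟨2 * x, mul_right_cancel₀ hb.two_c (by linear_combination -2 * h4)⟩
    · refine mul_ne_zero (mul_ne_zero h2 h2) (mul_ne_zero (hfull i) (hfull j)) ?_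
      field_simp at H H'
      linear_combination 2⁻¹ * 2⁻¹ * (H - H') + (2⁻¹ * 2 + 1) * 4 * co b i v * co b j v *
        (mul_inv_cancel₀ h2).symm
    · refine hz _ hS (j := i) H (by simp [hzi]) fun l hl => ?_
      have := hzl 0 0 t l hl ▸ mul_ne_zero ht (hfull l)
      simpa using this
  have hR' : ∀ i j, i ≠ j → Rt M d (b i + (co b j v / co b i v) • b j) := fun i j hij =>
    hR i j hij _ (by rw [div_mul_div_comm, heq j i, div_self (mul_self_ne_zero.2 (hfull i))])
  have hpol : ∀ i j, polar Q v (b i + (co b j v / co b i v) • b j) = 2 * (2 * c) * co b i v :=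
    fun i j => by
      have := hfull i
      rw [polar_add_right, polar_smul_right', hb.polar_b, hb.polar_b]
      field_simp
      linear_combination heq j i
  have h4 : ∀ i, 4 * (co b i v * co b i v) = 1 := fun i => by
    by_cases h3 : (3 : F) = 0
    · linear_combination 4 * mul_self_eq_one_of_three hp h3 (hfull i) + h3
    obtain ⟨f, hf, -⟩ := exists_inj_of_card (n := 5) (T := (Finset.univ : Finset ι)) (by simp; omega)
    rw [heq i (f 0)]
    have hn := fun k l (h : k ≠ l) => co_ne (b := b) (hf.ne h)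
    obtain ⟨z, hz'⟩ : ∃ z, z = v - co b (f 0) v • b (f 0) - co b (f 1) v • b (f 1) -
      co b (f 2) v • b (f 2) - co b (f 3) v • b (f 3) := ⟨_, rfl⟩
    have hz0 : co b (f 0) z = 0 := by simp [hz', hn]
    have hz1 : co b (f 1) z = 0 := by simp [hz', hn]
    have hz2 : co b (f 2) z = 0 := by simp [hz', hn]
    have hz3 : co b (f 3) z = 0 := by simp [hz', hn]
    have hzl : ∀ (x y t : F) l, l ∉ ({f 0, f 1, f 2, f 3} : Finset ι) → co b l
        (x • (b (f 0) + (co b (f 1) v / co b (f 0) v) • b (f 1)) + y • (b (f 2) + (co b (f 3) v /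
        co b (f 2) v) • b (f 3)) + t • z) = t * co b l v := fun x y t l hl => by
      simp only [Finset.mem_insert, Finset.mem_singleton, not_or] at hl
      simp [hz', co_ne hl.1, co_ne hl.2.1, co_ne hl.2.2.1, co_ne hl.2.2.2]
    have hS : ({f 0, f 1, f 2, f 3} : Finset ι).card ≤ 4 := Finset.card_le_four
    have h5 := hfull (f 0)
    have h6 := hfull (f 2)
    rcases h.cases_three' (hR' _ _ (hf.ne (show 0 ≠ 1 by decide)))
      (hR' _ _ (hf.ne (show 2 ≠ 3 by decide))) (z := z) (by simp [hb.polar_b, hn])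
      (by simp [hb.b_polar, hz0, hz1]) (by simp [hb.b_polar, hz2, hz3]) hp h2 h3 hsq h5 h6
      (by convert hv using 1; rw [hz']; match_scalars <;> field_simp <;> ring) with
      H | ⟨hQz, H⟩ | ⟨H, -⟩ | ⟨t, ht, H⟩
    · have := (hzero _ H (f 4) (by simp [hn])).three (hf.ne (show 0 ≠ 1 by decide))
        (hf.ne (show 0 ≠ 2 by decide)) (hf.ne (show 1 ≠ 2 by decide)) (by simp [hn, h5])
        (by simp [hn, h5, hfull])
      simp [hn, h6] at this
    · obtain ⟨κ, hκ, h9⟩ : ∃ κ : F, κ ≠ 0 ∧ κ * κ * Q z + 2 * c ≠ 0 := by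
        by_contra h9
        push Not at h9
        exact mul_ne_zero h3 hQz (by linear_combination h9 2 h2 - h9 1 one_ne_zero)
      exact (hz _ hS (j := f 0) (H 0 ((κ * κ * Q z - 2 * c) * (κ * κ * Q z + 2 * c)⁻¹)
        (2 * κ * (2 * c) * (κ * κ * Q z + 2 * c)⁻¹) (by
          linear_combination 2 * c * ((κ * κ * Q z + 2 * c) * (κ * κ * Q z + 2 * c)⁻¹ + 1) *
            mul_inv_cancel₀ h9)) (by simp [hn, hz0])
        fun l hl => hzl _ _ _ l hl ▸ mul_ne_zero (mul_ne_zero (mul_ne_zero (mul_ne_zero h2 hκ)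
          hb.two_c) (inv_ne_zero h9)) (hfull l)).elim
    · exact H
    · refine (hz _ hS (j := f 0) H (by simp [hz0]) fun l hl => ?_).elim
      have := hzl 0 0 t l hl ▸ mul_ne_zero ht (hfull l)
      simpa using this
  have h9 : 9 ≤ Fintype.card ι := by
    by_contra h9
    have h5 := congrArg (4 * ·) ((hb.Q_eq v).symm.trans (h.norm hv))
    rw [mul_left_comm, Finset.mul_sum, Finset.sum_congr rfl fun i _ => h4 i, Finset.sum_const,
      Finset.card_univ, show Fintype.card ι = 7 by omega] at h5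
    exact hc (by simp at h5; linear_combination -h5)
  obtain ⟨f, hf, -⟩ := exists_inj_of_card (n := 9) (T := (Finset.univ : Finset ι)) (by simpa)
  have hn := fun k l (h : k ≠ l) => co_ne (b := b) (hf.ne h)
  have h5 := h.flip (f := fun r : Fin 4 => b (f (r.castAdd 5)) + (co b (f (r.castSucc.natAdd 4)) v /
    co b (f (r.castAdd 5)) v) • b (f (r.castSucc.natAdd 4))) (fun r => hR' _ _ (hf.ne (by
      revert r; decide))) (fun r s hrs => by
      have a1 : r.castAdd 5 ≠ s.castAdd 5 := by revert r s; decide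
      have a2 : r.castAdd 5 ≠ s.castSucc.natAdd 4 := by clear hrs a1; revert r s; decide
      have a3 : r.castSucc.natAdd 4 ≠ s.castAdd 5 := by clear hrs a1 a2; revert r s; decide
      have a4 : r.castSucc.natAdd 4 ≠ s.castSucc.natAdd 4 := by clear a1 a2 a3; revert r s; decide
      simp [hb.orth _ _ (hf.ne a1), hb.orth _ _ (hf.ne a2), hb.orth _ _ (hf.ne a3),
        hb.orth _ _ (hf.ne a4)]) hv Finset.univ
  simp only [hpol, mul_comm 2 (2 * c), mul_assoc (2 * c), inv_mul_cancel_left₀ hb.two_c, mul_smul,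
    ← Finset.smul_sum] at h5
  have h6 : polar Q v (∑ r : Fin 4, co b (f (r.castAdd 5)) v • (b (f (r.castAdd 5)) +
      (co b (f (r.castSucc.natAdd 4)) v / co b (f (r.castAdd 5)) v) •
        b (f (r.castSucc.natAdd 4)))) = 2 * (2 * c) := by
    rw [polar_sum_right, Finset.sum_congr rfl fun r _ => show _ = c by
      rw [polar_smul_right', hpol]; linear_combination c * h4 _]
    simp; ring
  have h10 : ∀ k : Fin 9, co b (f k) (∑ r : Fin 4, co b (f (r.castAdd 5)) v • (b (f (r.castAdd 5)) +
      (co b (f (r.castSucc.natAdd 4)) v / co b (f (r.castAdd 5)) v) •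
        b (f (r.castSucc.natAdd 4)))) = if k = 8 then 0 else co b (f k) v := fun k => by
    simp only [smul_add, smul_smul, mul_div_cancel₀ _ (hfull _), map_add, map_smul, co_b,
      hf.eq_iff, Fin.sum_univ_four]
    fin_cases k <;> simp [Fin.ext_iff]
  generalize (∑ r : Fin 4, co b (f (r.castAdd 5)) v • (b (f (r.castAdd 5)) +
    (co b (f (r.castSucc.natAdd 4)) v / co b (f (r.castAdd 5)) v) •
      b (f (r.castSucc.natAdd 4)))) = y at h5 h6 h10
  have h11 := h.line hp hv (u := (2 : F) • y - (2 : F) • v) (by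
    convert h.neg h5 using 1; module) (by
    have := h.norm h5
    rw [Q_sub, polar_smul_right', h6, h.norm hv] at this
    rw [Q_sub, Q_smul _ _ v, polar_smul_left', polar_smul_right', polar_comm, h6, h.norm hv]
    linear_combination this) 2⁻¹
  rw [show v + (2⁻¹ : F) • ((2 : F) • y - (2 : F) • v) = y by
    rw [← smul_sub, inv_smul_smul₀ h2, add_sub_cancel]] at h11
  have := (hzero _ h11 (f 8) (by simp [h10])).three (hf.ne (show 0 ≠ 1 by decide))
    (hf.ne (show 0 ≠ 2 by decide)) (hf.ne (show 1 ≠ 2 by decide)) (by simp [h10, hfull])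
    (by simp [h10, hfull])
  simp [h10, hfull] at this

end Frame

end Cfsg.Agent.H30
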