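import Cfsg.Agent.H30.FrDickson

/-!
# Reflection-closed sets of vectors over a prime field
-/

set_option autoImplicit false

namespace Cfsg.Agent.H30

open QuadraticMap Module

variable {F V : Type*} [Field F] [AddCommGroup V] [Module F V] {Q : QuadraticForm F V}

theorem SmallTr.pair (h2 : (2 : F) ≠ 0) (h3 : (3 : F) ≠ 0) {s t : F} (hs : SmallTr s)
    (ht : SmallTr t) (hst : SmallTr (s * t)) : s = 1 ∨ t = 1 ∨ s + t = 3 ∨ (s = 2 ∧ t = 2) := by
  have key : ∀ t : F, t * t - 3 * t + 1 = 0 → ¬ SmallTr (2 * t) := by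
    have h4 : ∀ t : F, t * t - 3 * t + 1 = 0 → 2 * t ≠ 1 := fun t ht h =>
      one_ne_zero (α := F) (by linear_combination (2 * t - 5) * h - 4 * ht)
    rintro t ht (h | h | h)
    · exact h4 t ht h
    · obtain rfl : t = 1 := mul_left_cancel₀ h2 (by linear_combination h)
      exact one_ne_zero (α := F) (by linear_combination -ht)
    · exact h4 t ht (mul_left_cancel₀ h3 (by linear_combination h - 4 * ht))
  rcases hs with hs | rfl | hs
  · exact Or.inl hs
  · rcases ht with ht | ht | ht
    · exact Or.inr (Or.inl ht)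
    · exact Or.inr (Or.inr (Or.inr ⟨rfl, ht⟩))
    · exact absurd hst (key t ht)
  · rcases ht with ht | rfl | ht
    · exact Or.inr (Or.inl ht)
    · exact absurd (mul_comm s 2 ▸ hst) (key s hs)
    · rcases mul_eq_zero.1 (show (s - t) * (s + t - 3) = 0 by linear_combination hs - ht) with h | h
      · obtain rfl := sub_eq_zero.1 h
        rcases hst with h | h | h
        · refine Or.inr (Or.inr (Or.inl ?_))
          linear_combination ((s - 1) * (3 * s + 2) - 1) * (h - hs) - 9 * (s - 1) * h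
        · exact Or.inl (mul_left_cancel₀ h3 (by linear_combination h - hs))
        · have h5 : s * s = 0 := mul_left_cancel₀ (mul_ne_zero h2 h2) (by
            linear_combination h - (s * s + 3 * s + 1) * hs)
          rw [mul_self_eq_zero.1 h5] at hs
          simp at hs
      · exact Or.inr (Or.inr (Or.inl (sub_eq_zero.1 h)))

theorem SmallTr.five (h2 : (2 : F) ≠ 0) (h3 : (3 : F) ≠ 0) (s : Fin 5 → F) (hs : ∀ i, SmallTr (s i))
    (hst : ∀ i j, i ≠ j → SmallTr (s i * s j)) : ∃ J : Finset (Fin 5), J ≠ Finset.univ ∧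
      ∑ i ∈ J, s i = 4 := by
  by_contra H
  push Not at H
  have hc : ∀ J : Finset (Fin 5), J.card < 5 → ∑ i ∈ J, s i ≠ 4 := fun J hJ =>
    H J (by rintro rfl; simp at hJ)
  have h4 : ∀ i j, i ≠ j → s i = 1 ∨ s j = 1 ∨ s i + s j = 3 := fun i j hij => by
    rcases (hs i).pair h2 h3 (hs j) (hst i j hij) with h | h | h | h
    · exact Or.inl h
    · exact Or.inr (Or.inl h)
    · exact Or.inr (Or.inr h)
    · exact absurd (by rw [Finset.sum_pair hij, h.1, h.2]; norm_num)
        (hc {i, j} (Finset.card_le_two.trans_lt (by omega)))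
  have h5 : ∀ i j, i ≠ j → s i + s j ≠ 3 := fun i j hij h => by
    have h6 : ∀ k, k ≠ i → k ≠ j → s k ≠ 1 := fun k hi hj hk => hc {k, i, j}
      (Finset.card_le_three.trans_lt (by omega)) (by
        rw [Finset.sum_insert (by simp [hi, hj]), Finset.sum_pair hij, h, hk]; norm_num)
    obtain ⟨k, l, m, h7⟩ : ∃ k l m : Fin 5, k ≠ i ∧ k ≠ j ∧ l ≠ i ∧ l ≠ j ∧ m ≠ i ∧ m ≠ j ∧
        k ≠ l ∧ k ≠ m ∧ l ≠ m := by clear h h6; revert i j; decide
    obtain ⟨a1, a2, a3, a4, a5, a6, a7, a8, a9⟩ := h7
    have b1 := ((h4 k l a7).resolve_left (h6 k a1 a2)).resolve_left (h6 l a3 a4)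
    have b2 := ((h4 k m a8).resolve_left (h6 k a1 a2)).resolve_left (h6 m a5 a6)
    have b3 := ((h4 l m a9).resolve_left (h6 l a3 a4)).resolve_left (h6 m a5 a6)
    have b4 : 2 * s k = 3 := by linear_combination b1 + b2 - b3
    rcases hs k with h8 | h8 | h8
    · exact h6 k a1 a2 h8
    · exact one_ne_zero (α := F) (by linear_combination b4 - 2 * h8)
    · exact hc {k} (by simp) (by
        rw [Finset.sum_singleton]
        refine mul_left_cancel₀ h2 ?_
        linear_combination (4 - 2 * s k) * b4 + 4 * h8)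
  have h6 : ∃ i, ∀ j, j ≠ i → s j = 1 := by
    by_cases h : ∀ j, s j = 1
    · exact ⟨0, fun j _ => h j⟩
    · push Not at h
      obtain ⟨i, hi⟩ := h
      exact ⟨i, fun j hj => ((h4 j i hj).resolve_right fun h => h.elim hi (h5 j i hj))⟩
  obtain ⟨i, hi⟩ := h6
  refine hc (Finset.univ.erase i) (by simp) ?_
  rw [Finset.sum_congr rfl fun j hj => hi j (Finset.ne_of_mem_erase hj)]
  simp

/-- A set of vectors of the same non-zero norm, closed under the reflections in its members. -/
structure RootSet (Q : QuadraticForm F V) (c : F) (R : V → Prop) : Prop where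
  hc : c ≠ 0
  norm : ∀ {v}, R v → Q v = c
  refl : ∀ {v w}, R v → R w → R ((refl Q v).1 w)

theorem Rt.rootSet {M : Subgroup (O Q)} {x : V} (hx : Q x ≠ 0) : RootSet Q (Q x) (Rt M x) :=
  ⟨hx, fun h => h.1, fun h h' => h.refl_apply h'⟩

namespace RootSet

variable {c : F} {R : V → Prop} (h : RootSet Q c R)
include h

theorem ne {v : V} (hv : R v) : Q v ≠ 0 := (h.norm hv).trans_ne h.hc

theorem neg {v : V} (hv : R v) : R (-v) := refl_apply_self (h.ne hv) ▸ h.refl hv hv

theorem sub {v w : V} {κ : F} (hv : R v) (hw : R w) (hκ : κ * c = polar Q w v) : R (w - κ • v) := by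
  have := h.refl hv hw
  rwa [refl_apply, h.norm hv, ← hκ, mul_comm κ, inv_mul_cancel_left₀ h.hc] at this

theorem line [Fintype F] (hp : (Fintype.card F).Prime) {v u : V} (hv : R v) (hu : R (v + u))
    (hQ : Q u = 0) (t : F) : R (v + t • u) := by
  have h1 : polar Q v u = 0 := by
    have := h.norm hu
    rw [Q_add, h.norm hv, hQ] at this
    linear_combination this
  obtain ⟨n, rfl⟩ := exists_nat_cast_of_prime hp t
  suffices H : R (v + (n : F) • u) ∧ R (v + ((n + 1 : ℕ) : F) • u) from H.1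
  induction n with
  | zero => simpa using ⟨hv, hu⟩
  | succ n ih =>
    refine ⟨ih.2, ?_⟩
    convert h.neg (h.sub (κ := 2) ih.2 ih.1 (by
      simp only [polar_add_left, polar_add_right, polar_smul_left', polar_smul_right', polar_self',
        polar_comm Q u v, h1, hQ, h.norm hv]
      ring)) using 1
    push_cast
    module

theorem flip {ι : Type*} {f : ι → V} (hf : ∀ i, R (f i))
    (horth : ∀ i j, i ≠ j → polar Q (f i) (f j) = 0) {v : V} (hv : R v) (J : Finset ι) :
    R (v - ∑ j ∈ J, (c⁻¹ * polar Q v (f j)) • f j) := by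
  classical
  induction J using Finset.induction_on with
  | empty => simpa using hv
  | insert a J ha ih =>
    rw [Finset.sum_insert ha, add_comm, ← sub_sub]
    refine h.sub (hf a) ih ?_
    rw [polar_sub_left, polar_sum_left, Finset.sum_eq_zero fun j hj => by
      rw [polar_smul_left', horth j a (by rintro rfl; exact ha hj), mul_zero], sub_zero,
      mul_comm, mul_inv_cancel_left₀ h.hc]

section Three

variable {a b z : V} (ha : R a) (hb : R b) (hab : polar Q a b = 0) (haz : polar Q a z = 0)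
  (hbz : polar Q b z = 0)
include ha hb hab haz hbz

theorem polar_three (x y t x' y' t' : F) :
    polar Q (x • a + y • b + t • z) (x' • a + y' • b + t' • z) =
      2 * (c * (x * x' + y * y') + Q z * (t * t')) := by
  simp only [polar_add_left, polar_add_right, polar_smul_left', polar_smul_right', polar_self',
    polar_comm Q b a, polar_comm Q z a, polar_comm Q z b, hab, haz, hbz, h.norm ha, h.norm hb]
  ring

theorem Q_three (x y t : F) : Q (x • a + y • b + t • z) = c * (x * x + y * y) + Q z * (t * t) := by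
  simp only [Q_add, Q_smul, polar_add_left, polar_smul_left', polar_smul_right', hab, haz, hbz,
    h.norm ha, h.norm hb]
  ring

theorem sub_three {x y t x' y' t' κ : F} (hv : R (x • a + y • b + t • z))
    (hw : R (x' • a + y' • b + t' • z))
    (hκ : κ * c = 2 * (c * (x * x' + y * y') + Q z * (t * t'))) :
    R ((x' - κ * x) • a + (y' - κ * y) • b + (t' - κ * t) • z) := by
  convert h.sub (κ := κ) hv hw (by rw [h.polar_three ha hb hab haz hbz, hκ]; ring) using 1
  module

variable [Fintype F] (hp : (Fintype.card F).Prime) (h2 : (2 : F) ≠ 0) (h3 : (3 : F) ≠ 0)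
include hp h2 h3

theorem cases_three (hz : Q z ≠ 0) {x y : F} (hx : x ≠ 0) (hy : y ≠ 0)
    (hv : R (x • a + y • b + z)) :
    (∀ x y t, c * (x * x + y * y) + Q z * (t * t) = c → R (x • a + y • b + t • z)) ∨
      ∀ x y t : F, R (x • a + y • b + t • z) → t ≠ 0 → (x ≠ 0 → SmallTr (4 * (x * x))) ∧
        (y ≠ 0 → SmallTr (4 * (y * y))) :=
  triple_cases hp h2 h3 h.hc hz (fun x y t => R (x • a + y • b + t • z))
    (fun x y t hv => by rw [← h.Q_three ha hb hab haz hbz, h.norm hv])
    (fun _ _ _ _ _ _ _ hv hw hκ => h.sub_three ha hb hab haz hbz hv hw hκ)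
    (fun x y t hv => by convert h.neg hv using 1; module) (by simpa) (by simpa)
    (z := 1) (by simpa) hx hy one_ne_zero

/-- A root non-orthogonal to two orthogonal roots, when `2` is not a square. -/
theorem cases_three' (hsq : ¬ IsSquare (2 : F)) {x y : F} (hx : x ≠ 0) (hy : y ≠ 0)
    (hv : R (x • a + y • b + z)) : R (x • a + y • b) ∨
    (Q z ≠ 0 ∧ ∀ x y t, c * (x * x + y * y) + Q z * (t * t) = c → R (x • a + y • b + t • z)) ∨
      (4 * (x * x) = 1 ∧ 4 * (y * y) = 1) ∨ ∃ t : F, t ≠ 0 ∧ R (t • z) := by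
  have hv' : R (x • a + y • b + (1 : F) • z) := by rwa [one_smul]
  have hsub := fun {x y t x' y' t' κ} => h.sub_three ha hb hab haz hbz (x := x) (y := y) (t := t)
    (x' := x') (y' := y') (t' := t') (κ := κ)
  have ha' : R ((1 : F) • a + (0 : F) • b + (0 : F) • z) := by simpa
  have hb' : R ((0 : F) • a + (1 : F) • b + (0 : F) • z) := by simpa
  have hneg : ∀ {x y t : F}, R (x • a + y • b + t • z) → R (x • a + y • b + (-t) • z) :=
    fun {x y t} hv => by
      convert h.neg (hsub (κ := 2 * y) hb' (hsub (κ := 2 * x) ha' hv (by ring)) (by ring)) using 1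
      module
  by_cases hz : Q z = 0
  · have := h.line hp (u := (-2 : F) • z) hv' (by convert hneg hv' using 1; module)
      (by rw [Q_smul, hz, mul_zero]) 2⁻¹
    rw [smul_smul, show (2⁻¹ * -2 : F) = -1 by field_simp] at this
    exact Or.inl (by convert this using 1; module)
  refine Or.inr ((h.cases_three ha hb hab haz hbz hp h2 h3 hz hx hy hv).imp (fun h => ⟨hz, h⟩)
    fun H => ?_)
  have key : ∀ {x y t : F}, R (x • a + y • b + t • z) → t ≠ 0 → 4 * (x * x) + 4 * (y * y) = 3 →
      ∃ t : F, t ≠ 0 ∧ R (t • z) := fun {x y t} hv ht h4 => by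
    have h5 := h.norm hv
    rw [h.Q_three ha hb hab haz hbz] at h5
    refine ⟨-t - t, fun h0 => mul_ne_zero h2 ht (by linear_combination -h0), ?_⟩
    simpa using hsub (κ := 1) hv (hneg hv) (by linear_combination 2 * h5 - c * h4)
  have h4 : ∀ x : F, 4 * (x * x) ≠ 2 := fun x h => hsq ⟨2 * x, by linear_combination -h⟩
  obtain ⟨h5, h6⟩ := H x y 1 hv' one_ne_zero
  have h7 := hsub (κ := 2 * x) hv' ha' (by ring)
  have h8 := hsub (κ := 2 * y) hv' hb' (by ring)
  have h9 : (0 : F) - 2 * x * 1 ≠ 0 := by simpa using ⟨h2, hx⟩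
  have h10 := (H _ _ _ h7 h9).2 (by simpa using ⟨⟨h2, hx⟩, hy⟩)
  rw [show 4 * ((0 - 2 * x * y) * (0 - 2 * x * y)) = 4 * (x * x) * (4 * (y * y)) by ring] at h10
  rcases (h5 hx).pair h2 h3 (h6 hy) h10 with h11 | h11 | h11 | h11
  · rcases h6 hy with h12 | h12 | h12
    · exact Or.inl ⟨h11, h12⟩
    · exact absurd h12 (h4 y)
    · exact Or.inr (key h8 (by simpa using ⟨h2, hy⟩) (by
        linear_combination h12 + 4 * y * y * h11))
  · rcases h5 hx with h12 | h12 | h12
    · exact Or.inl ⟨h12, h11⟩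
    · exact absurd h12 (h4 x)
    · exact Or.inr (key h7 h9 (by linear_combination h12 + 4 * x * x * h11))
  · exact Or.inr (key hv' one_ne_zero h11)
  · exact absurd h11.1 (h4 x)

end Three

theorem exists_three (h2 : (2 : F) ≠ 0) {a b : V} (ha : R a) (hb : R b) (hab : polar Q a b = 0)
    (v : V) : ∃ z, polar Q a z = 0 ∧ polar Q b z = 0 ∧
      v = ((2 * c)⁻¹ * polar Q v a) • a + ((2 * c)⁻¹ * polar Q v b) • b + z := by
  have := h.hc
  refine ⟨v - ((2 * c)⁻¹ * polar Q v a) • a - ((2 * c)⁻¹ * polar Q v b) • b, ?_, ?_, by abel⟩ <;>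
    simp only [polar_sub_right, polar_smul_right', polar_self', polar_comm Q b a, hab,
      polar_comm Q v, h.norm ha, h.norm hb] <;> field_simp <;> ring

variable [Fintype F] (hp : (Fintype.card F).Prime) (h2 : (2 : F) ≠ 0) (h3 : (3 : F) ≠ 0)
  (hnd : ∀ v w, R v → R w → Q (w - v) = 0 → w = v)
include hp h2 h3 hnd

theorem smallTr_of_four {a b d e v : V} (ha : R a) (hb : R b) (hd : R d)
    (hab : polar Q a b = 0) (had : polar Q a d = 0) (hae : polar Q a e = 0) (hbd : polar Q b d = 0)
    (hbe : polar Q b e = 0) (hde : polar Q d e = 0) (hv : R v) (hva : polar Q v a ≠ 0)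
    (hvb : polar Q v b ≠ 0) (hvd : polar Q v d ≠ 0) (hve : polar Q v e ≠ 0) :
    SmallTr (c⁻¹ * polar Q v a * (c⁻¹ * polar Q v a)) := by
  obtain ⟨z, haz, hbz, hz⟩ := h.exists_three h2 ha hb hab v
  have hc := h.hc
  have h4 := inv_ne_zero (mul_ne_zero h2 hc)
  have hzd : polar Q z d = polar Q v d := by
    rw [hz]; simp only [polar_add_left, polar_smul_left', had, hbd]; ring
  have hze : polar Q z e = polar Q v e := by
    rw [hz]; simp only [polar_add_left, polar_smul_left', hae, hbe]; ring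
  have hv' := hz ▸ hv
  by_cases hQ : Q z = 0
  · have h5 := h.neg (h.refl ha (h.refl hb hv))
    have h6 : -(H30.refl Q a).1 ((H30.refl Q b).1 v) - v = (-2 : F) • z := by
      rw [refl_apply, refl_apply, polar_sub_left, polar_smul_left', polar_comm Q b a, hab,
        h.norm ha, h.norm hb, ← sub_eq_iff_eq_add'.2 hz]
      match_scalars <;> field_simp <;> ring
    have h7 := hnd _ _ hv h5 (by rw [h6, Q_smul, hQ, mul_zero])
    rw [h7, sub_self, eq_comm, smul_eq_zero, neg_eq_zero, or_iff_right h2] at h6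
    exact absurd (by rw [← hzd, h6, polar_zero_left]) hvd
  rcases h.cases_three ha hb hab haz hbz hp h2 h3 hQ (mul_ne_zero h4 hva) (mul_ne_zero h4 hvb) hv'
    with H | H
  · obtain ⟨x, y, h5⟩ := exists_binary h2 hc hc
      (c - Q z * (2 * c / polar Q v d * (2 * c / polar Q v d)))
    have h6 := H x y (2 * c / polar Q v d) (by linear_combination h5)
    have h7 := hnd _ _ h6 hd (by
      rw [Q_sub, h.norm hd, h.norm h6, polar_comm]
      simp only [polar_add_left, polar_smul_left', had, hbd, hzd]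
      field_simp; ring)
    rw [h7] at hde
    simp only [polar_add_left, polar_smul_left', hae, hbe, hze, mul_zero, zero_add] at hde
    exact absurd hde (mul_ne_zero (div_ne_zero (mul_ne_zero h2 hc) hvd) hve)
  · convert (H _ _ 1 ((one_smul F z).symm ▸ hv') one_ne_zero).1 (mul_ne_zero h4 hva) using 1
    field_simp; ring

/-- A root is orthogonal to one of any five pairwise orthogonal roots. -/
theorem exists_orth_of_five (f : Fin 5 → V) (hf : ∀ i, R (f i))
    (horth : ∀ i j, i ≠ j → polar Q (f i) (f j) = 0) {v : V} (hv : R v) :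
    ∃ i, polar Q v (f i) = 0 := by
  by_contra H
  push Not at H
  have hc := h.hc
  obtain ⟨J, hJ, h4⟩ := SmallTr.five h2 h3 (fun i => c⁻¹ * polar Q v (f i) *
    (c⁻¹ * polar Q v (f i))) (fun i => by
      obtain ⟨j, k, l, a1, a2, a3, a4, a5, a6⟩ : ∃ j k l : Fin 5, i ≠ j ∧ i ≠ k ∧ i ≠ l ∧ j ≠ k ∧
        j ≠ l ∧ k ≠ l := by revert i; decide
      exact h.smallTr_of_four hp h2 h3 hnd (hf i) (hf j) (hf k) (horth _ _ a1) (horth _ _ a2)
        (horth _ _ a3) (horth _ _ a4) (horth _ _ a5) (horth _ _ a6) hv (H i) (H j) (H k) (H l))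
    (fun i j hij => by
      obtain ⟨k, l, m, ⟨a1, a2, a3⟩, ⟨a4, a5, a6⟩, a7, a8, a9⟩ : ∃ k l m : Fin 5,
          (i ≠ k ∧ i ≠ l ∧ i ≠ m) ∧ (j ≠ k ∧ j ≠ l ∧ j ≠ m) ∧ k ≠ l ∧ k ≠ m ∧ l ≠ m := by
        clear hij; revert i j; decide
      have h5 : ∀ j, i ≠ j → polar Q ((H30.refl Q v).1 (f i)) (f j) =
          -(c⁻¹ * polar Q v (f i) * polar Q v (f j)) := fun j hj => by
        rw [refl_apply, polar_sub_left, horth i j hj, polar_smul_left', h.norm hv,
          polar_comm Q (f i), zero_sub]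
      have h6 : ∀ j, i ≠ j → polar Q ((H30.refl Q v).1 (f i)) (f j) ≠ 0 := fun j hj => by
        rw [h5 j hj]
        exact neg_ne_zero.2 (mul_ne_zero (mul_ne_zero (inv_ne_zero hc) (H i)) (H j))
      convert h.smallTr_of_four hp h2 h3 hnd (hf j) (hf k) (hf l) (horth _ _ a4) (horth _ _ a5)
        (horth _ _ a6) (horth _ _ a7) (horth _ _ a8) (horth _ _ a9) (h.refl hv (hf i)) (h6 j hij)
        (h6 k a1) (h6 l a2) (h6 m a3) using 1
      rw [h5 j hij]; ring)
  obtain ⟨m, hm⟩ : ∃ m, m ∉ J := by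
    by_contra h5
    push Not at h5
    exact hJ (Finset.eq_univ_of_forall h5)
  have h5 := h.neg (h.flip hf horth hv J)
  have h6 := hnd _ _ hv h5 (by
    rw [Q_sub, h.norm h5, h.norm hv, polar_neg_left, polar_sub_left, polar_self', h.norm hv,
      polar_sum_left, Finset.sum_congr rfl fun j _ => show _ = c * (c⁻¹ * polar Q v (f j) *
        (c⁻¹ * polar Q v (f j))) by rw [polar_smul_left', polar_comm Q (f j)]; field_simp,
      ← Finset.mul_sum, h4]
    ring)
  have h7 := congrArg (fun w => polar Q w (f m)) h6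
  simp only [polar_neg_left, polar_sub_left, polar_sum_left, polar_smul_left'] at h7
  rw [Finset.sum_eq_zero fun j hj => by rw [horth j m (by rintro rfl; exact hm hj), mul_zero]] at h7
  exact mul_ne_zero h2 (H m) (by linear_combination -h7)

end RootSet

end Cfsg.Agent.H30
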