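import Cfsg.Agent.H30.FrPsi
import Cfsg.Agent.H30.DecTwo

/-!
# Maximality of the monomial group of an orthogonal frame over a prime field
-/

set_option autoImplicit false

namespace Cfsg.Agent.H30

open QuadraticMap Module

variable {F V : Type*} [Field F] [AddCommGroup V] [Module F V] {Q : QuadraticForm F V}
  {ι : Type*} {b : Basis ι F V} {c : F}

theorem exists_co_apply_ne_zero (g : O Q) (k : ι) : ∃ j, co b k (g.1 (b j)) ≠ 0 := by
  by_contra H
  push Not at H
  have h1 : co b k ∘ₗ (g.1 : V →ₗ[F] V) = 0 := b.ext H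
  simpa [O_apply_inv] using LinearMap.congr_fun h1 ((g⁻¹).1 (b k))

theorem old_sub_smul (i j : ι) {ε : F} (hε : ε = 1 ∨ ε = -1) : Old b (b i - ε • b j) := by
  by_cases hij : i = j
  · simpa [hij, sub_smul] using (old_b (b := b) j).smul (1 - ε)
  · simpa [sub_eq_add_neg] using old_add (b := b) hij (s := 1) (t := -ε)
      (by rcases hε with rfl | rfl <;> simp)

namespace Frame

variable [Fintype ι] (hb : Frame Q c b)
include hb

omit [Fintype ι] in
theorem Q_ne_of_old {v : V} (h : Old b v) (h0 : v ≠ 0) : Q v ≠ 0 := by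
  rcases h.cases h0 with ⟨i, t, ht, rfl⟩ | ⟨i, j, hij, t, ht, rfl | rfl⟩ <;> rw [Q_smul] <;>
    refine mul_ne_zero (mul_ne_zero ht ht) ?_
  · exact hb.Q_ne i
  · exact (hb.Q_sub' hij).trans_ne hb.two_c
  · exact (hb.Q_add' hij).trans_ne hb.two_c

theorem mem_stabDec_of_old (h5 : 5 ≤ Fintype.card ι) {g : O Q}
    (h : ∀ i j, i ≠ j → Old b (g.1 (b i - b j)) ∧ Old b (g.1 (b i + b j))) :
    g ∈ stabDec Q (fdec b) := by
  classical
  refine hb.mem_stabDec_of fun i => ?_
  by_contra H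
  obtain ⟨a, ha⟩ := exists_co_ne_zero (b := b) (O_apply_eq_zero.not.2 (b.ne_zero i) : g.1 _ ≠ 0)
  obtain ⟨a', haa, ha'⟩ : ∃ a', a' ≠ a ∧ co b a' (g.1 (b i)) ≠ 0 := by
    by_contra h1
    push Not at h1
    refine H ⟨a, co b a (g.1 (b i)), ext_co (b := b) fun l => ?_⟩
    by_cases hl : l = a
    · simp [hl]
    · simp [h1 l hl, co_ne hl]
  have h1 : ∀ j l, 2 * co b l (g.1 (b i)) = co b l (g.1 (b i - b j)) + co b l (g.1 (b i + b j)) :=
    fun j l => by simp only [map_sub, map_add]; ring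
  obtain ⟨k, hk⟩ : ∃ k, co b k (g.1 (b i)) = 0 := by
    obtain ⟨j, hj⟩ := Fintype.exists_ne_of_one_lt_card (by omega) i
    obtain ⟨k, -, hk⟩ := Finset.exists_mem_notMem_of_card_lt_card (t := Finset.univ)
      (s := supp b (g.1 (b i - b j)) ∪ supp b (g.1 (b i + b j))) (by
        have h2 := (h i j hj.symm).1.card_supp
        have h3 := (h i j hj.symm).2.card_supp
        have := Finset.card_union_le (supp b (g.1 (b i - b j))) (supp b (g.1 (b i + b j)))
        rw [Finset.card_univ]; omega)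
    simp only [Finset.mem_union, mem_supp, not_or, not_not] at hk
    exact ⟨k, (mul_eq_zero.1 (by rw [h1 j, hk.1, hk.2, add_zero])).resolve_left hb.two⟩
  obtain ⟨j, hj⟩ := exists_co_apply_ne_zero (b := b) g k
  have hij : i ≠ j := by rintro rfl; exact hj hk
  obtain ⟨hu, hw⟩ := h i j hij
  have h2 : polar Q (g.1 (b i - b j)) (g.1 (b i + b j)) = 0 := by
    rw [O_polar, polar_sub_left, hb.b_polar, hb.b_polar]; simp [co_ne hij, co_ne hij.symm]
  have hu' : co b k (g.1 (b i - b j)) ≠ 0 := by simpa [hk]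
  have hw' : co b k (g.1 (b i + b j)) ≠ 0 := by simpa [hk]
  have h3 := h1 j
  generalize g.1 (b i - b j) = u at *
  generalize g.1 (b i + b j) = w at *
  have hka : k ≠ a := by rintro rfl; exact ha hk
  have hka' : k ≠ a' := by rintro rfl; exact ha' hk
  rw [hb.polar_eq, Finset.sum_eq_single k (fun l hl hlk => ?_) (by simp)] at h2
  · exact mul_ne_zero hb.two_c (mul_ne_zero hu' hw') h2
  · by_contra h4
    have h5 : ∀ m, k ≠ m → l ≠ m → co b m (g.1 (b i)) = 0 := fun m h5 h6 =>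
      (mul_eq_zero.1 (by rw [h3, hu.three hlk.symm h5 h6 hu' (left_ne_zero_of_mul h4),
        hw.three hlk.symm h5 h6 hw' (right_ne_zero_of_mul h4), add_zero])).resolve_left hb.two
    by_cases h6 : l = a
    · exact ha' (h5 a' hka' (h6 ▸ haa.symm))
    · exact ha (h5 a hka h6)

/-- An element of the monomial group moving a space of dimension at most four fixes a vector of
the frame or the sum or difference of two of them. -/
theorem exists_old_fix [FiniteDimensional F V] (h7 : 7 ≤ Fintype.card ι) {g : O Q}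
    (hg : g ∈ stabDec Q (fdec b)) (h4 : finrank F (movSp g) ≤ 4) :
    ∃ r, r ≠ 0 ∧ Old b r ∧ g.1 r = r := by
  classical
  by_contra H
  push Not at H
  obtain ⟨π, ε, hε, h1⟩ := hb.exists_perm hg
  have hε0 : ∀ i, ε i ≠ 0 := fun i => by rcases hε i with h | h <;> simp [h]
  have h2 : ∀ x ∈ fixSp g, ∀ l, co b (π l) x = ε l * co b l x := fun x hx l => by
    rw [← co_apply_of_perm h1, mem_fixSp.1 hx]
  have h3 : ∀ x ∈ fixSp g, ∀ l, co b l x ≠ 0 → π l ≠ l ∧ π (π l) ≠ l := fun x hx l hl => by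
    have h3 : π l ≠ l := fun h => H _ (b.ne_zero l) (old_b l) (by
      have := h2 x hx l
      rw [h] at this
      rw [h1, h, mul_right_cancel₀ hl (this.symm.trans (one_mul _).symm), one_smul])
    refine ⟨h3, fun h => H (b l - (-ε l) • b (π l)) (fun h0 => ?_) (old_sub_smul _ _ (by
      rcases hε l with h | h <;> simp [h])) ?_⟩
    · simpa [co_ne h3.symm] using congrArg (co b l) h0
    · have := h2 x hx (π l)
      rw [h, h2 x hx l, ← mul_assoc] at this
      rw [map_sub, map_smul, h1, h1, h, smul_smul, neg_mul, mul_comm (ε l),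
        mul_right_cancel₀ hl (this.symm.trans (one_mul _).symm)]
      module
  have h5 := finrank_movSp_add_finrank_fixSp g
  rw [finrank_eq_card_basis b] at h5
  suffices key : ∀ n ≤ finrank F (fixSp g), ∃ L A : Finset ι, L.card ≤ n ∧ A.card = 3 * n ∧
      ∀ x ∈ fixSp g, (∀ l ∈ L, co b l x = 0) → ∀ l ∈ A, co b l x = 0 by
    obtain ⟨L, A, -, h6, -⟩ := key _ le_rfl
    have := A.card_le_univ
    omega
  intro n hn
  induction n with
  | zero => exact ⟨∅, ∅, by simp, by simp, by simp⟩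
  | succ n ih =>
    obtain ⟨L, A, h6, h8, h9⟩ := ih (by omega)
    obtain ⟨x, hx, hx0⟩ := Submodule.exists_mem_ne_zero_of_ne_bot (LinearMap.ker_ne_bot_of_finrank_lt
      (f := LinearMap.pi fun l : L => co b l ∘ₗ (fixSp g).subtype) (by simp; omega))
    obtain ⟨l, hl⟩ := exists_co_ne_zero (b := b) (show (x : V) ≠ 0 by simpa using hx0)
    have h10 := h9 x x.2 fun l hl => congrFun (LinearMap.mem_ker.1 hx) ⟨l, hl⟩
    obtain ⟨h11, h12⟩ := h3 x x.2 l hl
    have h13 := (h2 x x.2 l).trans_ne (mul_ne_zero (hε0 _) hl)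
    have h14 := (h2 x x.2 (π l)).trans_ne (mul_ne_zero (hε0 _) h13)
    refine ⟨insert l L, insert l (insert (π l) (insert (π (π l)) A)),
      (Finset.card_insert_le _ _).trans (by omega), ?_, fun y hy h15 m hm => ?_⟩
    · rw [Finset.card_insert_of_notMem (by simp [h11.symm, h12.symm, mt (h10 _) hl]),
        Finset.card_insert_of_notMem (by simp [h11.symm, mt (h10 _) h13]),
        Finset.card_insert_of_notMem (mt (h10 _) h14), h8]
      ring
    · have h16 := h15 l (Finset.mem_insert_self _ _)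
      simp only [Finset.mem_insert] at hm
      rcases hm with rfl | rfl | rfl | hm
      · exact h16
      · rw [h2 y hy, h16, mul_zero]
      · rw [h2 y hy, h2 y hy, h16, mul_zero, mul_zero]
      · exact h9 y hy (fun l hl => h15 l (Finset.mem_insert_of_mem hl)) m hm

omit [Fintype ι] in
theorem exists_old_mov {g : O Q} (hg : g ∈ stabDec Q (fdec b)) (h1 : g ≠ 1) :
    ∃ x, g.1 x - x ≠ 0 ∧ Old b (g.1 x - x) := by
  obtain ⟨π, ε, hε, h2⟩ := hb.exists_perm hg
  obtain ⟨l, hl⟩ : ∃ l, g.1 (b l) ≠ b l := by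
    by_contra H
    push Not at H
    exact h1 (Subtype.ext (b.ext' H))
  refine ⟨b l, sub_ne_zero.2 hl, ?_⟩
  simpa [h2] using (old_sub_smul (b := b) l (π l) (hε l)).smul (-1)

variable [FiniteDimensional F V] {hQ : (polarBilin Q).Nondegenerate} {M : Subgroup (O Q)}
  (hH : stabDec Q (fdec b) ⊓ kerDS hQ ≤ M) (h7 : 7 ≤ Fintype.card ι)
  (hΦ : ∀ i v, Rt M (b i) v → Old b v)
  (hΨ : ∀ d v, Old b d → Q d = 2 * c → Rt M d v → Old b v)
include hH h7 hΦ hΨ

theorem mem_stabDec_of_old_apply {g : O Q} (hg : g ∈ M) {r : V} (hr0 : r ≠ 0) (hr : Old b r)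
    (hgr : Old b (g.1 r)) : g ∈ stabDec Q (fdec b) := by
  have key : ∀ {g : O Q}, g ∈ M → ∀ {r : V}, r ≠ 0 → Old b r → Old b (g.1 r) → ∀ d, Old b d →
      Q d = Q r → Rt M d (g.1 d) := fun {g} hg {r} hr0 hr hgr d hd h => by
    have h1 := hb.Q_ne_of_old hr hr0
    have h2 := hb.rt_of_old hH hr hd h1 h
    exact (h2.symm.trans (hb.rt_of_old hH hr hgr h1 (O_map _ _))).trans (h2.conj hg)
  have keyY : ∀ {g : O Q}, g ∈ M → ∀ {r : V}, Q r = 2 * c → Old b r → Old b (g.1 r) →
      g ∈ stabDec Q (fdec b) := fun {g} hg {r} h1 hr hgr => by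
    have h2 := fun d hd (h : Q d = 2 * c) => hΨ _ _ hd h (key hg (ne_zero_of_Q_ne_zero
      (h1.trans_ne hb.two_c)) hr hgr d hd (h.trans h1.symm))
    exact hb.mem_stabDec_of_old (by omega) fun i j hij => ⟨h2 _ (old_sub hij) (hb.Q_sub' hij),
      h2 _ (by simpa using old_add (b := b) hij (s := 1) rfl) (hb.Q_add' hij)⟩
  rcases hr.cases hr0 with ⟨i, t, ht, rfl⟩ | ⟨i, j, hij, t, ht, rfl | rfl⟩ <;>
    rw [map_smul] at hgr
  · by_contra H
    refine H (hb.mem_stabDec_of fun j => ?_)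
    have h1 := hΦ _ _ (key hg (b.ne_zero i) (old_b i) (hgr.of_smul ht) _ (old_b j)
      ((hb.norm j).trans (hb.norm i).symm))
    have h2 : ∀ {t : F} {r : V}, t ≠ 0 → g.1 (b j) = t • r → Old b ((g⁻¹).1 r) := fun ht h => by
      refine Old.of_smul ?_ ht
      rw [← map_smul, ← h, O_inv_apply]
      exact old_b j
    rcases h1.cases (O_apply_eq_zero.not.2 (b.ne_zero j)) with ⟨k, t, -, h⟩ | ⟨k, l, hkl, t, ht, h | h⟩
    · exact ⟨k, t, h⟩
    · exact absurd ((inv_mem_iff (x := g)).1 (keyY (inv_mem hg) (hb.Q_sub' hkl) (old_sub hkl)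
        (h2 ht h))) H
    · exact absurd ((inv_mem_iff (x := g)).1 (keyY (inv_mem hg) (hb.Q_add' hkl)
        (by simpa using old_add (b := b) hkl (s := 1) rfl) (h2 ht h))) H
  · exact keyY hg (hb.Q_sub' hij) (hr.of_smul ht) (hgr.of_smul ht)
  · exact keyY hg (hb.Q_add' hij) (hr.of_smul ht) (hgr.of_smul ht)

theorem mem_stabDec_of_zeros {g : O Q} (hg : g ∈ M) {r : V} (hr0 : r ≠ 0) (hr : Old b r)
    {T : Finset ι} (hT : 3 ≤ T.card) (h0 : ∀ l ∈ T, co b l (g.1 r) = 0) :
    g ∈ stabDec Q (fdec b) := by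
  classical
  by_contra H
  obtain ⟨i, hi⟩ := Finset.card_pos.1 (show 0 < T.card by omega)
  obtain ⟨q, hq⟩ := exists_co_apply_ne_zero (b := b) g i
  have key : ∀ i ∈ T, ∀ j ∈ T, i ≠ j → co b i (g.1 (b q)) ≠ 0 →
      ¬ Old b (co b i (g.1 (b q)) • b i + co b j (g.1 (b q)) • b j) ∧
      ((∃ k, k ≠ i ∧ k ≠ j ∧ co b k (g.1 (b q)) ≠ 0) → 2 * (co b i (g.1 (b q)) *
        co b i (g.1 (b q)) + co b j (g.1 (b q)) * co b j (g.1 (b q))) = 1) := by
    intro i hi j hj hij h1
    have h2 : g⁻¹ * (refl Q (b i) * refl Q (b j)) * g ∈ stabDec Q (fdec b) := by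
      have h2 : (g⁻¹ * (refl Q (b i) * refl Q (b j)) * g).1 r = r := by
        rw [O_mul_apply, O_mul_apply, O_mul_apply, hb.refl_b j, h0 j hj, mul_zero, zero_smul,
          sub_zero, hb.refl_b, h0 i hi, mul_zero, zero_smul, sub_zero, O_inv_apply]
      exact hb.mem_stabDec_of_old_apply hH h7 hΦ hΨ (mul_mem (mul_mem (inv_mem hg) (hH
        (hb.refl_mul_refl_mem (old_b i) (old_b j) (hb.Q_ne i) ((hb.norm i).trans
          (hb.norm j).symm)))) hg) hr0 hr (h2.symm ▸ hr)
    obtain ⟨π, ε, hε, h3⟩ := hb.exists_perm h2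
    have h4 : g.1 (b q - ε q • b (π q)) =
        (2 : F) • (co b i (g.1 (b q)) • b i + co b j (g.1 (b q)) • b j) := by
      rw [← h3, map_sub, O_mul_apply, O_mul_apply, O_apply_inv, O_mul_apply, hb.refl_b j, hb.refl_b]
      simp only [map_sub, map_smul, co_ne hij]
      module
    have h5 : b q - ε q • b (π q) ≠ 0 := fun h => by
      simpa [h, co_ne hij, hb.two, h1] using congrArg (co b i) h4
    refine ⟨fun h => H (hb.mem_stabDec_of_old_apply hH h7 hΦ hΨ hg h5 (old_sub_smul _ _ (hε q))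
      (h4 ▸ h.smul 2)), fun ⟨k, hk, hk', h6⟩ => ?_⟩
    by_cases h8 : q = π q
    · rw [← h8] at h4 h5
      rcases hε q with h | h
      · simp [h] at h5
      · have := congrArg (co b k) h4
        simp only [h, neg_smul, one_smul, sub_neg_eq_add, map_add, map_smul, co_ne hk, co_ne hk',
          smul_zero, add_zero] at this
        exact absurd (by linear_combination this) (mul_ne_zero hb.two h6)
    · have h9 := congrArg Q h4
      rw [O_map, Q_smul, hb.Q_comb hij, Q_sub, Q_smul, polar_smul_right', hb.orth _ _ h8, hb.norm,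
        hb.norm, mul_self_eq_one_iff.2 (hε q)] at h9
      exact mul_left_cancel₀ hb.two_c (by linear_combination -h9)
  have h1 : ∀ j ∈ T, co b j (g.1 (b q)) ≠ 0 := fun j hj h => by
    have hij : i ≠ j := by rintro rfl; exact hq h
    exact (key i hi j hj hij hq).1 (by rw [h, zero_smul, add_zero]; exact (old_b i).smul _)
  obtain ⟨k, l, m, hk, hl, hm, hkl, hkm, hlm⟩ := Finset.two_lt_card_iff.1 (show 2 < T.card by omega)
  have h2 := (key k hk m hm hkm (h1 k hk)).2 ⟨l, hkl.symm, hlm, h1 l hl⟩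
  have h3 := (key l hl m hm hlm (h1 l hl)).2 ⟨k, hkl, hkm, h1 k hk⟩
  exact (key k hk l hl hkl (h1 k hk)).1 (old_add hkl
    (mul_left_cancel₀ hb.two (by linear_combination h2 - h3)))

/-- Step I for frames. -/
theorem le_stabDec [Finite F] (hM : M ≤ kerDS hQ) : M ≤ stabDec Q (fdec b) := by
  classical
  obtain ⟨f, hf, -⟩ := exists_inj_of_card (n := 4) (T := (Finset.univ : Finset ι)) (by simp; omega)
  have h01 : f 0 ≠ f 1 := hf.ne (by decide)
  have hs := hb.refl_mul_refl_mem (hQ := hQ) (old_b (f 0)) (old_b (f 1)) (hb.Q_ne _)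
    ((hb.norm _).trans (hb.norm _).symm)
  have hs0 : (refl Q (b (f 0)) * refl Q (b (f 1))).1 (b (f 0)) ≠ b (f 0) := fun h => by
    rw [O_mul_apply, refl_apply_of_orth (hb.orth _ _ h01), refl_apply_self (hb.Q_ne _)] at h
    have := congrArg (co b (f 0)) h
    rw [map_neg, co_self] at this
    exact hb.two (by linear_combination -this)
  have hss : refl Q (b (f 0)) * refl Q (b (f 1)) * (refl Q (b (f 0)) * refl Q (b (f 1))) = 1 := by
    nth_rewrite 1 [mul_refl]
    rw [refl_apply_of_orth (hb.orth _ _ h01.symm), mul_assoc, ← mul_assoc (refl Q (b (f 0))),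
      refl_mul_self, one_mul, refl_mul_self]
  have hmov : ∀ g : O Q, finrank F (movSp (g * (refl Q (b (f 0)) * refl Q (b (f 1))) * g⁻¹)) ≤ 2 :=
    fun g => by
      rw [refl_mul_refl_conj, movSp_refl_mul_refl hQ (by rw [O_map]; exact hb.Q_ne _)
        (by rw [O_map]; exact hb.Q_ne _) (linearIndependent_pair_of_not_mem
          (O_apply_eq_zero.not.2 (b.ne_zero _)) fun t ht => by
            rw [← map_smul] at ht
            simpa [co_ne h01.symm] using congrArg (co b (f 1)) (g.1.injective ht))]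
      exact finrank_span_pair_le _ _
  have : Finite (O Q) := finite_O
  refine (H26.le_of_counting _ M hH _ hs (fun g hg h => ⟨?_, hM hg⟩)
    (fun g hg k hk hne h => ?_) ?_).trans inf_le_left
  · obtain ⟨x, hx, h1⟩ := hb.exists_old_mov h.1 fun h => hs0 (by
      rw [mul_inv_eq_one, mul_eq_left] at h; rw [h]; rfl)
    refine (stabDec Q (fdec b)).inv_mem_iff.1 (hb.mem_stabDec_of_zeros hH h7 hΦ hΨ (inv_mem hg) hx h1
      (T := {f 0, f 1}ᶜ) (by rw [Finset.card_compl, Finset.card_pair h01]; omega) fun l hl => ?_)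
    simp only [Finset.mem_compl, Finset.mem_insert, Finset.mem_singleton, not_or] at hl
    rw [map_sub, O_mul_apply, O_mul_apply, O_inv_apply, O_mul_apply, hb.refl_b, hb.refl_b]
    simp [co_ne hl.1, co_ne hl.2]
  · have hd : g * (refl Q (b (f 0)) * refl Q (b (f 1))) * g⁻¹ ∈ M :=
      mul_mem (mul_mem hg (hH hs)) (inv_mem hg)
    refine ⟨?_, hM hd⟩
    have h1 := hmov g
    have h2 := hmov k
    have h3 : ∀ g : O Q, (g * (refl Q (b (f 0)) * refl Q (b (f 1))) * g⁻¹)⁻¹ =
        g * (refl Q (b (f 0)) * refl Q (b (f 1))) * g⁻¹ := fun g => by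
      rw [mul_inv_rev, mul_inv_rev g, inv_eq_of_mul_eq_one_right hss, inv_inv, mul_assoc g]
    have h4 := h3 g
    have h5 := h3 k
    generalize g * (refl Q (b (f 0)) * refl Q (b (f 1))) * g⁻¹ = d at *
    generalize k * (refl Q (b (f 0)) * refl Q (b (f 1))) * k⁻¹ = e at *
    have h6 := Submodule.finrank_mono (movSp_inv_mul_le (d := d) (e := e) le_sup_left le_sup_right)
    have h8 := Submodule.finrank_sup_add_finrank_inf_eq (movSp d) (movSp e)
    by_cases h9 : finrank F (movSp (e⁻¹ * d)) ≤ 2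
    · obtain ⟨x, hx, h10⟩ := hb.exists_old_mov h.1 fun h => hne (inv_mul_eq_one.1 h).symm
      have h11 := hb.oDec.card_le_two_mul_finrank_movSp h.1
        (Finset.univ.filter fun l => (e⁻¹ * d).1 (b l) ≠ b l) fun l hl =>
          ⟨_, Submodule.mem_span_singleton_self _, (Finset.mem_filter.1 hl).2⟩
      refine hb.mem_stabDec_of_zeros hH h7 hΦ hΨ hd hx h10
        (T := (Finset.univ.filter fun l => (e⁻¹ * d).1 (b l) ≠ b l)ᶜ)
        (by rw [Finset.card_compl]; omega) fun l hl => ?_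
      have h12 : (e⁻¹ * d).1 (b l) = b l :=
        not_not.1 fun h => Finset.mem_compl.1 hl (Finset.mem_filter.2 ⟨Finset.mem_univ _, h⟩)
      refine (mul_eq_zero.1 ?_).resolve_left hb.two_c
      rw [← hb.polar_b, map_sub, polar_sub_left, ← O_mul_apply,
        show d * (e⁻¹ * d) = (e⁻¹ * d)⁻¹ * d by rw [mul_inv_rev, h4, inv_inv, h5, mul_assoc],
        O_mul_apply, O_polar_inv, inv_inv, h12, sub_self]
    · obtain ⟨r, hr⟩ := even_finrank_movSp hQ h.2
      obtain ⟨x, hx0, hx, h10⟩ := hb.exists_old_fix h7 h.1 (by omega)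
      have h11 : d.1 x - x ∈ movSp d ⊓ movSp e := ⟨sub_mem_movSp d x, by
        have := sub_mem_movSp e x
        rwa [← O_inv_apply_eq.1 h10] at this⟩
      rw [Submodule.finrank_eq_zero.1 (show finrank F ↥(movSp d ⊓ movSp e) = 0 by omega),
        Submodule.mem_bot, sub_eq_zero] at h11
      exact hb.mem_stabDec_of_old_apply hH h7 hΦ hΨ hd hx0 hx (h11.symm ▸ hx)
  · have a1 : f 0 ≠ f 2 := hf.ne (by decide)
    have a2 : f 1 ≠ f 3 := hf.ne (by decide)
    refine ⟨_, hb.refl_mul_refl_mem (old_sub a1) (old_sub a2) ((hb.Q_sub' a1).trans_ne hb.two_c)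
      ((hb.Q_sub' a1).trans (hb.Q_sub' a2).symm), fun h => hs0 ?_⟩
    rw [← mul_inv_eq_iff_eq_mul, refl_mul_refl_conj] at h
    rw [← h]
    simp only [O_mul_apply, hb.refl_sub_b, Equiv.swap_apply_left,
      Equiv.swap_apply_of_ne_of_ne h01 (hf.ne (show (0 : Fin 4) ≠ 3 by decide)),
      Equiv.swap_apply_of_ne_of_ne (hf.ne (show (3 : Fin 4) ≠ 0 by decide))
        (hf.ne (show (3 : Fin 4) ≠ 2 by decide))]
    rw [refl_apply_of_orth (hb.orth _ _ (hf.ne (show (0 : Fin 4) ≠ 3 by decide))),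
      refl_apply_of_orth (hb.orth _ _ a1)]

omit hΦ hΨ in
/-- Overgroups of the monomial group of a frame over a prime field. -/
theorem le_or_le [Fintype F] (hp : (Fintype.card F).Prime)
    (h8 : Fintype.card ι ≠ 8 ∨ IsSquare (2 : F)) (hM : M ≤ kerDS hQ) :
    M ≤ stabDec Q (fdec b) ∨ kerDS hQ ≤ M := by
  rw [← eichGroup_eq_kerDS hQ (not_isExc_of_two hb.two) (by rw [finrank_eq_card_basis b]; omega),
    or_iff_not_imp_right]
  intro hE
  have hΦ : ∀ i v, Rt M (b i) v → Old b v := fun i v hv =>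
    not_not.1 fun h => hE (hb.eichGroup_le_of_new hp h7 hH hv h)
  refine hb.le_stabDec hH h7 hΦ (fun d v hd hQd hv => ?_) hM
  by_cases hsq : IsSquare (2 : F)
  · obtain ⟨r, hr⟩ := hsq
    have hr0 : r ≠ 0 := by rintro rfl; exact hb.two (by rw [hr, mul_zero])
    obtain ⟨i⟩ : Nonempty ι := Fintype.card_pos_iff.1 (by omega)
    have h1 := (hb.rt_of_old hH ((old_b i).smul r) hd (by
      rw [Q_smul]; exact mul_ne_zero (mul_ne_zero hr0 hr0) (hb.Q_ne i))
      (by rw [Q_smul, hQd, hb.norm, hr])).trans hv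
    refine (hΦ i (r⁻¹ • v) ⟨?_, ?_⟩).of_smul (inv_ne_zero hr0)
    · rw [Q_smul, h1.1, Q_smul]; field_simp
    · simpa only [refl_smul hr0, refl_smul (inv_ne_zero hr0)] using h1.2
  · exact hb.old_of_rt_sub hH hp h7 (h8.resolve_right hsq) hsq hΦ hd hQd hv

end Frame

theorem ODec.exists_frame [Finite ι] [FiniteDimensional F V] {D : ι → Submodule F V}
    (hD : ODec Q D) (h2 : (2 : F) ≠ 0) (hk : ∀ i, finrank F (D i) = 1) (i : ι)
    (hiso : ∀ i j, ∃ g : O Q, ∀ x, x ∈ D i ↔ g.1 x ∈ D j) :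
    ∃ (c : F) (b : Basis ι F V), Frame Q c b ∧ D = fdec b := by
  obtain ⟨x, hx, hQx⟩ := (hD.nd i).exists_Q_ne_zero (ne_bot_of_finrank_pos (by rw [hk]; omega))
  choose g hg using hiso i
  have h1 : ∀ j, (g j).1 x ∈ D j := fun j => (hg j x).1 hx
  have h3 : ∀ j, D j = F ∙ (g j).1 x := fun j => (Submodule.eq_of_le_of_finrank_le
    ((Submodule.span_singleton_le_iff_mem _ _).2 (h1 j)) (by
      rw [hk, finrank_span_singleton (O_apply_eq_zero.not.2 (ne_zero_of_Q_ne_zero hQx))])).symm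
  have h4 : ∀ j k, j ≠ k → polar Q ((g j).1 x) ((g k).1 x) = 0 :=
    fun j k h => hD.orth j k h _ (h1 j) _ (h1 k)
  let b := Basis.mk (v := fun j => (g j).1 x) (LinearMap.BilinForm.linearIndependent_of_iIsOrtho
    (B := polarBilin Q) (fun j k h => h4 j k h) fun j h => mul_ne_zero h2 hQx (by
      rw [← O_map (g j), ← polar_self']; exact h)) (by
    rw [Submodule.span_range_eq_iSup, ← hD.top]; exact iSup_mono fun j => (h3 j).le)
  have hb : ∀ j, b j = (g j).1 x := fun j => Basis.mk_apply _ _ _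
  exact ⟨Q x, b, ⟨h2, hQx, fun j => by rw [hb, O_map], fun j k h => by rw [hb, hb, h4 j k h]⟩,
    funext fun j => by rw [h3, fdec, hb]⟩

section Geo

variable {F : Type*} [Field F] [Fintype F] {ι : Type} [Fintype ι] [DecidableEq ι]

/-- Maximality in `Ω` of the stabiliser of an orthogonal decomposition into isometric lines, over
a prime field. -/
theorem omega_c2_one {Q : (ι → F) → F} (hQ : Geo.IsNondegenerateQuadraticForm Q)
    (hp : (Fintype.card F).Prime) (hodd : Odd (Fintype.card F)) (h7 : 7 ≤ Fintype.card ι)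
    (h8 : Fintype.card ι ≠ 8 ∨ IsSquare (2 : F)) {t : ℕ} {D : Fin t → Submodule F (ι → F)}
    (hD : Geo.IsOrthogonalMDecomposition Q 1 D) :
    Geo.IsMaximalIn (Geo.omegaGL Q) (Geo.decompositionStabilizer D ⊓ Geo.omegaGL Q) := by
  obtain ⟨Q, hQ', rfl⟩ := exists_quadraticForm_of_geo hQ
  have hO := oDec_of_geo hD.decomp
  have hk := hD.decomp.decomp.finrank_eq
  have hn := hO.finrank_eq_mul hk
  rw [finrank_pi', mul_one] at hn
  have hn' := hn
  rw [Fintype.card_fin] at hn'
  have hiso := fun i j => exists_isometry_of_geo hQ' (hD.isometric i j)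
  refine isMaximalIn_geo hQ' (not_isExc_of_finrank (by rw [finrank_pi']; omega)) ?_
    fun M h1 h2 => ?_
  · rw [comap_decompositionStabilizer]
    exact hO.not_kerDS_le hQ' (i := ⟨0, by omega⟩) (ne_bot_of_finrank_pos (by rw [hk]; omega))
      (by rw [hk, finrank_pi']; omega)
  · rw [comap_decompositionStabilizer] at h1 ⊢
    obtain ⟨c, b, hb, rfl⟩ := hO.exists_frame (two_ne_zero_iff_odd_card.2 hodd) hk ⟨0, by omega⟩ hiso
    exact hb.le_or_le h1 (by omega) hp (by rwa [← hn]) h2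

end Geo

end Cfsg.Agent.H30
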