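import Cfsg.Agent.H24.JnDefs
import Cfsg.Agent.H24.JmALLD
import Cfsg.Agent.H7.JmOK
import Cfsg.Agent.H86.JmCONG

/-! Order and maximality of the subgroup `Aut M₂₂` (piece JN-MX). -/

set_option autoImplicit false

namespace Cfsg.Agent.H24.JN

open Subgroup Cfsg.Agent.H97.JM

universe u

namespace MXp

def t1 (n : ℕ) : Bool :=
  n % 110880 != 0 || n % 899 != 0 || !ok n || n == 86775571046077562880 ||
    n == 43387785523038781440

def t2 (n : ℕ) : Bool :=
  n % 110880 != 0 || n / 110 % 11 != 1 || n / 42 % 7 != 1 || !ok n || n == 887040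

theorem a1 : allD t1 = true := by decide +kernel

theorem a2 : allD t2 = true := by decide +kernel

theorem cong {G : Type u} [Group G] [Finite G] (H : Subgroup G) (p m : ℕ) (a : G) (hp : p.Prime)
    (ha : a ∈ H) (ho : orderOf a = p) (hm : ¬ p ^ 2 ∣ m)
    (hc : Nat.card ↥(H ⊓ normalizer ((zpowers a : Subgroup G) : Set G)) = m) :
    Nat.card H / m % p = 1 := by
  have := Fact.mk hp
  have hle : zpowers a ≤ H := zpowers_le.mpr ha
  have h2 : ¬ p ^ 2 ∣ Nat.card H := fun h2 => by
    have hA : Nat.card ((zpowers a).subgroupOf H) = p ^ 1 := by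
      rw [Nat.card_congr (subgroupOfEquivOfLe hle).toEquiv, Nat.card_zpowers, ho, pow_one]
    have h3 := Sylow.prime_pow_dvd_card_normalizer h2 hA
    rw [← subgroupOf_normalizer_eq hle, ← inf_subgroupOf_left,
      Nat.card_congr (subgroupOfEquivOfLe inf_le_left).toEquiv, hc] at h3
    exact hm h3
  obtain ⟨e, he⟩ : p ∣ Nat.card (normalizer ((zpowers a : Subgroup G) : Set G)) := by
    rw [← ho]
    exact orderOf_dvd_natCard _ (le_normalizer (mem_zpowers a))
  obtain ⟨d, h1, -, -, h4⟩ := pCONG G H p e a hp ha ho h2 he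
  rwa [← h1, hc] at h4

end MXp

theorem pMX : MX.{u} := by
  intro G _ _ C M K x h s D
  have := C.simple
  have dM : 110880 ∣ Nat.card M := by
    have d11 : 11 ∣ Nat.card M := D.x11 ▸ orderOf_dvd_natCard _ D.xM
    have d10 : 10 ∣ Nat.card M := D.h10 ▸ orderOf_dvd_natCard _ D.hM
    have d7 : 7 ∣ Nat.card M := D.s7 ▸ orderOf_dvd_natCard _ D.sM
    have d5 : 5 ∣ Nat.card M := (by norm_num : 5 ∣ 10).trans d10
    have e1 : 32 * 9 ∣ Nat.card M := Nat.Coprime.mul_dvd_of_dvd_of_dvd (by norm_num) D.d32 D.d9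
    have e2 : 32 * 9 * 5 ∣ Nat.card M := Nat.Coprime.mul_dvd_of_dvd_of_dvd (by norm_num) e1 d5
    have e3 : 32 * 9 * 5 * 7 ∣ Nat.card M := Nat.Coprime.mul_dvd_of_dvd_of_dvd (by norm_num) e2 d7
    exact Nat.Coprime.mul_dvd_of_dvd_of_dvd (m := 32 * 9 * 5 * 7) (n := 11) (by norm_num) e3 d11
  have idx2 : ∀ H : Subgroup G, H.index ≠ 2 := fun H h2 => by
    rcases (normal_of_index_eq_two h2).eq_bot_or_eq_top with e | e
    · rw [e, index_bot, C.card] at h2; norm_num at h2
    · rw [e, index_top] at h2; norm_num at h2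
  have key : ∀ H : Subgroup G, M ≤ H → H ≠ ⊤ → Nat.card H = 887040 ∧
      Nat.card ↥(H ⊓ normalizer ((zpowers x : Subgroup G) : Set G)) = 110 ∧
      Nat.card ↥(H ⊓ normalizer ((zpowers s : Subgroup G) : Set G)) = 42 := by
    intro H hH hne
    have dG : Nat.card H ∣ 86775571046077562880 := by
      rw [← C.card]; exact card_subgroup_dvd_card H
    have dH : 110880 ∣ Nat.card H := dM.trans (card_dvd_of_le hH)
    have okH := pOK pCONG G C H
    rcases D.ctl H hH with ⟨h29, h31⟩ | ⟨c1, c2⟩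
    · exfalso
      have d899 : 899 ∣ Nat.card H :=
        Nat.Coprime.mul_dvd_of_dvd_of_dvd (m := 29) (n := 31) (by norm_num) h29 h31
      have := pALLD _ MXp.a1 _ dG
      simp only [MXp.t1, Nat.mod_eq_zero_of_dvd dH, Nat.mod_eq_zero_of_dvd d899, okH,
        bne_self_eq_false, Bool.not_true, Bool.false_or, Bool.or_eq_true, beq_iff_eq] at this
      rcases this with e | e
      · exact hne (eq_top_of_card_eq H (by rw [e, C.card]))
      · have h1 := H.card_mul_index
        rw [e, C.card] at h1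
        exact idx2 H (by omega)
    · have s1 := MXp.cong H 11 110 x (by norm_num) (hH D.xM) D.x11 (by norm_num) c1
      have s2 := MXp.cong H 7 42 s (by norm_num) (hH D.sM) D.s7 (by norm_num) c2
      have := pALLD _ MXp.a2 _ dG
      simp only [MXp.t2, Nat.mod_eq_zero_of_dvd dH, s1, s2, okH,
        bne_self_eq_false, Bool.not_true, Bool.false_or, beq_iff_eq] at this
      exact ⟨this, c1, c2⟩
  have hM : M ≠ ⊤ := fun e => by
    have h2 := D.idx
    rw [e, relIndex_top_right] at h2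
    exact idx2 K h2
  obtain ⟨c, c1, c2⟩ := key M le_rfl hM
  refine ⟨⟨hM, fun H hH => ?_⟩, c, c1, c2⟩
  by_contra hne
  exact hH.ne (eq_of_le_of_card_ge hH.le (by rw [c, (key H hH.le hne).1]))

end Cfsg.Agent.H24.JN
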