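import Cfsg.Agent.H30.C6Core
import Cfsg.Agent.H25.SmallES
import Cfsg.Agent.S0302

/-!
# Normalisers of `2`-groups of symplectic type in dimension four: the linear case
-/

set_option autoImplicit false

namespace Cfsg.Agent.H30

open QuadraticMap Module Matrix Cfsg.Geo H25 H28

section Symp

variable {ι : Type} [Fintype ι] [DecidableEq ι] {F : Type*} [Field F] [Finite F]
  {R : Subgroup (GL ι F)} (h : IsSymplecticTypeGroup 2 R)
  (habs : ActsAbsolutelyIrreducibly (matrixSet R))
include h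

omit [Finite F] in
theorem symp_pow_four {x : GL ι F} (hx : x ∈ R) : x ^ 4 = 1 := by
  have := Monoid.pow_exponent_eq_one (⟨x, hx⟩ : R)
  rw [h.exponent_eq] at this
  exact congrArg Subtype.val this

omit h in
include habs in
theorem symp_center {x : R} (hx : x ∈ Subgroup.center R) : (x : GL ι F) ∈ scalars ι F :=
  mem_scalars_of_galg_eq_top (galg_eq_top_of_absIrr habs) fun g hg =>
    (congrArg Subtype.val (Subgroup.mem_center_iff.1 hx ⟨g, hg⟩)).symm

include habs

theorem symp_sq [Nonempty ι] {x : GL ι F} (hx : x ∈ R) : x * x = 1 ∨ x * x = scal ι (-1) := by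
  obtain ⟨c, hc⟩ := mem_scalars_iff_scal.1 (symp_center habs (mul_self_mem_center h.pGroup
    (fun x => Subtype.ext (symp_pow_four h x.2)) h.cyclic_of_characteristic ⟨x, hx⟩))
  have h1 : c * c = 1 := scal_injective (ι := ι) (by
    rw [map_mul, hc, map_one, ← symp_pow_four h hx]; simp [pow_succ, mul_assoc])
  have h2 : c = 1 ∨ c = -1 := (mul_self_eq_one_iff.1 (congrArg Units.val h1)).imp
    (fun h => Units.ext h) fun h => Units.ext h
  rcases h2 with rfl | rfl
  · exact Or.inl (hc.symm.trans (map_one _))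
  · exact Or.inr hc.symm

theorem symp_neg_mem [Nonempty ι] : scal ι (-1) ∈ R := by
  by_contra H
  have h1 : Monoid.exponent R ∣ 2 := Monoid.exponent_dvd_of_forall_pow_eq_one fun x =>
    Subtype.ext ((pow_two x.1).trans ((symp_sq h habs x.2).resolve_right fun h1 =>
      H (h1 ▸ R.mul_mem x.2 x.2)))
  rw [h.exponent_eq] at h1
  exact absurd h1 (by decide)

theorem symp_es [Nonempty ι] (hZ : Nat.card (Subgroup.center R) = 4) :
    ES 2 R ∧ ∃ i : F, i * i = -1 := by
  have h1 : ∀ x ∈ R, x * x ∈ scalars ι F := fun x hx => by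
    rcases symp_sq h habs hx with h | h <;> rw [h]
    exacts [one_mem _, scal_mem _]
  obtain ⟨z, hz⟩ := (h.cyclic_of_characteristic (Subgroup.center R) inferInstance
    inferInstance).exists_ofOrder_eq_natCard
  obtain ⟨i, hi⟩ := mem_scalars_iff_scal.1 (symp_center habs z.2)
  have h2 : orderOf i = 4 := by
    rw [← orderOf_injective _ (scal_injective (ι := ι)) i, hi, Subgroup.orderOf_coe,
      Subgroup.orderOf_coe, hz, hZ]
  have h3 : IsPrimitiveRoot (i : F) 4 := IsPrimitiveRoot.coe_units_iff.2 (h2 ▸ IsPrimitiveRoot.orderOf i)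
  refine ⟨⟨Nat.prime_two, galg_eq_top_of_absIrr habs, fun x hx y hy => ?_,
    fun x hx => pow_two x ▸ h1 x hx, fun x hx => symp_pow_four h hx, fun c hc h4 => ?_⟩,
    i, (pow_two _).symm.trans (h3.pow (by omega) (show 4 = 2 * 2 by rfl)).eq_neg_one_of_two_right⟩
  · have h4 := Subgroup.mem_center_iff.1 (scalars_le_center (h1 x hx)) y
    have h5 : x * y * x⁻¹ * y⁻¹ = x * y * (x * y) * (x * x)⁻¹ * (y * y)⁻¹ := by
      calc _ = x * y * x * ((x * x)⁻¹ * y) * (y * y)⁻¹ := by group
        _ = _ := by rw [inv_mul_eq_iff_eq_mul.2 (show y = x * x * (y * (x * x)⁻¹) by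
          rw [← mul_assoc, ← h4, mul_inv_cancel_right])]; group
    exact (h5 ▸ mul_mem (mul_mem (h1 _ (mul_mem hx hy)) (inv_mem (h1 x hx))) (inv_mem (h1 y hy)) :
      x * y * x⁻¹ * y⁻¹ ∈ _)
  · obtain ⟨c, rfl⟩ := mem_scalars_iff_scal.1 hc
    have h5 : c ^ 4 = 1 := scal_injective (ι := ι) (by rw [map_pow, map_one]; exact h4)
    obtain ⟨k, -, hk⟩ := h3.eq_pow_of_pow_eq_one (ξ := (c : F)) (by
      rw [← Units.val_pow_eq_pow_val, h5, Units.val_one])
    rw [← Units.val_pow_eq_pow_val, Units.val_inj] at hk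
    rw [← hk, map_pow, hi]
    exact R.pow_mem z.1.2 k

end Symp

theorem det_eq_one_of_anticomm {F : Type*} [Field F] (h2 : (2 : F) ≠ 0)
    {U Y : Matrix (Fin 4) (Fin 4) F} (hU : U * U = -1) (hY : Y * Y = -1) (h : U * Y = -(Y * U)) :
    U.det = 1 := by
  have h1 : U * Y * (U * Y) = -1 := by
    rw [mul_assoc, ← mul_assoc Y, ← neg_neg (Y * U), ← h]
    simp [mul_assoc, hY, hU]
  have h3 : (U * Y + Y) * (U * Y + Y) = (-2 : F) • 1 := by
    rw [mul_add, add_mul, add_mul, h1, hY, ← mul_assoc Y, ← neg_neg (Y * U), ← h, neg_mul]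
    module
  have h4 : (U * Y + Y) * (U * Y) = Y * (U * Y + Y) := by rw [add_mul, mul_add, h1, hY, add_comm]
  have h5 := congrArg det h3
  have h6 := congrArg det h4
  have h7 := congrArg det hY
  rw [det_mul, det_smul, det_one] at h5
  rw [det_mul, det_mul, det_mul, mul_comm Y.det] at h6
  rw [det_mul, det_neg, det_one] at h7
  have h8 : (U * Y + Y).det ≠ 0 := fun h0 => pow_ne_zero 4 h2 (by
    rw [h0] at h5; simp at h5; linear_combination -h5)
  have h9 := mul_left_cancel₀ h8 h6
  simp only [Fintype.card_fin] at h7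
  linear_combination Y.det * h9 + (1 - U.det) * h7

theorem symp_le_sl {F : Type*} [Field F] [Finite F] (h2 : (2 : F) ≠ 0)
    {R : Subgroup (GL (Fin 4) F)} (h : IsSymplecticTypeGroup 2 R)
    (habs : ActsAbsolutelyIrreducibly (matrixSet R)) (hZ : Nat.card (Subgroup.center R) = 4) :
    R ≤ specialLinear (Fin 4) F := by
  obtain ⟨hR, i, hi⟩ := symp_es h habs hZ
  intro x hx
  refine MonoidHom.mem_ker.2 (Units.ext ?_)
  rw [GeneralLinearGroup.val_det_apply, Units.val_one]
  by_cases hxs : x ∈ scalars (Fin 4) F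
  · obtain ⟨c, rfl⟩ := mem_scalars_iff_scal.1 hxs
    have h5 : c ^ 4 = 1 := scal_injective (ι := Fin 4) (by
      rw [map_pow, map_one]; exact symp_pow_four h hx)
    rw [coe_scal, det_smul, det_one, mul_one, Fintype.card_fin, ← Units.val_pow_eq_pow_val, h5,
      Units.val_one]
  obtain ⟨y, -, h3, h4⟩ := hR.exists_anticomm (by simp) hx hxs
  have h5 := congrArg Units.val h3
  have h6 := congrArg Units.val h4
  simp only [Units.val_mul, coe_scal_neg_one, neg_mul, one_mul] at h5 h6
  rcases hR.sq_or hx with h7 | h7 <;> have h8 := congrArg Units.val h7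
  · have := det_eq_one_of_anticomm h2 (U := i • x.1) (by
      rw [smul_mul_smul_comm, hi, ← Units.val_mul, h8]; simp) h5 (by simp [h6])
    rw [det_smul, Fintype.card_fin] at this
    linear_combination this - (i * i - 1) * x.1.det * hi
  · exact det_eq_one_of_anticomm h2 (by simpa [coe_scal_neg_one] using h8) h5 h6

theorem range_eq_kerDS {F : Type*} [Field F] [Finite F] {ι : Type} [Fintype ι] [DecidableEq ι]
    {Q : QuadraticForm F (ι → F)} (hQ : (polarBilin Q).Nondegenerate) (hexc : ¬ IsExc Q)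
    {G : Type*} [Group G] (φ : G →* isometryGroup F ⇑Q) (h : φ.range = commutator _) :
    ((isoEquiv Q : isometryGroup F ⇑Q →* O Q).comp φ).range = kerDS hQ := by
  rw [← MonoidHom.map_range, h, ← commutator_eq_kerDS hQ hexc, map_commutator_eq,
    MonoidHom.range_eq_top.2 (isoEquiv Q).surjective]
  rfl

theorem exists_phi_sl4 {F : Type*} [Field F] [Fintype F] :
    ∃ φ : SpecialLinearGroup (Fin 4) F →* O (qPlus F 3), φ.range = kerDS (qPlus_nondegenerate 3) ∧
      ∀ g v, (φ g).1 v = klein g.1 v := by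
  obtain ⟨φ, h1, hk⟩ := H28.exists_hom_plus6 (K := F)
  have hperf := Cfsg.Agent.S0248.result (F := F) 4 (by norm_num)
  have hrange := H28.range_eq_commutator φ (H28.mem_commutator_of_perfect φ hperf) (by
    rw [Cfsg.Agent.S0287.result rfl 3 (by norm_num), S0302.card_SL4 rfl]
    simp [Finset.prod_range_succ, mul_assoc]) _ hk (by
      by_cases h2 : (2 : F) = 0
      · exact Or.inl (H28.negOne4_eq_one h2)
      · exact Or.inr (H28.omega_index_four h2 (by simp) (H30.qPlus F 3) (H30.qPlus_nondegenerate 3)))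
  exact ⟨_, range_eq_kerDS (qPlus_nondegenerate 3) (not_isExc_of_finrank (by simp)) φ hrange, h1⟩

theorem klein_one {K : Type*} [CommRing K] (v : Fin 3 ⊕ Fin 3 → K) : klein 1 v = v := by
  simp [klein, altCoord_altMat]

theorem klein_neg {K : Type*} [CommRing K] (A : Matrix (Fin 4) (Fin 4) K) (v : Fin 3 ⊕ Fin 3 → K) :
    klein (-A) v = klein A v := by
  simp [klein]

theorem klein_mul {K : Type*} [CommRing K] (A B : Matrix (Fin 4) (Fin 4) K)
    (v : Fin 3 ⊕ Fin 3 → K) : klein (A * B) v = klein A (klein B v) := by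
  rw [klein, klein, altMat_klein, transpose_mul]
  simp only [Matrix.mul_assoc]

theorem negOne4_ne_one {K : Type*} [Field K] (h2 : (2 : K) ≠ 0) : negOne4 K ≠ 1 := fun h => by
  have : (-1 : K) = 1 := congrArg (fun g : SpecialLinearGroup (Fin 4) K => g.1 0 0) h
  exact h2 (by linear_combination -this)

theorem sl_c6_four {F : Type*} [Field F] [Fintype F] (hp : (Fintype.card F).Prime)
    {R : Subgroup (GL (Fin 4) F)} (h2 : (2 : F) ≠ 0) (h : IsLinearSymplecticTypeData 2 R) :
    IsMaximalIn (specialLinear (Fin 4) F) (subgroupNormalizer R ⊓ specialLinear (Fin 4) F) := by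
  have hZ : Nat.card (Subgroup.center R) = 4 := by
    obtain ⟨p, e, -, -, h1 | h1 | h1⟩ := h.field
    · exact absurd h1.1 (by decide)
    · exact h1.2.2.1
    · simpa using h1.2.2.1
  obtain ⟨φ, hφ, h1⟩ := exists_phi_sl4 (F := F)
  have h3 : SpecialLinearGroup.toGL (negOne4 F) = scal (Fin 4) (-1) :=
    Units.ext (by rw [coe_scal_neg_one]; rfl)
  refine isMaximalIn_normalizer hp h2 (qPlus_nondegenerate 3) (by simp) SpecialLinearGroup.toGL
    SpecialLinearGroup.toGL_injective ?_ φ hφ (negOne4_ne_one h2) (fun g => ⟨fun hg => ?_, ?_⟩)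
    (symp_le_sl h2 h.symplecticType h.absIrred hZ) (h3 ▸ symp_neg_mem h.symplecticType h.absIrred)
    (fun x hx => h3 ▸ symp_sq h.symplecticType h.absIrred hx) ?_
  · ext g
    refine ⟨?_, fun hg => ⟨⟨g, congrArg Units.val (MonoidHom.mem_ker.1 hg)⟩, Units.ext rfl⟩⟩
    rintro ⟨g, rfl⟩
    exact MonoidHom.mem_ker.2 (Units.ext g.2)
  · exact (eq_of_klein_eq g.1 (by simp) fun v => by rw [← h1, hg]; rfl).imp
      (fun h => Subtype.ext h) fun h => Subtype.ext h
  · rintro (rfl | rfl)
    · exact map_one _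
    · exact O_ext fun v => by rw [h1]; exact (klein_neg 1 v).trans (klein_one v)
  · rw [(symp_es h.symplecticType h.absIrred hZ).1.card_eq, hZ]
    simp

end Cfsg.Agent.H30
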