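import Cfsg.Agent.H30.K4SL
import Cfsg.Agent.S0303

/-!
# Normalisers of `2`-groups of symplectic type in dimension four: the unitary case
-/

set_option autoImplicit false

namespace Cfsg.Agent.H30

open QuadraticMap Module Matrix Cfsg.Geo H25 H28

theorem exists_phi_su4 {F K : Type*} [Field F] [Fintype F] [Field K] [Fintype K] {q : ℕ}
    (hF : Fintype.card F = q) (hK : Fintype.card K = q ^ 2) (h2 : (2 : F) ≠ 0) {a b : F}
    (hab : ∀ z₁ z₂ : F, z₁ ^ 2 + a * z₁ * z₂ + b * z₂ ^ 2 = 0 → z₁ = 0 ∧ z₂ = 0) :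
    ∃ φ : SU 4 K q →* O (qMinus F 2 a b),
      φ.range = kerDS (qMinus_nondegenerate 2 hab) ∧ ∀ g, φ g = 1 ↔ g = 1 ∨ g.1 = negOne4 K := by
  subst hF
  have := fact_of_aniso hab
  obtain ⟨φ₀, hk₀⟩ := exists_hom_minus6 hab
  let e := FiniteField.ringEquivOfCardEq (hK.trans (card_quadraticAlgebra (-b) a).symm)
  let φ := φ₀.comp (suEquiv e 4 (Fintype.card F)).toMonoidHom
  let z : SU 4 K (Fintype.card F) := ⟨negOne4 K, negOne4_mem_SU (H31.frobQ hK) fun _ => rfl⟩
  have hk : ∀ g, φ g = 1 → g = 1 ∨ g = z := fun g hg => (hk₀ _ hg).imp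
    (fun h => (map_eq_one_iff _ (MulEquiv.injective _)).1 h) fun h => Subtype.ext
      ((slEquiv e (Fin 4)).injective (h.trans (Subtype.ext (by
        change -1 = e.toRingHom.mapMatrix (-1)
        rw [map_neg, map_one]))))
  have hperf : commutator (SU 4 K (Fintype.card F)) = ⊤ := by
    have h := (H31.isHerm_hermB hK 4).commutator_sisom (Or.inl (by simp))
    rw [← map_commutator_equiv (H31.suEquiv hK 4).symm, h]
    exact Subgroup.map_top_of_surjective _ (H31.suEquiv hK 4).symm.surjective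
  have hc : Nat.card (isometryGroup F (quadFormMinus 2 F a b)) =
      2 * Nat.card (SU 4 K (Fintype.card F)) := by
    rw [Cfsg.Agent.S0288.result rfl 3 (by norm_num) a b hab]
    have h := Cfsg.Agent.S0278.result hK 4 (by norm_num)
    apply Nat.eq_of_mul_eq_mul_left (show 0 < Fintype.card F + 1 by omega)
    rw [mul_left_comm _ 2, h]
    simp [Finset.prod_range_succ, Nat.even_iff]
    ring
  have h4 := omega_index_four h2 (by simp) (qMinus F 2 a b) (qMinus_nondegenerate 2 hab)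
  have hr := range_eq_commutator φ (mem_commutator_of_perfect φ hperf) hc z hk (Or.inr h4)
  have hz : φ z = 1 := by
    by_contra hz
    have h5 := Nat.card_congr (MonoidHom.ofInjective (f := φ) ((injective_iff_map_eq_one φ).2
      fun g hg => (hk g hg).resolve_right (by rintro rfl; exact hz hg))).toEquiv
    have h6 := φ.range.index_mul_card
    have := Nat.card_pos (α := SU 4 K (Fintype.card F))
    rw [← h5, hr, hc] at h6
    change (commutator (isometryGroup F (quadFormMinus 2 F a b))).index = 4 at h4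
    rw [h4] at h6
    omega
  refine ⟨_, range_eq_kerDS (qMinus_nondegenerate 2 hab) (not_isExc_of_finrank (by simp)) φ hr,
    fun g => ⟨fun hg => (hk g ((map_eq_one_iff _ (isoEquiv (qMinus F 2 a b)).injective).1 hg)).imp_right
      (congrArg Subtype.val), ?_⟩⟩
  rintro (rfl | h)
  · exact map_one _
  · rw [show g = z from Subtype.ext h]
    exact (congrArg (isoEquiv (qMinus F 2 a b)) hz).trans (map_one _)

theorem su_c6_four {K : Type*} [Field K] [Fintype K] {p : ℕ} (hK : Fintype.card K = p ^ 2)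
    (hp : p.Prime) (hp2 : p ≠ 2) {R : Subgroup (GL (Fin 4) K)} (h : IsSymplecticTypeGroup 2 R)
    (habs : ActsAbsolutelyIrreducibly (matrixSet R)) (hR : R ≤ GU 4 K p) (hc : Nat.card R = 64)
    (hZ : Nat.card (Subgroup.center R) = 4) :
    IsMaximalIn (GU 4 K p ⊓ specialLinear (Fin 4) K)
      (subgroupNormalizer R ⊓ (GU 4 K p ⊓ specialLinear (Fin 4) K)) := by
  have := Fact.mk hp
  have hodd := hp.odd_of_ne_two hp2
  have h2 : (2 : K) ≠ 0 := two_ne_zero_iff_odd_card.2 (hK ▸ hodd.pow)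
  have h2' : (2 : ZMod p) ≠ 0 := two_ne_zero_iff_odd_card.2 (by rwa [ZMod.card])
  obtain ⟨b, hb⟩ := H79.exists_aniso (ZMod p)
  obtain ⟨φ, hφ, hk⟩ := exists_phi_su4 (ZMod.card p) hK h2' hb
  have h3 : SpecialLinearGroup.toGL (negOne4 K) = scal (Fin 4) (-1) :=
    Units.ext (by rw [coe_scal_neg_one]; rfl)
  refine isMaximalIn_normalizer (by rwa [ZMod.card]) h2' (qMinus_nondegenerate 2 hb) (by simp)
    (SpecialLinearGroup.toGL.comp (SU 4 K p).subtype)
    (SpecialLinearGroup.toGL_injective.comp Subtype.val_injective) ?_ φ hφ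
    (z := ⟨negOne4 K, negOne4_mem_SU (H31.frobQ hK) fun _ => rfl⟩)
    (fun h => negOne4_ne_one h2 (congrArg Subtype.val h))
    (fun g => (hk g).trans (or_congr_right ⟨fun h => Subtype.ext h, congrArg Subtype.val⟩))
    (le_inf hR (symp_le_sl h2 h habs hZ)) (h3 ▸ symp_neg_mem h habs :)
    (fun x hx => (h3 ▸ symp_sq h habs hx :)) (by simpa using hc)
  ext g
  refine ⟨?_, fun hg => ⟨⟨⟨g, congrArg Units.val (MonoidHom.mem_ker.1 hg.2)⟩, hg.1⟩, Units.ext rfl⟩⟩
  rintro ⟨g, rfl⟩
  exact ⟨g.2, MonoidHom.mem_ker.2 (Units.ext g.1.2)⟩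

end Cfsg.Agent.H30
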