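import Cfsg.Agent.H30.FrDickson

/-!
# The stabiliser of a non-degenerate plane in `Ω₅(q)`, `q ≥ 5` odd
-/

set_option autoImplicit false

namespace Cfsg.Agent.H30

open QuadraticMap Module

variable {F V : Type*} [Field F] [AddCommGroup V] [Module F V] {Q : QuadraticForm F V}
  {κ : Type*}

theorem exists_ne_zero_add_sq_ne (hF : ∃ a : F, a ≠ 0 ∧ a * a ≠ 1) {c : F} (hc : c ≠ 0) (d : F) :
    ∃ r : F, r ≠ 0 ∧ c + d * (r * r) ≠ 0 := by
  obtain ⟨a, ha, ha1⟩ := hF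
  by_contra h
  push Not at h
  exact mul_ne_zero hc (sub_ne_zero.2 ha1) (by linear_combination a * a * h 1 one_ne_zero - h a ha)

theorem exists_conic (h2 : (2 : F) ≠ 0) (hF : ∃ a : F, a ≠ 0 ∧ a * a ≠ 1) {d δ x : F} (hd : d ≠ 0)
    (hx : x ≠ 0) : ∃ β γ : F, γ ≠ 0 ∧ d * (β * β) + δ * (γ * γ) = d * (x * x) := by
  obtain ⟨r, hr, h⟩ := exists_ne_zero_add_sq_ne hF hd δ
  refine ⟨x * (d - δ * (r * r)) / (d + δ * (r * r)), 2 * d * x * r / (d + δ * (r * r)),
    div_ne_zero (mul_ne_zero (mul_ne_zero (mul_ne_zero h2 hd) hx) hr) h, ?_⟩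
  generalize hN : d + δ * (r * r) = N at h
  field_simp
  rw [← hN]; ring

/-- Reflections act irreducibly on a non-degenerate plane over a field with at least four
elements. -/
theorem NondegOn.irr_two [FiniteDimensional F V] {W : Submodule F V} (hW : NondegOn Q W)
    (h2 : finrank F W = 2) (hF : ∃ a : F, a ≠ 0 ∧ a * a ≠ 1) {Z : Submodule F V} (hZ : Z ≤ W)
    (h : ∀ y ∈ W, Q y ≠ 0 → y ∈ Z ∨ y ∈ H30.perp Q Z) : Z = ⊥ ∨ Z = W := by
  by_contra H
  push Not at H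
  obtain ⟨z, hz, hz0⟩ := Submodule.exists_mem_ne_zero_of_ne_bot H.1
  have h1 : Z = F ∙ z := (Submodule.eq_of_le_of_finrank_le
    ((Submodule.span_singleton_le_iff_mem _ _).2 hz) (by
      have := Submodule.finrank_lt_finrank_of_lt (lt_of_le_of_ne hZ H.2)
      rw [finrank_span_singleton hz0]; omega)).symm
  obtain ⟨y, hy, hzy⟩ := hW.exists_polar_eq_one (hZ hz) hz0
  have h3 : ∀ w ∈ W, Q w ≠ 0 → polar Q z w ≠ 0 → ∃ t : F, t • z = w := fun w hw h3 h4 =>
    Submodule.mem_span_singleton.1 (h1 ▸ (h w hw h3).resolve_right fun h5 =>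
      h4 (mem_perp.1 h5 z hz))
  by_cases h4 : 2 * Q z = 0
  · have h5 : ∀ t : F, Q y + t * t * Q z + t = 0 := fun t => by
      by_contra h5
      have h6 : polar Q z (y + t • z) = 1 := by
        rw [polar_add_right, polar_smul_right', polar_self', h4, hzy, mul_zero, add_zero]
      obtain ⟨s, hs⟩ := h3 _ (W.add_mem hy (W.smul_mem t (hZ hz))) (by
        rwa [Q_add, Q_smul, polar_smul_right', polar_comm, hzy, mul_one]) (h6 ▸ one_ne_zero)
      rw [← hs, polar_smul_right', polar_self', h4, mul_zero] at h6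
      exact zero_ne_one h6
    obtain ⟨a, ha, ha1⟩ := hF
    refine mul_ne_zero ha (sub_ne_zero.2 fun h => ha1 (by rw [h, mul_one]) : a - 1 ≠ 0) ?_
    linear_combination (1 - a * a) * h5 0 + a * a * h5 1 - h5 a
  obtain ⟨x, hx, hx'⟩ : ∃ x ∈ W, x ∉ F ∙ z := by
    by_contra H'
    push Not at H'
    exact not_le_span_of_two_le h2.ge z H'
  obtain ⟨r, hr, h5⟩ := exists_ne_zero_add_sq_ne hF (right_ne_zero_of_mul h4)
    (Q (x - ((2 * Q z)⁻¹ * polar Q z x) • z))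
  have h6 : polar Q z (x - ((2 * Q z)⁻¹ * polar Q z x) • z) = 0 := by
    rw [polar_sub_right, polar_smul_right', polar_self', mul_right_comm, inv_mul_cancel₀ h4, one_mul,
      sub_self]
  obtain ⟨s, hs⟩ := h3 (z + r • (x - ((2 * Q z)⁻¹ * polar Q z x) • z))
    (W.add_mem (hZ hz) (W.smul_mem _ (W.sub_mem hx (W.smul_mem _ (hZ hz)))))
    (by rwa [Q_add, Q_smul, polar_smul_right', h6, mul_zero, add_zero, mul_comm])
    (by rwa [polar_add_right, polar_smul_right', h6, polar_self', mul_zero, add_zero])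
  refine hx' (Submodule.mem_span_singleton.2 ⟨r⁻¹ * (s - 1) + (2 * Q z)⁻¹ * polar Q z x, ?_⟩)
  rw [add_smul, mul_smul, sub_smul, hs, one_smul, add_sub_cancel_left, inv_smul_smul₀ hr,
    sub_add_cancel]

namespace ODec

variable [FiniteDimensional F V] [Finite F] [Finite κ] {D : κ → Submodule F V} (hD : ODec Q D)
  {hQ : (polarBilin Q).Nondegenerate} {M : Subgroup (O Q)} (hH : stabDec Q D ⊓ kerDS hQ ≤ M)
  {i j : κ} (hij : i ≠ j) (hκ : ∀ l, l = i ∨ l = j) (h3 : 3 ≤ finrank F (D i))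
  (hj : finrank F (D j) = 2) (hF : ∃ a : F, a ≠ 0 ∧ a * a ≠ 1)
include hD hij hκ

omit [Finite F] hij in
theorem sub_pr_mem_two (x : V) : x - hD.pr i x ∈ D j := hD.mem_iff_pr.2 fun l hl => by
  rw [(hκ l).resolve_right hl, map_sub, hD.pr_pr, sub_self]

include hH h3 hj hF

theorem eichGroup_le_of_member_two {e w : V} (he : e ∈ D i) (he0 : e ≠ 0) (hQe : Q e = 0)
    (hew : polar Q e w = 0) (hw : eich Q e w ∈ M) (hwi : w ∉ D i) : eichGroup Q ≤ M := by
  obtain ⟨f, hf, h⟩ := (hD.nd i).exists_isHyp he hQe he0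
  let S : AddSubgroup V := (D j).toAddSubgroup ⊓ eichAddSubgroup M hQe
  have hconj : ∀ g ∈ stabDec Q D ⊓ kerDS hQ, ∀ (μ : F), μ ≠ 0 → g.1 e = μ • e → ∀ x ∈ S,
      g.1 x ∈ D j → μ • g.1 x ∈ S := fun g hg μ hμ hge x hx hgx => by
    refine ⟨(D j).smul_mem μ hgx, ?_, ?_⟩
    · rw [polar_smul_right', hD.orth i j hij e he _ hgx, mul_zero]
    · rw [← eich_smul_left hμ, ← hge]
      exact eich_conj_mem (hH hg) hx.2.2
  have htor : ∀ μ, ∀ x ∈ D j, (torus Q e f μ).1 x = x := fun μ x hx =>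
    IsHyp.torus_of_orth μ (hD.orth j i hij.symm x hx e he) (hD.orth j i hij.symm x hx f hf)
  have hlin : ∀ (a : F), ∀ x ∈ S, a • x ∈ S := smul_mem_of_sq fun a x hx => by
    by_cases ha : a = 0
    · simp [ha]
    · have := hconj _ ⟨hD.torus_mem_stabDec he hf _, h.torus_mem_kerDS hQ ha⟩ _
        (mul_ne_zero ha ha) (h.torus_left (mul_ne_zero ha ha)) x hx (by rw [htor _ x hx.1]; exact hx.1)
      rwa [htor _ x hx.1] at this
  let Y : Submodule F V := { S.toAddSubmonoid with smul_mem' := fun a x hx => hlin a x hx }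
  have hinv : ∀ g ∈ stabDec Q D, dickson hQ g = 1 → g.1 e = e → ∀ x ∈ Y, g.1 x ∈ D j →
      g.1 x ∈ Y := fun g hg hd hge x hx hgx => by
    obtain ⟨μ, hμ⟩ := QuotientGroup.mk_surjective (spinorNorm hQ g)
    have := hconj (torus Q e f μ * g) ⟨(stabDec Q D).mul_mem (hD.torus_mem_stabDec he hf _) hg,
      (mem_kerDS hQ).2 ⟨by rw [map_mul, h.dickson_torus hQ μ.ne_zero, hd, one_mul],
        by rw [map_mul, h.spinorNorm_torus hQ, ← hμ, sqCl_mul_self]⟩⟩ μ μ.ne_zero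
      (by rw [O_mul_apply, hge, h.torus_left μ.ne_zero]) x hx
      (by rw [O_mul_apply, htor _ _ hgx]; exact hgx)
    rw [O_mul_apply, htor _ _ hgx] at this
    exact (Y.smul_mem_iff μ.ne_zero).1 this
  have hY0 : ∀ x, polar Q e x = 0 → hD.pr i x ∈ eichAddSubgroup M hQe := fun x hx =>
    ⟨by rw [hD.polar_pr_right x he, hx], hD.eich_mem hH he (hD.pr_mem i x)⟩
  have hw0 : w - hD.pr i w ∈ Y :=
    ⟨hD.sub_pr_mem_two hκ w, (eichAddSubgroup M hQe).sub_mem ⟨hew, hw⟩ (hY0 w hew)⟩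
  obtain ⟨h5, h6⟩ := (hD.nd i).inf_hperp h he hf
  obtain ⟨z, hz, hQz⟩ := h5.exists_Q_ne_zero (ne_bot_of_finrank_pos (by omega))
  have hjY : Y = D j := by
    refine ((hD.nd j).irr_two hj hF (Z := Y) (fun x hx => hx.1) fun x hx hQx => ?_).resolve_left
      fun h0 => hwi ?_
    · rw [or_iff_not_imp_right, mem_perp]
      intro h1
      push Not at h1
      obtain ⟨a, ha, hax⟩ := h1
      have h7 : (refl Q x * refl Q z).1 a = (refl Q x).1 a := by
        rw [O_mul_apply, refl_apply_of_orth (hD.orth j i hij.symm a ha.1 z hz.1)]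
      have := hinv (refl Q x * refl Q z) ((stabDec Q D).mul_mem (hD.refl_mem_stabDec hx)
        (hD.refl_mem_stabDec hz.1)) (by rw [map_mul, dickson_refl hQ hQx, dickson_refl hQ hQz]; simp)
        (by rw [O_mul_apply, refl_apply_of_orth ((polar_comm _ _ _).trans hz.2.1),
          refl_apply_of_orth (hD.orth i j hij e he x hx)]) a ha
        (h7 ▸ hD.refl_mem_of_mem hx j ha.1)
      exact mem_of_refl_apply_mem hQx hax ha (h7 ▸ this)
    · rw [h0, Submodule.mem_bot, sub_eq_zero] at hw0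
      exact hw0 ▸ hD.pr_mem i w
  have hfull : FullAt M e := ⟨hQe, fun x hx => by
    have := (eichAddSubgroup M hQe).add_mem (hY0 x hx)
      (hjY.ge (hD.sub_pr_mem_two hκ x) : x - hD.pr i x ∈ Y).2
    rw [add_sub_cancel] at this
    exact this.2⟩
  have hef : Q (e - f) = -1 := by rw [Q_sub, h.left, h.right, h.pol]; ring
  obtain ⟨a, ha, hQa⟩ := (hD.nd j).exists_Q_eq hj.ge (-1)
  have hef0 : Q (e - f) ≠ 0 := by rw [hef]; exact neg_ne_zero.2 one_ne_zero
  have h7 := hfull.conj (hD.refl_mul_refl_mem hH ((D i).sub_mem he hf) ha hef0 (by rw [hef, hQa]))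
  rw [O_mul_apply, refl_apply_of_orth (hD.orth i j hij e he a ha),
    refl_sub_apply (by rw [h.left, h.right]) hef0] at h7
  exact hfull.eichGroup_le hQ h7 (by rw [h.pol]; exact one_ne_zero)

theorem eichGroup_le_of_root_two (h2 : (2 : F) ≠ 0) {δ : F} (hδ : δ ≠ 0)
    (hs : ∀ x ∈ D i, ∀ a, a ≠ 0 → Q x = a * a * δ → ∃ y ∈ D i, y ≠ 0 ∧ Q y = 0 ∧ polar Q x y = 0)
    {x v : V} (hx : x ∈ D i) (hQx : Q x ≠ 0) (hv : Rt M x v) (hvi : v ∉ D i) (h0 : hD.pr i v ≠ 0)
    {a : F} (ha : Q (hD.pr i v) = a * a * δ) : eichGroup Q ≤ M := by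
  by_cases ha0 : a = 0
  · have hQ0 : Q (hD.pr i v) = 0 := by rw [ha, ha0]; simp
    obtain ⟨a, ha, ha1⟩ := id hF
    obtain ⟨f, hf, h⟩ := (hD.nd i).exists_isHyp (hD.pr_mem i v) hQ0 h0
    have h1 := hD.rt_apply hH hx hQx hv (g := torus Q (hD.pr i v) f (a * a))
      ⟨hD.torus_mem_stabDec (hD.pr_mem i v) hf _, h.torus_mem_kerDS hQ ha⟩
    have h2 : (torus Q (hD.pr i v) f (a * a)).1 v - v = (a * a - 1) • hD.pr i v := by
      have h3 := IsHyp.torus_of_orth (a * a) (mem_perp'.1 (hD.sub_pr_mem i v) _ (hD.pr_mem i v))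
        (mem_perp'.1 (hD.sub_pr_mem i v) f hf)
      rw [map_sub, h.torus_left (mul_ne_zero ha ha)] at h3
      rw [eq_add_of_sub_eq h3]; module
    obtain ⟨h4, h5⟩ := Rt.eich_mem hQx hv h1 (by rw [h2, Q_smul, hQ0, mul_zero])
    rw [h2] at h4 h5
    exact hD.eichGroup_le_of_member_two hH hij hκ h3 hj hF
      ((D i).smul_mem _ ((D i).smul_mem _ (hD.pr_mem i v)))
      (smul_ne_zero (inv_ne_zero hQx) (smul_ne_zero (sub_ne_zero.2 ha1) h0))
      (by rw [Q_smul, Q_smul, hQ0]; simp) h4 h5 hvi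
  obtain ⟨u, hu, hu0, hQu, h⟩ := hs _ (hD.pr_mem i v) a ha0 ha
  have huv : polar Q u v = 0 := by rwa [hD.polar_pr_left v hu, polar_comm] at h
  obtain ⟨y, hy, hQy⟩ := (hD.nd j).exists_Q_eq hj.ge (Q x)
  have hwv : polar Q (hD.pr i v) v ≠ 0 := by
    rw [← hD.polar_pr_right v (hD.pr_mem i v), polar_self', ha]
    exact mul_ne_zero h2 (mul_ne_zero (mul_ne_zero ha0 ha0) hδ)
  have h1 := eich_conj_mem (hv.pair (hD.rt_of_mem hH hx hy hQx hQy))
    (hD.eich_mem hH hu (hD.pr_mem i v))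
  rw [O_mul_apply, O_mul_apply, refl_apply_of_orth (hD.orth i j hij u hu y hy),
    refl_apply_of_orth (hD.orth i j hij _ (hD.pr_mem i v) y hy), refl_apply_of_orth huv] at h1
  refine hD.eichGroup_le_of_member_two hH hij hκ h3 hj hF hu hu0 hQu ?_ h1 fun h =>
    hvi (mem_of_refl_apply_mem (hv.1 ▸ hQx) hwv (hD.pr_mem i v) h)
  rw [refl_apply, polar_sub_right, polar_smul_right', huv, polar_comm, h]; simp

theorem eichGroup_le_of_new_two (h2 : (2 : F) ≠ 0) (hi : finrank F (D i) = 3) {x v : V}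
    (hx : x ∈ D i) (hQx : Q x ≠ 0) (hv : Rt M x v) (hvi : v ∉ D i) (hvj : v ∉ D j) :
    eichGroup Q ≤ M := by
  obtain ⟨δ, hδ, -, hs'⟩ := H30.exists_disc_three (hD.nd i).restrict hi
  have hs : ∀ x ∈ D i, ∀ a, a ≠ 0 → Q x = a * a * δ →
      ∃ y ∈ D i, y ≠ 0 ∧ Q y = 0 ∧ polar Q x y = 0 := fun x hx a ha h => by
    obtain ⟨y, h1, h4, h5⟩ := hs' ⟨x, hx⟩ a ha h
    exact ⟨y, y.2, by simpa using h1, h4, h5⟩
  have key := fun v hv hvi h0 a ha => hD.eichGroup_le_of_root_two hH hij hκ h3 hj hF h2 hδ hs hx hQx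
    (v := v) hv hvi h0 (a := a) ha
  have hpr : ∀ v, v ∉ D j → hD.pr i v ≠ 0 := fun v hv h => hv (by
    simpa [h] using hD.sub_pr_mem_two hκ v)
  suffices H : ∀ v, Rt M x v → v ∉ D i → v ∉ D j → Q (v - hD.pr i v) ≠ 0 → eichGroup Q ≤ M by
    by_cases hd : Q (v - hD.pr i v) = 0
    swap
    · exact H v hv hvi hvj hd
    have hw := hD.sub_pr_mem_two hκ v
    obtain ⟨f, hf, h⟩ := (hD.nd j).exists_isHyp hw hd fun h => hvi (by
      rw [sub_eq_zero.1 h]; exact hD.pr_mem i v)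
    obtain ⟨β, hβ, hβ1⟩ := id hF
    have hy : β⁻¹ • (v - hD.pr i v) + (β * Q x) • f ∈ D j :=
      (D j).add_mem ((D j).smul_mem _ hw) ((D j).smul_mem _ hf)
    have hQy : Q (β⁻¹ • (v - hD.pr i v) + (β * Q x) • f) = Q x := by
      rw [h.Q_comb', inv_mul_cancel_left₀ hβ]
    have hyw : polar Q (β⁻¹ • (v - hD.pr i v) + (β * Q x) • f) (v - hD.pr i v) = β * Q x := by
      simpa using h.polar_comb_left β⁻¹ (β * Q x) (Submodule.zero_mem _)
    generalize β⁻¹ • (v - hD.pr i v) + (β * Q x) • f = y at hy hQy hyw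
    have h6 : (refl Q v).1 y = y - β • v := by
      rw [polar_sub_right, hD.orth j i hij.symm y hy _ (hD.pr_mem i v), sub_zero] at hyw
      rw [refl_apply, hyw, hv.1, mul_comm β, inv_mul_cancel_left₀ hQx]
    have h7 := hv.refl_apply (hD.rt_of_mem hH hx hy hQx hQy)
    rw [h6] at h7
    have h8 : Q (y - β • v - hD.pr i (y - β • v)) ≠ 0 := by
      rw [(hD.pr i).map_sub, map_smul, hD.pr_of_ne hij hy, show y - β • v - (0 - β • hD.pr i v) =
        y - β • (v - hD.pr i v) by module, Q_sub, Q_smul, polar_smul_right', hyw, hd, hQy]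
      exact fun h => mul_ne_zero hQx (sub_ne_zero.2 hβ1) (by linear_combination -h)
    refine H _ h7 (fun h => h8 (by rw [hD.pr_of_mem h, sub_self, map_zero])) (fun h => hvj ?_) h8
    exact ((D j).smul_mem_iff hβ).1 (by simpa using (D j).sub_mem hy h)
  intro v hv hvi hvj hd
  by_cases hj' : Q (hD.pr i v) = 0
  · exact key v hv hvi (hpr v hvj) 0 (by rw [hj']; simp)
  have he := (hD.Q_pr_add i v).trans hv.1
  obtain ⟨β, γ, hβ0, hβ, hγ⟩ : ∃ β γ : F, β ≠ 0 ∧ Q (v - hD.pr i v) * (β * β) + δ * (γ * γ) = Q x ∧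
      (γ ≠ 0 ∨ ∃ s, Q x = s * s * δ) := by
    by_cases hsq : ∃ s, Q x = s * s * δ
    · obtain ⟨s, hs⟩ := hsq
      obtain ⟨γ, β, h4, h5⟩ := exists_conic h2 hF (δ := Q (v - hD.pr i v)) hδ (x := s)
        (by rintro rfl; exact hQx (by simpa using hs))
      exact ⟨β, γ, h4, by linear_combination h5 - hs, Or.inr ⟨s, hs⟩⟩
    have h4 : ∀ β γ : F, Q (v - hD.pr i v) * (β * β) + δ * (γ * γ) = Q x → β ≠ 0 := by
      rintro β γ h rfl
      exact hsq ⟨γ, by linear_combination -h⟩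
    obtain ⟨β, γ, h⟩ := exists_binary h2 hd hδ (Q x)
    by_cases h5 : γ = 0
    · obtain ⟨β', γ', h6, h7⟩ := exists_conic h2 hF (δ := δ) hd (h4 β γ h)
      have h8 : Q (v - hD.pr i v) * (β' * β') + δ * (γ' * γ') = Q x := by
        rw [h7, ← h, h5]; ring
      exact ⟨β', γ', h4 _ _ h8, h8, Or.inl h6⟩
    · exact ⟨β, γ, h4 _ _ h, h, Or.inl h5⟩
  set e := Q (hD.pr i v) with he'
  set c := Q x with hc
  have hnd := (hD.nd i).inf_perp_singleton h2 (hD.pr_mem i v) hj'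
  have h4 := finrank_inf_perp_singleton (Q := Q) (D i) (hD.pr i v)
  obtain ⟨w, hw, hQw⟩ := hnd.exists_Q_eq (by omega) (c - (β * c / (2 * e)) * (β * c / (2 * e)) * e)
  have hw0 : polar Q (hD.pr i v) w = 0 := mem_perp_singleton.1 hw.2
  set y := (β * c / (2 * e)) • hD.pr i v + w with hy
  have hyj : y ∈ D i := (D i).add_mem ((D i).smul_mem _ (hD.pr_mem i v)) hw.1
  have hQy : Q y = c := by rw [hy, Q_add, Q_smul, polar_smul_left', hw0, hQw]; ring
  have hyv : polar Q y (hD.pr i v) = β * c := by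
    rw [hy, polar_add_left, polar_smul_left', polar_self', polar_comm, hw0]; field_simp; ring
  have h6 : (refl Q v).1 y = y - β • v := by
    rw [refl_apply, ← hD.polar_pr_right v hyj, hyv, hv.1, ← hc, mul_comm β, inv_mul_cancel_left₀ hQx]
  have h7 := hv.refl_apply (hD.rt_of_mem hH hx hyj hQx hQy)
  rw [h6] at h7
  have h8 : hD.pr i (y - β • v) = y - β • hD.pr i v := by rw [map_sub, map_smul, hD.pr_of_mem hyj]
  have h10 : Q (y - β • hD.pr i v) = γ * γ * δ := by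
    rw [Q_sub, Q_smul, polar_smul_right', hyv, hQy, ← he']
    linear_combination β * β * he - hβ
  by_cases h9 : y - β • hD.pr i v = 0
  · rcases hγ with hγ | ⟨s, hs⟩
    · rw [h9, map_zero] at h10
      exact absurd h10.symm (mul_ne_zero (mul_ne_zero hγ hγ) hδ)
    refine key v hv hvi (hpr v hvj) (β⁻¹ * s) ?_
    rw [sub_eq_zero.1 h9, Q_smul, hs] at hQy
    field_simp
    linear_combination hQy
  · refine key _ h7 (fun h => hvi ?_) (by rwa [h8]) γ (by rwa [h8])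
    exact ((D i).smul_mem_iff hβ0).1 (by simpa using (D i).sub_mem hyj h)

end ODec

/-- The stabiliser of a non-degenerate plane in `Ω₅(q)` is maximal for odd `q ≥ 5`. -/
theorem ODec.le_or_le_five [Fintype F] [Finite κ] [FiniteDimensional F V] {D : κ → Submodule F V}
    (hD : ODec Q D) {hQ : (polarBilin Q).Nondegenerate} {M : Subgroup (O Q)}
    (hH : stabDec Q D ⊓ kerDS hQ ≤ M) {i j : κ} (hij : i ≠ j) (hκ : ∀ l, l = i ∨ l = j)
    (hi : finrank F (D i) = 3) (hj : finrank F (D j) = 2) (h5 : finrank F V = 5)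
    (h2 : (2 : F) ≠ 0) (hq : 5 ≤ Fintype.card F) :
    (∀ g ∈ M, ∀ x ∈ D i, g.1 x ∈ D i) ∨ kerDS hQ ≤ M := by
  rw [← eichGroup_eq_kerDS hQ (not_isExc_of_two h2) (by omega), or_iff_not_imp_right]
  intro hE g hg
  have hF : ∃ a : F, a ≠ 0 ∧ a * a ≠ 1 := by
    obtain ⟨a, ha, h⟩ := exists_pow_ne_one (F := F) (n := 2) (by omega) (by omega)
    exact ⟨a, ha, by rwa [← pow_two]⟩
  have hirr := (hD.nd i).irr (by omega) (by omega) (by omega) (by omega)
  obtain ⟨c, hc⟩ := QuotientGroup.mk_surjective (spinorNorm hQ (negOne Q))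
  obtain ⟨x, hx, hQx⟩ := (hD.nd i).exists_Q_eq (by omega) (c : F)
  have hx0 : Q x ≠ 0 := hQx ▸ c.ne_zero
  have h1 : ∀ y ∈ D i, Q y = c → negOne Q * refl Q y ∈ M := fun y hy h => hH ⟨mul_mem
    (mem_stabDec_of_fix fun l z hz => (D l).neg_mem hz) (hD.refl_mem_stabDec hy), (mem_kerDS hQ).2
      ⟨by rw [map_mul, dickson_negOne hQ h2, dickson_refl hQ (h ▸ c.ne_zero), h5]; decide, by
        rw [map_mul, spinorNorm_refl hQ (h ▸ c.ne_zero), ← hc,
          show Units.mk0 (Q y) (h ▸ c.ne_zero) = c from Units.ext h, sqCl_mul_self]⟩⟩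
  have key : ∀ y ∈ D i, Q y = c → g.1 y ∈ D i ∨ g.1 y ∈ D j := fun y hy h => by
    by_contra H
    push Not at H
    refine hE (hD.eichGroup_le_of_new_two hH hij hκ hi.ge hj hF h2 hi hx hx0
      ⟨by rw [O_map, h, hQx], ?_⟩ H.1 H.2)
    convert mul_mem (mul_mem (mul_mem hg (h1 y hy h)) (inv_mem hg)) (h1 x hx hQx) using 1
    rw [← refl_conj]
    exact O_ext fun z => by simp only [O_mul_apply, negOne_apply, map_neg, neg_neg]
  rcases hirr.irr c c.ne_zero (D i ⊓ (D i).comap (g.1 : V →ₗ[F] V)) inf_le_left (fun a ha h =>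
    (key a ha h).imp (fun h' => ⟨ha, h'⟩) fun h' => mem_perp.2 fun b hb => by
      rw [← O_polar g]; exact hD.orth i j hij _ hb.2 _ h') with h | h
  · by_cases h6 : D i ≤ (D j).comap (g.1 : V →ₗ[F] V)
    · have := Submodule.finrank_mono (Submodule.map_le_iff_le_comap.2 h6)
      rw [LinearEquiv.finrank_map_eq] at this
      omega
    obtain ⟨y, hy, h7, h8⟩ := hirr.exists_notMem (hD.nd i) h6 c.ne_zero
    have h9 : y ∈ D i ⊓ (D i).comap (g.1 : V →ₗ[F] V) := ⟨hy, (key y hy h7).resolve_right h8⟩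
    rw [h, Submodule.mem_bot] at h9
    exact absurd (by rw [← h7, h9, map_zero]) c.ne_zero
  · exact fun z hz => (inf_eq_left.1 h) hz

end Cfsg.Agent.H30
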