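import Cfsg.Agent.H30.K4SL
import Cfsg.Agent.H30.O5Two
import Cfsg.Agent.H27.QJGeo
import Cfsg.Agent.S0245
import Cfsg.Agent.S0269

/-!
# Maximal subgroups of `Sp₄(q)` through `Ω₅(q)`
-/

set_option autoImplicit false

namespace Cfsg.Agent.H30

open QuadraticMap Module Matrix Cfsg.Geo H25 H28

section Invol

variable {F V : Type*} [Field F] [AddCommGroup V] [Module F V] {Q : QuadraticForm F V}
  [FiniteDimensional F V] (hQ : (polarBilin Q).Nondegenerate) (h2 : (2 : F) ≠ 0) {T : O Q}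
  (hT : ∀ x, T.1 (T.1 x) = x)

theorem exists_O_of_linear (L : V →ₗ[F] V) (h : ∀ v, Q (L v) = Q v) (hQ : (polarBilin Q).Nondegenerate) :
    ∃ t : O Q, ∀ v, t.1 v = L v :=
  ⟨⟨LinearEquiv.ofInjectiveEndo L ((injective_iff_map_eq_zero _).2 fun v hv => hQ.1 v fun w => by
    have : polar Q (L v) (L w) = polar Q v w := by simp only [polar, ← map_add, h]
    rw [hv] at this
    simpa using this.symm), h⟩, fun _ => rfl⟩

include h2 hT

omit [FiniteDimensional F V] in
theorem mem_movSp_of_invol {x : V} : x ∈ movSp T ↔ T.1 x = -x := by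
  refine ⟨?_, fun h => mem_movSp.2 ⟨(-2⁻¹ : F) • x, ?_⟩⟩
  · rintro ⟨y, rfl⟩
    simp [hT]
  · rw [map_smul, h]
    match_scalars
    field_simp
    ring

include hQ

theorem oDec_invol : ODec Q ![fixSp T, movSp T] := by
  have h1 : fixSp T ⊓ movSp T = ⊥ := eq_bot_iff.2 fun x hx => by
    have := (mem_fixSp.1 hx.1).symm.trans ((mem_movSp_of_invol h2 hT).1 hx.2)
    rw [eq_neg_iff_add_eq_zero, ← two_smul F] at this
    exact (smul_eq_zero.1 this).resolve_left h2
  have h3 : ∀ x ∈ fixSp T, ∀ y ∈ movSp T, polar Q x y = 0 := fun x hx y hy =>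
    mem_perp.1 (perp_fixSp hQ T ▸ hy) x hx
  refine ⟨Fin.forall_fin_two.2 ⟨fun x hx h => ?_, fun x hx h => ?_⟩, fun i j hij => ?_, ?_⟩
  · exact (Submodule.mem_bot F).1 (h1 ▸ ⟨hx, perp_fixSp hQ T ▸ mem_perp'.2 h⟩)
  · exact (Submodule.mem_bot F).1 (h1 ▸ ⟨perp_movSp hQ T ▸ mem_perp'.2 h, hx⟩)
  · fin_cases i <;> fin_cases j
    · exact absurd rfl hij
    · exact h3
    · exact fun x hx y hy => (polar_comm _ _ _).trans (h3 y hy x hx)
    · exact absurd rfl hij
  · refine eq_top_iff.2 fun x _ => ?_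
    have h4 : x = (2⁻¹ : F) • (T.1 x + x) - (2⁻¹ : F) • (T.1 x - x) := by
      match_scalars <;> field_simp <;> ring
    rw [h4]
    exact sub_mem (Submodule.smul_mem _ _ (Submodule.mem_iSup_of_mem 0 (mem_fixSp.2 (by
      rw [map_add, hT, add_comm])))) (Submodule.smul_mem _ _ (Submodule.mem_iSup_of_mem 1
        (sub_mem_movSp T x)))

theorem comm_of_fixSp {g : O Q} (h : ∀ x ∈ fixSp T, g.1 x ∈ fixSp T) : g * T = T * g :=
  (oDec_invol hQ h2 hT).ext (Fin.forall_fin_two.2 ⟨fun x hx => by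
    rw [O_mul_apply, O_mul_apply, mem_fixSp.1 hx, mem_fixSp.1 (h x hx)], fun x hx => by
    have h1 : g.1 x ∈ movSp T := perp_fixSp hQ T ▸ mem_perp.2 fun y hy => by
      rw [polar_comm, O_polar_inv]
      exact (oDec_invol hQ h2 hT).orth 1 0 (by decide) x hx _
        ((mem_stabSet_submodule.2 h _).2 (by rwa [O_apply_inv]))
    rw [O_mul_apply, O_mul_apply, (mem_movSp_of_invol h2 hT).1 hx, (mem_movSp_of_invol h2 hT).1 h1,
      map_neg]⟩)

omit hQ in
theorem trace_invol : LinearMap.trace F V (T.1 : V →ₗ[F] V) =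
    finrank F V - 2 * finrank F (movSp T) := by
  have h1 : LinearMap.IsProj (movSp T) ((2⁻¹ : F) • (LinearMap.id - (T.1 : V →ₗ[F] V))) :=
    ⟨fun x => (movSp T).smul_mem _ (by simpa using (movSp T).neg_mem (sub_mem_movSp T x)),
      fun x hx => by
        simp only [LinearMap.smul_apply, LinearMap.sub_apply, LinearMap.id_apply,
          LinearEquiv.coe_coe, (mem_movSp_of_invol h2 hT).1 hx]
        match_scalars
        field_simp
        ring⟩
  rw [← h1.trace, map_smul, map_sub, LinearMap.trace_id, smul_eq_mul, mul_inv_cancel_left₀ h2]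
  ring

/-- The centraliser of an involution whose eigenspaces have different dimensions. -/
theorem isCoatom_cent (hne : finrank F (fixSp T) ≠ finrank F (movSp T))
    (hmax : ∀ M : Subgroup (O Q), stabDec Q ![fixSp T, movSp T] ⊓ kerDS hQ ≤ M → M ≤ kerDS hQ →
      (∀ g ∈ M, ∀ x ∈ fixSp T, g.1 x ∈ fixSp T) ∨ kerDS hQ ≤ M)
    {G : Type*} [Group G] (φ : G →* O Q) (hφ : φ.range = kerDS hQ) {N : Subgroup G}
    (hN : ∀ g, g ∈ N ↔ φ g * T = T * φ g) (hN' : N ≠ ⊤) : IsCoatom N := by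
  refine H27.isCoatom_of_forall hN' fun M hM ⟨g, hg, hg'⟩ => ?_
  have h1 : φ.ker ≤ M := fun x hx => hM ((hN x).2 (by rw [MonoidHom.mem_ker.1 hx, one_mul, mul_one]))
  refine (hmax (M.map φ) (fun e he => ?_) (hφ ▸ Subgroup.map_le_range _ _)).elim (fun h => ?_)
    fun h => ?_
  rotate_left
  · exact absurd ((hN g).2 (comm_of_fixSp hQ h2 hT (h _ ⟨g, hg, rfl⟩))) hg'
  · refine eq_top_iff.2 fun x _ => ?_
    have := h (hφ ▸ ⟨x, rfl⟩ : φ x ∈ kerDS hQ)
    rwa [← Subgroup.mem_comap, Subgroup.comap_map_eq_self h1] at this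
  · obtain ⟨x, rfl⟩ := (hφ ▸ he.2 : e ∈ φ.range)
    refine ⟨x, hM ((hN x).2 (comm_of_fixSp hQ h2 hT ?_)), rfl⟩
    obtain ⟨σ, hσ⟩ := he.1
    have h3 := hσ 0
    have h4 := congrArg (fun W : Submodule F V => finrank F W) h3
    rw [LinearEquiv.finrank_map_eq] at h4
    generalize σ 0 = k at h3 h4
    fin_cases k
    · exact Submodule.map_le_iff_le_comap.1 h3.le
    · exact absurd h4 hne

end Invol

variable {F : Type*} [Field F]

theorem klein_smul_left (c : F) (A : Matrix (Fin 4) (Fin 4) F) (v : Fin 3 ⊕ Fin 3 → F) :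
    klein (c • A) v = (c * c) • klein A v := altMat_injective (by
  rw [map_smul, altMat_klein, altMat_klein, transpose_smul, Matrix.mul_smul, Matrix.smul_mul,
    Matrix.smul_mul, smul_smul])

theorem exists_eq_emb5 (h2 : (2 : F) ≠ 0) (w : Fin 3 ⊕ Fin 3 → F) :
    ∃ v, ∃ c : F, w = emb5 F v + c • jVec F := by
  obtain ⟨v, hv⟩ := exists_emb5 (w + ((w (.inl 1) - w (.inr 1)) / 2) • jVec F) (by
    simp [jVec]
    field_simp
    ring)
  exact ⟨v, -((w (.inl 1) - w (.inr 1)) / 2), by rw [← hv, neg_smul, add_neg_cancel_right]⟩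

theorem exists_O5 (h2 : (2 : F) ≠ 0) (A : Matrix (Fin 4) (Fin 4) F) {μ : F} (hμ : μ ≠ 0)
    (h : klein A (jVec F) = μ • jVec F) :
    ∃ t : O (qOdd F 2), ∀ v, emb5 F (t.1 v) = μ⁻¹ • klein A (emb5 F v) := by
  have hd : A.det = μ * μ := by
    have := pf_klein A (jVec F)
    rw [h] at this
    simpa [pf, jVec] using this.symm
  have h1 : ∀ v, ∃ w, μ⁻¹ • klein A (emb5 F v) = emb5 F w := fun v => exists_emb5 _ (by
    have h1 := pf_klein A (emb5 F v)
    have h3 := pf_klein A (emb5 F v + jVec F)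
    have h4 : emb5 F v (.inl 1) = emb5 F v (.inr 1) := rfl
    rw [klein_add, h, pf_add_jVec, hd, h4] at h3
    rw [hd] at h1
    simp only [pf, jVec, Pi.add_apply, Pi.smul_apply, Sum.elim_inl, Sum.elim_inr, smul_eq_mul,
      cons_val_zero, cons_val_one, cons_val] at h1 h3 ⊢
    exact congrArg _ (mul_left_cancel₀ hμ (by linear_combination h3 - h1)))
  choose L hL using h1
  obtain ⟨t, ht⟩ := exists_O_of_linear (Q := qOdd F 2)
    { toFun := L
      map_add' := fun u v => emb5_injective (by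
        rw [map_add, ← hL, ← hL, ← hL, map_add, klein_add, smul_add])
      map_smul' := fun c v => emb5_injective (by
        rw [map_smul, ← hL, ← hL, map_smul, klein_smul, smul_comm]; rfl) } (fun v => by
    change quadFormOdd 2 F (L v) = quadFormOdd 2 F v
    rw [← pf_emb5, ← pf_emb5, ← hL, ← klein_smul, pf_klein, hd]
    simp only [pf, Pi.smul_apply, smul_eq_mul]
    field_simp) (qOdd_nondegenerate h2 2)
  exact ⟨t, fun v => by rw [ht, hL]; rfl⟩

theorem exists_phi_sp4 [Fintype F] (h2 : (2 : F) ≠ 0) :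
    ∃ φ : symplecticGroup (Fin 2) F →* O (qOdd F 2), φ.range = kerDS (qOdd_nondegenerate h2 2) ∧
      (∀ g v, emb5 F ((φ g).1 v) = klein (sp4Mat F g) (emb5 F v)) ∧
      ∀ g, φ g = 1 ↔ g = 1 ∨ g = negOneSp F (Fin 2) := by
  choose t ht using fun g : symplecticGroup (Fin 2) F => exists_O5 h2 (sp4Mat F g) one_ne_zero
    ((klein_sp4_jVec g).trans (one_smul _ _).symm)
  simp only [inv_one, one_smul] at ht
  let φ : symplecticGroup (Fin 2) F →* O (qOdd F 2) := MonoidHom.mk' t fun g h =>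
    O_ext fun v => emb5_injective (by rw [O_mul_apply, ht, ht, ht, map_mul, klein_mul])
  have hk : ∀ g, φ g = 1 ↔ g = 1 ∨ g = negOneSp F (Fin 2) := fun g => by
    have hinj := (reindexAlgEquiv F F e4).injective
    refine ⟨fun hg => (eq_of_klein_eq (sp4Mat F g) (by rw [det_sp4Mat]; exact one_ne_zero)
      fun w => ?_).imp (fun h => Subtype.ext (hinj (h.trans (map_one _).symm))) fun h =>
        Subtype.ext (hinj (h.trans (show _ = reindexAlgEquiv F F e4 (-1) by
          rw [map_neg, map_one]))), ?_⟩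
    · obtain ⟨v, c, rfl⟩ := exists_eq_emb5 h2 w
      rw [klein_add, klein_smul, klein_sp4_jVec, ← ht, show t g = 1 from hg, O_one_apply]
    · rintro (rfl | rfl)
      · exact map_one _
      · refine O_ext fun v => emb5_injective ((ht _ v).trans ?_)
        change klein (reindexAlgEquiv F F e4 (-1)) _ = _
        rw [map_neg, map_one, klein_neg, klein_one, O_one_apply]
  have hperf : commutator (symplecticGroup (Fin 2) F) = ⊤ := by
    refine S0269.result 2 (Or.inr (Or.inl ⟨rfl, ?_⟩))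
    have := Fintype.one_lt_card (α := F)
    obtain ⟨k, hk⟩ := two_ne_zero_iff_odd_card.1 h2
    omega
  have : Finite (O (qOdd F 2)) := finite_O
  have hc := commutator_eq_kerDS (qOdd_nondegenerate h2 2) (not_isExc_of_two h2)
  refine ⟨φ, hc ▸ range_eq_commutator φ (mem_commutator_of_perfect φ hperf) ?_ _
    (fun g hg => (hk g).1 hg) (Or.inr (hc ▸ index_kerDS_odd _ (by simp) h2)), ht, hk⟩
  rw [card_O_odd (qOdd_nondegenerate h2 2) (m := 2) (by simp), S0245.result rfl 2, mul_assoc,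
    Nat.card_eq_fintype_card]

theorem sp_c6_four [Fintype F] (hp : (Fintype.card F).Prime) (h2 : (2 : F) ≠ 0)
    {R : Subgroup (GL (Fin 2 ⊕ Fin 2) F)} (h : IsSymplecticTypeGroup 2 R)
    (habs : ActsAbsolutelyIrreducibly (matrixSet R)) (hR : R ≤ spGL 2 F) (hc : Nat.card R = 32) :
    IsMaximalIn (spGL 2 F) (subgroupNormalizer R ⊓ spGL 2 F) := by
  obtain ⟨φ, hφ, -, hk⟩ := exists_phi_sp4 h2
  have h3 : H27.spToGL 2 F (negOneSp F (Fin 2)) = scal _ (-1) :=
    Units.ext (by rw [coe_scal_neg_one]; rfl)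
  refine isMaximalIn_normalizer hp h2 (qOdd_nondegenerate h2 2) (by simp) (H27.spToGL 2 F)
    H27.spToGL_injective H27.range_spToGL φ hφ (fun h => ?_) hk hR (h3 ▸ symp_neg_mem h habs)
    (fun x hx => h3 ▸ symp_sq h habs hx) (by simpa using hc)
  have : (-1 : F) = 1 := congrArg (fun g : symplecticGroup (Fin 2) F => g.1 (.inl 0) (.inl 0)) h
  exact h2 (by linear_combination -this)

/-- The normaliser of `F[J]` in `Sp₄(q)` is maximal for odd `q ≥ 5`. -/
theorem js_isCoatom4 [Fintype F] (hq : 5 ≤ Fintype.card F)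
    {B : LinearMap.BilinForm F (Fin 2 ⊕ Fin 2 → F)} (hB : ∀ u v, B u v = sympForm 2 F u v)
    {J : End F (Fin 2 ⊕ Fin 2 → F)} {δ : F} (hS : H27.JS B J δ) {N : Subgroup (H27.isomGroup B)}
    (hN : ∀ g, g ∈ N ↔ (∀ p, g.1 (J p) = J (g.1 p)) ∨ ∀ p, g.1 (J p) = -J (g.1 p)) :
    IsCoatom N := by
  obtain rfl : B = H27.jBilin (Fin 2) F :=
    LinearMap.ext₂ fun u v => (hB u v).trans (H27.sympForm_eq_jBilin 2 u v)
  have h2 := hS.two
  have hδ := hS.ne
  obtain ⟨j₀, rfl⟩ := (toLin' (R := F)).surjective J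
  have h1 : j₀ * j₀ = δ • 1 := ext_iff_mulVec.2 fun v => by
    simpa [← mulVec_mulVec, smul_mulVec] using hS.sq v
  have h3 : j₀ᵀ * J (Fin 2) F = -(J (Fin 2) F * j₀) := by
    refine toBilin'.injective (LinearMap.ext₂ fun p q => ?_)
    have := hS.skew p q
    simp only [H27.jBilin_apply, toLin'_apply] at this
    rw [toBilin'_apply', toBilin'_apply', neg_mulVec, dotProduct_neg, ← mulVec_mulVec,
      ← mulVec_mulVec, ← this, dotProduct_mulVec, vecMul_transpose]
  have h4 : j₀ᵀ = J (Fin 2) F * j₀ * J (Fin 2) F := by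
    have := congrArg (· * J (Fin 2) F) h3
    simp only [mul_assoc, J_squared, mul_neg, mul_one, neg_mul, neg_inj] at this
    rw [this, mul_assoc]
  obtain ⟨j, hj⟩ : ∃ j, j = reindexAlgEquiv F F e4 j₀ := ⟨_, rfl⟩
  have h5 : j * j = δ • 1 := by rw [hj, ← map_mul, h1, map_smul, map_one]
  have h6 : klein j (jVec F) = (-δ) • jVec F := altMat_injective (by
    rw [altMat_klein, map_smul, altMat_jVec, hj]
    change reindexAlgEquiv F F e4 j₀ * reindexAlgEquiv F F e4 (J (Fin 2) F) *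
      reindexAlgEquiv F F e4 j₀ᵀ = -δ • reindexAlgEquiv F F e4 (J (Fin 2) F)
    rw [← map_mul, ← map_mul, ← map_smul, h4]
    congr 1
    rw [mul_assoc, ← mul_assoc (J _ _), ← mul_assoc (J _ _), J_squared, neg_mul, one_mul, neg_mul,
      mul_neg, ← mul_assoc, h1]
    simp)
  have h7 : j 0 0 + j 1 1 + j 2 2 + j 3 3 = 0 := by
    have := congrArg trace h4
    rw [trace_transpose, trace_mul_comm, ← mul_assoc, J_squared, neg_mul, one_mul, trace_neg,
      eq_neg_iff_add_eq_zero, ← two_mul] at this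
    have h7 := (mul_eq_zero.1 this).resolve_left h2
    simp only [trace, Fintype.sum_sum_type, Fin.sum_univ_two, diag_apply] at h7
    rw [← h7, hj, add_assoc]
    rfl
  have h8 : ∀ w, klein j (klein j w) = (δ * δ) • w := fun w => by
    rw [← klein_mul, h5, klein_smul_left, klein_one]
  obtain ⟨T, hT⟩ := exists_O5 h2 j (neg_ne_zero.2 hδ) h6
  have hTT : ∀ x, T.1 (T.1 x) = x := fun x => emb5_injective (by
    rw [hT, hT, klein_smul, h8, smul_smul, smul_smul]
    convert one_smul F _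
    field_simp)
  obtain ⟨φ, hφ, hφ', -⟩ := exists_phi_sp4 h2
  let e := (H27.spEquiv (Fin 2) F).symm
  have hN' : ∀ g, g ∈ N ↔ φ (e g) * T = T * φ (e g) := fun g => by
    have h9 : g ∈ N ↔ sp4Mat F (e g) * j = j * sp4Mat F (e g) ∨
        sp4Mat F (e g) * j = -(j * sp4Mat F (e g)) := by
      rw [hN]
      simp only [← H27.spEquiv_symm_mulVec, toLin'_apply, mulVec_mulVec, ← neg_mulVec,
        ← ext_iff_mulVec]
      rw [hj, show sp4Mat F (e g) = reindexAlgEquiv F F e4 (e g).1 from rfl, ← map_mul, ← map_mul,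
        ← map_neg, EmbeddingLike.apply_eq_iff_eq, EmbeddingLike.apply_eq_iff_eq]
    rw [h9]
    generalize e g = x
    refine ⟨fun h => O_ext fun v => emb5_injective ?_, fun h => ?_⟩
    · rw [O_mul_apply, O_mul_apply, hφ', hT, hT, hφ', klein_smul, ← klein_mul, ← klein_mul]
      rcases h with h | h
      · rw [h]
      · rw [h, klein_neg]
    have h10 : ∀ w, klein (sp4Mat F x) (klein j w) = klein j (klein (sp4Mat F x) w) := fun w => by
      obtain ⟨v, c, rfl⟩ := exists_eq_emb5 h2 w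
      have := congrArg (fun t : O (qOdd F 2) => emb5 F (t.1 v)) h
      simp only [O_mul_apply, hφ', hT, klein_smul] at this
      simp only [klein_add, klein_smul, h6, klein_sp4_jVec,
        smul_right_injective _ (inv_ne_zero (neg_ne_zero.2 hδ)) this]
    have h11 : sp4Mat F x * sp4Mat F x⁻¹ = 1 := by rw [← map_mul, mul_inv_cancel, map_one]
    have h12 : j * sp4Mat F x * (δ⁻¹ • (sp4Mat F x⁻¹ * j * (sp4Mat F x * j))) =
        sp4Mat F x * j := by
      rw [Matrix.mul_smul, ← mul_assoc _ (_ * j), ← mul_assoc (j * _), mul_assoc j, h11, mul_one, h5,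
        Matrix.smul_mul, inv_smul_smul₀ hδ, one_mul]
    have h13 : j.det ≠ 0 := fun h0 => by
      have := congrArg det h5
      rw [det_mul, h0, det_smul, det_one] at this
      exact hδ (by simpa using this.symm)
    rcases eq_of_klein_eq (δ⁻¹ • (sp4Mat F x⁻¹ * j * (sp4Mat F x * j))) (by
      simp [det_sp4Mat, h13, hδ]) (fun w => by
        rw [klein_smul_left, klein_mul, klein_mul, klein_mul, h10, h8, klein_smul, ← klein_mul,
          ← map_mul, inv_mul_cancel, map_one, klein_one, smul_smul]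
        convert one_smul F _
        field_simp) with h14 | h14 <;> rw [h14] at h12
    · exact Or.inl (by rw [← h12, mul_one])
    · exact Or.inr (by rw [← h12, mul_neg, mul_one])
  have hne : N ≠ ⊤ := fun h => by
    obtain ⟨g, hg⟩ := hS.exists_not_comm (by simp)
    exact hg ((hN g).1 (h ▸ Subgroup.mem_top g))
  have hd : finrank F (movSp T) = 2 := by
    have h9 := trace_invol h2 hTT
    have h10 : LinearMap.trace F _ (T.1 : (Unit ⊕ (Fin 2 ⊕ Fin 2) → F) →ₗ[F] _) = 1 := by
      have a := fun v i => congrFun (hT v) i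
      have b := congrFun h6 (.inl 1)
      have b' := congrFun h6 (.inr 1)
      have c := congrArg trace h5
      rw [LinearMap.trace_eq_matrix_trace F (Pi.basisFun F _)]
      simp only [trace, Fintype.sum_sum_type, Fin.sum_univ_two, diag_apply, LinearMap.toMatrix_apply,
        Pi.basisFun_apply, Pi.basisFun_repr, LinearEquiv.coe_coe, Finset.univ_unique,
        Finset.sum_singleton]
      have a1 := a (Pi.single (.inl ()) 1) (.inl 1)
      have a1' := a (Pi.single (.inl ()) 1) (.inr 1)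
      have a2 := a (Pi.single (.inr (.inl 0)) 1) (.inl 0)
      have a3 := a (Pi.single (.inr (.inl 1)) 1) (.inl 2)
      have a4 := a (Pi.single (.inr (.inr 0)) 1) (.inr 0)
      have a5 := a (Pi.single (.inr (.inr 1)) 1) (.inr 2)
      simp [emb5_apply, klein, altCoord, mul_altMat_mul_apply, jVec] at a1 a1' a2 a3 a4 a5 b b'
      simp [trace, mul_apply, Fin.sum_univ_four] at c
      rw [a2, a3, a4, a5]
      refine mul_left_cancel₀ h2 ?_
      linear_combination a1 + a1' - δ⁻¹ * b + δ⁻¹ * b' - δ⁻¹ * (j 0 0 + j 1 1 + j 2 2 + j 3 3) * h7 +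
        δ⁻¹ * c + 2 * inv_mul_cancel₀ hδ
    have h11 := Submodule.finrank_le (movSp T)
    rw [h10] at h9
    simp only [finrank_fintype_fun_eq_card, Fintype.card_sum, Fintype.card_unique,
      Fintype.card_fin] at h9 h11
    have h12 : (finrank F (movSp T) : F) = 2 := mul_left_cancel₀ h2 (by
      push_cast at h9; linear_combination h9)
    have h13 : finrank F (movSp T) ≠ 5 := fun h => hne (eq_top_iff.2 fun g _ => (hN' g).2
      (O_ext fun v => by
        have h14 : ∀ v, T.1 v = -v := fun v => (mem_movSp_of_invol h2 hTT).1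
          (Submodule.eq_top_of_finrank_eq (S := movSp T) (by simpa using h) ▸ Submodule.mem_top)
        rw [O_mul_apply, O_mul_apply, h14, h14, map_neg]))
    generalize finrank F (movSp T) = d at *
    interval_cases d
    · exact absurd (by simpa using h12.symm) h2
    · exact absurd (by push_cast at h12; linear_combination -h12) (one_ne_zero (α := F))
    · rfl
    · exact absurd (by push_cast at h12; linear_combination h12) (one_ne_zero (α := F))
    · exact absurd (by push_cast at h12; linear_combination h12) h2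
    · exact absurd rfl h13
  have hd' := finrank_movSp_add_finrank_fixSp T
  simp only [finrank_fintype_fun_eq_card, Fintype.card_sum, Fintype.card_unique,
    Fintype.card_fin] at hd'
  refine isCoatom_cent (qOdd_nondegenerate h2 2) h2 hTT (by omega) (fun M h _ =>
    (oDec_invol (qOdd_nondegenerate h2 2) h2 hTT).le_or_le_five h (i := 0) (j := 1) (by decide) (by decide)
      (show finrank F (fixSp T) = 3 by omega) hd (by simp) h2 hq) (φ.comp (e : _ →* _)) ?_ hN' hne
  rw [← MonoidHom.map_range, MonoidHom.range_eq_top.2 e.surjective, ← hφ, MonoidHom.range_eq_map]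

section Geo

open H27

variable [Fintype F]

/-- The stabiliser in `Sp₄(q)`, `q ≥ 5` odd, of a decomposition into two totally isotropic
subspaces is maximal. -/
theorem sp_c2_ts_four (hq : 5 ≤ Fintype.card F) (h2 : (2 : F) ≠ 0)
    {D : Fin 2 → Submodule F (Fin 2 ⊕ Fin 2 → F)} (hD : IsMDecomposition 2 D)
    (hts : ∀ i, IsTotallySingularFor (sympForm 2 F) (D i)) :
    IsMaximalIn (spGL 2 F) (decompositionStabilizer D ⊓ spGL 2 F) := by
  have hf := isSymplecticForm_sympForm (F := F) 2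
  have hc := H26.isCompl_of_isMDecomposition hD
  obtain ⟨J, hA, hB⟩ : ∃ J : End F (Fin 2 ⊕ Fin 2 → F), (∀ a ∈ D 0, J a = a) ∧ ∀ b ∈ D 1, J b = -b :=
    ⟨LinearMap.ofIsCompl hc (D 0).subtype (-(D 1).subtype),
      fun a ha => LinearMap.ofIsCompl_apply_left hc ⟨a, ha⟩,
      fun b hb => LinearMap.ofIsCompl_apply_right hc ⟨b, hb⟩⟩
  have hv : ∀ v, ∃ a ∈ D 0, ∃ b ∈ D 1, a + b = v := fun v =>
    Submodule.mem_sup.1 (hc.sup_eq_top ▸ Submodule.mem_top)
  have hA' : ∀ v, v ∈ D 0 ↔ J v = v := fun v => ⟨hA v, fun h => by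
    obtain ⟨a, ha, b, hb, rfl⟩ := hv v
    rw [map_add, hA a ha, hB b hb, add_right_inj, neg_eq_iff_add_eq_zero, ← two_smul F] at h
    rwa [(smul_eq_zero.1 h).resolve_left h2, add_zero]⟩
  have hB' : ∀ v, v ∈ D 1 ↔ J v = -v := fun v => ⟨hB v, fun h => by
    obtain ⟨a, ha, b, hb, rfl⟩ := hv v
    rw [map_add, hA a ha, hB b hb, neg_add, add_left_inj, eq_neg_iff_add_eq_zero,
      ← two_smul F] at h
    rwa [(smul_eq_zero.1 h).resolve_left h2, zero_add]⟩
  have hS : JS (geoBilin hf.bilinear) J 1 := ⟨geoBilin_isAlt hf,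
    geoBilin_nondegenerate hf.bilinear hf.nondegenerate, h2, fun v => by
      obtain ⟨a, ha, b, hb, rfl⟩ := hv v
      simp [hA a ha, hB b hb], one_ne_zero, fun p q => by
      obtain ⟨a, ha, b, hb, rfl⟩ := hv p
      obtain ⟨a', ha', b', hb', rfl⟩ := hv q
      simp only [map_add, hA a ha, hB b hb, hA a' ha', hB b' hb', map_neg, LinearMap.add_apply,
        LinearMap.neg_apply]
      simp [geoBilin_apply, hts 0 a ha a' ha', hts 1 b hb b' hb', add_comm]⟩
  have hswap : ∀ g : (Fin 2 ⊕ Fin 2 → F) ≃ₗ[F] (Fin 2 ⊕ Fin 2 → F), (∀ a ∈ D 0, g a ∈ D 1) → (∀ b ∈ D 1, g b ∈ D 0) →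
      ∀ p, g (J p) = -J (g p) := fun g h3 h4 p => by
    obtain ⟨a, ha, b, hb, rfl⟩ := hv p
    simp [hA a ha, hB b hb, hA _ (h4 b hb), hB _ (h3 a ha), add_comm]
  refine isMaximalIn_of_isCoatom_comap _ (range_isomToGL (geoBilin hf.bilinear)) _
    (js_isCoatom4 hq (fun _ _ => rfl) hS fun g => ?_)
  rw [Subgroup.mem_comap, H26.mem_decompositionStabilizer_two,
    show H26.gl (isomToGL _ g) = g.1 from LinearEquiv.ext (isomToGL_mulVec g)]
  refine or_congr ⟨fun h p => ?_, fun h => ?_⟩ ⟨fun h => hswap g.1 (fun a => (h.1 a).1)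
    fun b => (h.2 b).1, fun h => ?_⟩
  · obtain ⟨a, ha, b, hb, rfl⟩ := hv p
    simp [hA a ha, hB b hb, hA _ ((h.1 a).1 ha), hB _ ((h.2 b).1 hb)]
  · simp only [hA', hB', ← h, ← map_neg, EmbeddingLike.apply_eq_iff_eq, implies_true, and_self]
  · simp only [hA', hB']
    refine ⟨fun x => ?_, fun x => ?_⟩
    · rw [← neg_eq_iff_eq_neg, ← h, EmbeddingLike.apply_eq_iff_eq]
    · rw [← neg_inj (a := J (g.1 x)), ← h, ← map_neg, EmbeddingLike.apply_eq_iff_eq]

/-- The normaliser in `Sp₄(q)`, `q ≥ 5` odd, of a quadratic field extension for which the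
form comes from a unitary form is maximal. -/
theorem sp_c3_unitary_four (hq : 5 ≤ Fintype.card F) (h2 : (2 : F) ≠ 0)
    {K : Subalgebra F (Matrix (Fin 2 ⊕ Fin 2) (Fin 2 ⊕ Fin 2) F)} (hK : IsFieldSubalgebra 2 K)
    (hac : IsAdjointClosedFor (sympForm 2 F) K) (hns : ¬ IsSelfAdjointFor (sympForm 2 F) K) :
    IsMaximalIn (spGL 2 F) (subalgebraNormalizer K ⊓ spGL 2 F) := by
  have hf := isSymplecticForm_sympForm (F := F) 2
  have hA := geoBilin_isAlt hf
  have hnd := geoBilin_nondegenerate hf.bilinear hf.nondegenerate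
  obtain ⟨j, hj, hsk, u, v, huv⟩ : ∃ j ∈ K, Skew (geoBilin hf.bilinear) (toLin' j) ∧
      ∃ u v, geoBilin hf.bilinear (toLin' j u) v ≠ 0 := by
    simp only [IsSelfAdjointFor, not_forall] at hns
    obtain ⟨k, hk, u, v, h⟩ := hns
    obtain ⟨k', hk', h'⟩ := hac k hk
    have h1 : ∀ p q, sympForm 2 F (k' *ᵥ p) q = sympForm 2 F p (k *ᵥ q) := fun p q => by
      rw [hf.skew, ← h', ← hf.skew]
    refine ⟨k - k', K.sub_mem hk hk', fun p q => ?_, u, v, ?_⟩ <;>
      simp only [map_sub, LinearMap.sub_apply, toLin'_apply, geoBilin_apply, h', h1]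
    · ring
    · rwa [sub_ne_zero, ← h']
  have hind : ∀ a b : F, a • (1 : Matrix (Fin 2 ⊕ Fin 2) (Fin 2 ⊕ Fin 2) F) + b • j = 0 → a = 0 ∧ b = 0 := fun a b h => by
    have h1 := congrArg (fun x => geoBilin hf.bilinear (toLin' x u) v) h
    have h3 := congrArg (fun x => geoBilin hf.bilinear u (toLin' x v)) h
    have h4 := hsk u v
    simp only [map_add, map_smul, toLin'_one, LinearMap.add_apply, LinearMap.smul_apply,
      LinearMap.id_apply, map_zero, LinearMap.zero_apply, smul_eq_mul] at h1 h3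
    have hb : b = 0 := (mul_eq_zero.1 (mul_left_cancel₀ h2 (by
      linear_combination h1 - h3 + b * h4 : 2 * (b * _) = 2 * 0))).resolve_right huv
    exact ⟨by simpa [hb] using h, hb⟩
  have hspan : ∀ x ∈ K, ∃ a b : F, x = a • (1 : Matrix (Fin 2 ⊕ Fin 2) (Fin 2 ⊕ Fin 2) F) + b • j := fun x hx => by
    have h1 : LinearIndependent F ![(1 : K), ⟨j, hj⟩] :=
      LinearIndependent.pair_iff.2 fun a b h => hind a b (congrArg Subtype.val h)
    have h3 := h1.span_eq_top_of_card_eq_finrank' (by rw [hK.finrank_eq]; rfl)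
    rw [Matrix.range_cons_cons_empty] at h3
    obtain ⟨a, b, h⟩ := Submodule.mem_span_pair.1 (h3 ▸ Submodule.mem_top (x := (⟨x, hx⟩ : K)))
    exact ⟨a, b, (congrArg Subtype.val h).symm⟩
  obtain ⟨δ, hδ⟩ : ∃ δ : F, j * j = δ • 1 := by
    obtain ⟨a, b, h⟩ := hspan _ (K.mul_mem hj hj)
    have h1 := congrArg (fun x => geoBilin hf.bilinear (toLin' x u) v) h
    have h3 := congrArg (fun x => geoBilin hf.bilinear u (toLin' x v)) h
    have h4 := hsk u v
    have h5 := hsk u (toLin' j v)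
    simp only [map_add, map_smul, toLin'_one, LinearMap.add_apply, LinearMap.smul_apply,
      LinearMap.id_apply, smul_eq_mul, toLin'_mul, LinearMap.comp_apply,
      hsk (toLin' j u)] at h1 h3
    have hb : b = 0 := (mul_eq_zero.1 (mul_left_cancel₀ h2 (by
      linear_combination -h1 + h3 + b * h4 - h5 : 2 * (b * _) = 2 * 0))).resolve_right huv
    exact ⟨a, by rw [h, hb, zero_smul, add_zero]⟩
  have hns : ∀ l : F, l * l ≠ δ := fun l hl => by
    obtain ⟨y, -, hy⟩ := hK.inv (l • 1 + (1 : F) • j)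
      (K.add_mem (K.smul_mem K.one_mem l) (K.smul_mem hj 1)) fun h => by simpa using (hind _ _ h).2
    have h1 : ((-l) • 1 + (1 : F) • j) * (l • 1 + (1 : F) • j) = 0 := by
      simp only [add_mul, mul_add, smul_mul_assoc, mul_smul_comm, one_mul, mul_one, hδ, ← hl]
      module
    have h3 := congrArg (· * y) h1
    simp only [mul_assoc, hy, mul_one, zero_mul] at h3
    simpa using (hind _ _ h3).2
  have hS : JS (geoBilin hf.bilinear) (toLin' j) δ := ⟨hA, hnd, h2, fun x => by
    rw [← LinearMap.comp_apply, ← toLin'_mul, hδ]; simp, fun h => hns 0 (by simp [h]), hsk⟩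
  refine isMaximalIn_of_isCoatom_comap _ (range_isomToGL (geoBilin hf.bilinear)) _
    (js_isCoatom4 hq (fun _ _ => rfl) hS fun g => ?_)
  simp only [← isomToGL_mulVec, toLin'_apply, mulVec_mulVec, ← neg_mulVec, ← ext_iff_mulVec,
    Subgroup.mem_comap]
  generalize isomToGL _ g = g
  have key : ∀ g : GL (Fin 2 ⊕ Fin 2) F, ((g : Matrix (Fin 2 ⊕ Fin 2) (Fin 2 ⊕ Fin 2) F) * j = j * g ∨ (g : Matrix (Fin 2 ⊕ Fin 2) (Fin 2 ⊕ Fin 2) F) * j = -(j * g)) →
      ∀ k ∈ K, (g : Matrix (Fin 2 ⊕ Fin 2) (Fin 2 ⊕ Fin 2) F) * k * ((g⁻¹ : GL (Fin 2 ⊕ Fin 2) F) : Matrix (Fin 2 ⊕ Fin 2) (Fin 2 ⊕ Fin 2) F) ∈ K := fun g h k hk => by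
    obtain ⟨a, b, rfl⟩ := hspan k hk
    rw [mul_add, add_mul, mul_smul_comm, mul_smul_comm, smul_mul_assoc, smul_mul_assoc, mul_one,
      Units.mul_inv]
    refine K.add_mem (K.smul_mem K.one_mem a) (K.smul_mem ?_ b)
    rcases h with h | h
    · rwa [h, Units.mul_inv_cancel_right]
    · rw [h, neg_mul, Units.mul_inv_cancel_right]
      exact K.neg_mem hj
  refine ⟨fun h => ?_, fun h k => ⟨key g h k, fun hk => ?_⟩⟩
  · obtain ⟨a, b, hab⟩ := hspan _ ((h j).1 hj)
    have h1 : (a • 1 + b • j) * (a • 1 + b • j) = δ • (1 : Matrix (Fin 2 ⊕ Fin 2) (Fin 2 ⊕ Fin 2) F) := by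
      simp only [← hab, mul_assoc, Units.inv_mul_cancel_left]
      rw [← mul_assoc j j, hδ]
      simp
    obtain ⟨h3, h4⟩ := hind (a * a + b * b * δ - δ) (2 * (a * b)) (by
      rw [← sub_eq_zero] at h1
      rw [← h1]
      simp only [add_mul, mul_add, smul_mul_assoc, mul_smul_comm, one_mul, mul_one, hδ]
      module)
    have hb : b ≠ 0 := fun hb => hns a (by rw [hb] at h3; linear_combination h3)
    have ha : a = 0 := by simpa [h2, hb] using h4
    rw [ha, zero_smul, zero_add, Units.mul_inv_eq_iff_eq_mul] at hab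
    rcases mul_self_eq_one_iff.1 (mul_right_cancel₀ hS.ne (by
      rw [ha] at h3; linear_combination h3 : b * b * δ = 1 * δ)) with rfl | rfl
    · exact Or.inl (by rw [hab, one_smul])
    · exact Or.inr (by rw [hab, neg_smul, one_smul, neg_mul])
  · have := key g⁻¹ (h.imp (fun h => ?_) fun h => ?_) _ hk
    · simpa [mul_assoc] using this
    · rw [Units.inv_mul_eq_iff_eq_mul, ← mul_assoc, h, Units.mul_inv_cancel_right]
    · rw [Units.inv_mul_eq_iff_eq_mul, mul_neg, ← mul_assoc, h, neg_mul, neg_neg,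
        Units.mul_inv_cancel_right]

end Geo

end Cfsg.Agent.H30
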