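import Cfsg.Agent.H26.SL5

/-!
Maximality of subfield subgroups of `SL` in dimension four.
-/

set_option autoImplicit false

namespace Cfsg.Agent.H30

open Module Matrix Cfsg.Agent.H26

variable {ι : Type} [Fintype ι] [DecidableEq ι] {F : Type*} [Field F] {F₀ : Subfield F}
  [Finite F]

omit [DecidableEq ι] in
/-- A scalar making a quotient of two transvections rational is rational. -/
theorem mem_of_smul_rat4 (h4 : 4 ≤ Fintype.card ι) {A : Matrix ι ι F} {c : F}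
    (hA : ∀ i j, c * A i j ∈ F₀) (χ ψ a b : ι → F) (ha : χ ⬝ᵥ a = 0)
    (h : ∀ x, χ ⬝ᵥ x = 0 → ψ ⬝ᵥ x = 0 → A *ᵥ x = x)
    (h' : ∀ x, A *ᵥ x + (ψ ⬝ᵥ A *ᵥ x) • b = x + (χ ⬝ᵥ x) • a) : c ∈ F₀ := by
  classical
  by_contra hc
  have hc0 : c ≠ 0 := by rintro rfl; exact hc F₀.zero_mem
  obtain ⟨θ, hθ⟩ := exists_algEquiv_ne (K := F₀) (c := c) (fun ⟨x, hx⟩ => hc (hx ▸ x.2))
  set μ := θ c / c with hμ
  have hμ1 : μ - 1 ≠ 0 := fun h0 => hθ ((div_eq_one_iff_eq hc0).1 (sub_eq_zero.1 h0))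
  have key : ∀ ω : ι → F, ∃ x, x ≠ 0 ∧ ω ⬝ᵥ x = 0 ∧ A *ᵥ x = μ • x := by
    intro ω
    obtain ⟨x, h0, h1⟩ := exists_ne_zero_dot ![θ ∘ χ, θ ∘ ψ, ω] (by simp; omega)
    have h2 : ∀ χ : ι → F, (θ ∘ χ) ⬝ᵥ x = 0 → χ ⬝ᵥ (θ.symm ∘ x) = 0 := fun χ hχ => by
      simpa [dotProduct] using congrArg θ.symm hχ
    have h3 := h _ (h2 χ (h1 0)) (h2 ψ (h1 1))
    refine ⟨x, h0, h1 2, funext fun i => ?_⟩
    have h6 : ∀ j, θ (c * A i j) = c * A i j := fun j => θ.commutes ⟨_, hA i j⟩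
    have h7 : ∀ x : ι → F, c * (A *ᵥ x) i = ∑ j, c * A i j * x j := fun x => by
      simp [mulVec, dotProduct, Finset.mul_sum, mul_assoc]
    have h8 := h7 (θ.symm ∘ x)
    rw [h3] at h8
    have h10 := congrArg θ h8
    simp only [map_sum, map_mul θ (c * A i _), h6, Function.comp_apply,
      AlgEquiv.apply_symm_apply] at h10
    rw [map_mul, AlgEquiv.apply_symm_apply, ← h7] at h10
    rw [Pi.smul_apply, smul_eq_mul, hμ]
    field_simp
    linear_combination -h10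
  have h1 : ∀ x, A *ᵥ x = μ • x →
      x = ((μ - 1)⁻¹ * (χ ⬝ᵥ x)) • a - ((μ - 1)⁻¹ * (μ * (ψ ⬝ᵥ x))) • b := by
    intro x hx
    have h2 := h' x
    rw [hx, dotProduct_smul, smul_eq_mul] at h2
    rw [mul_smul, mul_smul, ← smul_sub, eq_inv_smul_iff₀ hμ1]
    linear_combination (norm := module) h2
  have h2 : a ∈ F ∙ b := by
    have h3 : A *ᵥ a = μ • a → a ∈ F ∙ b := fun hx => by
      rw [h1 a hx, ha, mul_zero, zero_smul, zero_sub]
      exact neg_mem (Submodule.smul_mem _ _ (Submodule.mem_span_singleton_self b))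
    have h5 : ∀ (r : F), r • a ≠ 0 → A *ᵥ (r • a) = μ • r • a → a ∈ F ∙ b := fun r h0 hx => by
      rw [mulVec_smul, smul_comm μ] at hx
      exact h3 (smul_right_injective _ (left_ne_zero_of_smul h0) hx)
    by_cases hb : b ∈ F ∙ a
    · obtain ⟨x, h0, -, hx⟩ := key 0
      obtain ⟨r, rfl⟩ : ∃ r : F, r • a = x := by
        rw [← Submodule.mem_span_singleton, h1 x hx]
        exact sub_mem (Submodule.smul_mem _ _ (Submodule.mem_span_singleton_self a))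
          (Submodule.smul_mem _ _ hb)
      exact h5 r h0 hx
    · obtain ⟨ω, h6, h7⟩ := exists_dot_eq_pair hb 1
      obtain ⟨x, h0, h8, hx⟩ := key ω
      have h9 := h1 x hx
      generalize (μ - 1)⁻¹ * (χ ⬝ᵥ x) = r at h9
      generalize (μ - 1)⁻¹ * (μ * (ψ ⬝ᵥ x)) = s at h9
      subst h9
      rw [dotProduct_sub, dotProduct_smul, dotProduct_smul, dotProduct_comm, h6, dotProduct_comm,
        h7] at h8
      obtain rfl : s = 0 := by simpa using h8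
      rw [zero_smul, sub_zero] at h0 hx
      exact h5 r h0 hx
  have h3 : ∀ x, A *ᵥ x = μ • x → x ∈ F ∙ b := fun x hx => by
    rw [h1 x hx]
    exact sub_mem (Submodule.smul_mem _ _ h2)
      (Submodule.smul_mem _ _ (Submodule.mem_span_singleton_self b))
  by_cases hb : b = 0
  · obtain ⟨x, h0, -, hx⟩ := key 0
    exact h0 (by simpa [hb] using h3 x hx)
  · obtain ⟨ω, hω⟩ := exists_dot_eq_one hb
    obtain ⟨x, h0, h5, hx⟩ := key ω
    obtain ⟨r, rfl⟩ := Submodule.mem_span_singleton.1 (h3 x hx)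
    rw [dotProduct_smul, hω, smul_eq_mul, mul_one] at h5
    exact h0 (by rw [h5, zero_smul])

theorem sub_one_rat4 (h4 : 4 ≤ Fintype.card ι) {g : GL ι F} (hg : g ∈ Geo.subfieldSubgroup F₀ 1)
    (χ ψ a b : ι → F) (ha : χ ⬝ᵥ a = 0)
    (h : ∀ x, χ ⬝ᵥ x = 0 → ψ ⬝ᵥ x = 0 → (g : Matrix ι ι F) *ᵥ x = x)
    (h' : ∀ x, (g : Matrix ι ι F) *ᵥ x + (ψ ⬝ᵥ (g : Matrix ι ι F) *ᵥ x) • b =
      x + (χ ⬝ᵥ x) • a) (i j : ι) :
    ((g : Matrix ι ι F) - 1) i j ∈ F₀ := by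
  obtain ⟨c, hc, h1⟩ := (mem_subfieldSubgroup_one_iff g).1 hg
  have h2 := F₀.mul_mem (F₀.inv_mem (mem_of_smul_rat4 h4 h1 χ ψ a b ha h h')) (h1 i j)
  rw [inv_mul_cancel_left₀ hc] at h2
  rw [Matrix.sub_apply, one_apply]
  refine F₀.sub_mem h2 ?_
  split_ifs
  exacts [F₀.one_mem, F₀.zero_mem]

theorem sl_c5_one4 (h5 : 4 ≤ Fintype.card ι) (hL : ∀ L : Subalgebra F₀ F, L = ⊥ ∨ L = ⊤)
    (hne : ∃ c : F, c ∉ F₀) : Geo.IsMaximalIn (Geo.specialLinear ι F)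
      (Geo.subfieldSubgroup F₀ 1 ⊓ Geo.specialLinear ι F) := by
  obtain ⟨i, j, hij⟩ := Fintype.one_lt_card_iff.1 (show 1 < Fintype.card ι by omega)
  refine isMaximalIn_inf (fun h => ?_) fun M hH hMS => ?_
  · obtain ⟨c, hc⟩ := hne
    have h1 : (Pi.single j 1 : ι → F) ⬝ᵥ Pi.single i c = 0 := by simp [hij]
    have h2 := sub_one_rat4 h5 (h (tvGL_mem_specialLinear _ _ h1)) (Pi.single j 1) 0 _ 0 h1
      (fun x hx _ => by rw [tvGL_coe, tv_mulVec, hx, zero_smul, add_zero])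
      (fun x => by rw [tvGL_coe, tv_mulVec, smul_zero, add_zero]) i j
    rw [tvGL_coe, add_sub_cancel_left, vecMulVec_apply] at h2
    exact hc (by simpa using h2)
  by_cases hM : Geo.specialLinear ι F ≤ M
  · exact Or.inr hM
  left
  have h3 : 3 ≤ Fintype.card ι := by omega
  have h1 : ∀ {i j : ι}, i ≠ j → (Pi.single j 1 : ι → F₀) ⬝ᵥ Pi.single i 1 = 0 := fun h => by
    simp [h]
  have h2 : ∀ {i j : ι} (h : i ≠ j), Tv (Geo.subfieldSubgroup F₀ 1 ⊓ Geo.specialLinear ι F)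
    (up (Pi.single i 1 : ι → F₀)) (up (Pi.single j 1 : ι → F₀)) := fun h => tv_up le_rfl (h1 h)
  set e : ι → F₀ := Pi.single i 1
  set φ : ι → F₀ := Pi.single j 1
  have he : e ≠ 0 := by simp [e]
  have hφ : ∀ g : GL ι F, up φ ᵥ* ((g⁻¹ : GL ι F) : Matrix ι ι F) ≠ 0 := fun g h => by
    have h1 := congrArg (· ᵥ* (g : Matrix ι ι F)) h
    simp only [zero_vecMul, vecMul_vecMul, Units.inv_mul, vecMul_one, up_eq_zero] at h1
    simp [φ] at h1
  have hc : ∀ g : GL ι F, ((g * tvGL _ _ (h2 hij).1 * g⁻¹ : GL ι F) : Matrix ι ι F) =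
      1 + vecMulVec ((g : Matrix ι ι F) *ᵥ up e) (up φ ᵥ* ((g⁻¹ : GL ι F) : Matrix ι ι F)) :=
    fun g => conj_tv _ _ g.mul_inv _ _
  refine (le_of_counting _ M hH (tvGL _ _ (h2 hij).1) (h2 hij).mem ?_ ?_ ?_).trans inf_le_left
  · intro g hg h
    have h4 := sub_one_rat4 h5 h.1 (up φ ᵥ* ((g⁻¹ : GL ι F) : Matrix ι ι F)) 0 _ 0
      ((tv_up hH (h1 hij)).conj hg).1
      (fun x hx _ => by rw [hc, tv_mulVec, hx, zero_smul, add_zero])
      (fun x => by rw [hc, tv_mulVec, smul_zero, add_zero])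
    rw [hc, add_sub_cancel_left] at h4
    obtain ⟨c, u, hu⟩ := exists_up_of_vecMulVec h4 (hφ g)
    exact ⟨mem_of_map_rat hH h3 hL hM hg he hu, hMS hg⟩
  · intro g hg k hk hgk h
    have hs := hH (h2 hij).mem
    have hd := M.mul_mem (M.mul_mem hg hs) (M.inv_mem hg)
    have hgc := hc g
    have hkc := hc k
    have hdH : g ∈ Geo.subfieldSubgroup F₀ 1 → g * tvGL _ _ (h2 hij).1 * g⁻¹ ∈
        Geo.subfieldSubgroup F₀ 1 := fun h => mul_mem (mul_mem h (h2 hij).mem.1) (inv_mem h)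
    have hb := ((tv_up hH (h1 hij)).conj hk).1
    have ha := ((tv_up hH (h1 hij)).conj hg).1
    generalize g * tvGL _ _ (h2 hij).1 * g⁻¹ = d at *
    generalize k * tvGL _ _ (h2 hij).1 * k⁻¹ = t at *
    generalize up φ ᵥ* ((g⁻¹ : GL ι F) : Matrix ι ι F) = χ at *
    generalize up φ ᵥ* ((k⁻¹ : GL ι F) : Matrix ι ι F) = ψ at *
    have h6 : ∀ x, ((t⁻¹ * d : GL ι F) : Matrix ι ι F) *ᵥ x = x ↔
        (d : Matrix ι ι F) *ᵥ x = (t : Matrix ι ι F) *ᵥ x := fun x => by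
      rw [← (gl t).injective.eq_iff, gl_apply, gl_apply, mulVec_mulVec, ← Units.val_mul,
        mul_inv_cancel_left]
    have h7 : ∀ x, χ ⬝ᵥ x = 0 → ψ ⬝ᵥ x = 0 → ((t⁻¹ * d : GL ι F) : Matrix ι ι F) *ᵥ x = x :=
      fun x hx hx' => by rw [h6, hgc, hkc, tv_mulVec, tv_mulVec, hx, hx', zero_smul, zero_smul]
    have h4 := sub_one_rat4 h5 h.1 χ ψ _ _ ha h7 (fun x => by
      rw [← tv_mulVec, ← tv_mulVec, ← hgc, ← hkc, mulVec_mulVec, ← Units.val_mul,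
        mul_inv_cancel_left])
    obtain ⟨v, hv0, hv1, hv2⟩ := exists_ne_zero_dot₂ χ ψ h3
    obtain ⟨u, hu0, hu⟩ := exists_up_mulVec_eq_zero h4 hv0
      (by rw [sub_mulVec, h7 v hv1 hv2, one_mulVec, sub_self])
    rw [sub_mulVec, one_mulVec, sub_eq_zero, h6, hgc, hkc, tv_mulVec, tv_mulVec,
      add_right_inj] at hu
    by_cases h8 : χ ⬝ᵥ up u = 0
    · refine ⟨mem_of_map_rat hH h3 hL hM hd hu0 (c := 1) (u' := u) ?_, hMS hd⟩
      rw [hgc, tv_mulVec, h8, zero_smul, add_zero, one_smul]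
    obtain ⟨l, hl⟩ : ∃ l, (((t⁻¹ * d : GL ι F) : Matrix ι ι F) - 1) *ᵥ Pi.single l 1 ≠ 0 := by
      by_contra hc
      push Not at hc
      refine hgk (inv_mul_eq_one.1 (Units.ext ?_)).symm
      rw [Units.val_one, ← sub_eq_zero]
      ext a l
      simpa using congrFun (hc l) a
    obtain ⟨w, hw⟩ := exists_up (v := (((t⁻¹ * d : GL ι F) : Matrix ι ι F) - 1) *ᵥ Pi.single l 1)
      fun a => by simpa using h4 a l
    have h9 : (g : Matrix ι ι F) *ᵥ up e =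
        ((χ ⬝ᵥ up u)⁻¹ * (ψ ⬝ᵥ up u)) • (k : Matrix ι ι F) *ᵥ up e := by
      rw [mul_smul, ← hu, smul_smul, inv_mul_cancel₀ h8, one_smul]
    generalize (χ ⬝ᵥ up u)⁻¹ * (ψ ⬝ᵥ up u) = μ at h9
    have h10 : up w = (χ l * μ - ψ l) • (k : Matrix ι ι F) *ᵥ up e := by
      apply (gl t).injective
      rw [hw, map_smul, gl_apply, gl_apply, sub_mulVec, one_mulVec, mulVec_sub, mulVec_mulVec,
        ← Units.val_mul, mul_inv_cancel_left, hgc, hkc, tv_mulVec, tv_mulVec, tv_mulVec, hb, h9]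
      simp only [dotProduct_single, mul_one]
      module
    have h11 : χ l * μ - ψ l ≠ 0 := fun h => hl (by rw [← hw, h10, h, zero_smul])
    refine ⟨hdH (mem_of_map_rat hH h3 hL hM hg he (c := μ * (χ l * μ - ψ l)⁻¹) (u' := w) ?_),
      hMS hd⟩
    rw [h10, smul_smul, inv_mul_cancel_right₀ h11, h9]
  · refine ⟨_, (h2 hij.symm).mem, fun h => ?_⟩
    have h4 := congrArg (fun g : GL ι F => (g : Matrix ι ι F) i i) h
    simp only [Units.val_mul, tvGL_coe, tv_mul_tv, e, φ, up_single] at h4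
    simp [vecMulVec_apply, hij, hij.symm] at h4

theorem sl_c5_4 (h5 : 4 ≤ Fintype.card ι) (hL : ∀ L : Subalgebra F₀ F, L = ⊥ ∨ L = ⊤)
    (hne : ∃ c : F, c ∉ F₀) (P : GL ι F) : Geo.IsMaximalIn (Geo.specialLinear ι F)
      (Geo.subfieldSubgroup F₀ P ⊓ Geo.specialLinear ι F) := by
  have h : ∀ g, g ∈ Geo.specialLinear ι F ↔ MulAut.conj P⁻¹ g ∈ Geo.specialLinear ι F :=
    fun g => by
      rw [Geo.specialLinear, MonoidHom.mem_ker, MonoidHom.mem_ker, MulAut.conj_apply, map_mul,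
        map_mul, mul_right_comm, ← map_mul, mul_inv_cancel, map_one, one_mul]
  exact isMaximalIn_of_equiv (MulAut.conj P⁻¹)
    (H' := Geo.subfieldSubgroup F₀ 1 ⊓ Geo.specialLinear ι F) h
    (fun g => and_congr (mem_subfieldSubgroup_iff_conj P g) (h g)) (sl_c5_one4 h5 hL hne)

end Cfsg.Agent.H30
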