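import Cfsg.Agent.H26.PC8
import Cfsg.Agent.H26.PC1Low

/-!
Maximality of the groups of similarities of symplectic, unitary and quadratic forms in `SL`,
in dimension at least four.
-/

set_option autoImplicit false

namespace Cfsg.Agent.H30

open Module Cfsg.Agent.H26 Cfsg.Agent.H26.PForm
open scoped Matrix

section Abstract

variable {F : Type*} [Field F] {V : Type*} [AddCommGroup V] [Module F V] {P : PForm F V}
  [FiniteDimensional F V] {M : Subgroup (V ≃ₗ[F] V)}

/-- All elations with one axis give all transvections. -/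
theorem tvA_all_of_axis (hE : P.E ≤ M) (h3 : 3 ≤ finrank F V) (hd : P.d ≤ finrank F V) {w : V}
    (hw0 : w ≠ 0) (hw : ∀ v, P.f v w = 0 → P.TvA M v w) {a b : V} (hab : P.f a b = 0) :
    P.TvA M a b := by
  have hs : ∀ (c : F) (w : V), (∀ v, P.f v w = 0 → P.TvA M v w) →
      ∀ v, P.f v (c • w) = 0 → P.TvA M v (c • w) := by
    intro c w hw v hv
    by_cases hc : c = 0
    · rw [hc, zero_smul]; exact TvA.zero_right
    · rw [f_smul_right, mul_eq_zero, or_iff_right (P.σ_ne_zero hc)] at hv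
      exact (TvA.smul_iff c).1 (hw _ (by rw [P.f_smul_left, hv, mul_zero]))
  let U : AddSubgroup V :=
    { carrier := {w | ∀ v, P.f v w = 0 → P.TvA M v w}
      add_mem' := by
        intro w w' hw hw' v hv
        by_cases hc : w' ∈ F ∙ w
        · obtain ⟨c, rfl⟩ := Submodule.mem_span_singleton.1 hc
          have h1 : w + c • w = (1 + c) • w := by module
          rw [h1] at hv ⊢
          exact hs _ w hw v hv
        · obtain ⟨z, hz, h1⟩ := P.exists_perp_f_left hc (-1)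
          rw [mem_perp_span_singleton] at hz
          rw [f_add_right] at hv
          have h2 := (hw' (v - P.f v w • z + (P.f v w + P.f v w') • z) (by
            rw [hv, zero_smul, add_zero, f_sub_left, P.f_smul_left, h1]
            linear_combination hv)).conj_tv (hw z hz)
          rw [hv, zero_smul, add_zero, h1, f_sub_left, P.f_smul_left, hz] at h2
          convert h2 using 1
          · module
          · simp [add_comm]
      zero_mem' := fun _ _ => TvA.zero_right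
      neg_mem' := by
        intro w hw
        have := hs (-1) w hw
        rwa [neg_one_smul] at this }
  obtain ⟨e, -, he0, he⟩ := P.exists_sing ⊤ (by rw [finrank_top]; omega)
  refine irr_add (P := P) (S := ⊥) (U := U) ?_ ⟨e, by rw [PForm.perp_bot]; trivial, by simpa using he0, he⟩
    (by rw [finrank_perp_bot, finrank_perp_bot']; omega) (x := w) hw
    (by simpa using hw0) b (by rw [PForm.perp_bot]; trivial) a hab
  intro e y ν hv _ _ x hx v hvx
  have h1 := hx (hv.equiv⁻¹ v) (by rw [← isom_f_right hv.equiv_mem_isom]; exact hvx)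
  have h2 := TvA.conj (hE hv.equiv_mem_E) hv.equiv_mem_isom h1
  rwa [apply_inv_apply] at h2

/-- A transvection with a non-isotropic axis vector gives all elations with that axis. -/
theorem tvA_axis_of_ne (hE : P.E ≤ M) (h4 : 4 ≤ finrank F V) (hd : P.d + 1 ≤ finrank F V)
    {u w : V} (h : P.TvA M u w) (hu : u ≠ 0) (hw : P.f w w ≠ 0) {v : V} (hv : P.f v w = 0) :
    P.TvA M v w := by
  let U : AddSubgroup V :=
    { carrier := {v | P.TvA M v w}
      add_mem' := TvA.add_left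
      zero_mem' := TvA.zero_left
      neg_mem' := TvA.neg_left }
  have h1 := finrank_span_singleton_le (F := F) w
  have h2 := P.finrank_perp (F ∙ w)
  have hn : ∀ x, P.f x w = 0 → x ∈ F ∙ w → x = 0 := by
    intro x hx hxw
    obtain ⟨c, rfl⟩ := Submodule.mem_span_singleton.1 hxw
    rw [P.f_smul_left, mul_eq_zero, or_iff_left hw] at hx
    rw [hx, zero_smul]
  have h3 : P.perp (F ∙ w) ⊓ F ∙ w = ⊥ :=
    (Submodule.eq_bot_iff _).2 fun x hx => hn x (mem_perp_span_singleton.1 hx.1) hx.2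
  refine irr_add (P := P) (S := F ∙ w) (U := U) ?_
    (P.exists_sing_notMem _ _ (by rw [h3, finrank_bot]; omega))
    (by rw [h3, finrank_bot]; omega) h (fun h' => hu (hn u h.1 h')) v
    (mem_perp_span_singleton.2 hv)
  intro e y ν hv he hy x hx
  have := TvA.conj (hE hv.equiv_mem_E) hv.equiv_mem_isom hx
  rwa [EV.equiv_apply, EV.equiv_apply, eich_apply_of_orth₂ _ _
    (f_symm_zero (mem_perp_span_singleton.1 he)) (f_symm_zero (mem_perp_span_singleton.1 hy))]
    at this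

omit [FiniteDimensional F V] in
theorem tvA_of_Λ (hE : P.E ≤ M) {a : V} (ha : P.Sing a) {ν : F} (hν : ν ∈ P.Λ) :
    P.TvA M ((-(P.ε * ν)) • a) a := by
  refine ⟨by rw [P.f_smul_left, ha.f_self, mul_zero], _, hE (EV.of_mem ha hν).equiv_mem_E,
    fun x => ?_⟩
  rw [EV.equiv_apply, eich_zero_apply]
  module

theorem tvA_axis_sp (hE : P.E ≤ M) (hs : ∀ x, P.Sing x) (hΛ : P.Λ = ⊤) {u w : V}
    (h : P.TvA M u w) (hu : u ∉ F ∙ w) {v : V} (hv : P.f v w = 0) : P.TvA M v w := by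
  have key : ∀ e, P.f e w = 0 → P.f u e ≠ 0 → P.TvA M e w := by
    intro e he hue
    have h1 := h.conj_tv (tvA_of_Λ hE (hs e) (ν := -(P.ε * (P.f u e)⁻¹)) (by rw [hΛ]; trivial))
    rw [P.f_smul_left, he, mul_zero, map_zero, zero_smul, sub_zero, smul_smul, mul_neg P.ε, neg_neg,
      ε_mul_ε_mul, mul_inv_cancel₀ hue, one_smul] at h1
    have h2 := h1.add_left h.neg_left
    rwa [add_neg_cancel_comm] at h2
  by_cases huv : P.f u v = 0
  swap
  · exact key v hv huv
  obtain ⟨e, he, h1⟩ := P.exists_perp_f_right hu 1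
  rw [mem_perp_span_singleton] at he
  have h2 := (key (v + e) (by rw [P.f_add_left, hv, he, add_zero])
    (by rw [f_add_right, huv, h1]; simp)).add_left (key e he (by rw [h1]; simp)).neg_left
  rwa [add_neg_cancel_right] at h2

theorem exists_tvA_su (hE : P.E ≤ M) (hε : P.ε = 1) (hΛ : P.Λ ≠ ⊥) {l : F} (hl : l + P.σ l = 1)
    {u w : V} (h : P.TvA M u w) (hw0 : w ≠ 0) (hu : u ∉ F ∙ w) (hw : P.Sing w) :
    ∃ u' w', P.TvA M u' w' ∧ u' ≠ 0 ∧ P.f w' w' ≠ 0 := by
  obtain ⟨ν, hν, hν0⟩ := exists_mem_Λ hΛ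
  obtain ⟨e', he', h1⟩ := hw.exists_partner' hw0
  obtain ⟨y, hy, h2⟩ := P.exists_perp_f_right hu (l - P.f u e')
  rw [mem_perp_span_singleton] at hy
  have hv := EV.of_h hw hy
  set a := P.eich w y (P.h y) e' with ha
  have sa : P.Sing a := hv.sing_eich he'
  have haw : P.f a w = 1 := by rw [ha, hv.f_eich_left, h1]
  have hua : P.f u a = l := by
    rw [ha, PForm.eich_apply, h1, one_smul, f_sub_right, f_add_right, f_smul_right, h.1, h2]; ring
  refine ⟨_, _, (tvA_of_Λ hE sa hν).conj_tv h, fun h0 => ?_, ?_⟩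
  · have := congrArg (fun x => P.f x w) h0
    simp only [P.f_add_left, P.f_smul_left, haw, h.1, f_zero_left, hε] at this
    exact hν0 (by simpa using this)
  · rw [hua]
    simp only [f_sub_left, f_sub_right, P.f_smul_left, f_smul_right, sa.f_self, haw,
      f_symm_one haw, hw.f_self, hε, P.σσ]
    intro h0
    have : l + P.σ l = 0 := by linear_combination -h0
    rw [hl] at this
    exact one_ne_zero this

theorem c8_T3_of_Λ (hE : P.E ≤ M) (hΛ : P.Λ ≠ ⊥)
    (hno : ∀ u w, P.TvA M u w → u ≠ 0 → w ∈ F ∙ u) {τ : V ≃ₗ[F] V}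
    (hτ : τ ∈ M) {u : V} (hu : P.Sing u) (hu0 : u ≠ 0) (h1 : τ u = u) :
    ∃ c, c ≠ 0 ∧ ∀ x, P.f (τ x) u = c * P.f x u := by
  obtain ⟨ν, hν, hν0⟩ := exists_mem_Λ hΛ
  obtain ⟨w, hw⟩ := P.exists_rep (P.fL u ∘ₗ (τ⁻¹ : V ≃ₗ[F] V).toLinearMap)
  have hw' : ∀ x, P.f (τ⁻¹ x) u = P.f x w := fun x => (hw x).symm
  have h4 : τ⁻¹ u = u := by rw [← h1, inv_apply_apply, h1]
  have hc : -(P.ε * ν) ≠ 0 := neg_ne_zero.2 (mul_ne_zero P.ε_ne_zero hν0)
  have h2 : w ∈ F ∙ u := by
    obtain ⟨-, k, hk, hk'⟩ := tvA_of_Λ hE hu hν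
    have h3 : P.TvA M ((-(P.ε * ν)) • u) w := by
      refine ⟨by rw [P.f_smul_left, ← hw', h4, hu.f_self, mul_zero], τ * k * τ⁻¹,
        M.mul_mem (M.mul_mem hτ hk) (M.inv_mem hτ), fun x => ?_⟩
      rw [mul_apply', mul_apply', hk', map_add, map_smul, map_smul, apply_inv_apply, h1, hw']
    have := hno _ _ h3 (smul_ne_zero hc hu0)
    rwa [Submodule.span_singleton_smul_eq (IsUnit.mk0 _ hc)] at this
  obtain ⟨a, rfl⟩ := Submodule.mem_span_singleton.1 h2
  have h3 : ∀ x, P.f x u = P.σ a * P.f (τ x) u := fun x => by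
    rw [← f_smul_right, ← hw', inv_apply_apply]
  have h4 : P.σ a ≠ 0 := fun h => hu0 (P.nondeg u fun x => by rw [h3, h, zero_mul])
  exact ⟨(P.σ a)⁻¹, inv_ne_zero h4, fun x => by rw [h3 x, inv_mul_cancel_left₀ h4]⟩

theorem c8_T4_of_Λ (hE : P.E ≤ M) (hΛ : P.Λ ≠ ⊥) (h3 : 3 ≤ finrank F V)
    (hd : P.d + 2 ≤ finrank F V)
    (hno : ∀ u w, P.TvA M u w → u ≠ 0 → w ∈ F ∙ u) {g : V ≃ₗ[F] V}
    (hg : g ∈ M) {u : V} (hu : P.Sing u) (hu0 : u ≠ 0) (hgu : P.Sing (g u)) :
    ∃ c, c ≠ 0 ∧ P.σ c = c ∧ (∀ x, P.f (g x) (g u) = c * P.f x u) ∧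
      ∀ x y, P.f x u = 0 → P.f y u = 0 → P.f (g x) (g y) = c * P.f x y := by
  have hW : P.W2 ⊥ := W2.of_finrank (by rw [finrank_perp_bot, finrank_perp_bot']; omega)
  obtain ⟨k, hk, hkE, hku, -⟩ := hW.exists_map (M := M) (fun e y ν h _ _ => Ei.of_le hE h)
    (by rw [PForm.perp_bot]; trivial) (by rw [PForm.perp_bot]; trivial) (by simpa using hu0)
    (by simpa using hu0) hgu hu
  have hki := E_le_isom hkE
  obtain ⟨c, hc0, hc⟩ := c8_T3_of_Λ hE hΛ hno (M.mul_mem hk hg) hu hu0 hku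
  have h1 : ∀ x y, P.f x u = 0 → P.f y u = 0 → P.f (g x) (g y) = P.σ c * P.f x y := by
    intro x y hx hy
    rw [← isom_f hki]
    exact c8_T2 hE hno (M.mul_mem hk hg) hu hu0 hku hc0 hc hx hy
  have h2 : P.σ c = c := by
    obtain ⟨y, hy, z, hz, hzy⟩ := exists_f_ne_zero_of_lt (P := P) (S := F ∙ u) (by
      have := finrank_span_singleton_le (F := F) u
      omega)
    rw [mem_perp_span_singleton] at hy hz
    have h3 := h1 y z hy hz
    rw [P.herm, h1 z y hz hy, P.herm z y, map_mul, P.σσ] at h3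
    refine mul_left_cancel₀ (mul_ne_zero P.ε_ne_zero (P.σ_ne_zero hzy)) ?_
    linear_combination -h3
  refine ⟨c, hc0, h2, fun x => ?_, by rwa [h2] at h1⟩
  rw [← isom_f hki, hku]
  exact hc x

theorem c8_sim_of_Λ (hE : P.E ≤ M) (hΛ : P.Λ ≠ ⊥) (h3 : 3 ≤ finrank F V)
    (hd : P.d + 2 ≤ finrank F V) (hmax : ∀ x, P.f x x = 0 → P.Sing x)
    (hno : ∀ u w, P.TvA M u w → u ≠ 0 → w ∈ F ∙ u) {g : V ≃ₗ[F] V}
    (hg : g ∈ M) {u : V} (hu : P.Sing u) (hu0 : u ≠ 0) (hgu : P.Sing (g u)) :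
    ∃ c, c ≠ 0 ∧ ∀ x y, P.f (g x) (g y) = c * P.f x y := by
  have step : ∀ u, P.Sing u → u ≠ 0 → P.Sing (g u) → ∀ z, P.Sing z → P.f z u = 0 →
      P.Sing (g z) := by
    intro u hu hu0 hgu z hz hzu
    obtain ⟨c, -, -, -, h⟩ := c8_T4_of_Λ hE hΛ h3 hd hno hg hu hu0 hgu
    exact hmax _ (by rw [h z z hzu hzu, hz.f_self, mul_zero])
  have hall : ∀ z, P.Sing z → P.Sing (g z) := by
    intro z hz
    obtain ⟨e, he, he0, hs⟩ := P.exists_sing (P.perp ((F ∙ u) ⊔ F ∙ z)) (by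
      have := finrank_sup_span_le (F ∙ u) z
      have := finrank_span_singleton_le (F := F) u
      have := P.finrank_perp ((F ∙ u) ⊔ F ∙ z)
      omega)
    rw [mem_perp_sup_span, mem_perp_span_singleton] at he
    exact step e hs he0 (step u hu hu0 hgu e hs he.1) z hz (f_symm_zero he.2)
  choose A hA using fun x => P.exists_rep (P.fL (g x) ∘ₗ g.toLinearMap)
  have hA' : ∀ x y, P.f (A x) y = P.f (g x) (g y) := fun x y => by
    rw [P.herm, hA, P.herm (g y)]; rfl
  let A' : V →ₗ[F] V :=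
    { toFun := A
      map_add' := fun x y => eq_of_f_left (P := P) fun z => by
        rw [P.f_add_left, hA', hA', hA', map_add, P.f_add_left]
      map_smul' := fun c x => eq_of_f_left (P := P) fun z => by
        rw [RingHom.id_apply, P.f_smul_left, hA', hA', map_smul, P.f_smul_left] }
  obtain ⟨c, hc⟩ := exists_scalar_of_comm A' hu hu0 (by
    intro z hz x
    by_cases hz0 : z = 0
    · simp [hz0]
    obtain ⟨c, -, h1, h2, -⟩ := c8_T4_of_Λ hE hΛ h3 hd hno hg hz hz0 (hall z hz)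
    have h3 : A z = c • z := eq_of_f_left (P := P) fun y => by
      rw [hA', P.f_smul_left, P.herm, h2, map_mul, h1, P.herm y z]; ring
    change P.f x z • A z = P.f (A x) z • z
    rw [h3, hA', h2, smul_smul, mul_comm])
  have h1 : ∀ x y, P.f (g x) (g y) = c * P.f x y := fun x y => by
    rw [← hA', ← P.f_smul_left, ← hc]; rfl
  refine ⟨c, fun h => hu0 ?_, h1⟩
  refine g.map_eq_zero_iff.1 (P.nondeg _ fun x => ?_)
  obtain ⟨x, rfl⟩ := g.surjective x
  rw [h1, h, zero_mul]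

section Quad

variable (hΛ : P.Λ = ⊥) (h2 : (2 : F) ≠ 0)
include hΛ h2

omit [FiniteDimensional F V] in
theorem sing_of_f_self {x : V} (h : P.f x x = 0) : P.Sing x := by
  rw [P.f_self, ε_eq_one_of_Λ hΛ, σ_eq_of_Λ hΛ, one_mul, ← two_mul, mul_eq_zero,
    or_iff_right h2] at h
  exact (sing_iff_of_Λ hΛ).2 h

theorem exists_tvA_o (hE : P.E ≤ M) (h4 : 4 ≤ finrank F V) {u w : V} (h : P.TvA M u w)
    (hu0 : u ≠ 0) (hw0 : w ≠ 0) : ∃ u' w', P.TvA M u' w' ∧ u' ≠ 0 ∧ P.f w' w' ≠ 0 := by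
  by_cases hw : P.f w w = 0
  swap
  · exact ⟨u, w, h, hu0, hw⟩
  have hε := ε_eq_one_of_Λ hΛ
  have hσ := σ_eq_of_Λ hΛ
  have hc := f_comm_of_Λ hΛ
  have hs := sing_of_f_self hΛ h2 hw
  have hf : ∀ x, P.f x x = 2 * P.h x := fun x => by rw [P.f_self, hε, hσ]; ring
  obtain ⟨z, hz, hzw⟩ := hs.exists_partner' hw0
  have hwz : P.f w z = 1 := by rw [hc, hzw]
  obtain ⟨y, hyw, hyz, hy, hne⟩ : ∃ y, P.f y w = 0 ∧ P.f y z = 0 ∧ P.h y ≠ 0 ∧
      P.f u y + P.h y * P.f u z ≠ 0 := by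
    by_cases huw : u ∈ F ∙ w
    · obtain ⟨b, rfl⟩ := Submodule.mem_span_singleton.1 huw
      have hb : b ≠ 0 := by rintro rfl; simp at hu0
      obtain ⟨y, hy, hy0⟩ : ∃ y ∈ P.perp ((F ∙ w) ⊔ F ∙ z), P.h y ≠ 0 := by
        by_contra hcon
        push Not at hcon
        have h5 := finrank_sup_span_le (F ∙ w) z
        have h6 := finrank_span_singleton_le (F := F) w
        have h7 := P.finrank_perp ((F ∙ w) ⊔ F ∙ z)
        obtain ⟨y, hy, hy0⟩ := Submodule.exists_mem_ne_zero_of_ne_bot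
          (p := P.perp ((F ∙ w) ⊔ F ∙ z)) (fun h => by rw [h, finrank_bot] at h7; omega)
        have h8 : y ∈ (F ∙ w) ⊔ F ∙ z := mem_of_forall_perp (P := P) fun t ht => by
          have := h_add_of_Λ hΛ y t
          rw [hcon _ (add_mem hy ht), hcon y hy, hcon t ht] at this
          simpa using this.symm
        obtain ⟨s, hs', c, rfl⟩ := mem_sup_span.1 h8
        obtain ⟨a, rfl⟩ := Submodule.mem_span_singleton.1 hs'
        rw [mem_perp_sup_span, mem_perp_span_singleton] at hy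
        simp only [P.f_add_left, P.f_smul_left, hw, hzw, hwz, hz.f_self, mul_zero, mul_one,
          zero_add, add_zero] at hy
        apply hy0
        simp [hy.1, hy.2]
      rw [mem_perp_sup_span, mem_perp_span_singleton] at hy
      refine ⟨y, hy.1, hy.2, hy0, ?_⟩
      rw [P.f_smul_left, P.f_smul_left, f_symm_zero hy.1, hwz]
      simpa using ⟨hy0, hb⟩
    · have h5 : u ∉ (F ∙ w) ⊔ F ∙ z := by
        intro h5
        obtain ⟨s, hs', c, rfl⟩ := mem_sup_span.1 h5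
        obtain ⟨a, rfl⟩ := Submodule.mem_span_singleton.1 hs'
        have h6 := h.1
        simp only [P.f_add_left, P.f_smul_left, hw, hzw, mul_zero, mul_one, zero_add] at h6
        apply huw
        rw [h6, zero_smul, add_zero]
        exact hs'
      obtain ⟨y, hyw, hyz, hy, huy⟩ : ∃ y, P.f y w = 0 ∧ P.f y z = 0 ∧ P.h y ≠ 0 ∧
          P.f u y ≠ 0 := by
        obtain ⟨y, hy, h6⟩ := P.exists_perp_f_right h5 1
        rw [mem_perp_sup_span, mem_perp_span_singleton] at hy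
        set u0 := u - P.f u z • w with hu0'
        have a1 : P.f u0 w = 0 := by rw [hu0', f_sub_left, P.f_smul_left, h.1, hw]; simp
        have a2 : P.f u0 z = 0 := by rw [hu0', f_sub_left, P.f_smul_left, hwz]; simp
        have a3 : P.f u u0 = 2 * P.h u0 := by
          rw [← hf]
          conv_rhs => rw [hu0', f_sub_left, P.f_smul_left, ← hu0', f_symm_zero a1]
          simp
        have a4 : P.f y u0 = 1 := by
          rw [hu0', f_sub_right, f_smul_right, hy.1, hc, h6]; simp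
        by_cases b1 : P.h u0 = 0
        swap
        · exact ⟨u0, a1, a2, b1, by rw [a3]; exact mul_ne_zero h2 b1⟩
        by_cases b2 : P.h y = 0
        swap
        · exact ⟨y, hy.1, hy.2, b2, by rw [h6]; simp⟩
        refine ⟨y + u0, by rw [P.f_add_left, hy.1, a1, add_zero],
          by rw [P.f_add_left, hy.2, a2, add_zero], ?_, ?_⟩
        · rw [h_add_of_Λ hΛ, b1, b2, a4]; simp
        · rw [f_add_right, h6, a3, b1]; simp
      by_cases hne : P.f u y + P.h y * P.f u z = 0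
      swap
      · exact ⟨y, hyw, hyz, hy, hne⟩
      have hn : P.h (-y) = P.h y := by simpa using h_smul_of_Λ hΛ (-1) y
      refine ⟨-y, by rw [f_neg_left, hyw, neg_zero], by rw [f_neg_left, hyz, neg_zero],
        by rwa [hn], ?_⟩
      rw [hn, f_neg_right]
      intro h0
      exact mul_ne_zero h2 huy (by linear_combination hne - h0)
  have hv := EV.of_h hz hyz
  have h5 := TvA.conj (hE hv.equiv_mem_E) hv.equiv_mem_isom h
  set u' := hv.equiv u with hu'
  set w' := hv.equiv w with hw'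
  have a1 : P.f u' w = -(P.f u y + P.h y * P.f u z) := by
    rw [hu', EV.equiv_apply, PForm.eich_apply, f_sub_left, P.f_add_left, P.f_smul_left, P.f_smul_left,
      h.1, hyw, hzw, hε]; ring
  have a2 : P.f w' w = -P.h y := by
    rw [hw', EV.equiv_apply, PForm.eich_apply, f_sub_left, P.f_add_left, P.f_smul_left, P.f_smul_left,
      hw, hyw, hzw, hε, hwz, f_symm_zero hyw]; ring
  have a3 : P.f w' w' = 0 := by rw [hw', isom_f hv.equiv_mem_isom, hw]
  refine ⟨_, _, h.conj_tv h5, fun h0 => hu0 ?_, ?_⟩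
  · obtain ⟨-, k, -, hk⟩ := h5
    rw [← hk] at h0
    exact k.map_eq_zero_iff.1 h0
  · simp only [f_sub_left, f_sub_right, P.f_smul_left, f_smul_right, hσ, hw, a3, a2, hc w w', a1]
    intro h0
    exact mul_ne_zero h2 (mul_ne_zero hne hy) (by linear_combination -h0)

theorem c8_T3_o (hE : P.E ≤ M) (h4 : 4 ≤ finrank F V)
    (hno : ∀ u w, P.TvA M u w → u ≠ 0 → w ∈ F ∙ u) {τ : V ≃ₗ[F] V}
    (hτ : τ ∈ M) {u : V} (hu : P.Sing u) (hu0 : u ≠ 0) (h1 : τ u = u) :
    ∃ c, c ≠ 0 ∧ ∀ x, P.f (τ x) u = c * P.f x u := by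
  have hσ := σ_eq_of_Λ hΛ
  have hcm := f_comm_of_Λ hΛ
  obtain ⟨w, hw⟩ := P.exists_rep (P.fL u ∘ₗ (τ⁻¹ : V ≃ₗ[F] V).toLinearMap)
  have hw' : ∀ x, P.f (τ⁻¹ x) u = P.f x w := fun x => (hw x).symm
  have h2' : w ∈ F ∙ u := by
    by_contra hc
    have h4' : τ⁻¹ u = u := by rw [← h1, inv_apply_apply, h1]
    have key : ∀ z, P.f z u = 0 → P.f z w = 0 → ∀ x y, P.f x u = 0 → P.f y u = 0 →
        P.f y w * P.f x z + P.f x w * P.f z y + P.f x w * P.f y w * P.f z z = 0 := by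
      intro z hzu hzw x y hx hy
      have hv := EV.of_h hu (y := τ⁻¹ z) (by rw [hw', hzw])
      have h3 : ∀ x, (τ * hv.equiv * τ⁻¹) x = x + P.f x w • z -
          (P.ε * (P.f (τ⁻¹ x) (τ⁻¹ z) + P.h (τ⁻¹ z) * P.f x w)) • u := by
        intro x
        rw [mul_apply', mul_apply', EV.equiv_apply, PForm.eich_apply, map_sub, map_add, map_smul,
          map_smul, apply_inv_apply, apply_inv_apply, h1, hw']
      have h6 := c8_T2 hE hno (M.mul_mem (M.mul_mem hτ (hE hv.equiv_mem_E)) (M.inv_mem hτ)) hu hu0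
        (by rw [mul_apply', mul_apply', h4', EV.equiv_apply, hv.eich_self, h1]) one_ne_zero
        (fun x => by
          rw [h3, f_sub_left, P.f_add_left, P.f_smul_left, P.f_smul_left, hzu, hu.f_self]; ring)
        hx hy
      rw [h3, h3] at h6
      simp only [f_sub_left, f_sub_right, P.f_add_left, f_add_right, P.f_smul_left, f_smul_right,
        hx, hzu, hu.f_self, f_symm_zero hy, f_symm_zero hzu, hσ] at h6
      linear_combination h6
    obtain ⟨z, hz, hzu⟩ := exists_notMem_of_finrank_lt (A := P.perp ((F ∙ u) ⊔ F ∙ w))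
      (B := F ∙ u) (by
        have := finrank_sup_span_le (F ∙ u) w
        have := finrank_span_singleton_le (F := F) u
        have := P.finrank_perp ((F ∙ u) ⊔ F ∙ w)
        omega)
    rw [mem_perp_sup_span, mem_perp_span_singleton] at hz
    have key2 : ∀ x y, P.f x u = 0 → P.f y u = 0 → P.f y w * P.f x z + P.f x w * P.f z y = 0 := by
      intro x y hx hy
      have a1 := key z hz.1 hz.2 x y hx hy
      have a2 := key (-z) (by rw [f_neg_left, hz.1, neg_zero]) (by rw [f_neg_left, hz.2, neg_zero])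
        x y hx hy
      simp only [f_neg_left, f_neg_right] at a2
      exact mul_left_cancel₀ h2 (by linear_combination a1 - a2)
    obtain ⟨x, hx, hxw⟩ := P.exists_perp_f_left hc 1
    rw [mem_perp_span_singleton] at hx
    have a1 := key2 x x hx hx
    rw [hxw, hcm z x] at a1
    have a2 : P.f x z = 0 := mul_left_cancel₀ h2 (by linear_combination a1)
    refine hzu (mem_span_singleton_of (P := P) fun y hy => ?_)
    have a3 := key2 x y hx hy
    rw [a2, hxw, hcm z y] at a3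
    linear_combination a3
  obtain ⟨a, rfl⟩ := Submodule.mem_span_singleton.1 h2'
  have h3 : ∀ x, P.f x u = P.σ a * P.f (τ x) u := fun x => by
    rw [← f_smul_right, ← hw', inv_apply_apply]
  have h4 : P.σ a ≠ 0 := fun h => hu0 (P.nondeg u fun x => by rw [h3, h, zero_mul])
  exact ⟨(P.σ a)⁻¹, inv_ne_zero h4, fun x => by rw [h3 x, inv_mul_cancel_left₀ h4]⟩

theorem c8_fix_o (hE : P.E ≤ M) (h4 : 4 ≤ finrank F V)
    (hno : ∀ u w, P.TvA M u w → u ≠ 0 → w = 0)
    (hdet : ∀ g ∈ M, LinearMap.det (g : V →ₗ[F] V) = 1)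
    (hH : ∀ g : V ≃ₗ[F] V, LinearMap.det (g : V →ₗ[F] V) = 1 →
      (∃ c, c ≠ 0 ∧ ∀ x y, P.f (g x) (g y) = c * P.f x y) → g ∈ M) {τ : V ≃ₗ[F] V}
    (hτ : τ ∈ M) {u : V} (hu : P.Sing u) (hu0 : u ≠ 0) (h1 : τ u = u) :
    ∃ c, c ≠ 0 ∧ ∀ x y, P.f (τ x) (τ y) = c * P.f x y := by
  have hσ := σ_eq_of_Λ hΛ
  have hcm := f_comm_of_Λ hΛ
  have hno' : ∀ u w, P.TvA M u w → u ≠ 0 → w ∈ F ∙ u := fun u w h h0 => by
    rw [hno u w h h0]; exact zero_mem _
  obtain ⟨c, hc0, hc⟩ := c8_T3_o hΛ h2 hE h4 hno' hτ hu hu0 h1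
  have hT2 : ∀ x y, P.f x u = 0 → P.f y u = 0 → P.f (τ x) (τ y) = c * P.f x y := by
    intro x y hx hy
    rw [c8_T2 hE hno' hτ hu hu0 h1 hc0 hc hx hy, hσ]
  obtain ⟨u', hu', huu⟩ := hu.exists_partner' hu0
  obtain ⟨v0, hv0⟩ := P.exists_rep (P.fL u' - c⁻¹ • (P.fL (τ u') ∘ₗ τ.toLinearMap))
  have hv0' : ∀ x, c * P.f x v0 = c * P.f x u' - P.f (τ x) (τ u') := fun x => by
    rw [hv0]
    simp only [LinearMap.sub_apply, LinearMap.smul_apply, LinearMap.comp_apply, fL_apply,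
      LinearEquiv.coe_coe, smul_eq_mul]
    field_simp
  have a0 : P.f v0 u = 0 := by
    have := hv0' u
    rw [h1, hcm u u', hcm u (τ u'), hc, sub_self, mul_eq_zero, or_iff_right hc0] at this
    exact f_symm_zero this
  set v := v0 - (P.f (τ (u' + v0)) (τ (u' + v0)) / (2 * c)) • u with hv
  have a1 : P.f v u = 0 := by rw [hv, f_sub_left, P.f_smul_left, a0, hu.f_self]; simp
  have a2 : ∀ x, P.f x u = 0 → P.f (τ x) (τ (u' + v)) = c * P.f x u' := by
    intro x hx
    rw [map_add, f_add_right, hT2 x v hx a1, hv, f_sub_right, f_smul_right, hx]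
    linear_combination hv0' x
  have a3 : P.f (τ (u' + v)) (τ (u' + v)) = 0 := by
    have b1 : τ (u' + v) = τ (u' + v0) - (P.f (τ (u' + v0)) (τ (u' + v0)) / (2 * c)) • u := by
      rw [hv, ← add_sub_assoc, map_sub, map_smul, h1]
    have b2 : P.f (τ (u' + v0)) u = c := by rw [hc, P.f_add_left, huu, a0]; ring
    rw [b1]
    generalize τ (u' + v0) = t at b2 ⊢
    simp only [f_sub_left, f_sub_right, P.f_smul_left, f_smul_right, hσ, hu.f_self, b2,
      hcm u t]
    field_simp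
    ring
  let t : V ≃ₗ[F] V := LinearEquiv.transvection (f := P.fL u) (v := v) a1
  have ht : ∀ x, t x = x + P.f x u • v := fun x => rfl
  have hs : ∀ x y, P.f ((τ * t) x) ((τ * t) y) = c * P.f x y := by
    have b1 : ∀ x, P.f (x - P.f x u • u') u = 0 := fun x => by
      rw [f_sub_left, P.f_smul_left, huu]; simp
    have b2 : ∀ x, (τ * t) x = τ (x - P.f x u • u') + P.f x u • τ (u' + v) := fun x => by
      rw [mul_apply', ht, ← map_smul, ← map_add]
      congr 1
      module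
    intro x y
    rw [b2, b2, P.f_add_left, f_add_right, f_add_right, P.f_smul_left, P.f_smul_left,
      f_smul_right, f_smul_right, hT2 _ _ (b1 x) (b1 y), a2 _ (b1 x), hcm (τ (u' + v)),
      a2 _ (b1 y), a3]
    simp only [f_sub_left, f_sub_right, P.f_smul_left, f_smul_right, hσ, hu'.f_self, hcm u' y]
    ring
  have hsM : τ * t ∈ M := hH _ (by
    rw [LinearEquiv.coe_toLinearMap_mul, map_mul, hdet τ hτ, one_mul]
    change LinearMap.det (LinearMap.transvection (P.fL u) v) = 1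
    rw [LinearMap.transvection.det, fL_apply, a1, add_zero]) ⟨c, hc0, hs⟩
  have htM : t ∈ M := by simpa using M.mul_mem (M.inv_mem hτ) hsM
  have hv0 : v = 0 := by
    by_contra h
    exact hu0 (hno v u ⟨a1, t, htM, ht⟩ h)
  refine ⟨c, hc0, fun x y => ?_⟩
  have := hs x y
  rwa [mul_apply', mul_apply', ht, ht, hv0, smul_zero, smul_zero, add_zero, add_zero] at this

theorem c8_sim_o (hd : P.d ≤ 3) (hW : P.W2' ⊥) (hE : P.E ≤ M) (h4 : 4 ≤ finrank F V)
    (hno : ∀ u w, P.TvA M u w → u ≠ 0 → w = 0)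
    (hdet : ∀ g ∈ M, LinearMap.det (g : V →ₗ[F] V) = 1)
    (hH : ∀ g : V ≃ₗ[F] V, LinearMap.det (g : V →ₗ[F] V) = 1 →
      (∃ c, c ≠ 0 ∧ ∀ x y, P.f (g x) (g y) = c * P.f x y) → g ∈ M) {g : V ≃ₗ[F] V}
    (hg : g ∈ M) : ∃ c, c ≠ 0 ∧ ∀ x y, P.f (g x) (g y) = c * P.f x y := by
  obtain ⟨u, -, hu0, hu⟩ := P.exists_sing ⊤ (by rw [finrank_top]; omega)
  have b1 := finrank_span_singleton_le (F := F) (g u)
  obtain ⟨e, heu, he0, he⟩ := P.exists_sing (P.perp (F ∙ g u)) (by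
    have := P.finrank_perp (F ∙ g u); omega)
  rw [mem_perp_span_singleton] at heu
  obtain ⟨y, hy, hye⟩ := exists_notMem_of_finrank_lt (A := P.perp ((F ∙ g u) ⊔ F ∙ e))
    (B := F ∙ e) (by
      have := finrank_sup_span_le (F ∙ g u) e
      have := finrank_span_singleton_le (F := F) e
      have := P.finrank_perp ((F ∙ g u) ⊔ F ∙ e)
      omega)
  rw [mem_perp_sup_span, mem_perp_span_singleton] at hy
  have hv := EV.of_h (P := P) he hy.2
  have hk : g⁻¹ * hv.equiv * g ∈ M :=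
    M.mul_mem (M.mul_mem (M.inv_mem hg) (hE hv.equiv_mem_E)) hg
  obtain ⟨c, hc0, hc⟩ := c8_fix_o hΛ h2 hE h4 hno hdet hH hk hu hu0 (by
    rw [mul_apply', mul_apply', EV.equiv_apply,
      eich_apply_of_orth₂ _ _ (f_symm_zero heu) (f_symm_zero hy.1), inv_apply_apply])
  have ha : P.Sing (g⁻¹ e) := by
    apply sing_of_f_self hΛ h2
    by_contra hne
    have c1 : (g⁻¹ * hv.equiv * g) (g⁻¹ e) = g⁻¹ e := by
      rw [mul_apply', mul_apply', apply_inv_apply, EV.equiv_apply, hv.eich_self]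
    have c2 := hc (g⁻¹ e) (g⁻¹ e)
    rw [c1] at c2
    obtain rfl : c = 1 := mul_right_cancel₀ hne (by rw [← c2, one_mul])
    obtain ⟨x, hx, hxy⟩ := P.exists_perp_f_left hye (-1)
    have c3 : (g⁻¹ * hv.equiv * g) (g⁻¹ x) = g⁻¹ x + g⁻¹ e := by
      rw [mul_apply', mul_apply', apply_inv_apply, EV.equiv_apply,
        PForm.eich_apply_of_orth _ _ (mem_perp_span_singleton.1 hx), hxy, ε_eq_one_of_Λ hΛ, ← map_add]
      congr 1
      module
    have c4 := hc (g⁻¹ x) (g⁻¹ e)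
    rw [c1, c3, P.f_add_left] at c4
    exact hne (by linear_combination c4)
  have ha0 : g⁻¹ e ≠ 0 := fun h => he0 ((g⁻¹).map_eq_zero_iff.1 h)
  obtain ⟨k, hk, hkE, hku, -⟩ := hW.exists_map (M := M) (fun e y ν h _ _ => Ei.of_le hE h)
    (x := e) (x' := g⁻¹ e) (by rw [PForm.perp_bot]; trivial) (by rw [PForm.perp_bot]; trivial)
    (by simpa using he0) (by simpa using ha0) he ha
  obtain ⟨c, hc0, hc⟩ := c8_fix_o hΛ h2 hE h4 hno hdet hH (M.mul_mem hk hg) ha ha0 (by
    rw [mul_apply', apply_inv_apply, hku])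
  exact ⟨c, hc0, fun x y => by rw [← isom_f (E_le_isom hkE)]; exact hc x y⟩

end Quad

end Abstract

variable {ι : Type} [Fintype ι] [DecidableEq ι] {F : Type*} [Field F]

/-- Maximality of the groups of similarities in `SL`: the common frame of the argument. -/
theorem isMaximalIn_sim_of (P : PForm F (ι → F)) (h3 : 3 ≤ Fintype.card ι)
    (hd : P.d ≤ Fintype.card ι) {X : Subgroup (GL ι F)}
    (hX : ∀ g, g ∈ X ↔ ∃ c, c ≠ 0 ∧ ∀ x y, P.f (gl g x) (gl g y) = c * P.f x y)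
    (h : ∀ M : Subgroup ((ι → F) ≃ₗ[F] (ι → F)), P.E ≤ M →
      (∀ g ∈ M, LinearMap.det (g : (ι → F) →ₗ[F] (ι → F)) = 1) →
      (∀ g : (ι → F) ≃ₗ[F] (ι → F), LinearMap.det (g : (ι → F) →ₗ[F] (ι → F)) = 1 →
        (∃ c, c ≠ 0 ∧ ∀ x y, P.f (g x) (g y) = c * P.f x y) → g ∈ M) →
      (∀ g ∈ M, ∃ c, c ≠ 0 ∧ ∀ x y, P.f (g x) (g y) = c * P.f x y) ∨
        ∃ w, w ≠ 0 ∧ ∀ v, P.f v w = 0 → P.TvA M v w) :
    Geo.IsMaximalIn (Geo.specialLinear ι F) (X ⊓ Geo.specialLinear ι F) := by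
  rw [← finrank_pi_card (F := F)] at h3 hd
  refine isMaximalIn_inf (fun h => ?_) fun M h1 hM => ?_
  · obtain ⟨u, w, h1, h2⟩ := exists_tv_not_sim (P := P) (by omega)
    obtain ⟨φ, hφ⟩ := exists_dotProduct_eq (P.fL w)
    have h3 : φ ⬝ᵥ u = 0 := by rw [← hφ]; exact h1
    obtain ⟨c, -, hc⟩ := (hX _).1 (h (tvGL_mem_specialLinear u φ h3))
    refine h2 c fun x y => ?_
    simpa only [gl_apply, tvGL_coe, tv_mulVec, ← hφ, fL_apply] using hc x y
  have hH : ∀ g : (ι → F) ≃ₗ[F] (ι → F), LinearMap.det (g : (ι → F) →ₗ[F] (ι → F)) = 1 →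
      (∃ c, c ≠ 0 ∧ ∀ x y, P.f (g x) (g y) = c * P.f x y) → g ∈ M.map gl.toMonoidHom := by
    intro g hg hc
    refine ⟨gl.symm g, h1 ⟨(hX _).2 ?_, (mem_specialLinear_iff_det _).2 ?_⟩, by simp⟩
    · rwa [MulEquiv.apply_symm_apply]
    · rwa [MulEquiv.apply_symm_apply]
  have hE : P.E ≤ M.map gl.toMonoidHom := fun g hg =>
    hH g (det_of_mem_E hg) ⟨1, one_ne_zero, fun x y => by rw [one_mul, isom_f (E_le_isom hg)]⟩
  rcases h _ hE (by
    rintro _ ⟨g, hg, rfl⟩
    exact (mem_specialLinear_iff_det g).1 (hM hg)) hH with h2 | ⟨w, hw0, hw⟩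
  · exact Or.inl fun g hg => (hX g).2 (h2 _ ⟨g, hg, rfl⟩)
  · right
    refine specialLinear_le_of_forall_tv fun a φ ha => ?_
    obtain ⟨b, hb⟩ := exists_f_eq_dotProduct P φ
    obtain ⟨-, _, ⟨g, hg, rfl⟩, h6⟩ := tvA_all_of_axis hE h3 hd hw0 hw (a := a) (b := b)
      (by rw [hb, ha])
    refine ⟨ha, g, hg, Matrix.toLin'.injective (LinearMap.ext fun x => ?_)⟩
    rw [Matrix.toLin'_apply, Matrix.toLin'_apply, tv_mulVec, ← hb]
    exact h6 x

theorem notMem_span_swap {V : Type*} [AddCommGroup V] [Module F V] {u w : V} (hu : u ≠ 0)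
    (hw : w ∉ F ∙ u) : u ∉ F ∙ w := by
  simpa using notMem_sup_span_exchange (S := ⊥) (x := u) (e := w) (by simpa using hu)
    (by simpa using hw)

theorem sl_c8_sp4 {f : (ι → F) → (ι → F) → F} (hf : Geo.IsSymplecticForm f)
    (h3 : 3 ≤ Fintype.card ι) :
    Geo.IsMaximalIn (Geo.specialLinear ι F) (Geo.similarityGroup f ⊓ Geo.specialLinear ι F) := by
  set P := sympP hf
  have hd : P.d = 1 := rfl
  have hΛ : P.Λ = ⊤ := rfl
  refine isMaximalIn_sim_of P h3 (by omega) (mem_similarityGroup_iff f) fun M hE _ _ => ?_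
  rw [← finrank_pi_card (F := F)] at h3
  by_cases hno : ∀ u w, P.TvA M u w → u ≠ 0 → w ∈ F ∙ u
  · left
    intro g hg
    obtain ⟨u, -, hu, -⟩ := P.exists_sing ⊤ (by rw [finrank_top]; omega)
    exact c8_sim_of_Λ hE (by rw [hΛ]; exact top_ne_bot) h3 (by omega) (fun _ _ => trivial) hno hg
      (u := u) trivial hu trivial
  · right
    push Not at hno
    obtain ⟨u, w, h1, h2, h4⟩ := hno
    exact ⟨w, fun h => h4 (h ▸ zero_mem _),
      fun v hv => tvA_axis_sp hE (fun _ => trivial) hΛ h1 (notMem_span_swap h2 h4) hv⟩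

theorem sl_c8_su4 [Finite F] {σ : F ≃+* F} {f : (ι → F) → (ι → F) → F}
    (hf : Geo.IsUnitaryForm σ f) (h4 : 4 ≤ Fintype.card ι) :
    Geo.IsMaximalIn (Geo.specialLinear ι F) (Geo.similarityGroup f ⊓ Geo.specialLinear ι F) := by
  obtain ⟨l, hl⟩ := exists_trace_one hf
  set P := unitP hf l hl
  have hs : ∀ x, P.f x x = 0 → P.Sing x := fun x h => by
    change f x x = 0 at h
    change l * f x x + σ (l * f x x) = 0
    simp [h]
  have hd : P.d = 2 := rfl
  have hΛ : P.Λ ≠ ⊥ := by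
    obtain ⟨a, ha⟩ := exists_ne_of_ne_refl hf.ne_refl
    intro h
    exact ha (σ_eq_of_Λ h a)
  refine isMaximalIn_sim_of P (by omega) (by omega) (mem_similarityGroup_iff f) fun M hE _ _ => ?_
  rw [← finrank_pi_card (F := F)] at h4
  by_cases hno : ∀ u w, P.TvA M u w → u ≠ 0 → w ∈ F ∙ u
  · left
    intro g hg
    obtain ⟨e, -, he0, he⟩ := P.exists_sing ⊤ (by rw [finrank_top]; omega)
    have h1 := finrank_span_singleton_le (F := F) e
    obtain ⟨e', he', hn, hs'⟩ := P.exists_sing_perp_notMem (F ∙ e) (by omega)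
    rw [mem_perp_span_singleton] at he'
    obtain ⟨_, ⟨u, hu, rfl⟩, hu0, hgu⟩ := P.exists_sing (((F ∙ e) ⊔ F ∙ e').map g.toLinearMap) (by
      rw [LinearEquiv.finrank_map_eq, finrank_sup_span_of_notMem hn, finrank_span_singleton he0,
        hd])
    refine c8_sim_of_Λ hE hΛ (by omega) (by omega) hs hno hg (u := u) ?_
      (fun h => hu0 (by simp [h])) hgu
    obtain ⟨_, hx, c, rfl⟩ := mem_sup_span.1 hu
    obtain ⟨a, rfl⟩ := Submodule.mem_span_singleton.1 hx
    exact (Sing.smul he a).add (hs'.smul c) (by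
      rw [P.f_smul_left, f_smul_right, f_symm_zero he']; simp)
  · right
    push Not at hno
    obtain ⟨u, w, h1, h2, h5⟩ := hno
    obtain ⟨u', w', h6, h7, h8⟩ : ∃ u' w', P.TvA M u' w' ∧ u' ≠ 0 ∧ P.f w' w' ≠ 0 := by
      by_cases hw : P.f w w = 0
      · exact exists_tvA_su hE rfl hΛ (l := l) hl h1 (fun h => h5 (h ▸ zero_mem _))
          (notMem_span_swap h2 h5) (hs w hw)
      · exact ⟨u, w, h1, h2, hw⟩
    exact ⟨w', fun h => h8 (by rw [h, f_zero_left]),
      fun v hv => tvA_axis_of_ne hE h4 (by omega) h6 h7 h8 hv⟩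

theorem sl_c8_o4 [Finite F] (h2 : (2 : F) ≠ 0) {Q : (ι → F) → F}
    (hQ : Geo.IsNondegenerateQuadraticForm Q) (h4 : 4 ≤ Fintype.card ι) :
    Geo.IsMaximalIn (Geo.specialLinear ι F)
      (Geo.quadSimilarityGroup Q ⊓ Geo.specialLinear ι F) := by
  set P := quadP hQ
  have hf : ∀ x, P.f x x = 2 * Q x := fun x => by
    rw [P.f_self, two_mul]
    change Q x + 1 * Q x = _
    rw [one_mul]
  have hd : P.d = 3 := rfl
  have hΛ : P.Λ = ⊥ := rfl
  refine isMaximalIn_sim_of P (by omega) (by omega)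
    (fun g => ⟨fun ⟨c, hc⟩ => ⟨c, c.ne_zero, ?_⟩, fun ⟨c, hc, h⟩ => ⟨Units.mk0 c hc, fun v => ?_⟩⟩)
    fun M hE hdet hH => ?_
  · intro x y
    change Q (gl g x + gl g y) - Q (gl g x) - Q (gl g y) = c * (Q (x + y) - Q x - Q y)
    rw [← map_add, gl_apply, gl_apply, gl_apply, hc, hc, hc]
    ring
  · have := h v v
    rw [hf, hf, gl_apply] at this
    refine mul_left_cancel₀ h2 ?_
    rw [Units.val_mk0]
    linear_combination this
  rw [← finrank_pi_card (F := F)] at h4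
  by_cases hno : ∀ u w, P.TvA M u w → u ≠ 0 → w = 0
  · left
    intro g hg
    exact c8_sim_o hΛ h2 (by omega) (quad_W2' (ofGeo_nondegenerate hQ) (inf_bot_eq _)
      (by rw [finrank_perp_bot']; exact h4)) hE h4 hno hdet hH hg
  · right
    push Not at hno
    obtain ⟨u, w, h1, h5, h6⟩ := hno
    obtain ⟨u', w', h6, h7, h8⟩ := exists_tvA_o hΛ h2 hE h4 h1 h5 h6
    exact ⟨w', fun h => h8 (by rw [h, f_zero_left]),
      fun v hv => tvA_axis_of_ne hE h4 (by omega) h6 h7 h8 hv⟩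

end Cfsg.Agent.H30
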