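import Cfsg.Agent.H26.UFrSec
import Cfsg.Agent.H26.Count
import Cfsg.Agent.H26.SLTrans

/-!
Overgroups of monomial groups in dimension four whose point stabilisers are monomial.
-/

set_option autoImplicit false

namespace Cfsg.Agent.H30

open Module Cfsg.Agent.H26

variable {F : Type*} [Field F] {V : Type*} [AddCommGroup V] [Module F V]

section Basic

variable {ι : Type*} (b : Basis ι F V)

theorem repr_map_mon [DecidableEq ι] {g : V ≃ₗ[F] V} {π : Equiv.Perm ι} {c : ι → F}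
    (H : ∀ i, g (b i) = c i • b (π i)) (x : V) (i : ι) :
    b.repr (g x) (π i) = c i * b.repr x i := by
  have : b.coord (π i) ∘ₗ (g : V →ₗ[F] V) = c i • b.coord i := b.ext fun j => by
    by_cases h : j = i
    · simp [H, h]
    · simp [H, h]
  exact LinearMap.congr_fun this x

theorem eq_smul_of_repr {x : V} {j : ι} (H : ∀ i, i ≠ j → b.repr x i = 0) :
    x = b.repr x j • b j := by
  classical
  refine b.ext_elem fun i => ?_
  by_cases h : i = j
  · simp [h]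
  · simp [H i h, h]

theorem exists_repr_map_ne (g : V ≃ₗ[F] V) (k : ι) : ∃ m, b.repr (g (b m)) k ≠ 0 := by
  by_contra h
  push Not at h
  have h1 : b.coord k ∘ₗ (g : V →ₗ[F] V) = 0 := b.ext fun m => h m
  have := LinearMap.congr_fun h1 (g.symm (b k))
  simp at this

theorem mon_pow {g : V ≃ₗ[F] V} {π : Equiv.Perm ι} (H : ∀ i, ∃ c : F, g (b i) = c • b (π i))
    (n : ℕ) (i : ι) : ∃ c : F, (g ^ n) (b i) = c • b ((π ^ n) i) := by
  induction n with
  | zero => exact ⟨1, by simp⟩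
  | succ n ih =>
    obtain ⟨c, hc⟩ := ih
    obtain ⟨d, hd⟩ := H ((π ^ n) i)
    exact ⟨c * d, by rw [pow_succ', pow_succ', LinearEquiv.mul_apply, hc, map_smul, hd, smul_smul,
      Equiv.Perm.mul_apply]⟩

end Basic

variable {b : Basis (Fin 4) F V}

theorem exists_two_other : ∀ i j : Fin 4, i ≠ j →
    ∃ k l : Fin 4, k ≠ l ∧ k ≠ i ∧ k ≠ j ∧ l ≠ i ∧ l ≠ j := by decide

theorem perm_pow_six (π : Equiv.Perm (Fin 4)) (i : Fin 4) (h : π i = i) : π ^ 6 = 1 := by
  have : ∀ (π : Equiv.Perm (Fin 4)) (i : Fin 4), π i = i →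
      ∀ j, π (π (π (π (π (π j))))) = j := by decide +kernel
  ext j
  simp only [pow_succ, pow_zero, one_mul, Equiv.Perm.mul_apply, this π i h, Equiv.Perm.one_apply]

theorem perm_double : ∀ π : Equiv.Perm (Fin 4),
    (∀ m, ∃ i, π i ≠ i ∧ i ≠ m ∧ π i ≠ m ∧ π (π i) ≠ m ∧ π (π (π i)) ≠ m) →
      ∀ i, π i ≠ i ∧ π (π i) = i ∧ ∃ m, m ≠ i ∧ m ≠ π i ∧ ∀ j, j = i ∨ j = π i ∨ j = m ∨ j = π m := by
  decide

/-- A monomial map of the form `1 + v χ` with `v` not on the frame. -/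
theorem mon_rank_one {χ : V →ₗ[F] F} {v : V} {π : Equiv.Perm (Fin 4)}
    (H : ∀ i, ∃ c : F, b i + χ (b i) • v = c • b (π i)) (hv : ∀ j, ∀ c : F, v ≠ c • b j)
    (hχ : χ ≠ 0) : χ v = -2 ∧ ∃ k l, k ≠ l ∧ b.repr v k = 0 ∧ b.repr v l = 0 := by
  have key : ∀ i, χ (b i) ≠ 0 → π i ≠ i ∧ χ (b i) * b.repr v i = -1 ∧
      ∀ m, m ≠ i → m ≠ π i → b.repr v m = 0 := by
    intro i hi
    obtain ⟨c, hc⟩ := H i
    have h1 : ∀ m, m ≠ i → m ≠ π i → b.repr v m = 0 := fun m h1 h2 => by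
      have := congrArg (fun x => b.repr x m) hc
      simpa [h1, h2, hi] using this
    have h2 : π i ≠ i := fun h => hv i _ (eq_smul_of_repr b fun m hm => h1 m hm (by rwa [h]))
    refine ⟨h2, ?_, h1⟩
    have := congrArg (fun x => b.repr x i) hc
    simp [h2.symm] at this
    linear_combination this
  obtain ⟨i, hi⟩ : ∃ i, χ (b i) ≠ 0 := by
    by_contra h
    push Not at h
    exact hχ (b.ext h)
  obtain ⟨h1, h2, h3⟩ := key i hi
  have hj : χ (b (π i)) ≠ 0 := by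
    intro h
    obtain ⟨c, hc⟩ := H (π i)
    rw [h, zero_smul, add_zero] at hc
    have := congrArg (fun x => b.repr x (π i)) hc
    simp [h1.symm] at this
  obtain ⟨k, l, hkl, a1, a2, a3, a4⟩ := exists_two_other i (π i) h1.symm
  refine ⟨?_, k, l, hkl, h3 k a1 a2, h3 l a3 a4⟩
  have h4 : v = b.repr v i • b i + b.repr v (π i) • b (π i) := b.ext_elem fun m => by
    by_cases hm : m = i
    · simp [hm, h1.symm]
    · by_cases hm' : m = π i
      · simp [hm', h1]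
      · simp [hm, hm', h3 m hm hm']
  rw [h4, map_add, map_smul, map_smul, smul_eq_mul, smul_eq_mul]
  linear_combination h2 + (key _ hj).2.1

/-- The hypotheses on an overgroup of a monomial group in dimension four. -/
structure Mon4 (b : Basis (Fin 4) F V) (M : Subgroup (V ≃ₗ[F] V)) (μ : Submonoid F) (ε : F) :
    Prop where
  two : (2 : F) ≠ 0
  ne0 : ε ≠ 0
  ne4 : ε ^ 4 ≠ 1
  mem : ε ∈ μ
  inv : ε⁻¹ ∈ μ
  diag : ∀ t : Fin 4 → F, (∀ i, t i ∈ μ) → ∏ i, t i = 1 → ∃ g ∈ M, ∀ i, g (b i) = t i • b i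
  swap : ∃ g ∈ M, g ∈ mon F b ∧ ∃ c : F, g (b 0) = c • b 1
  pt : PtMon b M

namespace Mon4

variable {M : Subgroup (V ≃ₗ[F] V)} {μ : Submonoid F} {ε : F} (h : Mon4 b M μ ε)
include h

theorem mon_of_zeros (hε : ε ^ 4 = -1) {g : V ≃ₗ[F] V} (hg : g ∈ M) {i k l : Fin 4} (hkl : k ≠ l)
    (hk : b.repr (g (b i)) k = 0) (hl : b.repr (g (b i)) l = 0) : g ∈ mon F b := by
  let t : Fin 4 → F := fun m => if m = k then ε else if m = l then ε⁻¹ else 1
  obtain ⟨r, hr, Hr⟩ := h.diag t (fun m => by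
      simp only [t]
      split_ifs
      exacts [h.mem, h.inv, μ.one_mem]) (by
    rw [Finset.prod_eq_mul k l hkl (fun c _ hc => by simp [t, hc.1, hc.2]) (by simp) (by simp)]
    simp [t, hkl.symm, h.ne0])
  have hco : ∀ x m, b.repr (r x) m = t m * b.repr x m := repr_map_mon b (π := 1) Hr
  have h1 : (g⁻¹ * r * g) (b i) = (1 : F) • b i := by
    have : r (g (b i)) = g (b i) := b.ext_elem fun m => by
      rw [hco]
      simp only [t]
      split_ifs with h1 h2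
      · rw [h1, hk, mul_zero]
      · rw [h2, hl, mul_zero]
      · rw [one_mul]
    rw [LinearEquiv.mul_apply, LinearEquiv.mul_apply, this, one_smul, PForm.inv_apply_apply]
  obtain ⟨ρ, hρ⟩ := h.pt _ (M.mul_mem (M.mul_mem (M.inv_mem hg) hr) hg) i i 1 h1
  have hρi : ρ i = i := by
    obtain ⟨c, -, hc⟩ := hρ i
    by_contra hne
    rw [h1] at hc
    have := congrArg (fun x => b.repr x i) hc
    simp [Ne.symm hne] at this
  obtain ⟨m, hm⟩ := exists_repr_map_ne b g k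
  obtain ⟨c, hc⟩ := mon_pow b (fun j => (hρ j).imp fun _ h => h.2) 6 m
  rw [perm_pow_six ρ i hρi, Equiv.Perm.one_apply, show g⁻¹ * r * g = g⁻¹ * r * g⁻¹⁻¹ by simp,
    conj_pow, inv_inv, LinearEquiv.mul_apply, LinearEquiv.mul_apply] at hc
  have h2 : (r ^ 6) (g (b m)) = c • g (b m) := by
    rw [← map_smul, ← hc, PForm.apply_inv_apply]
  have h3 : ∀ p, t p ^ 6 * b.repr (g (b m)) p = c * b.repr (g (b m)) p := fun p => by
    have := congrArg (fun x => b.repr x p) h2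
    simp only [pow_succ, pow_zero, one_mul, LinearEquiv.mul_apply, hco, map_smul,
      Finsupp.smul_apply, smul_eq_mul] at this
    rw [← this]
    ring
  have h4 : c = ε ^ 6 := by simpa [t] using (mul_right_cancel₀ hm (h3 k)).symm
  refine h.pt g hg m k _ (eq_smul_of_repr b fun p hp => ?_)
  by_contra hne
  have h5 := mul_right_cancel₀ hne (h3 p)
  have h0 := h.ne0
  simp only [t, if_neg hp, h4] at h5
  split_ifs at h5
  · field_simp at h5
    exact h.two (by linear_combination h5 + (ε ^ 8 - ε ^ 4 + 1) * hε)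
  · exact h.two (by linear_combination (1 + ε ^ 6) * h5 + (ε ^ 8 - ε ^ 4 + 1) * hε)

omit h in
theorem conj_apply {s : V ≃ₗ[F] V}
    (hs : ∀ x, s x = ε • (x + (((ε ^ 4)⁻¹ - 1) * b.repr x 0) • b 0)) (g : V ≃ₗ[F] V) (x : V) :
    (g * s * g⁻¹) x = ε • (x + (((ε ^ 4)⁻¹ - 1) * b.repr (g⁻¹ x) 0) • g (b 0)) := by
  rw [LinearEquiv.mul_apply, LinearEquiv.mul_apply, hs, map_smul, map_add, map_smul,
    PForm.apply_inv_apply]

theorem zeta_ne : (ε ^ 4)⁻¹ - 1 ≠ 0 := by
  rw [sub_ne_zero, Ne, inv_eq_one]; exact h.ne4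

theorem mon_of_conj {s : V ≃ₗ[F] V}
    (hs : ∀ x, s x = ε • (x + (((ε ^ 4)⁻¹ - 1) * b.repr x 0) • b 0)) {g : V ≃ₗ[F] V} (hg : g ∈ M)
    (hm : g * s * g⁻¹ ∈ mon F b) : g ∈ mon F b := by
  by_contra hn
  obtain ⟨π, hπ⟩ := hm
  have h0 := h.ne0
  obtain ⟨h1, k, l, hkl, hk, hl⟩ := mon_rank_one (b := b) (π := π) (v := g (b 0))
    (χ := ((ε ^ 4)⁻¹ - 1) • (b.coord 0 ∘ₗ (g⁻¹ : V ≃ₗ[F] V).toLinearMap)) (fun i => by
      obtain ⟨c, -, hc⟩ := hπ i
      rw [conj_apply hs] at hc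
      refine ⟨ε⁻¹ * c, ?_⟩
      rw [mul_smul, ← hc, smul_smul, inv_mul_cancel₀ h0, one_smul]
      rfl) (fun j c hc => hn (h.pt g hg 0 j c hc)) (fun h1 => by
      have := LinearMap.congr_fun h1 (g (b 0))
      simp [h.zeta_ne] at this)
  have h2 : (ε ^ 4)⁻¹ = -1 := by
    simp at h1
    linear_combination h1
  exact hn (h.mon_of_zeros (by rw [← inv_inv (ε ^ 4), h2]; simp) hg hkl hk hl)

theorem mon_of_quot {s : V ≃ₗ[F] V} (hsM : s ∈ M) (hsm : s ∈ mon F b)
    (hs : ∀ x, s x = ε • (x + (((ε ^ 4)⁻¹ - 1) * b.repr x 0) • b 0)) {g k : V ≃ₗ[F] V}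
    (hg : g ∈ M) (hk : k ∈ M) (hne : g * s * g⁻¹ ≠ k * s * k⁻¹)
    (hm : (k * s * k⁻¹)⁻¹ * (g * s * g⁻¹) ∈ mon F b) : g * s * g⁻¹ ∈ mon F b := by
  by_contra hd
  have he : k * s * k⁻¹ ∉ mon F b := fun he => hd (((mon F b).mul_mem_cancel_left
    ((mon F b).inv_mem he)).1 hm)
  have hgn : g ∉ mon F b := fun h1 => hd (mul_mem (mul_mem h1 hsm) (inv_mem h1))
  have hkn : k ∉ mon F b := fun h1 => he (mul_mem (mul_mem h1 hsm) (inv_mem h1))
  have hdM := M.mul_mem (M.mul_mem hg hsM) (M.inv_mem hg)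
  have heM := M.mul_mem (M.mul_mem hk hsM) (M.inv_mem hk)
  have h0 := h.ne0
  have hz := h.zeta_ne
  have hz' : (ε ^ 4)⁻¹ ≠ 0 := inv_ne_zero (pow_ne_zero _ h0)
  have hD := conj_apply hs g
  have hE := conj_apply hs k
  have hF := fun (hm : (g⁻¹ * k) * s * (g⁻¹ * k)⁻¹ ∈ mon F b) =>
    h.mon_of_conj hs (M.mul_mem (M.inv_mem hg) hk) hm
  rw [show (g⁻¹ * k) * s * (g⁻¹ * k)⁻¹ = g⁻¹ * (k * s * k⁻¹) * g by group] at hF
  generalize g * s * g⁻¹ = d at *
  generalize k * s * k⁻¹ = e at *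
  set φ : V →ₗ[F] F := b.coord 0 ∘ₗ (g⁻¹ : V ≃ₗ[F] V).toLinearMap with hφ
  set ψ : V →ₗ[F] F := b.coord 0 ∘ₗ (k⁻¹ : V ≃ₗ[F] V).toLinearMap with hψ
  change ∀ x, d x = ε • (x + (((ε ^ 4)⁻¹ - 1) * φ x) • g (b 0)) at hD
  change ∀ x, e x = ε • (x + (((ε ^ 4)⁻¹ - 1) * ψ x) • k (b 0)) at hE
  have hφu : φ (g (b 0)) = 1 := by simp [hφ]
  have hψv : ψ (k (b 0)) = 1 := by simp [hψ]
  clear_value φ ψ
  have hε4 : (ε ^ 4)⁻¹ = -1 → ε ^ 4 = -1 := fun h2 => by rw [← inv_inv (ε ^ 4), h2]; simp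
  generalize (ε ^ 4)⁻¹ = ζ at *
  have hφ0 : ∀ i, φ (b i) ≠ 0 := fun i h1 =>
    hd (h.pt d hdM i i ε (by rw [hD, h1, mul_zero, zero_smul, add_zero]))
  have hψ0 : ∀ i, ψ (b i) ≠ 0 := fun i h1 =>
    he (h.pt e heM i i ε (by rw [hE, h1, mul_zero, zero_smul, add_zero]))
  set y := e⁻¹ * d with hy
  have hy1 : ∀ x, y x + ((ζ - 1) * ψ (y x)) • k (b 0) = x + ((ζ - 1) * φ x) • g (b 0) := fun x => by
    apply smul_right_injective V h0
    simp only
    rw [← hE, ← hD, hy, LinearEquiv.mul_apply, PForm.apply_inv_apply]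
  have hy2 : ∀ x, e x = d x → y x = x := fun x hx => by
    rw [hy, LinearEquiv.mul_apply, ← hx, PForm.inv_apply_apply]
  have hy0 : y ≠ 1 := fun h1 => hne (inv_mul_eq_one.1 h1).symm
  obtain ⟨π, hπ⟩ := hm
  choose c hc0 hc using hπ
  set u := g (b 0) with hu
  set v := k (b 0) with hv
  by_cases huv : u ∈ F ∙ v
  · obtain ⟨a, ha⟩ := Submodule.mem_span_singleton.1 huv
    have ha0 : a ≠ 0 := by
      rintro rfl
      rw [← ha, zero_smul, map_zero] at hφu
      exact zero_ne_one hφu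
    let χ : V →ₗ[F] F := ((ζ - 1) * a) • φ - (ζ - 1) • (ψ ∘ₗ y.toLinearMap)
    have h1 : ∀ x, x + χ x • v = y x := fun x => by
      have := hy1 x
      rw [← ha] at this
      simp only [χ, LinearMap.sub_apply, LinearMap.smul_apply, LinearMap.comp_apply,
        LinearEquiv.coe_coe, smul_eq_mul]
      linear_combination (norm := module) -this
    have h2 : y v = v := hy2 v (by
      have : a * φ v = 1 := by rw [← hφu, ← ha, map_smul, smul_eq_mul]
      rw [hD, hE, hψv, ← ha, smul_smul, mul_assoc, mul_comm (φ v), this])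
    have h3 := (mon_rank_one (b := b) (π := π) (v := v) (χ := χ)
      (fun i => ⟨c i, by rw [h1, hc]⟩) (fun j c hc => hkn (h.pt k hk 0 j c hc)) (fun h3 =>
        hy0 (LinearEquiv.ext fun x => by rw [← h1, h3]; simp))).1
    have h4 := h1 v
    rw [h2, h3, add_eq_left, smul_eq_zero, neg_eq_zero, or_iff_right h.two] at h4
    rw [h4, map_zero] at hψv
    exact zero_ne_one hψv
  have hind : ∀ p q : F, p • u = q • v → p = 0 ∧ q = 0 := by
    intro p q hpq
    have hp : p = 0 := by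
      by_contra hp
      exact huv (Submodule.mem_span_singleton.2 ⟨p⁻¹ * q, by
        rw [mul_smul, ← hpq, smul_smul, inv_mul_cancel₀ hp, one_smul]⟩)
    refine ⟨hp, ?_⟩
    have := congrArg ψ hpq
    simpa [hp, hψv] using this.symm
  have hco := repr_map_mon b hc
  have hK : ∀ m, ∃ x, x ≠ 0 ∧ b.repr x m = 0 ∧ ∀ i, b.repr x (π i) = c i * b.repr x i := by
    intro m
    have := Module.Finite.of_basis b
    obtain ⟨x, hx, hx0⟩ := Submodule.exists_mem_ne_zero_of_ne_bot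
      (LinearMap.ker_ne_bot_of_finrank_lt (f := LinearMap.pi ![φ, ψ, b.coord m]) (by
        rw [finrank_eq_card_basis b]; simp))
    have h1 := congrFun (LinearMap.mem_ker.1 hx)
    have h2 : φ x = 0 := h1 0
    have h3 : ψ x = 0 := h1 1
    refine ⟨x, hx0, h1 2, fun i => ?_⟩
    rw [← hco, hy2 x (by rw [hD, hE, h2, h3]; simp)]
  have hfix : ∀ i, π i = i → c i ≠ 1 := fun i h1 h2 => by
    have h3 := hy1 (b i)
    rw [hc, h1, h2, one_smul, add_right_inj] at h3
    exact mul_ne_zero hz (hφ0 i) (hind _ _ h3.symm).1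
  have hdb := perm_double π fun m => by
    obtain ⟨x, hx0, hxm, hx⟩ := hK m
    obtain ⟨i, hi⟩ : ∃ i, b.repr x i ≠ 0 := by
      by_contra h1
      push Not at h1
      exact hx0 (b.ext_elem fun i => by simp [h1])
    have h1 : ∀ j, b.repr x j ≠ 0 → b.repr x (π j) ≠ 0 := fun j hj => by
      rw [hx]; exact mul_ne_zero (hc0 j) hj
    have h2 : ∀ j, b.repr x j ≠ 0 → j ≠ m := fun j hj h2 => hj (h2 ▸ hxm)
    refine ⟨i, fun h3 => hfix i h3 ?_, h2 _ hi, h2 _ (h1 _ hi), h2 _ (h1 _ (h1 _ hi)),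
      h2 _ (h1 _ (h1 _ (h1 _ hi)))⟩
    have h4 := hx i
    rw [h3] at h4
    exact mul_right_cancel₀ hi (by rw [← h4, one_mul])
  have hcc : ∀ i, c i * c (π i) = 1 := by
    intro i
    obtain ⟨-, h2, m, -, -, h3⟩ := hdb i
    obtain ⟨x, hx0, hxm, hx⟩ := hK m
    have h4 := hx (π i)
    rw [h2, hx i] at h4
    have h5 : b.repr x i ≠ 0 := fun h5 => hx0 (b.ext_elem fun j => by
      rcases h3 j with rfl | rfl | rfl | rfl <;> simp [hx, h5, hxm])
    exact mul_right_cancel₀ h5 (by linear_combination -h4)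
  obtain ⟨a1, a2, m, a3, a4, a5⟩ := hdb 0
  obtain ⟨a6, a7, -⟩ := hdb m
  have a8 : π m ≠ 0 := fun h1 => a4 (by rw [← h1, a7])
  have a9 : π m ≠ π 0 := fun h1 => a3 (π.injective h1)
  set w : Fin 4 → V := fun i => c i • b (π i) - b i with hw
  have hyw : ∀ i, y (w i) = -w i := fun i => by
    simp only [hw, map_sub, map_smul, hc, (hdb i).2.1, smul_smul, hcc]
    module
  have hw1 : ∀ i, w i = ((ζ - 1) * φ (b i)) • u - ((ζ - 1) * (c i * ψ (b (π i)))) • v := fun i => by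
    have := hy1 (b i)
    rw [hc, map_smul, smul_eq_mul] at this
    simp only [hw]
    linear_combination (norm := module) this
  have hspan : ∀ x ∈ Submodule.span F {u, v}, ∃ α β : F, x = α • w 0 + β • w m := by
    have hA := mul_ne_zero hz (hφ0 0)
    have hA' := mul_ne_zero hz (hφ0 m)
    have e1 := hw1 0
    have e2 := hw1 m
    generalize (ζ - 1) * φ (b 0) = A at *
    generalize (ζ - 1) * φ (b m) = A' at *
    generalize (ζ - 1) * (c 0 * ψ (b (π 0))) = B at *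
    generalize (ζ - 1) * (c m * ψ (b (π m))) = B' at *
    have hΔ : A' * B - A * B' ≠ 0 := fun h1 => by
      have h2 : A' • w 0 = A • w m := by
        rw [e1, e2]
        linear_combination (norm := module) (-h1) • v
      have := congrArg (fun x => b.repr x 0) h2
      simp [hw, a1.symm, a3.symm, a8.symm, hA'] at this
    intro x hx
    obtain ⟨p, q, rfl⟩ := Submodule.mem_span_pair.1 hx
    refine ⟨(-(p * B') - q * A') / (A' * B - A * B'), (p * B + q * A) / (A' * B - A * B'), ?_⟩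
    rw [e1, e2]
    apply smul_right_injective V hΔ
    simp only [smul_add (A' * B - A * B'), smul_smul, mul_div_cancel₀ _ hΔ]
    module
  have huS : u ∈ Submodule.span F {u, v} := Submodule.subset_span (by simp)
  have hvS : v ∈ Submodule.span F {u, v} := Submodule.subset_span (by simp)
  obtain ⟨α, β, hαβ⟩ := hspan u huS
  have hyu : y u = -u := by rw [hαβ, map_add, map_smul, map_smul, hyw, hyw]; module
  have h1 := hy1 u
  rw [hyu, hφu, map_neg] at h1
  obtain ⟨h2, h3⟩ := hind (ζ + 1) (-((ζ - 1) * ψ u)) (by linear_combination (norm := module) -h1)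
  have hψu : ψ u = 0 := by simpa [hz] using h3
  have hε := hε4 (by linear_combination h2)
  obtain ⟨ρ, hρ⟩ := hF (h.pt _ (M.mul_mem (M.mul_mem (M.inv_mem hg) heM) hg) 0 0 ε (by
    rw [LinearEquiv.mul_apply, LinearEquiv.mul_apply, ← hu, hE, hψu, mul_zero, zero_smul, add_zero,
      map_smul, hu, PForm.inv_apply_apply]))
  obtain ⟨γ, -, hγ⟩ := hρ 0
  have hγ' : v = γ • g (b (ρ 0)) := by
    rw [← map_smul, ← hγ, LinearEquiv.mul_apply, PForm.apply_inv_apply]
  have hρ0 : ρ 0 ≠ 0 := fun h4 => by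
    rw [h4, ← hu] at hγ'
    exact one_ne_zero (hind γ 1 (by rw [← hγ', one_smul])).2
  have hα : α ≠ 0 := fun h4 => hgn (h.mon_of_zeros hε hg (i := 0) a1.symm
    (by rw [← hu, hαβ]; simp [h4, hw, a3.symm, a8.symm])
    (by rw [← hu, hαβ]; simp [h4, hw, a4.symm, a9.symm]))
  have hβ : β ≠ 0 := fun h4 => hgn (h.mon_of_zeros hε hg (i := 0) a6.symm
    (by rw [← hu, hαβ]; simp [h4, hw, a3, a4])
    (by rw [← hu, hαβ]; simp [h4, hw, a8, a9]))
  have key : ∀ a : F, a ≠ 0 → a ∈ μ → a⁻¹ ∈ μ → (∃ l : F, (a * α) • w 0 + (a⁻¹ * β) • w m = l • u) ∨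
      ∃ l : F, (a * α) • w 0 + (a⁻¹ * β) • w m = l • g (b (ρ 0)) := by
    intro a ha0 ha ha'
    let t : Fin 4 → F := fun j => if j = 0 ∨ j = π 0 then a else a⁻¹
    obtain ⟨r, hr, Hr⟩ := h.diag t (fun j => by
        simp only [t]
        split_ifs
        exacts [ha, ha']) (by
      have h4 : (Finset.univ : Finset (Fin 4)) = {0, π 0, m, π m} := by
        ext j
        simpa using a5 j
      rw [h4, Finset.prod_insert (by simp [a1.symm, a3.symm, a8.symm]),
        Finset.prod_insert (by simp [a4.symm, a9.symm]), Finset.prod_pair a6.symm]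
      simp [t, a3, a4, a8, a9, ha0])
    have h4 : r u = (a * α) • w 0 + (a⁻¹ * β) • w m := by
      rw [hαβ]
      simp only [hw, map_add, map_smul, map_sub, Hr, t, a3, a4, a8, a9, true_or, or_true, if_true,
        or_self, if_false]
      module
    obtain ⟨p, q, hpq⟩ : ∃ p q : F, (g⁻¹ * r * g) (b 0) = p • b 0 + q • b (ρ 0) := by
      have h5 : r u ∈ Submodule.span F {u, v} := by
        rw [h4, hw1, hw1]
        exact add_mem (Submodule.smul_mem _ _ (sub_mem (Submodule.smul_mem _ _ huS)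
          (Submodule.smul_mem _ _ hvS))) (Submodule.smul_mem _ _ (sub_mem
          (Submodule.smul_mem _ _ huS) (Submodule.smul_mem _ _ hvS)))
      obtain ⟨p, q, hpq⟩ := Submodule.mem_span_pair.1 h5
      refine ⟨p, q * γ, g.injective ?_⟩
      rw [LinearEquiv.mul_apply, LinearEquiv.mul_apply, PForm.apply_inv_apply, ← hu, ← hpq, hγ',
        map_add, map_smul, map_smul, smul_smul]
    obtain ⟨k', l', hkl, b1, b2, b3, b4⟩ := exists_two_other 0 (ρ 0) hρ0.symm
    obtain ⟨τ, hτ⟩ := h.mon_of_zeros hε (M.mul_mem (M.mul_mem (M.inv_mem hg) hr) hg) (i := 0) hkl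
      (by rw [hpq]; simp [b1, b2]) (by rw [hpq]; simp [b3, b4])
    obtain ⟨l, hl0, hl⟩ := hτ 0
    have h5 : r u = l • g (b (τ 0)) := by
      rw [← map_smul, ← hl, LinearEquiv.mul_apply, LinearEquiv.mul_apply, PForm.apply_inv_apply]
    by_cases h6 : τ 0 = 0
    · exact Or.inl ⟨l, by rw [← h4, h5, h6]⟩
    by_cases h7 : τ 0 = ρ 0
    · exact Or.inr ⟨l, by rw [← h4, h5, h7]⟩
    have := congrArg (fun x => b.repr x (τ 0)) (hl.symm.trans hpq)
    simp [h6, h7, hl0] at this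
  have hco2 : ∀ p q p' q' : F, p • w 0 + q • w m = p' • w 0 + q' • w m → p = p' ∧ q = q' := by
    intro p q p' q' h4
    have e1 := congrArg (fun x => b.repr x 0) h4
    have e2 := congrArg (fun x => b.repr x m) h4
    simp [hw, a1.symm, a3, a3.symm, a4, a8.symm, a6.symm] at e1 e2
    exact ⟨e1, e2⟩
  have hnot : ∀ a : F, a ≠ 0 → a * a ≠ 1 → ∀ p q l : F, p ≠ 0 → q ≠ 0 →
      (a * p) • w 0 + (a⁻¹ * q) • w m ≠ l • (p • w 0 + q • w m) := by
    intro a ha ha2 p q l hp hq h4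
    rw [smul_add, smul_smul, smul_smul] at h4
    obtain ⟨e1, e2⟩ := hco2 _ _ _ _ h4
    rw [← mul_right_cancel₀ hp e1] at e2
    exact ha2 (by rw [← mul_right_cancel₀ hq e2] ; nth_rewrite 1 [mul_right_cancel₀ hq e2]
                  exact mul_inv_cancel₀ ha)
  have hε2 : ε * ε ≠ 1 := fun h4 => h.ne4 (by linear_combination (ε * ε + 1) * h4)
  have hε3 : ε * ε * (ε * ε) ≠ 1 := fun h4 => h.ne4 (by linear_combination h4)
  rcases key ε h0 h.mem h.inv with ⟨l, hl⟩ | ⟨l, hl⟩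
  · exact hnot ε h0 hε2 α β l hα hβ (by rw [hl, ← hαβ])
  rcases key (ε * ε) (mul_ne_zero h0 h0) (mul_mem h.mem h.mem)
    (by rw [mul_inv]; exact mul_mem h.inv h.inv) with ⟨l', hl'⟩ | ⟨l', hl'⟩
  · exact hnot _ (mul_ne_zero h0 h0) hε3 α β l' hα hβ (by rw [hl', ← hαβ])
  have hl0 : l ≠ 0 := by
    rintro rfl
    exact mul_ne_zero h0 hα (hco2 _ _ 0 0 (by rw [hl]; simp)).1
  refine hnot ε h0 hε2 (ε * α) (ε⁻¹ * β) (l' / l) (mul_ne_zero h0 hα)
    (mul_ne_zero (inv_ne_zero h0) hβ) ?_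
  rw [hl, smul_smul, div_mul_cancel₀ _ hl0, ← hl', mul_inv, mul_assoc, mul_assoc]

theorem le_mon [Finite M] : M ≤ mon F b := by
  have h0 := h.ne0
  obtain ⟨s, hsM, Hs⟩ := h.diag (fun i => if i = 0 then (ε ^ 3)⁻¹ else ε) (fun i => by
      split_ifs
      · rw [← inv_pow]; exact pow_mem h.inv 3
      · exact h.mem) (by
    simp [Fin.prod_univ_four]
    field_simp)
  have hsm : s ∈ mon F b := ⟨1, fun i => ⟨_, by split_ifs <;> simp [h0], Hs i⟩⟩
  have hs : ∀ x, s x = ε • (x + (((ε ^ 4)⁻¹ - 1) * b.repr x 0) • b 0) := fun x =>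
    b.ext_elem fun i => by
      have := repr_map_mon b (π := 1) Hs x i
      rw [Equiv.Perm.one_apply] at this
      rw [this]
      by_cases hi : i = 0
      · simp [hi]
        field_simp
        ring
      · simp [hi]
  refine (le_of_counting (mon F b ⊓ M) M inf_le_right s ⟨hsm, hsM⟩
    (fun g hg hm => ⟨h.mon_of_conj hs hg hm.1, hg⟩)
    (fun g hg k hk hne hm => ⟨h.mon_of_quot hsM hsm hs hg hk hne hm.1,
      M.mul_mem (M.mul_mem hg hsM) (M.inv_mem hg)⟩) ?_).trans inf_le_left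
  obtain ⟨g, hg, hgm, c, hc⟩ := h.swap
  refine ⟨g, ⟨hgm, hg⟩, fun h1 => h.ne4 ?_⟩
  have h2 := congrArg (fun k : V ≃ₗ[F] V => b.repr (k (b 0)) 1) h1
  have hc0 : c ≠ 0 := by
    rintro rfl
    exact b.ne_zero 0 (by simpa using hc)
  simp [Hs, hc] at h2
  field_simp at h2
  linear_combination -h2

end Mon4

end Cfsg.Agent.H30
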