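import Cfsg.Agent.H32.MonomialSL
import Cfsg.Agent.H30.L4Mon

/-!
The monomial subgroup of `SL_4(q)` is maximal for `q ≥ 7`.
-/

set_option autoImplicit false

namespace Cfsg.Agent.H30

open Matrix Cfsg.Geo H26 H32

section Card

open Module

variable {F : Type*} [Field F] {V : Type*} [AddCommGroup V] [Module F V]

theorem mon_comp_equiv {ι κ : Type*} (b : ι → V) (e : κ ≃ ι) : mon F (b ∘ e) = mon F b := by
  ext g
  constructor
  · rintro ⟨π, hπ⟩
    refine ⟨e.permCongr π, fun i => ?_⟩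
    simpa using hπ (e.symm i)
  · rintro ⟨π, hπ⟩
    refine ⟨e.symm.permCongr π, fun i => ?_⟩
    simpa using hπ (e i)

/-- Overgroups of monomial groups in dimension four with monomial point stabilisers. -/
theorem le_mon_card_four {ι : Type*} [Fintype ι] [DecidableEq ι] (h4 : Fintype.card ι = 4)
    (b : Basis ι F V) {M : Subgroup (V ≃ₗ[F] V)} [Finite M] (μ : Submonoid F) {ε : F}
    (h2 : (2 : F) ≠ 0) (h0 : ε ≠ 0) (hε : ε ^ 4 ≠ 1) (hμ : ε ∈ μ) (hμ' : ε⁻¹ ∈ μ)
    (diag : ∀ t : ι → F, (∀ i, t i ∈ μ) → ∏ i, t i = 1 → ∃ g ∈ M, ∀ i, g (b i) = t i • b i)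
    (perm : ∀ π : Equiv.Perm ι, ∃ g ∈ M, g ∈ mon F b ∧ ∀ i, ∃ c : F, g (b i) = c • b (π i))
    (pt : PtMon b M) : M ≤ mon F b := by
  let e : ι ≃ Fin 4 := Fintype.equivFinOfCardEq h4
  have h1 : mon F (b.reindex e) = mon F b := by
    rw [Basis.coe_reindex, mon_comp_equiv]
  rw [← h1]
  refine Mon4.le_mon (μ := μ) ⟨h2, h0, hε, hμ, hμ', fun t ht ht' => ?_, ?_, ?_⟩
  · obtain ⟨g, hg, H⟩ := diag (t ∘ e) (fun i => ht _) (by rw [← ht']; exact e.prod_comp t)
    exact ⟨g, hg, fun i => by simp [H]⟩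
  · obtain ⟨g, hg, hgm, H⟩ := perm (Equiv.swap (e.symm 0) (e.symm 1))
    exact ⟨g, hg, h1 ▸ hgm, by simpa using H (e.symm 0)⟩
  · intro g hg i j c hc
    rw [h1]
    exact pt g hg (e.symm i) (e.symm j) c (by simpa using hc)

end Card

variable {ι : Type} [Fintype ι] [DecidableEq ι] {F : Type*} [Field F]

section Three

variable [Fintype F] {M : Subgroup (GL ι F)}

theorem sl_le_of_centre_single3 (hM : monGL ι F ≤ M) (hι : 3 ≤ Fintype.card ι)
    (hq : 3 ≤ Fintype.card F) {i : ι} {b : F} (hb : b ≠ 0) {ψ : ι → F} (hψ : ψ ≠ 0)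
    (h : Tv M (Pi.single i b) ψ) : specialLinear ι F ≤ M := by
  obtain ⟨j, hj⟩ : ∃ j, ψ j ≠ 0 := by
    by_contra h
    push Not at h
    exact hψ (funext h)
  have hψi : ψ i = 0 := by
    have := h.1
    simpa [hb] using this
  have hij : i ≠ j := by
    rintro rfl
    exact hj hψi
  obtain ⟨θ, hθ0, hθ1⟩ := exists_ne_ne hq (0 : F) 1
  have hd : ∀ l, (if l = j then θ else 1) ≠ 0 := fun l => by split_ifs <;> simp [hθ0]
  have h1 := tv_conj_diagonal hd ((hasMat_diagonal_monGL hd).mono hM) h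
  have h2 : (fun l => (if l = j then θ else 1) * (Pi.single i b : ι → F) l) = Pi.single i b := by
    ext l
    by_cases hl : l = i
    · subst hl
      simp [hij]
    · simp [hl]
  rw [h2] at h1
  have h3 := h1.sub_right h
  have h4 : (fun l => ψ l * (if l = j then θ else 1)⁻¹) - ψ = Pi.single j (ψ j * (θ⁻¹ - 1)) := by
    ext l
    by_cases hl : l = j
    · subst hl
      simp [mul_sub]
    · simp [hl]
  rw [h4] at h3
  refine specialLinear_le_of_elementary_one (inf_le_left.trans hM) hι hij hb ?_ h3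
  refine mul_ne_zero hj (sub_ne_zero.2 ?_)
  simpa using hθ1

theorem sl_le_of_root_group3 (hM : monGL ι F ≤ M) (hι : 3 ≤ Fintype.card ι)
    (hq : 3 ≤ Fintype.card F) {v φ : ι → F} (hv : v ≠ 0) (hφ : φ ≠ 0)
    (h : ∀ c : F, Tv M (c • v) φ) : specialLinear ι F ≤ M := by
  obtain ⟨i, hi⟩ : ∃ i, v i ≠ 0 := by
    by_contra h
    push Not at h
    exact hv (funext h)
  obtain ⟨θ, hθ0, hθ1⟩ := exists_ne_ne hq (0 : F) 1
  have h1 : Tv M v φ := by simpa using h 1
  have h2 := h1.conj' (((hml_single i).mono hM).2 θ hθ0) (homology_mul_inv (by simp) hθ0)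
  rw [H26.tv_mulVec, vecMul_tv] at h2
  have hb : v i * (θ - 1) ≠ 0 := mul_ne_zero hi (sub_ne_zero.2 hθ1)
  by_cases hφi : φ i = 0
  · have h3 := h2
    rw [dotProduct_smul, dotProduct_single, hφi] at h3
    simp only [zero_mul, smul_zero, zero_smul, add_zero] at h3
    have h4 := h3.sub_left h1
    rw [add_sub_cancel_left, single_dotProduct, one_mul, smul_smul, ← Pi.single_smul, smul_eq_mul,
      mul_one] at h4
    exact sl_le_of_centre_single3 hM hι hq hb hφ h4
  · set φ' := φ + (φ ⬝ᵥ (θ⁻¹ - 1) • (Pi.single i 1 : ι → F)) • (Pi.single i 1 : ι → F) with hφ'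
    have h3 := h2.conj_tv (h (-(φ i * (v i * (θ - 1)))⁻¹))
    have h4 : v + ((Pi.single i 1 : ι → F) ⬝ᵥ v) • (θ - 1) • (Pi.single i 1 : ι → F) +
        (φ ⬝ᵥ (v + ((Pi.single i 1 : ι → F) ⬝ᵥ v) • (θ - 1) • (Pi.single i 1 : ι → F))) •
          -(φ i * (v i * (θ - 1)))⁻¹ • v = Pi.single i (v i * (θ - 1)) := by
      rw [dotProduct_add, h1.1, single_dotProduct, one_mul, smul_smul, ← Pi.single_smul,
        smul_eq_mul, mul_one, dotProduct_single, zero_add, smul_smul, mul_neg,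
        mul_inv_cancel₀ (mul_ne_zero hφi hb)]
      simp
    rw [h4] at h3
    refine sl_le_of_centre_single3 hM hι hq hb ?_ h3
    intro h5
    have h6 : φ' = (φ' ⬝ᵥ -(φ i * (v i * (θ - 1)))⁻¹ • v) • φ := sub_eq_zero.1 h5
    have h7 : φ' ⬝ᵥ v = 0 := by
      rw [h6, smul_dotProduct, h1.1, smul_zero]
    rw [hφ', add_dotProduct, h1.1, smul_dotProduct, dotProduct_smul, dotProduct_single,
      single_dotProduct] at h7
    simp only [mul_one, smul_eq_mul, one_mul, zero_add, mul_eq_zero, hφi, hi, or_false,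
      sub_eq_zero, inv_eq_one] at h7
    exact hθ1 h7

theorem sl_le_of_hml_three3 (hM : monGL ι F ≤ M) (hι : 3 ≤ Fintype.card ι)
    (hq : 5 ≤ Fintype.card F) {u φ : ι → F} (h : Hml M u φ) {i j k : ι} (hij : i ≠ j)
    (hik : i ≠ k) (hjk : j ≠ k) (hi : φ i * u i ≠ 0) (hj : φ j * u j ≠ 0) (hk : φ k * u k ≠ 0) :
    specialLinear ι F ≤ M := by
  set li := φ i * u i with hli
  set lj := φ j * u j with hlj
  set lk := φ k * u k with hlk
  obtain ⟨c, hc0, hc1⟩ := exists_ne_ne (le_trans (by omega) hq) (0 : F) (1 - (1 - li - lj) / lk)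
  set ρ := 1 - li - lj + (c - 1) * lk with hρ
  set ρ' := 1 - li - lj + (c⁻¹ - 1) * lk with hρ'
  have hρ0 : ρ ≠ 0 := by
    intro h0
    apply hc1
    field_simp
    linear_combination h0
  obtain ⟨a, ha0, ha1, ha2⟩ := exists_nonroot hq (a := ρ' * li) (b := li ^ 2 - lj ^ 2 + ρ' * ρ)
    (mul_ne_zero hi hρ0) 0 (-ρ / li)
  have ha3 : a * li + ρ ≠ 0 := by
    intro h0
    apply ha1
    field_simp
    linear_combination h0
  set b := -(a * li + ρ) / lj with hb
  have hb0 : b ≠ 0 := div_ne_zero (neg_ne_zero.2 ha3) hj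
  let d : ι → F := fun l => if l = i then a else if l = j then b else if l = k then c else 1
  have hd : ∀ l, d l ≠ 0 := by
    intro l
    simp only [d]
    split_ifs
    exacts [ha0, hb0, hc0, one_ne_zero]
  have h1 := h.conj_diagonal hd ((hasMat_diagonal_monGL hd).mono hM)
  have hs : ∑ l, φ l * u l = 1 := h.1
  have h2 : φ ⬝ᵥ (fun l => d l * u l) = 0 := by
    have : φ ⬝ᵥ (fun l => d l * u l) = ∑ l, d l * (φ l * u l) :=
      Finset.sum_congr rfl fun l _ => by ring
    rw [this]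
    simp only [d]
    rw [sum_mul_three hij hik hjk, hs, ← hli, ← hlj, ← hlk, hb]
    field_simp
    rw [hρ]
    ring
  have h3 : (fun l => φ l * (d l)⁻¹) ⬝ᵥ u ≠ 0 := by
    have : (fun l => φ l * (d l)⁻¹) ⬝ᵥ u =
        ∑ l, (if l = i then a⁻¹ else if l = j then b⁻¹ else if l = k then c⁻¹ else 1) *
          (φ l * u l) :=
      Finset.sum_congr rfl fun l _ => by
        simp only [d]
        split_ifs <;> ring
    rw [this, sum_mul_three hij hik hjk, hs, ← hli, ← hlj, ← hlk]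
    intro h0
    apply ha2
    have h4 : a⁻¹ * li + b⁻¹ * lj + ρ' = 0 := by
      rw [hρ']
      linear_combination h0
    rw [hb] at h4
    field_simp at h4
    linear_combination h4
  refine sl_le_of_root_group3 hM hι (le_trans (by omega) hq) ?_ ?_
    (h.tv (le_trans (by omega) hq) h1 h2 h3)
  · intro h0
    have := congrFun h0 i
    exact mul_ne_zero (hd i) (right_ne_zero_of_mul hi) this
  · intro h0
    have := h.1
    rw [h0] at this
    simp at this

/-- An overgroup of the full monomial group which is not monomial contains `SL`. -/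
theorem sl_le_of_monGL_le3 (hM : monGL ι F ≤ M) (hι : 3 ≤ Fintype.card ι)
    (hq : 5 ≤ Fintype.card F) {g : GL ι F} (hgM : g ∈ M) (hg : g ∉ monGL ι F) :
    specialLinear ι F ≤ M := by
  have h1 := mt mem_monGL_of_forall hg
  push Not at h1
  obtain ⟨i₀, hi₀⟩ := h1
  have h := ((hml_single i₀).mono hM).conj' (HasMat.of_mem hgM) g.mul_inv
  set u := (g : Matrix ι ι F) *ᵥ Pi.single i₀ 1 with hu
  set φ := Pi.single i₀ 1 ᵥ* ((g⁻¹ : GL ι F) : Matrix ι ι F) with hφ
  have hq4 : 4 ≤ Fintype.card F := le_trans (by omega) hq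
  have hq3 : 3 ≤ Fintype.card F := le_trans (by omega) hq
  have hφ0 : φ ≠ 0 := by
    intro h0
    have := h.1
    rw [h0] at this
    simp at this
  have hu0 : u ≠ 0 := by
    intro h0
    have := h.1
    rw [h0] at this
    simp at this
  by_cases hA : ∃ i, u i ≠ 0 ∧ φ i = 0
  · obtain ⟨i, hi1, hi2⟩ := hA
    exact sl_le_of_root_group3 hM hι hq3 (v := Pi.single i 1) (by simp) hφ0
      (h.tv hq4 ((hml_single i).mono hM) (by simpa using hi2) (by simpa using hi1))
  by_cases hB : ∃ i, u i = 0 ∧ φ i ≠ 0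
  · obtain ⟨i, hi1, hi2⟩ := hB
    exact sl_le_of_root_group3 hM hι hq3 (φ := Pi.single i 1) hu0 (by simp)
      (((hml_single i).mono hM).tv hq4 h (by simpa using hi1) (by simpa using hi2))
  push Not at hA hB
  obtain ⟨i, hi⟩ : ∃ i, u i ≠ 0 := by
    by_contra h
    push Not at h
    exact hu0 (funext h)
  obtain ⟨j, hji, hj⟩ : ∃ j, j ≠ i ∧ u j ≠ 0 := by
    by_contra h
    push Not at h
    exact hi₀ i (u i) (eq_single_of_forall h)
  by_cases hC : ∃ k, k ≠ i ∧ k ≠ j ∧ u k ≠ 0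
  · obtain ⟨k, hki, hkj, hk⟩ := hC
    exact sl_le_of_hml_three3 hM hι hq h hji.symm hki.symm hkj.symm
      (mul_ne_zero (hA i hi) hi) (mul_ne_zero (hA j hj) hj) (mul_ne_zero (hA k hk) hk)
  push Not at hC
  obtain ⟨k, hki, hkj⟩ := exists_ne_ne (le_trans (by omega) hι) i j
  have h2 := h.conj' ((hasMat_perm_monGL (Equiv.swap j k)).mono hM) (permMatrix_mul_inv _)
  rw [permMatrix_mulVec, vecMul_permMatrix] at h2
  simp only [Equiv.swap_inv, Equiv.symm_swap] at h2
  set l := φ i * u i with hl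
  have hl0 : l ≠ 0 := mul_ne_zero (hA i hi) hi
  have huk : u k = 0 := hC k hki hkj
  have hφk : φ k = 0 := hB k huk
  have hsw : Equiv.swap j k i = i := Equiv.swap_apply_of_ne_of_ne hji.symm hki.symm
  have h3 : (φ ∘ Equiv.swap j k) ⬝ᵥ u = l := by
    rw [dotProduct, Finset.sum_eq_single i]
    · simp [hsw, hl]
    · intro m _ hm
      by_cases hmj : m = j
      · subst hmj; simp [hφk]
      · simp [hC m hm hmj]
    · simp
  have h4 : φ ⬝ᵥ (u ∘ Equiv.swap j k) = l := by
    rw [dotProduct, Finset.sum_eq_single i]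
    · simp [hsw, hl]
    · intro m _ hm
      by_cases hmj : m = j
      · subst hmj; simp [huk]
      · simp [hB m (hC m hm hmj)]
    · simp
  obtain ⟨ε, hε0, hε1, hε2, hε3⟩ := exists_ne_four hq (0 : F) 1 (1 - l⁻¹) (1 - l⁻¹)⁻¹
  have h5 := h.conj_hml h2 hε0
  rw [h3, h4] at h5
  have hε4 : 1 + (ε - 1) * l ≠ 0 := by
    intro h0
    apply hε2
    field_simp
    linear_combination h0
  have hε5 : 1 + (ε⁻¹ - 1) * l ≠ 0 := by
    intro h0
    apply hε3
    rw [eq_comm, inv_eq_iff_eq_inv]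
    have : l⁻¹ * (1 + (ε⁻¹ - 1) * l) = 0 := by rw [h0, mul_zero]
    rw [mul_add, mul_comm _ l, ← mul_assoc, inv_mul_cancel₀ hl0] at this
    linear_combination -this
  refine sl_le_of_hml_three3 hM hι hq h5 hji.symm hki.symm hkj.symm ?_ ?_ ?_
  · simp only [Pi.add_apply, Pi.smul_apply, Function.comp_apply, hsw, smul_eq_mul]
    have : (φ i + (ε⁻¹ - 1) * l * φ i) * (u i + (ε - 1) * l * u i) =
        l * (1 + (ε - 1) * l) * (1 + (ε⁻¹ - 1) * l) := by rw [hl]; ring
    rw [this]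
    exact mul_ne_zero (mul_ne_zero hl0 hε4) hε5
  · simp only [Pi.add_apply, Pi.smul_apply, Function.comp_apply, Equiv.swap_apply_left, huk, hφk,
      smul_eq_mul, mul_zero, add_zero]
    exact mul_ne_zero (hA j hj) hj
  · simp only [Pi.add_apply, Pi.smul_apply, Function.comp_apply, Equiv.swap_apply_right, huk, hφk,
      smul_eq_mul, zero_add]
    refine mul_ne_zero (mul_ne_zero (mul_ne_zero ?_ hl0) (hA j hj))
      (mul_ne_zero (mul_ne_zero (sub_ne_zero.2 hε1) hl0) hj)
    rw [sub_ne_zero]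
    simpa using hε1

theorem sl_le_of_fix4 (hM : monSL ι F ≤ M) (hM' : M ≤ specialLinear ι F)
    (hι : 4 ≤ Fintype.card ι) (hq : 5 ≤ Fintype.card F) {y : GL ι F} (hyM : y ∈ M)
    (hy : y ∉ monGL ι F) {i₀ : ι} (hfix : FixPt i₀ (y : Matrix ι ι F)) :
    specialLinear ι F ≤ M := by
  have hι4 : 4 ≤ Fintype.card ι := by omega
  have hq3 : 3 ≤ Fintype.card F := by omega
  by_cases h1 : submGL y hfix ∈ monGL {k // k ≠ i₀} F
  · obtain ⟨h, hh, hh1, hh2⟩ := monGL_le_quotGroup i₀ h1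
    have hx : y * h⁻¹ ∈ M := mul_mem hyM (inv_mem (hM hh))
    obtain ⟨ψ, hψ, hψ'⟩ := exists_eq_tv_of_subm_eq_one (i₀ := i₀)
      (A := ((y * h⁻¹ : GL ι F) : Matrix ι ι F)) (hfix.mul hh1.inv) (by
        rw [Units.val_mul, subm_mul hfix]
        change subm i₀ (y : Matrix ι ι F) = _ at hh2
        rw [hh2, ← subm_mul hh1, Units.mul_inv, subm_one])
      ((H26.mem_specialLinear_iff _).1 (hM' hx))
    refine specialLinear_le_of_centre_single hM hι4 hq3 (i := i₀) one_ne_zero (ψ := ψ) ?_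
      ⟨by simpa using hψ, _, hx, hψ'⟩
    rintro rfl
    apply hy
    have : y * h⁻¹ = 1 := Units.ext (by simpa using hψ')
    rw [mul_inv_eq_one.1 this]
    exact hh.1
  · have hcard : 3 ≤ Fintype.card {k // k ≠ i₀} := by
      rw [Fintype.card_subtype_compl, Fintype.card_subtype_eq]
      omega
    have h2 := sl_le_of_monGL_le3 (M := quotGroup i₀ M)
      (le_trans (monGL_le_quotGroup i₀) (by
        rintro x ⟨g, hg, hg'⟩
        exact ⟨g, hM hg, hg'⟩)) hcard hq (g := submGL y hfix) ⟨y, hyM, hfix, rfl⟩ h1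
    obtain ⟨a, hai, -⟩ := exists_ne_ne (le_trans (by omega) hι) i₀ i₀
    obtain ⟨b, hbi, hba⟩ := exists_ne_ne (le_trans (by omega) hι) i₀ a
    have h3 : (Pi.single ⟨b, hbi⟩ 1 : {k // k ≠ i₀} → F) ⬝ᵥ Pi.single ⟨a, hai⟩ 1 = 0 := by
      simp [hba]
    have h4 : (Pi.single b 1 : ι → F) ⬝ᵥ Pi.single a 1 = 0 := by
      simp [hba]
    obtain ⟨z, hz, hz1, hz2⟩ := h2 (tvGL_mem_specialLinear _ _ h3)
    set τ := tvGL _ _ h4 with hτ
    have hτ1 : FixPt i₀ (τ : Matrix ι ι F) := by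
      rw [fixPt_iff]
      exact ⟨1, by rw [hτ, tvGL_coe, H26.tv_mulVec]; simp [hbi]⟩
    have hτ2 : subm i₀ (τ : Matrix ι ι F) = subm i₀ (z : Matrix ι ι F) := by
      rw [← hz2, hτ, tvGL_coe, tvGL_coe]
      ext p q
      simp [subm, vecMulVec_apply, Pi.single_apply, one_apply, Subtype.ext_iff]
    obtain ⟨ψ, hψ, hψ'⟩ := exists_eq_tv_of_subm_eq_one (i₀ := i₀)
      (A := ((z * τ⁻¹ : GL ι F) : Matrix ι ι F)) (hz1.mul hτ1.inv) (by
        rw [Units.val_mul, subm_mul hz1, ← hτ2, ← subm_mul hτ1, Units.mul_inv, subm_one])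
      ((H26.mem_specialLinear_iff _).1 (mul_mem (hM' hz) (inv_mem (tvGL_mem_specialLinear _ _ h4))))
    by_cases hψ0 : ψ = 0
    · have : z * τ⁻¹ = 1 := Units.ext (by simpa [hψ0] using hψ')
      rw [mul_inv_eq_one.1 this] at hz
      exact specialLinear_le_of_elementary_one hM (by omega) hba.symm one_ne_zero one_ne_zero
        (Tv.of_mem h4 hz)
    · obtain ⟨j, hj⟩ : ∃ j, ψ j ≠ 0 := by
        by_contra h
        push Not at h
        exact hψ0 (funext h)
      have hji : j ≠ i₀ := by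
        rintro rfl
        exact hj hψ
      obtain ⟨m, hmi, hma, hmb⟩ := exists_ne_ne_ne hι i₀ a b
      obtain ⟨θ, hθ0, hθ1, hθ2⟩ := exists_ne_ne_ne (show 4 ≤ _ by omega) (0 : F) 1 (-1)
      obtain ⟨t, ht, ht'⟩ := hasMat_sdiag hmi.symm hθ0
      have hti : ((t⁻¹ : GL ι F) : Matrix ι ι F) = diagonal fun k => (sdiag i₀ m θ k)⁻¹ := by
        rw [← mul_one ((t⁻¹ : GL ι F) : Matrix ι ι F),
          ← diagonal_mul_inv (sdiag_ne_zero i₀ m hθ0), ← ht', ← mul_assoc, Units.inv_mul, one_mul]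
      have h5 : t * τ * t⁻¹ = τ := by
        apply Units.ext
        rw [Units.val_mul, Units.val_mul, hτ, tvGL_coe, H26.conj_tv _ _ t.mul_inv, ht', hti,
          diagonal_mulVec_single]
        congr 2
        · simp [sdiag, hai, hma.symm]
        · ext k
          rw [vecMul_diagonal]
          by_cases hk : k = b
          · subst hk; simp [sdiag, hbi, hmb.symm]
          · simp [hk]
      have h6 : t * z * t⁻¹ * z⁻¹ = t * (z * τ⁻¹) * t⁻¹ * (z * τ⁻¹)⁻¹ := by
        have : t * z * t⁻¹ = t * (z * τ⁻¹) * t⁻¹ * τ := by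
          have h7 : t * z * t⁻¹ = t * (z * τ⁻¹) * t⁻¹ * (t * τ * t⁻¹) := by group
          rwa [h5] at h7
        rw [this]
        group
      have h7 : HasMat M ((1 + vecMulVec (Pi.single i₀ 1) fun k => θ * ψ k * (sdiag i₀ m θ k)⁻¹) *
          (1 + vecMulVec (-Pi.single i₀ 1) ψ)) := by
        refine ⟨_, mul_mem (mul_mem (mul_mem (hM ht) hz) (inv_mem (hM ht))) (inv_mem hz), ?_⟩
        rw [h6, Units.val_mul, Units.val_mul, Units.val_mul]
        congr 1
        · rw [hψ', H26.conj_tv _ _ t.mul_inv, ht', hti, diagonal_mulVec_single]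
          congr 1
          ext p q
          simp only [vecMulVec_apply, vecMul_diagonal, sdiag, if_true, Pi.single_apply]
          split_ifs <;> ring
        · apply Units.inv_eq_of_mul_eq_one_right
          rw [hψ']
          exact tv_mul_neg (by simpa using hψ)
      rw [tv_mul_tv, dotProduct_neg, dotProduct_single, hψ, neg_vecMulVec] at h7
      simp only [mul_zero, zero_mul, neg_zero, zero_smul, add_zero] at h7
      rw [add_assoc, ← sub_eq_add_neg, ← vecMulVec_sub] at h7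
      refine specialLinear_le_of_centre_single hM hι4 hq3 (i := i₀) one_ne_zero ?_
        ⟨by simp [hψ], h7⟩
      intro h8
      have h9 := congrFun h8 j
      by_cases hmj : j = m
      · simp only [sdiag, Pi.sub_apply, if_neg hji, if_pos hmj, inv_inv, Pi.zero_apply] at h9
        refine mul_ne_zero (mul_ne_zero (sub_ne_zero.2 hθ1) (sub_ne_zero.2 hθ2)) hj ?_
        linear_combination h9
      simp only [sdiag, Pi.sub_apply, if_neg hji, if_neg hmj, inv_one, mul_one,
        Pi.zero_apply] at h9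
      apply hθ1
      apply mul_right_cancel₀ hj
      linear_combination h9

end Three

theorem gl_mem_mon_iff (g : GL ι F) : gl g ∈ mon F (Pi.basisFun F ι) ↔ g ∈ monGL ι F := by
  constructor
  · rintro ⟨π, hπ⟩
    refine ⟨π, fun i => ?_⟩
    obtain ⟨c, -, hc⟩ := hπ i
    exact ⟨c, by simpa [gl_apply, ← Pi.single_smul] using hc⟩
  · rintro ⟨π, hπ⟩
    refine ⟨π, fun i => ?_⟩
    obtain ⟨c, hc⟩ := hπ i
    exact ⟨c, ne_zero_of_mulVec_single hc, by simpa [gl_apply, ← Pi.single_smul] using hc⟩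

/-- A subgroup together with the scalars. -/
def withScalars (M : Subgroup (GL ι F)) : Subgroup (GL ι F) where
  carrier := {g | ∃ c : Fˣ, GeneralLinearGroup.scalar ι c * g ∈ M}
  mul_mem' := by
    rintro g k ⟨c, hc⟩ ⟨d, hd⟩
    refine ⟨c * d, ?_⟩
    have := M.mul_mem hc hd
    rwa [mul_assoc, ← mul_assoc g, ← GeneralLinearGroup.scalar_commute d g, mul_assoc, ← mul_assoc,
      ← map_mul] at this
  one_mem' := ⟨1, by simp⟩
  inv_mem' := by
    rintro g ⟨c, hc⟩
    refine ⟨c⁻¹, ?_⟩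
    have := M.inv_mem hc
    rwa [GeneralLinearGroup.scalar_commute, _root_.mul_inv_rev, ← map_inv] at this

theorem scalar_mem_monGL (c : Fˣ) : GeneralLinearGroup.scalar ι c ∈ monGL ι F :=
  ⟨1, fun i => ⟨c, by
    simp [GeneralLinearGroup.scalar]⟩⟩

theorem det_scalar_gl (c : Fˣ) :
    GeneralLinearGroup.det (GeneralLinearGroup.scalar ι c) = c ^ Fintype.card ι := by
  ext
  simp [GeneralLinearGroup.scalar]

/-- The monomial subgroup of `SL_4(q)` is maximal for `q ≥ 7`. -/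
theorem isMaximalIn_monSL4 [Fintype F] (hι : Fintype.card ι = 4) (hq : 7 ≤ Fintype.card F) :
    IsMaximalIn (specialLinear ι F) (monSL ι F) := by
  refine H32.isMaximalIn_of_forall inf_le_right
    (fun h => not_specialLinear_le_monGL (by omega) (le_trans h inf_le_left)) ?_
  intro M hM1 hM2 g hg hg'
  have hgn : g ∉ monGL ι F := fun h => hg' ⟨h, hM2 hg⟩
  by_cases h2 : (2 : F) = 0
  · have hr : ringChar F = 2 := (ringChar.eq_iff.2 (CharTwo.of_one_ne_zero_of_two_eq_zero
      one_ne_zero h2))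
    have h1 : monGL ι F ≤ withScalars M := by
      intro k hk
      obtain ⟨a, ha⟩ := FiniteField.isSquare_of_char_two hr ((GeneralLinearGroup.det k)⁻¹ : Fˣ)
      obtain ⟨c, hc⟩ := FiniteField.isSquare_of_char_two hr a
      have hc0 : c ≠ 0 := by
        rintro rfl
        exact Units.ne_zero _ (ha.trans (by simp [hc]))
      refine ⟨Units.mk0 c hc0, hM1 ⟨mul_mem (scalar_mem_monGL _) hk, ?_⟩⟩
      refine MonoidHom.mem_ker.2 ?_
      rw [map_mul, det_scalar_gl, hι, mul_eq_one_iff_eq_inv]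
      ext
      rw [ha, hc]
      simp [pow_succ, mul_assoc]
    intro s hs
    obtain ⟨c, hc⟩ := specialLinear_le_of_monGL_le h1 hι.ge (by omega) ⟨1, by simpa using hg⟩ hgn hs
    exact (M.mul_mem_cancel_left (hM1 ⟨scalar_mem_monGL c,
      ((specialLinear ι F).mul_mem_cancel_right hs).1 (hM2 hc)⟩)).1 hc
  by_cases hP : ∀ g ∈ M, ∀ i, FixPt i (g : Matrix ι ι F) → g ∈ monGL ι F
  swap
  · push Not at hP
    obtain ⟨y, hy, i, hi, hy'⟩ := hP
    exact sl_le_of_fix4 hM1 hM2 hι.ge (by omega) hy hy' hi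
  obtain ⟨ε, hε0, hε⟩ : ∃ r : F, r ≠ 0 ∧ r ^ 4 ≠ 1 := by
    by_contra hc
    push Not at hc
    have h1 : Monoid.exponent Fˣ ∣ 4 := Monoid.exponent_dvd_of_forall_pow_eq_one fun x =>
      Units.ext (hc x x.ne_zero)
    rw [IsCyclic.exponent_eq_card, Nat.card_units, Nat.card_eq_fintype_card] at h1
    have := Nat.le_of_dvd (by norm_num) h1
    omega
  have : Finite (M.map gl.toMonoidHom) := Finite.of_surjective _ (MonoidHom.subgroupMap_surjective _ _)
  refine absurd ((gl_mem_mon_iff g).1 (le_mon_card_four hι (Pi.basisFun F ι)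
    (M := M.map gl.toMonoidHom) (nonZeroDivisors F) h2 hε0 hε (by simpa using hε0)
    (by simpa using hε0) (fun t ht ht' => ?_) (fun π => ?_) ?_ ⟨g, hg, rfl⟩)) hgn
  · obtain ⟨k, hk, hk'⟩ := hasMat_diagonal_monSL (d := t) (by simpa using ht) ht'
    exact ⟨_, ⟨k, hM1 hk, rfl⟩, fun i => by
      simp [gl_apply, hk', ← Pi.single_smul]⟩
  · obtain ⟨k, hk, hk'⟩ := exists_monSL_perm (F := F) π
    refine ⟨_, ⟨k, hM1 hk, rfl⟩, (gl_mem_mon_iff k).2 hk.1, fun i => ?_⟩
    obtain ⟨c, hc⟩ := hk' i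
    exact ⟨c, by simpa [gl_apply, ← Pi.single_smul] using hc⟩
  · rintro _ ⟨k, hk, rfl⟩ i j c hc
    exact (gl_mem_mon_iff k).2 (mem_monGL_of_mulVec_single hM1 hP hk (i := i) (j := j) (c := c)
      (by simpa [gl_apply, ← Pi.single_smul] using hc))

theorem isMaximalIn_decompositionStabilizer_one4 [Fintype F] {t : ℕ}
    (D : Fin t → Submodule F (ι → F)) (hD : IsMDecomposition 1 D) (hι : Fintype.card ι = 4)
    (hq : 7 ≤ Fintype.card F) :
    IsMaximalIn (specialLinear ι F) (decompositionStabilizer D ⊓ specialLinear ι F) := by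
  obtain ⟨e, he⟩ := exists_equiv_of_isMDecomposition hD
  have hc := card_eq_of_isMDecomposition hD
  refine isMaximalIn_of_iff (H28.glConj e) (glConj_mem_specialLinear_iff e) (fun g => ?_)
    (isMaximalIn_monSL4 (by rw [hc] at hι; simpa using hι) hq)
  rw [Subgroup.mem_inf, Subgroup.mem_inf, glConj_mem_specialLinear_iff,
    glConj_mem_decompositionStabilizer_iff e _ _ he, mem_monGL_iff_blk]

end Cfsg.Agent.H30
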