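import Cfsg.Agent.H26.UDec
import Cfsg.Agent.H30.L4MonSL

/-!
The monomial subgroup of `SU_4(q)` is maximal for `q ≠ 3`.
-/

set_option autoImplicit false

namespace Cfsg.Agent.H30

open Module Cfsg.Agent.H26 Cfsg.Agent.H31

section Abstract

variable {F : Type*} [Field F] {σ : F →+* F} {V : Type*} [AddCommGroup V] [Module F V]
  {B : V →ₛₗ[σ] V →ₗ[F] F} {ι : Type*} {M : Subgroup (V ≃ₗ[F] V)} {b : ι → V}

/-- A subgroup together with the scalars of norm one. -/
def withMu (σ : F →+* F) (M : Subgroup (V ≃ₗ[F] V)) : Subgroup (V ≃ₗ[F] V) where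
  carrier := {g | ∃ c : F, c * σ c = 1 ∧ ∃ k ∈ M, ∀ x, k x = c • g x}
  mul_mem' := by
    rintro g g' ⟨c, hc, k, hk, H⟩ ⟨c', hc', k', hk', H'⟩
    exact ⟨c * c', mu_mul hc hc', k * k', M.mul_mem hk hk', fun x => by
      rw [LinearEquiv.mul_apply, H', H, map_smul, smul_smul, LinearEquiv.mul_apply]⟩
  one_mem' := ⟨1, mu_one, 1, M.one_mem, by simp⟩
  inv_mem' := by
    rintro g ⟨c, hc, k, hk, H⟩
    refine ⟨c⁻¹, mu_inv hc, k⁻¹, M.inv_mem hk, fun x => k.injective ?_⟩
    rw [PForm.apply_inv_apply, H, map_smul, PForm.apply_inv_apply, smul_smul,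
      mul_inv_cancel₀ (mu_ne_zero hc), one_smul]

variable [Fintype ι] [DecidableEq ι] [Finite F]

theorem frM_le_or_le_four (h : FrM B b M) (h4 : Fintype.card ι = 4)
    (hq : (2 : F) = 0 ∨ ((∃ a : F, σ a = a ∧ a ≠ 0 ∧ a ≠ 1) ∧
      ∃ ε : F, ε * σ ε = 1 ∧ ε ^ 4 ≠ 1)) : M ≤ mon F b ∨ sisom B ≤ M := by
  have := h.finiteDimensional
  have hsc : ∀ c : F, c * σ c = 1 → ∃ z ∈ mon F b ⊓ isom B, (∀ x, z x = c • x) ∧
      LinearMap.det (z : V →ₗ[F] V) = c ^ 4 := by
    intro c hc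
    obtain ⟨z, hz, H, H', hd⟩ := h.exists_diag (t := fun _ => c) fun _ => hc
    exact ⟨z, hz, fun x => h.ext fun i => by rw [H', smul_right], by simp [hd, h4]⟩
  by_cases h2 : (2 : F) = 0
  · by_cases hn : M ≤ mon F b
    · exact Or.inl hn
    right
    have := Fintype.ofFinite F
    have hr : ringChar F = 2 := (ringChar.eq_iff.2 (CharTwo.of_one_ne_zero_of_two_eq_zero
      one_ne_zero h2))
    have hsq : ∀ a : F, a * σ a = 1 → ∃ c, c * σ c = 1 ∧ a = c * c := by
      intro a ha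
      obtain ⟨c, rfl⟩ := FiniteField.isSquare_of_char_two hr a
      refine ⟨c, ?_, rfl⟩
      rw [map_mul] at ha
      have : (c * σ c - 1) ^ 2 = 0 := by linear_combination ha - (c * σ c - 1) * h2
      exact sub_eq_zero.1 (pow_eq_zero_iff two_ne_zero |>.1 this)
    have h1 : sisom B ≤ withMu σ M := by
      refine h.toFr.sisom_le (Or.inl h4.ge) ?_ ?_
        fun H => hn fun g hg => H ⟨1, mu_one, g, hg, by simp⟩
      · rintro g ⟨c, hc, k, hk, H⟩ x y
        rw [← h.isom_of hk x y, H, H, smul_left, smul_right, ← mul_assoc, mul_comm (σ c), hc,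
          one_mul]
      · rintro g ⟨hg, hgi⟩
        obtain ⟨π, hπ⟩ := id hg
        choose t _ ht using hπ
        have hd := h.det_eq ht
        have hs : (((Equiv.Perm.sign π : ℤˣ) : ℤ) : F) = 1 := by
          rcases Int.units_eq_one_or (Equiv.Perm.sign π) with h1 | h1 <;> simp [h1]
          linear_combination -h2
        rw [hs, one_mul] at hd
        obtain ⟨a, ha, ha'⟩ := hsq _ (mu_inv (mu_prod Finset.univ
          fun i => h.norm_of_map hgi (ht i)))
        obtain ⟨c, hc, rfl⟩ := hsq a ha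
        obtain ⟨z, hz, H, hz'⟩ := hsc c hc
        refine ⟨c, hc, z * g, h.ge ⟨mul_mem hz.1 hg, mem_sisom'.2 ⟨mul_mem hz.2 hgi, ?_⟩⟩,
          fun x => H _⟩
        rw [LinearEquiv.coe_toLinearMap_mul, map_mul, hz', hd,
          show c ^ 4 = c * c * (c * c) by ring, ← ha', inv_mul_cancel₀]
        exact mu_ne_zero (mu_prod Finset.univ fun i => h.norm_of_map hgi (ht i))
    intro s hs
    obtain ⟨c, hc, k, hk, H⟩ := h1 hs
    obtain ⟨z, hz, H', -⟩ := hsc c hc
    obtain rfl : k = z * s := LinearEquiv.ext fun x => by rw [H, LinearEquiv.mul_apply, H']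
    exact (M.mul_mem_cancel_left (h.ge ⟨hz.1,
      ((sisom B).mul_mem_cancel_right hs).1 (h.le hk)⟩)).1 hk
  obtain ⟨ha, ε, hε, hε4⟩ := hq.resolve_left h2
  refine (h.ptMon_or (Or.inr ⟨h4.ge, ha⟩)).imp_left fun hP => ?_
  have : Finite V := Module.finite_of_finite F
  have : Finite (V ≃ₗ[F] V) := DFunLike.finite _
  have hb : ⇑h.basis = b := funext h.basis_apply
  let μ : Submonoid F :=
    { carrier := {c | c * σ c = 1}, mul_mem' := mu_mul, one_mem' := mu_one }
  rw [← hb]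
  refine le_mon_card_four h4 h.basis μ h2 (mu_ne_zero hε) hε4 hε (mu_inv hε) ?_ ?_ ?_ <;> rw [hb]
  · intro t ht ht'
    obtain ⟨g, hg, H, -, hd⟩ := h.exists_diag (t := t) ht
    exact ⟨g, h.ge ⟨hg.1, mem_sisom'.2 ⟨hg.2, hd.trans ht'⟩⟩, H⟩
  · intro π
    obtain ⟨g, hg, hgm, H⟩ := h.exists_perm' π
    exact ⟨g, hg, hgm, fun i => (H i).imp fun _ h => h.2⟩
  · exact hP

end Abstract

variable {F : Type*} [Field F]

/-- Maximality of the stabiliser of an orthonormal frame in `SU_4(q)`, `q ≠ 3`. -/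
theorem su_c2_one4 [Fintype F] {q : ℕ} (hF : Fintype.card F = q ^ 2) (hq : q ≠ 3) {t : ℕ}
    {D : Fin t → Submodule F (Fin 4 → F)}
    (hD : Geo.IsNondegenerateMDecomposition (hermForm 4 F q) 1 D) :
    Geo.IsMaximalIn (GU 4 F q ⊓ Geo.specialLinear (Fin 4) F)
      (Geo.decompositionStabilizer D ⊓ (GU 4 F q ⊓ Geo.specialLinear (Fin 4) F)) := by
  have h := isHerm_hermB hF 4
  have hnd := fun i => nondegOn_of_isNondegenerateOn (hermB_eq hF) (hD.nondegenerate i)
  choose c hc1 hc2 using fun i => h.exists_isON_of_nondegOn (hnd i) (hD.decomp.finrank_eq i).ge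
  have horth : ∀ i j, i ≠ j → ∀ x ∈ D i, ∀ y ∈ D j, hermB hF 4 x y = 0 := fun i j hij x hx y hy =>
    (hermB_eq hF x y).trans (hD.orthogonal j i hij.symm y hy x hx)
  have hon : IsON (hermB hF 4) fun m : Fin t × Fin 1 => c m.1 m.2 := by
    rintro ⟨i, a⟩ ⟨j, a'⟩
    by_cases hij : i = j
    · subst hij
      simpa using hc2 i a a'
    · simpa [hij] using horth i j hij _ (hc1 i a) _ (hc1 j a')
  have hspan : ∀ i, Submodule.span F (Set.range (c i)) = D i := fun i =>
    Submodule.eq_of_le_of_finrank_eq (Submodule.span_le.2 (by rintro _ ⟨a, rfl⟩; exact hc1 i a))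
      (by rw [finrank_span_eq_card (hc2 i).linearIndependent, hD.decomp.finrank_eq,
        Fintype.card_fin])
  have hfr : Fr (hermB hF 4) fun m : Fin t × Fin 1 => c m.1 m.2 := ⟨h, hon, fun x => by
    rw [← sub_eq_zero]
    refine h.nondeg' _ fun y => ?_
    have : y ∈ iSup D := by rw [hD.decomp.iSup_eq_top]; trivial
    refine (h.le_perp_comm (W := F ∙ _)).1 ?_ this _ (Submodule.mem_span_singleton_self _) |>
      h.flip_zero
    rw [h.le_perp_comm]
    refine iSup_le fun i => ?_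
    rw [← hspan, Submodule.span_le]
    rintro _ ⟨a, rfl⟩
    refine mem_perp_span_singleton.2 (h.flip_zero ?_)
    have h1 := fun m => hon (i, a) m
    simp only at h1
    simp [h1]⟩
  have hblk : D = blk (hermB hF 4) fun m : Fin t × Fin 1 => c m.1 m.2 := funext fun i =>
    Submodule.eq_of_le_of_finrank_eq (fun x hx m hm => horth _ _ hm _ (hc1 _ _) _ hx)
      (by rw [hfr.finrank_blk, hD.decomp.finrank_eq, Fintype.card_fin])
  have hn : Fintype.card (Fin t × Fin 1) = 4 := by simpa using hfr.finrank_eq.symm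
  refine isMaximalIn_SU_of hF (H' := stabD D) (fun _ => Iff.rfl) ?_
  rw [hblk]
  refine H31.isMaximalIn_of_forall (hfr.stabD_lt (by simpa using hD.decomp.two_le) (by omega))
    fun M hH hM g hg hg' => ?_
  refine Or.resolve_left ?_ fun H : M ≤ stabD (blk _ _) => hg' ⟨H hg, hM hg⟩
  have h3 : mon F (fun m : Fin t × Fin 1 => c m.1 m.2) ≤
      stabD (blk (hermB hF 4) fun m : Fin t × Fin 1 => c m.1 m.2) := by
    rintro g ⟨π, hπ⟩
    refine hfr.mem_stabD fun i => ⟨(π (i, 0)).1, fun x => hfr.map_mem_blk fun a' => ?_⟩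
    obtain ⟨c, -, hc⟩ := hπ (i, 0)
    rw [Subsingleton.elim a' 0, hc]
    exact Submodule.smul_mem _ _ (hfr.b_mem_subW rfl)
  refine (frM_le_or_le_four ⟨hfr, hM, (inf_le_inf_right _ h3).trans hH⟩ hn ?_).imp_left
    fun H => H.trans h3
  by_cases h2 : (2 : F) = 0
  · exact Or.inl h2
  have hq2 := two_le_of_card_sq hF
  have hodd : ¬ 2 ∣ q := fun hd => h2 (by
    have h1 := FiniteField.cast_card_eq_zero F
    obtain ⟨k, hk, hp, hqk⟩ := exists_pow_char hF
    rw [hqk] at hd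
    have h5 := (Nat.prime_dvd_prime_iff_eq Nat.prime_two hp).1 (Nat.prime_two.dvd_of_dvd_pow hd)
    simpa [← h5] using ringChar.Nat.cast_ringChar (R := F))
  refine Or.inr ⟨exists_fixed_ne hF (fun _ => rfl) (by omega), ?_⟩
  by_contra hc
  push Not at hc
  have h5 := card_norm_eq hF (σ := frobQ hF) (fun _ => rfl) one_ne_zero (map_one _)
  have h6 := Nat.card_le_card_of_injective
    (fun x : {x : F // x * frobQ hF x = 1} => (⟨x.1, hc x.1 x.2⟩ : {x : F // x ^ 4 = 1}))
    fun x y hxy => Subtype.ext (by simpa using hxy)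
  rw [h5, card_pow_eq_one 4 (by norm_num)] at h6
  have := Nat.gcd_le_right (Nat.card F - 1) (show 0 < 4 by norm_num)
  omega

end Cfsg.Agent.H30
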