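import Cfsg.Agent.H17.LPDefs

/-! Project LP, piece WTL2: the exterior square and the graph automorphism. -/

set_option autoImplicit false
set_option maxRecDepth 100000

namespace Cfsg.Agent.H30.LpWtL2

open Cfsg Matrix Cfsg.Agent.H17.LP

/-- the alternating matrices -/
def AW : Submodule F M5 where
  carrier := {a | Alt a}
  zero_mem' := Alt.zero
  add_mem' := fun ha hb => Alt.add ha hb
  smul_mem' := fun c a ha => ⟨by rw [transpose_smul, ha.1], fun i => by simp [ha.2 i]⟩

/-- the action on alternating matrices -/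
def rho : Representation F SL5 AW where
  toFun g :=
    { toFun := fun a => ⟨g.1 * a.1 * g.1ᵀ, Alt.act a.2 _⟩
      map_add' := fun a b => Subtype.ext (by simp [Matrix.mul_add, Matrix.add_mul])
      map_smul' := fun c a => Subtype.ext (by simp) }
  map_one' := LinearMap.ext fun a => Subtype.ext (by simp)
  map_mul' g h := LinearMap.ext fun a => Subtype.ext (by
    show (g * h).1 * a.1 * (g * h).1ᵀ = g.1 * (h.1 * a.1 * h.1ᵀ) * g.1ᵀ
    simp only [coe_mul', transpose_mul, Matrix.mul_assoc])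

theorem rho_val (g : SL5) (a : AW) : (rho g a).1 = g.1 * a.1 * g.1ᵀ := rfl

/-- `e_i ∧ e_j` -/
def EE (i j : Fin 5) : AW := ⟨single i j 1 + single j i 1, alt_E i j⟩

/-- a transvection -/
def TT {k l : Fin 5} (h : k ≠ l) : SL5 := ⟨1 + single k l 1, det_transvection_of_ne _ _ h 1⟩

theorem TT_apply {k l : Fin 5} (h : k ≠ l) (a : AW) (x y : Fin 5) :
    (rho (TT h) a - a).1 x y = (if x = k then a.1 l y else 0) + (if y = k then a.1 x l else 0) := by
  have e : ∀ (b : M5) (x y : Fin 5), (single k l (1 : F) * b) x y = if x = k then b l y else 0 := by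
    intro b x y
    split_ifs with h
    · subst h; simp
    · exact single_mul_apply_of_ne _ _ _ _ _ h _
  have e' : ∀ (b : M5) (x y : Fin 5), (b * single l k (1 : F)) x y = if y = k then b x l else 0 := by
    intro b x y
    split_ifs with h
    · subst h; simp
    · exact mul_single_apply_of_ne _ _ _ _ _ h _
  show (((1 + single k l 1 : M5) * a.1 * (1 + single k l 1 : M5)ᵀ - a.1 : M5)) x y = _
  rw [transpose_add, transpose_one, transpose_single, Matrix.add_mul, Matrix.one_mul,
    Matrix.mul_add, Matrix.mul_one, Matrix.add_mul]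
  simp only [Matrix.sub_apply, Matrix.add_apply, e, e', a.2.2 l]
  split_ifs <;> ring

theorem step {S : Submodule F AW} (hS : ∀ g, ∀ w ∈ S, rho g w ∈ S) {a : AW} (ha : a ∈ S)
    {i j k m : Fin 5} (h : a.1 i j = 1) (h1 : k ≠ i) (h2 : k ≠ j) (h3 : m ≠ j) : EE m k ∈ S := by
  have b := S.sub_mem (hS (TT h1) a ha) ha
  have c := S.sub_mem (hS (TT h3) _ b) b
  convert c using 1
  refine Subtype.ext (Matrix.ext fun x y => ?_)
  rw [TT_apply, TT_apply, TT_apply, if_neg h2.symm, if_neg h2.symm, a.2.symm j i, h]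
  simp only [EE, Matrix.add_apply, single_apply, zero_add, add_zero]
  clear * -
  revert k m x y
  decide +kernel

theorem simp_rho : Simp rho := by
  refine ⟨⟨EE 0 1, 0, by decide⟩, fun S hS => ?_⟩
  by_cases h0 : S = ⊥
  · exact Or.inl h0
  right
  obtain ⟨a, ha, h1⟩ := (Submodule.ne_bot_iff S).1 h0
  have h2 : ∃ i j, a.1 i j = 1 := by
    by_contra h
    push Not at h
    refine h1 (Subtype.ext (Matrix.ext fun i j => ?_))
    have : ∀ x : F, x ≠ 1 → x = 0 := by decide
    exact this _ (h i j)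
  obtain ⟨i, j, h2⟩ := h2
  have key : ∀ i j p q : Fin 5, ∃ k m : Fin 5, k ≠ i ∧ k ≠ j ∧ m ≠ j ∧ (EE m k).1 m k = 1 ∧
      q ≠ m ∧ q ≠ k ∧ p ≠ k := by decide +kernel
  have h3 : ∀ p q, EE p q ∈ S := fun p q => by
    obtain ⟨k, m, c1, c2, c3, c4, c5, c6, c7⟩ := key i j p q
    exact step hS (step hS ha h2 c1 c2 c3) c4 c5 c6 c7
  refine eq_top_iff.2 fun w _ => ?_
  have e : w = ∑ p, ∑ q, (if p < q then w.1 p q else 0) • EE p q := by
    refine Subtype.ext (Matrix.ext fun x y => ?_)
    have s := w.2.symm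
    have d := w.2.2
    simp only [Fin.sum_univ_five, Submodule.coe_add, Submodule.coe_smul, EE, Matrix.add_apply,
      Matrix.smul_apply, single_apply]
    fin_cases x <;> fin_cases y <;> simp [d] <;> exact s _ _
  rw [e]
  exact S.sum_mem fun p _ => S.sum_mem fun q _ => S.smul_mem _ (h3 p q)

theorem wt_rho : Wt rho (EE 0 1) (fun i => i ∈ [2]) := by
  refine ⟨by decide, ?_, ?_⟩
  · intro i hi
    refine Subtype.ext ?_
    rw [rho_val]
    revert i
    decide +kernel
  · intro i hi
    simp only [List.mem_cons, List.not_mem_nil, or_false] at hi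
    rcases hi with rfl | rfl | rfl | rfl
    · rw [if_neg (by decide)]
      exact Subtype.ext (by rw [rho_val]; decide +kernel)
    · rw [if_pos (by decide)]
      exact Subtype.ext (by rw [Submodule.coe_add, rho_val, rho_val, coe_mul']; decide +kernel)
    · rw [if_neg (by decide)]
      exact Subtype.ext (by rw [rho_val]; decide +kernel)
    · rw [if_neg (by decide)]
      exact Subtype.ext (by rw [rho_val]; decide +kernel)

theorem wtL2 : WtL2Stmt := by
  refine ⟨AW, inferInstance, inferInstance, inferInstance, rho, EE 0 1,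
    fun a => if h : Alt a then ⟨a, h⟩ else 0, simp_rho, wt_rho, fun a b ha hb => ?_,
    fun a ha h => ?_, fun w => ⟨w.1, w.2, ?_⟩, fun g a ha => ?_⟩
  · simp only [dif_pos ha, dif_pos hb, dif_pos (ha.add hb)]
    rfl
  · simp only [dif_pos ha] at h
    exact congrArg Subtype.val h
  · exact dif_pos w.2
  · simp only [dif_pos ha, dif_pos (ha.act g.1)]
    rfl

/-- the antidiagonal matrix -/
def wm : M5 := Matrix.of fun i j => if i.val + j.val = 4 then 1 else 0

theorem wm_sq : wm * wm = 1 := by decide +kernel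

theorem wm_t : wmᵀ = wm := by decide +kernel

theorem wm_det : wm.det = 1 := by
  have h := congrArg Matrix.det wm_sq
  rw [det_mul, det_one] at h
  have : ∀ x : F, x * x = 1 → x = 1 := by decide
  exact this _ h

/-- the graph automorphism -/
def th (g : SL5) : SL5 := ⟨wm * (g⁻¹).1ᵀ * wm, by
  rw [det_mul, det_mul, det_transpose, wm_det, (g⁻¹).2]; simp⟩

theorem th_mul (g h : SL5) : th (g * h) = th g * th h := Subtype.ext (by
  show wm * ((g * h)⁻¹).1ᵀ * wm = wm * (g⁻¹).1ᵀ * wm * (wm * (h⁻¹).1ᵀ * wm)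
  rw [_root_.mul_inv_rev, coe_mul', transpose_mul]
  simp only [Matrix.mul_assoc]
  rw [← Matrix.mul_assoc wm wm, wm_sq, Matrix.one_mul])

theorem th_one : th 1 = 1 := Subtype.ext (by
  show wm * ((1 : SL5)⁻¹).1ᵀ * wm = 1
  rw [inv_one]
  show wm * (1 : M5)ᵀ * wm = 1
  rw [transpose_one, Matrix.mul_one, wm_sq])

theorem th_th (g : SL5) : th (th g) = g := Subtype.ext (by
  have e : (th g)⁻¹ = th g⁻¹ :=
    inv_eq_of_mul_eq_one_right (by rw [← th_mul, mul_inv_cancel, th_one])
  show wm * ((th g)⁻¹).1ᵀ * wm = g.1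
  rw [e]
  show wm * (wm * (g⁻¹⁻¹).1ᵀ * wm)ᵀ * wm = g.1
  rw [inv_inv, transpose_mul, transpose_mul, transpose_transpose, wm_t]
  simp only [Matrix.mul_assoc]
  rw [wm_sq, Matrix.mul_one, ← Matrix.mul_assoc, wm_sq, Matrix.one_mul])

theorem tw : TwStmt := by
  refine ⟨⟨⟨th, th, th_th, th_th⟩, th_mul⟩, fun i hi j hj => Subtype.ext ?_⟩
  have k1 : ∀ i ∈ [1, 2, 3, 4, 5], ∀ j ∈ [1, 2, 3, 4, 5], (X i j).1 * (X i j).1 = 1 ∧
      wm * (X i j).1ᵀ * wm = (X (6 - j) (6 - i)).1 := by decide +kernel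
  have e : (X i j)⁻¹ = X i j := inv_eq_of_mul_eq_one_right (Subtype.ext (k1 i hi j hj).1)
  show wm * ((X i j)⁻¹).1ᵀ * wm = _
  rw [e]
  exact (k1 i hi j hj).2

end Cfsg.Agent.H30.LpWtL2
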