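import Mathlib
import Cfsg.Agent.H45.OnDefs

/-! The final inequality (piece ON-NUM). -/

set_option autoImplicit false

namespace Cfsg.Agent.H30.OnNum

open Cfsg.Agent.H45.On

theorem red (j k d X Y : ℕ) (hk : 0 < k) (hd : k ≤ j * d) (h : d * X ≤ k * Y) : X ≤ j * Y := by
  refine Nat.le_of_mul_le_mul_left ?_ hk
  calc k * X ≤ j * d * X := Nat.mul_le_mul_right _ hd
    _ = j * (d * X) := by ring
    _ ≤ j * (k * Y) := Nat.mul_le_mul_left _ h
    _ = k * (j * Y) := by ring

theorem num : NumStmt := by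
  intro n r γ β k μ F hn hγr hF hFn hβ hμ hμk h6 h26 h5 h
  by_contra hk1
  rcases hμk.eq_or_lt with rfl | hlt
  · have h2 : 2 ≤ μ := by omega
    have h5' := h5 h2
    obtain ⟨e, rfl⟩ : ∃ e, β = e + 6 := ⟨β - 6, by omega⟩
    rcases h2.eq_or_lt with rfl | h3
    · norm_num at h5'
      omega
    · obtain ⟨m, rfl⟩ : ∃ m, μ = m + 3 := ⟨μ - 3, by omega⟩
      rw [min_eq_left (by omega), show m + 3 - 1 = m + 2 from rfl,
        show e + 6 - 1 = e + 5 from rfl] at h5'
      nlinarith [Nat.zero_le (e * m)]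
  · have hγ := h6 hlt
    obtain ⟨c, rfl⟩ : ∃ c, γ = c + 6 := ⟨γ - 6, by omega⟩
    obtain ⟨a, rfl⟩ : ∃ a, r = a + 6 := ⟨r - 6, by omega⟩
    rw [show c + 6 - 1 = c + 5 from rfl] at hn
    have e1 : n - 1 = (a + 6) * (c + 5) := by omega
    obtain ⟨b, rfl⟩ : ∃ b, β = b + 1 := ⟨β - 1, by omega⟩
    have e2 : n - F + (b + 1) * F ≤ 1 + (a + 6) * (c + 5) + b * (a + c + 9) := by
      have : b * F ≤ b * (a + c + 9) := Nat.mul_le_mul_left _ (by omega)
      rw [add_mul, one_mul]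
      omega
    have h' : (k - μ) * ((b + 1) * ((a + 6) * (c + 5))) ≤
        k * (1 + (a + 6) * (c + 5) + b * (a + c + 9)) := by
      rw [e1] at h
      calc _ = (b + 1) * (k - μ) * ((a + 6) * (c + 5)) := by ring
        _ ≤ _ := h
        _ ≤ _ := Nat.mul_le_mul_left _ e2
    rcases hμ.eq_or_lt with rfl | h2
    · have h3 := red 2 k _ _ _ (by omega) (by omega) h'
      obtain ⟨e, rfl⟩ : ∃ e, b = e + 5 := ⟨b - 5, by omega⟩
      nlinarith [Nat.zero_le (e * a), Nat.zero_le (e * c), Nat.zero_le (a * c),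
        Nat.zero_le (e * a * c)]
    · have hb := h26 h2 hlt
      have h5' := h5 h2
      rw [min_eq_left (by omega), show b + 1 - 1 = b from rfl] at h5'
      have h7 : 26 * (μ - 1) ≤ 11 * k := by
        refine Nat.le_of_mul_le_mul_left ?_ (show 0 < 5 * (b + 1) by positivity)
        have h8 : 26 * (5 + 2 * b) ≤ 55 * (b + 1) := by omega
        calc 5 * (b + 1) * (26 * (μ - 1)) = 26 * (5 * (b + 1) * (μ - 1)) := by ring
          _ ≤ 26 * (k * (5 + 2 * b)) := Nat.mul_le_mul_left _ h5'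
          _ = k * (26 * (5 + 2 * b)) := by ring
          _ ≤ k * (55 * (b + 1)) := Nat.mul_le_mul_left _ h8
          _ = 5 * (b + 1) * (11 * k) := by ring
      have h3 := red 3 k _ _ _ (by omega) (by omega) h'
      obtain ⟨e, rfl⟩ : ∃ e, b = e + 25 := ⟨b - 25, by omega⟩
      nlinarith [Nat.zero_le (e * a), Nat.zero_le (e * c), Nat.zero_le (a * c),
        Nat.zero_le (e * a * c)]

end Cfsg.Agent.H30.OnNum
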