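import Cfsg.Agent.H30.TenNonMax
import Cfsg.Agent.H30.TPow
import Cfsg.Agent.H79.Wall

/-!
# `Sp_k(q) ≀ S_t` (tensor power, `q` even, `k ≤ 4`) is not maximal in `Ω`: it lies in the image of
`Sp_{kt}(q)` under the spin representation
-/

set_option autoImplicit false

namespace Cfsg.Agent.H30

open Module QuadraticMap Function Matrix

section Abstract

variable {F U V : Type*} [Field F] [AddCommGroup U] [Module F U] [AddCommGroup V] [Module F V]
  {Q : QuadraticForm F V} {f : LinearMap.BilinForm F U}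

theorem dickson_eq_one_of_alt [FiniteDimensional F V] (hQ : (polarBilin Q).Nondegenerate) {g : O Q}
    (hg : g * g = 1) (h : ∀ v, polar Q v (g.1 v - v) = 0) : dickson hQ g = 1 := by
  have hs : H79.SelfAdj (polarBilin Q) (H79.nil g.1) :=
    H79.selfAdj_nil (fun x y => O_polar g x y) (congrArg Subtype.val hg)
  have ha : LinearMap.BilinForm.IsAlt (H79.wall (polarBilin Q) (H79.nil g.1)) := fun u => by
    obtain ⟨x, hx⟩ := u.2
    rw [hs.wall_apply' hx, ← hx]
    exact h x
  have hn : LinearMap.BilinForm.Nondegenerate (H79.wall (polarBilin Q) (H79.nil g.1)) :=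
    ha.isRefl.nondegenerate_iff_separatingLeft.2 (hs.wall_sepLeft hQ.1)
  exact (H27.even_finrank_of_alt hn ha).neg_one_pow

/-- The data in the factor needed for the spin embedding. -/
structure SpinData (f : LinearMap.BilinForm F U) (M : Submodule F (End F U)) (e : End F U)
    (u y₀ y₁ : U) : Prop where
  one : 1 ∈ M
  sim : ∀ (α : End F U) (d : F), d ≠ 0 → (∀ x y, f x y = d * f (α x) (α y)) → ∀ a ∈ M, ∃ a' ∈ M,
    ∀ z, a' (α z) = α (a z)
  adj : ∀ a ∈ M, ∀ x y, f (a x) y = f x (a y)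
  mem : e ∈ M
  sq : e * e = 0
  comm : ∀ a ∈ M, ∃ c : F, e * a + a * e = c • 1
  d00 : f u y₀ = 1
  d10 : f (e u) y₀ = 0
  d01 : f u y₁ = 0
  d11 : f (e u) y₁ = 1

variable [FiniteDimensional F V] [Finite F] {τ : Type*} [Fintype τ] [DecidableEq τ]

theorem nonMax_pow (hQ : (polarBilin Q).Nondegenerate) (h2 : (2 : F) = 0) (hf : f.Nondegenerate)
    (hfa : f.IsAlt) (S : TPow τ f (polarBilin Q)) (hp : ∀ u, Q (S.pt u) = 0)
    {M : Submodule F (End F U)} {e : End F U} {u y₀ y₁ : U} (hM : SpinData f M e u y₀ y₁)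
    (h2τ : 2 ≤ Fintype.card τ) (halt : 3 ≤ Fintype.card τ ∨ ∀ a ∈ M, ∀ x, f (a x) x = 0)
    {H : Subgroup (O Q)} (hH : ∀ g ∈ H, S.Pres g.1) : NonMax hQ H := by
  have : Nontrivial τ := Fintype.one_lt_card_iff_nontrivial.1 h2τ
  have : Nontrivial U := ⟨u, 0, fun h => by simpa [h] using hM.d00⟩
  obtain ⟨s₁, s₂, hs⟩ := exists_pair_ne τ
  have hV2 : ∀ z : V, z + z = 0 := fun z => by rw [← two_smul F, h2, zero_smul]
  have hE2 : ∀ z : End F V, z + z = 0 := fun z => by rw [← two_smul F, h2, zero_smul]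
  let N : Submodule F (End F V) := ⨆ s, M.map (S.fac s).toLinearMap
  have hN : ∀ s, ∀ a ∈ M, S.fac s a ∈ N := fun s a ha =>
    Submodule.mem_iSup_of_mem s (Submodule.mem_map_of_mem ha)
  have hNi : ∀ p : End F V → Prop, p 0 → (∀ x y, p x → p y → p (x + y)) →
      (∀ s, ∀ a ∈ M, p (S.fac s a)) → ∀ x ∈ N, p x := fun p h0 hadd hm x hx =>
    Submodule.iSup_induction _ (motive := p) hx (by rintro s _ ⟨a, ha, rfl⟩; exact hm s a ha) h0 hadd
  have hN1 : (1 : End F V) ∈ N := map_one (S.fac s₁) ▸ hN s₁ 1 hM.one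
  have hadj : ∀ x ∈ N, ∀ v w, polar Q (x v) w = polar Q v (x w) :=
    hNi _ (by simp) (fun x y hx hy v w => by
      simp only [LinearMap.add_apply, polar_add_left, polar_add_right, hx, hy])
      fun s a ha => S.fac_adj s (hM.adj a ha)
  have hts : ∀ w, ∀ x ∈ N, ∀ y ∈ N, polar Q (x (S.pt w)) (y (S.pt w)) = 0 := fun w =>
    hNi _ (by simp) (fun x y hx hy z hz => by
      simp only [LinearMap.add_apply, polar_add_left, hx z hz, hy z hz, add_zero])
      fun s a ha => hNi _ (by simp) (fun x y hx hy => by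
        simp only [LinearMap.add_apply, polar_add_right, hx, hy, add_zero]) fun s' a' _ => by
      rw [S.fac_pt, S.fac_pt]
      by_cases h : ∃ r, r ≠ s ∧ r ≠ s'
      · obtain ⟨r, h3, h4⟩ := h
        exact S.form_eq_zero r (by rw [update_of_ne h3, update_of_ne h4, hfa.self_eq_zero])
      · push Not at h
        obtain ⟨r, hr⟩ := exists_ne s
        have h3 : s ≠ s' := fun h0 => hr ((h r hr).trans h0.symm)
        refine S.form_eq_zero s ?_
        rw [update_self, update_of_ne h3]
        refine halt.resolve_left (fun h4 => ?_) a ha _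
        have : (Finset.univ : Finset τ) ⊆ {s, s'} := fun i _ => by
          by_cases hi : i = s
          · simp [hi]
          · simp [h i hi]
        have h5 := (Finset.card_le_card this).trans Finset.card_le_two
        rw [Finset.card_univ] at h5
        omega
  set E₁ := S.fac s₁ e with hE₁
  set E₂ := S.fac s₂ e with hE₂
  have m₁ : E₁ ∈ N := hN s₁ e hM.mem
  have m₂ : E₂ ∈ N := hN s₂ e hM.mem
  -- pairing with the dual patterns
  let p := S.pt fun _ => u
  let q : U → U → V := fun y y' => S.pt (update (update (fun _ => y₀) s₁ y) s₂ y')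
  have hq : ∀ x x' y y', polar Q (S.pt (update (update (fun _ => u) s₁ x) s₂ x')) (q y y') =
      f x y * f x' y' * S.c := fun x x' y y' => by
    have := S.form_update₂ (fun _ => u) (fun _ => y₀) hs.symm x y x' y'
    simp only [hM.d00, Finset.prod_const_one, mul_one] at this
    exact this
  have e0 : p = S.pt (update (update (fun _ => u) s₁ u) s₂ u) := by simp [p]
  have e1 : E₁ p = S.pt (update (update (fun _ => u) s₁ (e u)) s₂ u) := by
    rw [hE₁, S.fac_pt, update_comm hs]; simp
  have e2 : E₂ p = S.pt (update (update (fun _ => u) s₁ u) s₂ (e u)) := by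
    rw [hE₂, S.fac_pt]; simp
  refine nonMax_of_ops hQ N ?_ ?_ ?_
  · intro g hg
    obtain ⟨σ, α, h⟩ := hH g hg
    refine hNi _ ⟨0, N.zero_mem, by simp⟩ ?_ fun s a ha => ?_
    · rintro x y ⟨x', hx', hx⟩ ⟨y', hy', hy⟩
      exact ⟨x' + y', N.add_mem hx' hy', fun v => by simp [hx, hy]⟩
    · obtain ⟨d, hd, hd'⟩ := h.sim hf (O_polar g) (σ s)
      obtain ⟨a', ha', h'⟩ := hM.sim _ d hd hd' a ha
      exact ⟨_, hN (σ s) a' ha', fun v =>
        LinearMap.congr_fun (TPow.Act.conj_fac (g := g.1.toLinearMap) h s h') v⟩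
  · have hNN : (E₁ + E₂) * (E₁ + E₂) = 0 := by
      rw [add_mul, mul_add, mul_add, hE₁, hE₂, ← map_mul, ← map_mul, hM.sq, map_zero, map_zero,
        S.fac_comm hs, zero_add, add_zero, hE2]
    have mN := N.add_mem m₁ m₂
    generalize hE : E₁ + E₂ = E at hNN mN
    have hγ : (1 + E) * (1 + E) = 1 := by
      rw [add_mul, mul_add, mul_add, hNN]; simp [add_assoc, hE2]
    have hb : ∀ v w, polar Q (v + E v) (w + E w) = polar Q v w := fun v w => by
      have := LinearMap.congr_fun hNN w
      rw [End.mul_apply, LinearMap.zero_apply] at this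
      simp only [polar_add_left, polar_add_right, hadj E mN, this, polar_zero_right]
      linear_combination polar Q v (E w) * h2
    have hQγ : ∀ v, Q (v + E v) = Q v := S.induction (by simp)
      (fun x y hx hy => by rw [map_add E, add_add_add_comm, Q_add, hx, hy, hb, Q_add])
      (fun a x hx => by rw [map_smul E, ← smul_add, Q_smul, Q_smul, hx]) fun w => by
        have h3 := hts w 1 hN1 E mN
        have h4 := hts w E₁ m₁ E₂ m₂
        rw [End.one_apply] at h3
        rw [Q_add, h3, ← hE, LinearMap.add_apply, Q_add, h4, hE₁, hE₂, S.fac_pt, S.fac_pt, hp, hp, hp]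
        simp
    let γ : O Q := ⟨LinearEquiv.ofInvolutive (1 + E) fun v => LinearMap.congr_fun hγ v, hQγ⟩
    have hγv : ∀ v, γ.1 v = v + E v := fun _ => rfl
    refine ⟨γ, (mem_kerDS_of_two_eq_zero hQ h2).2 (dickson_eq_one_of_alt hQ
      (O_ext fun v => LinearMap.congr_fun hγ v) fun v => ?_), fun x hx => ?_, fun hg => ?_⟩
    · rw [hγv, add_sub_cancel_left]
      refine S.induction (p := fun v => polar Q v (E v) = 0) (by simp) (fun x y hx hy => ?_)
        (fun a x hx => ?_) (fun w => hts w 1 hN1 E mN) v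
      · simp only [map_add, polar_add_left, polar_add_right, hx, hy]
        rw [← hadj E mN x y, polar_comm Q y]
        linear_combination polar Q (E x) y * h2
      · rw [map_smul, polar_smul_left', polar_smul_right', hx, mul_zero, mul_zero]
    · obtain ⟨c, hc⟩ : ∃ c : F, E * x + x * E = c • 1 := by
        have key : ∀ s, ∀ x ∈ N, ∃ c : F, S.fac s e * x + x * S.fac s e = c • 1 := fun s =>
          hNi _ ⟨0, by simp⟩ (by
            rintro x y ⟨c, hc⟩ ⟨d, hd⟩
            exact ⟨c + d, by rw [add_smul, ← hc, ← hd, mul_add, add_mul]; abel⟩) fun s' a ha => by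
          by_cases h : s' = s
          · obtain ⟨c, hc⟩ := hM.comm a ha
            exact ⟨c, by rw [h, ← map_mul, ← map_mul, ← map_add, hc, map_smul, map_one]⟩
          · exact ⟨0, by rw [S.fac_comm h, hE2, zero_smul]⟩
        obtain ⟨c, hc⟩ := key s₁ x hx
        obtain ⟨d, hd⟩ := key s₂ x hx
        exact ⟨c + d, by rw [add_smul, ← hc, ← hd, ← hE, mul_add, add_mul]; abel⟩
      refine ⟨x + c • (1 + E), N.add_mem hx (N.smul_mem c (N.add_mem hN1 mN)), fun v => ?_⟩
      have h3 := LinearMap.congr_fun hc v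
      have h4 : (1 + E) (v + E v) = v := LinearMap.congr_fun hγ v
      simp only [LinearMap.add_apply, End.mul_apply, LinearMap.smul_apply, End.one_apply] at h3
      rw [hγv, hγv, LinearMap.add_apply, LinearMap.smul_apply, h4, map_add]
      linear_combination (norm := module) h3 - hV2 (x (E v)) + hV2 (c • v) - hV2 (c • v)
    · obtain ⟨σ, α, h⟩ := hH _ hg
      have h3 := h fun _ => u
      set w := fun s => α s u with hw
      have h4 : ∀ y y', polar Q (γ.1 p) (q y y') = f (w s₁) y * f (w s₂) y' *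
          (S.c * ∏ i ∈ (Finset.univ.erase s₁).erase s₂, f (w i) y₀) := fun y y' => by
        have := S.form_update₂ w (fun _ => y₀) hs.symm (w s₁) y (w s₂) y'
        rw [update_eq_self, update_eq_self] at this
        rw [← this, ← h3]; rfl
      have h5 : ∀ y y', polar Q (γ.1 p) (q y y') =
          (f u y * f u y' + f (e u) y * f u y' + f u y * f (e u) y') * S.c := fun y y' => by
        rw [hγv, ← hE, LinearMap.add_apply, polar_add_left, polar_add_left, e1, e2, hq, hq]
        conv_lhs => rw [e0, hq]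
        ring
      have h6 : polar Q (γ.1 p) (q y₀ y₀) * polar Q (γ.1 p) (q y₁ y₁) =
          polar Q (γ.1 p) (q y₀ y₁) * polar Q (γ.1 p) (q y₁ y₀) := by
        simp only [h4]; ring
      simp only [h5, hM.d00, hM.d01, hM.d10, hM.d11] at h6
      exact S.c_ne (by simpa using h6.symm)
  · have b1 : ∀ y y', polar Q p (q y y') = f u y * f u y' * S.c := fun y y' => by
      conv_lhs => rw [e0, hq]
    have b2 : ∀ y y', polar Q (E₁ p) (q y y') = f (e u) y * f u y' * S.c := fun y y' => by rw [e1, hq]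
    have b3 : ∀ y y', polar Q (E₂ p) (q y y') = f u y * f (e u) y' * S.c := fun y y' => by rw [e2, hq]
    have b4 := hts (fun _ => u) 1 hN1 E₁ m₁
    have b5 := hts (fun _ => u) E₂ m₂ E₁ m₁
    rw [End.one_apply] at b4
    change polar Q p (E₁ p) = 0 at b4
    change polar Q (E₂ p) (E₁ p) = 0 at b5
    set b := q y₀ y₁ - (polar Q (q y₁ y₀) (q y₀ y₁) * S.c⁻¹) • E₁ p with hb
    have hab : polar Q (q y₁ y₀) b = 0 := by
      rw [hb, polar_sub_right, polar_smul_right', polar_comm Q _ (E₁ p), b2, hM.d11, hM.d00]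
      field_simp [S.c_ne]
      ring
    refine ⟨_, eich_mem_kerDS hQ (q y₁ y₀) b, E₁, m₁, p, fun y hy h => ?_⟩
    rw [eich_apply_of_orth (x := p) (by rw [b1, hM.d01]; simp)
      (by rw [hb, polar_sub_right, polar_smul_right', b1, b4, hM.d01]; simp),
      eich_apply (u := q y₁ y₀) (hp _) hab] at h
    have h3 := congrArg (polar Q (E₂ p)) h
    rw [hts _ E₂ m₂ y hy] at h3
    simp only [polar_sub_right, polar_add_right, polar_smul_right', b2, b3, b5, hb, hM.d00, hM.d01,
      hM.d11] at h3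
    exact S.c_ne (by simpa using h3)

omit [Finite F] in
theorem SpinData.of_span {G : Set (End F U)}
    {e : End F U} {u y₀ y₁ : U}
    (sim : ∀ (α : End F U) (d : F), d ≠ 0 → (∀ x y, f x y = d * f (α x) (α y)) → ∀ a ∈ G, ∃ a' ∈ G,
      ∀ z, d • a' (α z) = α (a z))
    (adj : ∀ a ∈ G, ∀ x y, f (a x) y = f x (a y)) (mem : e ∈ G) (sq : e * e = 0)
    (comm : ∀ a ∈ G, ∃ c : F, e * a + a * e = c • 1) (h2 : (2 : F) = 0)
    (d00 : f u y₀ = 1) (d10 : f (e u) y₀ = 0) (d01 : f u y₁ = 0) (d11 : f (e u) y₁ = 1) :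
    SpinData f (Submodule.span F (insert 1 G)) e u y₀ y₁ where
  one := Submodule.subset_span (Set.mem_insert _ _)
  sim α d hd hα a ha := by
    induction ha using Submodule.span_induction with
    | mem x hx =>
      rcases hx with rfl | hx
      · exact ⟨1, Submodule.subset_span (Set.mem_insert _ _), fun _ => rfl⟩
      · obtain ⟨a', ha', h⟩ := sim α d hd hα x hx
        exact ⟨d • a', Submodule.smul_mem _ _ (Submodule.subset_span (Set.mem_insert_of_mem _ ha')), h⟩
    | zero => exact ⟨0, Submodule.zero_mem _, by simp⟩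
    | add x y _ _ hx hy =>
      obtain ⟨x', h1, h2⟩ := hx
      obtain ⟨y', h3, h4⟩ := hy
      exact ⟨x' + y', Submodule.add_mem _ h1 h3, fun z => by simp [h2, h4]⟩
    | smul c x _ hx =>
      obtain ⟨x', h1, h2⟩ := hx
      exact ⟨c • x', Submodule.smul_mem _ _ h1, fun z => by simp [h2]⟩
  adj a ha := by
    induction ha using Submodule.span_induction with
    | mem x hx =>
      rcases hx with rfl | hx
      · exact fun _ _ => rfl
      · exact adj x hx
    | zero => simp
    | add x y _ _ hx hy => exact fun v w => by simp [hx, hy]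
    | smul c x _ hx => exact fun v w => by simp [hx]
  mem := Submodule.subset_span (Set.mem_insert_of_mem _ mem)
  sq := sq
  comm a ha := by
    induction ha using Submodule.span_induction with
    | mem x hx =>
      rcases hx with rfl | hx
      · exact ⟨0, by rw [mul_one, one_mul, ← two_smul F, h2, zero_smul, zero_smul]⟩
      · exact comm x hx
    | zero => exact ⟨0, by simp⟩
    | add x y _ _ hx hy =>
      obtain ⟨c, hc⟩ := hx
      obtain ⟨d, hd⟩ := hy
      exact ⟨c + d, by rw [add_smul, ← hc, ← hd, mul_add, add_mul]; abel⟩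
    | smul a x _ hx =>
      obtain ⟨c, hc⟩ := hx
      exact ⟨a * c, by rw [mul_smul, ← hc, mul_smul_comm, smul_mul_assoc, smul_add]⟩
  d00 := d00
  d10 := d10
  d01 := d01
  d11 := d11

omit [Finite F] in
theorem exists_spinData_two [FiniteDimensional F U] (hf : f.Nondegenerate) (hfa : f.IsAlt)
    (h2 : (2 : F) = 0) (hU : finrank F U = 2) : ∃ M e u y₀ y₁, SpinData f M e u y₀ y₁ := by
  obtain ⟨m, a, b, h, hsp, hm⟩ := H27.exists_isHyp_span_eq_top hf hfa
  obtain rfl : m = 1 := by omega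
  have hfs : ∀ x y, f x y = f y x := fun x y => by linear_combination hfa.neg_eq y x + f x y * h2
  have hab : f (a 0) (b 0) = 1 := by simpa using h.ef 0 0
  have hba : f (b 0) (a 0) = 1 := by rw [hfs, hab]
  have haa := hfa.self_eq_zero (a 0)
  have hbb := hfa.self_eq_zero (b 0)
  have hd : ∀ z, ∃ r s : F, z = r • a 0 + s • b 0 := fun z => by
    obtain ⟨c, hc⟩ := (Submodule.mem_span_range_iff_exists_fun F).1 (hsp.ge (Submodule.mem_top (x := z)))
    exact ⟨c (.inl 0), c (.inr 0), by rw [← hc]; simp⟩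
  refine ⟨_, _, a 0, b 0, a 0, SpinData.of_span (G := {x | ∃ v, x = H27.ro f v v})
    (e := H27.ro f (b 0) (b 0)) ?_ ?_ ⟨_, rfl⟩ ?_ ?_ h2 hab (by simp [hbb]) haa (by simp [hab, hba])⟩
  · rintro α d - hα _ ⟨v, rfl⟩
    exact ⟨_, ⟨α v, rfl⟩, fun z => by simp [smul_smul, ← hα]⟩
  · rintro _ ⟨v, rfl⟩ x y
    simp only [H27.ro_apply, map_smul, LinearMap.smul_apply, smul_eq_mul, hfs v y]
    ring
  · ext z; simp [hbb]
  · rintro _ ⟨v, rfl⟩
    refine ⟨f v (b 0) * f v (b 0), LinearMap.ext fun z => ?_⟩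
    obtain ⟨r, s, rfl⟩ := hd v
    obtain ⟨r', s', rfl⟩ := hd z
    simp only [LinearMap.add_apply, End.mul_apply, H27.ro_apply, map_add, map_smul,
      LinearMap.smul_apply, End.one_apply, haa, hbb, hab, hba, smul_eq_mul]
    match_scalars
    · linear_combination (r * r' * s) * h2
    · ring

omit [Finite F] in
theorem exists_spinData_four [FiniteDimensional F U] (hf : f.Nondegenerate) (hfa : f.IsAlt)
    (h2 : (2 : F) = 0) (hU : finrank F U = 4) :
    ∃ M e u y₀ y₁, SpinData f M e u y₀ y₁ ∧ ∀ a ∈ M, ∀ x, f (a x) x = 0 := by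
  obtain ⟨m, a, b, h, hsp, hm⟩ := H27.exists_isHyp_span_eq_top hf hfa
  obtain rfl : m = 2 := by omega
  have hab : ∀ i j, f (a i) (b j) = if i = j then 1 else 0 := h.ef
  have hba : ∀ i j, f (b i) (a j) = if j = i then -1 else 0 := fun i j => by
    rw [← hfa.neg_eq, hab]; split_ifs <;> simp
  have hd : ∀ z, ∃ r s r' s' : F, z = r • a 0 + s • b 0 + r' • a 1 + s' • b 1 := fun z => by
    obtain ⟨c, hc⟩ := (Submodule.mem_span_range_iff_exists_fun F).1 (hsp.ge (Submodule.mem_top (x := z)))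
    refine ⟨c (.inl 0), c (.inr 0), c (.inl 1), c (.inr 1), ?_⟩
    rw [← hc]
    simp only [Fintype.sum_sum_type, Fin.sum_univ_two, Sum.elim_inl, Sum.elim_inr]
    abel
  refine ⟨_, _, a 0, b 0, a 1, SpinData.of_span
    (G := {x | ∃ v w, f v w = 0 ∧ x = H27.ro f w v - H27.ro f v w})
    (e := H27.ro f (b 0) (b 1) - H27.ro f (b 1) (b 0)) ?_ ?_ ⟨_, _, h.ff 1 0, rfl⟩ ?_ ?_ h2
    (by simp [hab]) (by simp [hab, h.ff]) (h.ee 0 1) (by simp [hab, hba]), ?_⟩
  · rintro α d hd0 hα _ ⟨v, w, hvw, rfl⟩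
    refine ⟨_, ⟨α v, α w, ?_, rfl⟩, fun z => by simp [smul_smul, ← hα, smul_sub]⟩
    rw [hα] at hvw
    exact (mul_eq_zero.1 hvw).resolve_left hd0
  · rintro _ ⟨v, w, -, rfl⟩ x y
    simp only [LinearMap.sub_apply, H27.ro_apply, map_smul, map_sub, LinearMap.smul_apply,
      smul_eq_mul, ← hfa.neg_eq y v, ← hfa.neg_eq y w]
    ring
  · ext z; simp [h.ff]
  · rintro _ ⟨v, w, hvw, rfl⟩
    refine ⟨f v (b 1) * f w (b 0) - f v (b 0) * f w (b 1), LinearMap.ext fun z => ?_⟩
    obtain ⟨v1, v2, v3, v4, rfl⟩ := hd v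
    obtain ⟨w1, w2, w3, w4, rfl⟩ := hd w
    obtain ⟨z1, z2, z3, z4, rfl⟩ := hd z
    simp only [LinearMap.add_apply, LinearMap.sub_apply, End.mul_apply, H27.ro_apply, map_add,
      map_sub, map_smul, LinearMap.smul_apply, End.one_apply, h.ee, h.ff, hab, hba,
      smul_eq_mul] at hvw ⊢
    simp only [Fin.isValue, ↓reduceIte, zero_ne_one, one_ne_zero] at hvw ⊢
    match_scalars
    · linear_combination -z3 * hvw
    · linear_combination z1 * hvw
    · ring
    · ring
  · intro x hx
    induction hx using Submodule.span_induction with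
    | mem x hx =>
      rcases hx with rfl | ⟨v, w, -, rfl⟩
      · exact hfa.self_eq_zero
      · intro z
        simp only [LinearMap.sub_apply, H27.ro_apply, map_smul, map_sub, LinearMap.smul_apply,
          smul_eq_mul, ← hfa.neg_eq z v, ← hfa.neg_eq z w]
        ring
    | zero => simp
    | add x y _ _ hx hy => exact fun v => by simp [hx, hy]
    | smul c x _ hx => exact fun v => by simp [hx]

end Abstract

section Geo

variable {F : Type*} [Field F] [Fintype F] {ι : Type} [Fintype ι] [DecidableEq ι]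

/-- `Sp_k(q) ≀ S_t` is not maximal in `Ω` for `q` even and `k ≤ 4`. -/
theorem omega_nonmax_pow {Q : (ι → F) → F} (hQ : Geo.IsNondegenerateQuadraticForm Q)
    (h5 : 5 ≤ Fintype.card ι) (hq : ¬ Odd (Fintype.card F)) {k t : ℕ} (ht : 2 ≤ t) (hk : k ≤ 4)
    (e : ι ≃ (Fin t → Fin k)) (P : GL ι F) {f₁ : (Fin k → F) → (Fin k → F) → F}
    (hf₁ : Geo.IsSymplecticForm f₁) (hT : Geo.IsTensorPowerFormStructure id (polar Q) f₁ e P)
    (hp : ∀ xs : Fin t → Fin k → F, Q ((P : Matrix ι ι F) *ᵥ
      ((fun a : Fin t → Fin k => ∏ i, xs i (a i)) ∘ e)) = 0) :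
    ∃ K : Subgroup (GL ι F),
      Geo.tensorWreathSubgroup k t e P ⊓ Geo.omegaGL Q < K ∧ K < Geo.omegaGL Q := by
  obtain ⟨Q, hQ', rfl⟩ := exists_quadraticForm_of_geo hQ
  have hd : finrank F (ι → F) = Fintype.card ι := finrank_pi'
  have hn : Fintype.card ι = k ^ t := by rw [Fintype.card_congr e]; simp
  have h2 := two_eq_zero_of_card_even hq
  have hf := H27.geoBilin_nondegenerate hf₁.bilinear hf₁.nondegenerate
  have hfa := H27.geoBilin_isAlt hf₁
  have hev := H27.even_finrank_of_alt hf hfa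
  rw [finrank_pi', Fintype.card_fin] at hev
  obtain ⟨M, a, u, y₀, y₁, hM, halt⟩ : ∃ M a u y₀ y₁, SpinData (H27.geoBilin hf₁.bilinear) M a u y₀ y₁ ∧
      (3 ≤ Fintype.card (Fin t) ∨ ∀ a ∈ M, ∀ x, H27.geoBilin hf₁.bilinear (a x) x = 0) := by
    interval_cases k
    · rw [zero_pow (by omega)] at hn; omega
    · exact absurd hev (by decide)
    · obtain ⟨M, a, u, y₀, y₁, hM⟩ := exists_spinData_two hf hfa h2 (by simp)
      refine ⟨M, a, u, y₀, y₁, hM, Or.inl ?_⟩
      rw [Fintype.card_fin]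
      by_contra h
      obtain rfl : t = 2 := by omega
      omega
    · exact absurd hev (by decide)
    · obtain ⟨M, a, u, y₀, y₁, hM, h⟩ := exists_spinData_four hf hfa h2 (by simp)
      exact ⟨M, a, u, y₀, y₁, hM, Or.inr h⟩
  refine NonMax.geo hQ' (not_isExc_of_finrank (by omega)) (nonMax_pow hQ' h2 hf hfa
    (geoTPow (B := polarBilin Q) hf₁.bilinear hT) (fun u => ?_) hM (by simpa) halt fun g hg => ?_)
  · exact (congrArg Q (H25.frameEquiv_apply e P (H25.pureV u))).trans (hp u)
  · have := geoTPow_pres (B := polarBilin Q) hf₁.bilinear hT hg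
    simpa only [toGL_mulVec] using this

end Geo

end Cfsg.Agent.H30
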