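import Cfsg.Agent.H18.RfSc
import Cfsg.Agent.H29.RfWcg
import Cfsg.Agent.H56.RfRk

/-! Project RF, piece ND: an extremal offender on the code module contains no dodecad class. -/

set_option autoImplicit false

namespace Cfsg.Agent.H30.RfNd

open Cfsg Subgroup Cfsg.Agent.H18.MaxOff Cfsg.Agent.H18.Rf MulAction
open Cfsg.Agent.H48 (IsWord)
open Cfsg.Agent.H42 hiding cj mem_cj card_cj
open Cfsg.Agent.H29.RfWcg (comm_sq card_dod fix_le_64)
open scoped symmDiff Pointwise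

universe u

section Gen

variable {G : Type u} [Group G] [Finite G]

/-- the basic count: `|A| |Y ⊓ A| ≤ |C_A(y)| |Y|` -/
theorem count {A X Y : Subgroup G} (hel : ∀ v ∈ A, v * v = 1) (h : Off A X Y) {y : G}
    (hy : y ∈ Y) (hyA : y ∉ A) :
    Nat.card A * Nat.card ↥(Y ⊓ A) ≤ Nat.card ↥(A ⊓ C1 y) * Nat.card Y := by
  have hcj : ∀ t ∈ A, y * t * y⁻¹ ∈ A := fun t ht => (mem_normalizer_iff.1 (h.yn hy) t).1 ht
  have hc : ∀ t ∈ A, t * y * t⁻¹ * y⁻¹ ∈ A := fun t ht => by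
    have := A.mul_mem ht (hcj _ (A.inv_mem ht))
    simpa [mul_assoc] using this
  have yi : y⁻¹ = y := inv_eq_of_mul_eq_one_right (h.ye y hy)
  let φ : A →* G := MonoidHom.mk' (fun t => (t : G) * y * (t : G)⁻¹ * y⁻¹) (by
    rintro ⟨t, ht⟩ ⟨s, hs⟩
    have e1 := comm_sq hel ht (hc s hs)
    have e2 := comm_sq hel (hc t ht) (hc s hs)
    show t * s * y * (t * s)⁻¹ * y⁻¹ = (t * y * t⁻¹ * y⁻¹) * (s * y * s⁻¹ * y⁻¹)
    rw [e2]
    calc t * s * y * (t * s)⁻¹ * y⁻¹ = (t * (s * y * s⁻¹ * y⁻¹)) * (y * t⁻¹ * y⁻¹) := by group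
      _ = _ := by rw [e1]; group)
  have hK : φ.range ≤ A ⊓ C1 y := by
    rintro _ ⟨⟨t, ht⟩, rfl⟩
    refine ⟨hc t ht, mem_centralizer_singleton_iff.2 ?_⟩
    show t * y * t⁻¹ * y⁻¹ * y = y * (t * y * t⁻¹ * y⁻¹)
    have ti : t⁻¹ = t := inv_eq_of_mul_eq_one_right (hel t ht)
    have e1 := comm_sq hel ht (hcj t ht)
    rw [ti]
    calc t * y * t * y⁻¹ * y = (t * (y * t * y⁻¹)) * y := by group
      _ = y * (t * y * t * y⁻¹) := by rw [e1, yi]; 
                                      calc y * t * y * t * y = y * (t * y * t * y) := by group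
                                        _ = _ := rfl
  have hD : Y ⊓ A ≤ A ⊓ C1 y := fun d hd =>
    ⟨hd.2, mem_centralizer_singleton_iff.2 (comm_sq h.ye hd.1 hy)⟩
  have e1 := ((Y ⊓ A).comap φ).card_mul_index
  rw [index_comap] at e1
  have e2 : (Y ⊓ A).relIndex φ.range ≤ (Y ⊓ A).relIndex (A ⊓ C1 y) :=
    relIndex_le_of_le_right hK index_ne_zero_of_finite
  have e3 := ((Y ⊓ A).subgroupOf (A ⊓ C1 y)).card_mul_index
  rw [Nat.card_congr (subgroupOfEquivOfLe hD).toEquiv] at e3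
  have e4 : Nat.card ((Y ⊓ A).comap φ) ≤ Nat.card Y := by
    rw [← h.card, ← card_map_of_injective A.subtype_injective]
    refine card_le_of_le ?_
    rintro _ ⟨t, ht, rfl⟩
    by_contra hx
    exact hyA (h.inj t t.2 hx y hy ht.1)
  rw [← e1, ← e3]
  calc _ ≤ Nat.card Y * (Y ⊓ A).relIndex (A ⊓ C1 y) * Nat.card ↥(Y ⊓ A) :=
        Nat.mul_le_mul_right _ (Nat.mul_le_mul e4 e2)
    _ = _ := by rw [relIndex]; ring

variable {V : Subgroup G} {ρ : NN V →* M24} {ψ : Finset GolayPt → G}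

omit [Finite G] in
theorem psi_compl (hG : Gol V ρ ψ) {c : Finset GolayPt} (hc : IsWord c) : ψ cᶜ = ψ c := by
  have := hG.add c Finset.univ hc H48.isWord_univ
  rw [(hG.ker _ H48.isWord_univ).2 (Or.inr rfl), mul_one] at this
  rw [← this]
  congr 1
  ext p
  simp [Finset.mem_symmDiff]

omit [Finite G] in
theorem fixw (hS : St V ρ) (hG : Gol V ρ ψ) (n : NN V) {c : Finset GolayPt} (hc : IsWord c)
    (h : (n : G) * ψ c = ψ c * n) : ρ n • c = c ∨ ρ n • c = cᶜ := by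
  have h5 := hG.act n c hc
  have hw : IsWord (ρ n • c) := (msmul_mem_codeSets_iff (ρ n)).2 hc
  have h6 : ψ (ρ n • c) = ψ c := by
    refine h5.symm.trans ?_
    rw [mul_inv_eq_iff_eq_mul]
    exact h
  have h7 := hG.add _ _ hw hc
  rw [h6, hS.el _ (hG.mem c hc), hG.ker _ (hw.symmDiff hc)] at h7
  rcases h7 with e | e
  · exact Or.inl (symmDiff_eq_bot.1 e)
  · right
    rw [← symmDiff_symmDiff_cancel_right c (ρ n • c), e]
    ext p
    simp [Finset.mem_symmDiff]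

omit [Finite G] in
theorem half (hG : Gol V ρ ψ) {B : Subgroup G} (hB : B ≤ V) :
    Nat.card B * 2 ≤ {c | IsWord c ∧ ψ c ∈ B}.ncard := by
  classical
  have h6 : ∀ x : B, ∃ c, IsWord c ∧ ψ c = x.1 := fun x => hG.sur _ (hB x.2)
  choose w hw hw' using h6
  let F : B × Bool → {c | IsWord c ∧ ψ c ∈ B} := fun x =>
    if x.2 then ⟨w x.1, hw _, hw' _ ▸ x.1.2⟩
    else ⟨(w x.1)ᶜ, (hw _).compl, by rw [psi_compl hG (hw _), hw']; exact x.1.2⟩
  have hF : ∀ x, ψ (F x).1 = x.1.1 := by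
    rintro ⟨x, _ | _⟩
    · exact (psi_compl hG (hw x)).trans (hw' x)
    · exact hw' x
  have hne : ∀ c : Finset GolayPt, c ≠ cᶜ := fun c e => by
    have : pt 0 ∈ c ↔ pt 0 ∈ cᶜ := by rw [← e]
    rw [Finset.mem_compl] at this
    tauto
  have h7 := Nat.card_le_card_of_injective F fun x y e => by
    have e1 : x.1 = y.1 := Subtype.ext ((hF x).symm.trans (e ▸ hF y))
    obtain ⟨x, b⟩ := x
    obtain ⟨y, b'⟩ := y
    obtain rfl : x = y := e1
    have e2 := congrArg Subtype.val e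
    cases b <;> cases b'
    · rfl
    · exact absurd e2.symm (hne _)
    · exact absurd e2 (hne _)
    · rfl
  rw [Nat.card_coe_set_eq, Nat.card_prod, Nat.card_eq_fintype_card (α := Bool),
    Fintype.card_bool] at h7
  exact h7

omit [Finite G] in
/-- an involution swapping a word with its complement fixes at most `64` classes -/
theorem swap_le (hS : St V ρ) (hG : Gol V ρ ψ) (n : NN V) (h2 : ρ n * ρ n = 1)
    {c : Finset GolayPt} (hc : IsWord c) (hyc : ρ n • c = cᶜ) :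
    Nat.card ↥(V ⊓ C1 (n : G)) ≤ 64 := by
  have e0 := half hG (B := V ⊓ C1 (n : G)) inf_le_left
  have e1 := fix_le_64 h2 hyc
  have e2 : {d | IsWord d ∧ ψ d ∈ V ⊓ C1 (n : G)} ⊆ {o | o ∈ codeSets ∧ ρ n • o = o} ∪
      (fun o => o ∆ c) '' {o | o ∈ codeSets ∧ ρ n • o = o} := by
    rintro d ⟨hd, hd'⟩
    rcases fixw hS hG n hd (mem_centralizer_singleton_iff.1 hd'.2).symm with e | e
    · exact Or.inl ⟨hd, e⟩
    · refine Or.inr ⟨d ∆ c, ⟨hd.symmDiff hc, ?_⟩, symmDiff_symmDiff_cancel_right _ _⟩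
      rw [msmul_symmDiff, e, hyc, compl_symmDiff_compl]
  have e3 := (Set.ncard_le_ncard e2 (Set.toFinite _)).trans (Set.ncard_union_le _ _)
  have e4 := Set.ncard_image_le (f := fun o => o ∆ c) (s := {o | o ∈ codeSets ∧ ρ n • o = o})
    (Set.toFinite _)
  omega

end Gen

theorem card_le_24 {Y : Subgroup M24} (hY : ∀ y ∈ Y, y * y = 1) {c : Finset GolayPt}
    (hc : c ∈ dodecads) (h2 : ∀ y ∈ Y, y • c = c ∨ y • c = cᶜ) : Nat.card Y ≤ 24 := by
  have e1 := (stabilizer Y c).card_mul_index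
  have e2 : (stabilizer Y c).index ≤ 2 := by
    rw [index_stabilizer]
    refine (Set.ncard_le_ncard (t := {c, cᶜ}) ?_ (Set.toFinite _)).trans
      (Set.ncard_insert_le _ _ |>.trans (by simp))
    rintro _ ⟨w, rfl⟩
    exact h2 w w.2
  have e3 : Nat.card (stabilizer Y c) ≤ 12 := by
    rw [← card_map_of_injective Y.subtype_injective]
    refine card_dod (d := c) ?_ hc ?_
    · rintro _ ⟨w, -, rfl⟩
      exact hY w w.2
    · rintro _ ⟨w, hw, rfl⟩
      exact hw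
  have := Nat.mul_le_mul e3 e2
  omega

theorem nd : NdStmt.{u} := by
  intro G _ _ V ρ ψ hS hG X Y h c hc hcY
  have hw : IsWord c := hc.1
  let f : Y →* M24 := ρ.comp (inclusion h.yn)
  have sq : ∀ x ∈ f.range, x * x = 1 := by
    rintro _ ⟨x, rfl⟩
    rw [← map_mul, show x * x = 1 from Subtype.ext (h.ye x x.2), map_one]
  have fx : ∀ x ∈ f.range, x • c = c ∨ x • c = cᶜ := by
    rintro _ ⟨x, rfl⟩
    exact fixw hS hG ⟨x, h.yn x.2⟩ hw (comm_sq h.ye x.2 hcY)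
  have e1 := f.ker.card_mul_index
  rw [index_ker] at e1
  have e2 : Nat.card f.ker ≤ Nat.card ↥(Y ⊓ V) := by
    rw [← card_map_of_injective Y.subtype_injective]
    refine card_le_of_le ?_
    rintro _ ⟨x, hx, rfl⟩
    exact ⟨x.2, (hS.ker ⟨x, h.yn x.2⟩).1 hx⟩
  have key : ∀ y ∈ Y, y ∉ V → 2048 ≤ Nat.card ↥(V ⊓ C1 y) * Nat.card f.range := by
    intro y hy hyV
    have k := count hS.el h hy hyV
    rw [hS.card, ← e1] at k
    have k2 : 2 ^ 11 * Nat.card ↥(Y ⊓ V) ≤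
        Nat.card ↥(V ⊓ C1 y) * Nat.card f.range * Nat.card ↥(Y ⊓ V) :=
      k.trans (by
        rw [mul_assoc, mul_comm (Nat.card f.range)]
        exact Nat.mul_le_mul_left _ (Nat.mul_le_mul_right _ e2))
    exact Nat.le_of_mul_le_mul_right k2 Nat.card_pos
  by_cases hall : ∀ x ∈ f.range, x • c = c
  · obtain ⟨y, hy, hyV⟩ := SetLike.not_le_iff_exists.1 h.ny
    have k1 := key y hy hyV
    have k2 := card_dod sq hc hall
    have k3 : ¬ 2 ^ 8 ≤ Nat.card ↥(V ⊓ C1 y) := fun e =>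
      hyV (H56.RfRk.rkG G V ρ ψ hS hG y (h.yn hy) e)
    have k4 : Nat.card ↥(V ⊓ C1 y) ∣ 2 ^ 11 := hS.card ▸ card_dvd_of_le inf_le_left
    obtain ⟨i, -, hi⟩ := (Nat.dvd_prime_pow Nat.prime_two).1 k4
    have k5 : Nat.card ↥(V ⊓ C1 y) ≤ 2 ^ 7 := by
      rw [hi] at k3 ⊢
      refine Nat.pow_le_pow_right (by norm_num) ?_
      by_contra hi'
      exact k3 (Nat.pow_le_pow_right (by norm_num) (by omega))
    have := Nat.mul_le_mul k5 k2
    omega
  · push Not at hall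
    obtain ⟨_, ⟨y, rfl⟩, hne⟩ := hall
    have hyc := (fx _ ⟨y, rfl⟩).resolve_left hne
    have hyV : (y : G) ∉ V := fun e => hne (by
      rw [show f y = 1 from (hS.ker ⟨y, h.yn y.2⟩).2 e, one_smul])
    have k1 := key y y.2 hyV
    have k2 := card_le_24 sq hc fx
    have k3 : Nat.card ↥(V ⊓ C1 (y : G)) ≤ 64 :=
      swap_le hS hG ⟨y, h.yn y.2⟩ (sq _ ⟨y, rfl⟩) hw hyc
    have := Nat.mul_le_mul k3 k2
    omega

end Cfsg.Agent.H30.RfNd
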