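import Cfsg.Agent.H30.OrthNonMaxDec
import Cfsg.Agent.H30.OrthMatrix
import Cfsg.Agent.H27.TenGeo

/-!
# Non-maximal stabilisers of tensor decompositions with two factors in `Ω`
-/

set_option autoImplicit false

namespace Cfsg.Agent.H30

open Module QuadraticMap TensorProduct Matrix
open H27 (cL cR tB cL_tmul cR_tmul tB_tmul)

section Two

variable {F U W V : Type*} [Field F] [AddCommGroup U] [Module F U] [AddCommGroup W] [Module F W]
  [AddCommGroup V] [Module F V] {Q : QuadraticForm F V}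
  {f : LinearMap.BilinForm F U} {h : LinearMap.BilinForm F W} {T : U ⊗[F] W ≃ₗ[F] V}

/-- `g` preserves the tensor decomposition `T`. -/
def PresTen (T : U ⊗[F] W ≃ₗ[F] V) (g : O Q) : Prop :=
  ∃ (α : End F U) (β : End F W), ∀ p, g.1 (T p) = T (TensorProduct.map α β p)

theorem exists_sim_left (hT : ∀ p q, polar Q (T p) (T q) = tB f h p q) (hh : h.Nondegenerate)
    [Nontrivial W] {g : O Q} {α : End F U} {β : End F W}
    (hg : ∀ p, g.1 (T p) = T (TensorProduct.map α β p)) :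
    ∃ d : F, ∀ x y, f x y = d * f (α x) (α y) := by
  obtain ⟨w, hw⟩ := exists_ne (0 : W)
  obtain ⟨w', hw'⟩ := H27.exists_apply_eq_one hh hw
  refine ⟨h (β w) (β w'), fun x y => ?_⟩
  have := O_polar g (T (x ⊗ₜ w)) (T (y ⊗ₜ w'))
  rw [hg, hg, hT, hT, map_tmul, map_tmul, tB_tmul, tB_tmul, hw'] at this
  linear_combination -this

theorem PresTen.left_of_fix (hf : f.Nondegenerate) {g : O Q} (hg : PresTen T g) {x₀ : U}
    (hx₀ : x₀ ≠ 0) (hfix : ∀ w, g.1 (T (x₀ ⊗ₜ w)) = T (x₀ ⊗ₜ w)) (x : U) (w : W) :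
    ∃ x', g.1 (T (x ⊗ₜ w)) = T (x' ⊗ₜ w) := by
  obtain ⟨α, β, hg⟩ := hg
  obtain ⟨y, hy⟩ := H27.exists_apply_eq_one hf hx₀
  have h1 : f (α x₀) y • β w = w := by
    have := congrArg (cL f W y) (T.injective ((hg _).symm.trans (hfix w)))
    rwa [map_tmul, cL_tmul, cL_tmul, hy, one_smul] at this
  by_cases hw : w = 0
  · exact ⟨x, by simp [hw]⟩
  have h2 : f (α x₀) y ≠ 0 := fun h0 => hw (by rw [← h1, h0, zero_smul])
  refine ⟨(f (α x₀) y)⁻¹ • α x, ?_⟩
  rw [hg, map_tmul, smul_tmul, (eq_inv_smul_iff₀ h2).2 h1]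

theorem PresTen.right_of_fix (hh : h.Nondegenerate) {g : O Q} (hg : PresTen T g) {w₀ : W}
    (hw₀ : w₀ ≠ 0) (hfix : ∀ x, g.1 (T (x ⊗ₜ w₀)) = T (x ⊗ₜ w₀)) (x : U) (w : W) :
    ∃ w', g.1 (T (x ⊗ₜ w)) = T (x ⊗ₜ w') := by
  obtain ⟨α, β, hg⟩ := hg
  obtain ⟨y, hy⟩ := H27.exists_apply_eq_one hh hw₀
  have h1 : h (β w₀) y • α x = x := by
    have := congrArg (cR h U y) (T.injective ((hg _).symm.trans (hfix x)))
    rwa [map_tmul, cR_tmul, cR_tmul, hy, one_smul] at this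
  by_cases hx : x = 0
  · exact ⟨w, by simp [hx]⟩
  have h2 : h (β w₀) y ≠ 0 := fun h0 => hx (by rw [← h1, h0, zero_smul])
  refine ⟨(h (β w₀) y)⁻¹ • β w, ?_⟩
  rw [hg, map_tmul, ← smul_tmul, (eq_inv_smul_iff₀ h2).2 h1]

variable [FiniteDimensional F U] [FiniteDimensional F W] [FiniteDimensional F V] [Finite F]

/-- `O₃(3) ⊗ O_n(3)` stabilises an orthogonal decomposition into three subspaces. -/
theorem nonMax_ten_three (hQ : (polarBilin Q).Nondegenerate) (h2 : (2 : F) ≠ 0)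
    (hF : ∀ a : F, a ≠ 0 → a * a = 1) {q₁ : QuadraticForm F U} {q₂ : QuadraticForm F W}
    (h₁ : (polarBilin q₁).Nondegenerate) (h₂ : (polarBilin q₂).Nondegenerate)
    (hU : finrank F U = 3) (hW : 3 ≤ finrank F W)
    (hT : ∀ p q, polar Q (T p) (T q) = tB (polarBilin q₁) (polarBilin q₂) p q)
    {H : Subgroup (O Q)} (hH : ∀ g ∈ H, PresTen T g) : NonMax hQ H := by
  have hb : ∀ x y w w', polar Q (T (x ⊗ₜ w)) (T (y ⊗ₜ w')) = polar q₁ x y * polar q₂ w w' :=
    fun x y w w' => by rw [hT, tB_tmul]; rfl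
  have hQp : ∀ x w, q₁ x = 0 ∨ q₂ w = 0 → Q (T (x ⊗ₜ w)) = 0 := fun x w hxw => by
    apply mul_left_cancel₀ h2
    rw [← polar_self', hb, polar_self', polar_self']
    rcases hxw with h0 | h0 <;> simp [h0]
  have : Nontrivial W := Module.nontrivial_of_finrank_pos (R := F) (by omega)
  have hV : 4 ≤ finrank F V := by
    rw [← T.finrank_eq, Module.finrank_tensorProduct, hU]; omega
  obtain ⟨δ, hδ, hδ1, hδ2⟩ := exists_disc_three h₁ hU
  obtain ⟨s, hs0, hs⟩ := exists_singular q₁ hU.ge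
  let N : U → Prop := fun x => ∀ y, y ≠ 0 → q₁ y = 0 → polar q₁ x y ≠ 0
  have hN1 : ∀ x, N x → q₁ x = -δ := fun x hx => by
    have hx0 : x ≠ 0 := fun h0 => hx s hs0 hs (by simp [h0])
    have h3 : q₁ x ≠ 0 := fun h0 => hx x hx0 h0 (by rw [polar_self', h0, mul_zero])
    have h4 : q₁ x ≠ δ := fun h0 => by
      obtain ⟨y, h5, h6, h7⟩ := hδ2 x 1 one_ne_zero (by rw [h0]; ring)
      exact hx y h5 h6 h7
    have : (q₁ x - δ) * (q₁ x + δ) = 0 := by linear_combination hF _ h3 - hF _ hδ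
    exact eq_neg_of_add_eq_zero_left ((mul_eq_zero.1 this).resolve_left (sub_ne_zero.2 h4))
  have hN2 : ∀ x, q₁ x = -δ → N x := fun x hx y h5 h6 h7 => by
    obtain ⟨a, ha⟩ := hδ1 x y h5 h6 h7
    rw [hx] at ha
    by_cases ha0 : a = 0
    · exact hδ (by rw [ha0] at ha; simpa using ha)
    · rw [hF a ha0] at ha
      exact mul_ne_zero h2 hδ (by linear_combination -ha)
  have hN3 : ∀ x y, N x → N y → polar q₁ x y = 0 ∨ y = x ∨ y = -x := fun x y hx hy => by
    by_cases hxy : polar q₁ x y = 0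
    · exact Or.inl hxy
    · refine Or.inr (eq_or_eq_neg_of_polar (hN1 x hx) (hN1 y hy)
        (by rw [hF _ hxy, hF _ (mul_ne_zero h2 (neg_ne_zero.2 hδ))]) fun s h1 h3 => ?_)
      by_contra h0
      exact hx _ h0 h1 h3
  obtain ⟨x₁, hx₁⟩ := exists_Q_eq h₁ (by omega) (-δ)
  have hx₁N := hN2 x₁ hx₁
  have hx₁0 : x₁ ≠ 0 := ne_zero_of_Q_ne_zero (by rw [hx₁]; exact neg_ne_zero.2 hδ)
  have hx11 : polar q₁ x₁ x₁ ≠ 0 := by
    rw [polar_self', hx₁]; exact mul_ne_zero h2 (neg_ne_zero.2 hδ)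
  obtain ⟨u, hu0, hu⟩ := exists_singular q₂ hW
  obtain ⟨u', hu'⟩ := exists_isHyp h₂ hu hu0
  have hd := hu'.finrank_hperp
  obtain ⟨v, hv, hv0⟩ := Submodule.exists_mem_ne_zero_of_ne_bot
    (ne_bot_of_finrank_pos (W := hperp q₂ u u') (by omega))
  refine nonMax_of_set hQ hV {z | ∃ x w, N x ∧ z = T (x ⊗ₜ w)} ?_ ?_ ?_
  · rintro g - hg _ ⟨x, w, hx, rfl⟩
    obtain ⟨α, β, hαβ⟩ := hH g hg
    obtain ⟨d, hd⟩ := exists_sim_left hT h₂ hαβ
    simp only [polarBilin_apply_apply] at hd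
    have hinj : Function.Injective α := by
      rw [← LinearMap.ker_eq_bot, LinearMap.ker_eq_bot']
      exact fun m hm => eq_zero_of_polar h₁ fun y => by rw [hd, hm]; simp
    refine ⟨α x, β w, fun y hy0 hy hxy => ?_, by rw [hαβ, map_tmul]⟩
    obtain ⟨y, rfl⟩ := LinearMap.injective_iff_surjective.1 hinj y
    refine hx y (fun h0 => hy0 (by simp [h0])) ?_ (by rw [hd, hxy, mul_zero])
    apply mul_left_cancel₀ h2
    rw [← polar_self', hd, polar_self', hy]; simp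
  · have e1 : Q (T (x₁ ⊗ₜ u)) = 0 := hQp _ _ (Or.inr hu)
    have e2 : polar Q (T (x₁ ⊗ₜ u)) (T (x₁ ⊗ₜ v)) = 0 := by rw [hb, polar_comm q₂, hv.1, mul_zero]
    have e3 : ∀ x w, polar q₁ x₁ x = 0 →
        (eich Q (T (x₁ ⊗ₜ u)) (T (x₁ ⊗ₜ v))).1 (T (x ⊗ₜ w)) = T (x ⊗ₜ w) := fun x w hx =>
      eich_apply_of_orth (by rw [hb, polar_comm, hx, zero_mul]) (by rw [hb, polar_comm, hx, zero_mul])
    have e4 : ∀ w, ∃ a : F, (eich Q (T (x₁ ⊗ₜ u)) (T (x₁ ⊗ₜ v))).1 (T (x₁ ⊗ₜ w)) =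
        T (x₁ ⊗ₜ (w + (polar q₁ x₁ x₁ * polar q₂ w u) • v + a • u)) := fun w => by
      refine ⟨-(polar q₁ x₁ x₁ * polar q₂ w v) -
        Q (T (x₁ ⊗ₜ v)) * (polar q₁ x₁ x₁ * polar q₂ w u), ?_⟩
      rw [eich_apply e1 e2, hb, hb]
      simp only [tmul_add, tmul_smul, map_add, map_smul]
      module
    refine ⟨_, eich_mem_kerDS hQ (T (x₁ ⊗ₜ u)) (T (x₁ ⊗ₜ v)), ?_, fun hg => ?_⟩
    · rintro _ ⟨x, w, hx, rfl⟩
      rcases hN3 x₁ x hx₁N hx with h0 | rfl | rfl
      · exact ⟨x, w, hx, e3 x w h0⟩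
      · obtain ⟨a, ha⟩ := e4 w
        exact ⟨x, _, hx, ha⟩
      · obtain ⟨a, ha⟩ := e4 (-w)
        exact ⟨x₁, _, hx₁N, by rw [neg_tmul, ← tmul_neg, ha]⟩
    · have hd := finrank_inf_perp_singleton (Q := q₁) ⊤ x₁
      rw [finrank_top] at hd
      obtain ⟨x₂, hx₂, hx₂0⟩ := Submodule.exists_mem_ne_zero_of_ne_bot
        (ne_bot_of_finrank_pos (W := ⊤ ⊓ perp q₁ (F ∙ x₁)) (by omega))
      have hx₂' : polar q₁ x₁ x₂ = 0 :=
        mem_perp.1 hx₂.2 x₁ (Submodule.mem_span_singleton_self x₁)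
      obtain ⟨x', hx'⟩ := (hH _ hg).left_of_fix h₁ hx₂0 (fun w => e3 x₂ w hx₂') x₁ u'
      obtain ⟨a, ha⟩ := e4 u'
      obtain ⟨v', hv', hvv⟩ := (hu'.nondegOn_hperp h₂).exists_polar_eq_one hv hv0
      have h5 := congrArg (fun z => polar Q z (T (x₁ ⊗ₜ v'))) (ha.symm.trans hx')
      simp only [hb, polar_add_left, polar_smul_left', hvv, polar_comm q₂ u v', polar_comm q₂ u' v',
        hv'.1, hv'.2, hu'.pol'] at h5
      exact hx11 (by simpa using h5)
  · refine ⟨_, ⟨x₁, u, hx₁N, rfl⟩, T (s ⊗ₜ u), ?_, ?_, ?_, ?_⟩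
    · rintro ⟨x, w, hx, hxw⟩
      have h5 := congrArg (cL (polarBilin q₁) W s) (T.injective hxw)
      rw [cL_tmul, cL_tmul, polarBilin_apply_apply, polarBilin_apply_apply, polar_self', hs,
        mul_zero, zero_smul] at h5
      have h6 := (smul_eq_zero.1 h5.symm).resolve_left (hx s hs0 hs)
      rw [h6, tmul_zero] at hxw
      exact H27.tmul_ne_zero h₁ hs0 hu0 (T.injective hxw)
    · simpa using H27.tmul_ne_zero h₁ hx₁0 hu0
    · simpa using H27.tmul_ne_zero h₁ hs0 hu0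
    · rw [hQp _ _ (Or.inr hu), hQp _ _ (Or.inr hu)]

omit [FiniteDimensional F U] [FiniteDimensional F W] in
/-- Non-maximality from a set of operators normalised by `H`. -/
theorem nonMax_of_ops (hQ : (polarBilin Q).Nondegenerate) {H : Subgroup (O Q)} (M : Set (End F V))
    (h1 : ∀ g ∈ H, ∀ x ∈ M, ∃ y ∈ M, ∀ v, g.1 (x v) = y (g.1 v))
    (h2 : ∃ g ∈ kerDS hQ, (∀ x ∈ M, ∃ y ∈ M, ∀ v, g.1 (x v) = y (g.1 v)) ∧ g ∉ H)
    (h3 : ∃ g ∈ kerDS hQ, ∃ x ∈ M, ∃ v, ∀ y ∈ M, g.1 (x v) ≠ y (g.1 v)) : NonMax hQ H := by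
  have : Finite (O Q) := finite_O
  let K₀ : Submonoid (O Q) :=
    { carrier := {g | ∀ x ∈ M, ∃ y ∈ M, ∀ v, g.1 (x v) = y (g.1 v)}
      mul_mem' := fun {a b} ha hb x hx => by
        obtain ⟨y, hy, h⟩ := hb x hx
        obtain ⟨z, hz, h'⟩ := ha y hy
        exact ⟨z, hz, fun v => by rw [O_mul_apply, h, h', O_mul_apply]⟩
      one_mem' := fun x hx => ⟨x, hx, fun _ => rfl⟩ }
  let K : Subgroup (O Q) :=
    { K₀ with
      inv_mem' := fun {g} hg => Submonoid.powers_le.2 (show g ∈ K₀ from hg)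
        (mem_powers_iff_mem_zpowers.2 (Subgroup.inv_mem _ (Subgroup.mem_zpowers g))) }
  refine nonMax_of_subgroup hQ K (fun g _ hg => h1 g hg) h2 ?_
  obtain ⟨g, hg, x, hx, v, h⟩ := h3
  refine ⟨g, hg, fun hK => ?_⟩
  obtain ⟨y, hy, h'⟩ := hK x hx
  exact h y hy (h' v)

/-- `Sp₂(2) ⊗ Sp_n(2)` normalises a field of order four. -/
theorem nonMax_ten_two (hQ : (polarBilin Q).Nondegenerate) (hF : IsF2 F) (hf : f.Nondegenerate)
    (hh : h.Nondegenerate) (hfa : f.IsAlt) (hha : h.IsAlt) (hU : finrank F U = 2)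
    (hW : 3 ≤ finrank F W) (hT : ∀ p q, polar Q (T p) (T q) = tB f h p q)
    (hp : ∀ x w, Q (T (x ⊗ₜ w)) = 0) {H : Subgroup (O Q)} (hH : ∀ g ∈ H, PresTen T g) :
    NonMax hQ H := by
  have h2 := hF.two_eq_zero
  have hb : ∀ x y w w', polar Q (T (x ⊗ₜ w)) (T (y ⊗ₜ w')) = f x y * h w w' :=
    fun x y w w' => by rw [hT, tB_tmul]
  have hfs : ∀ a b, f a b = f b a := fun a b => by
    linear_combination hfa.neg_eq b a + f a b * h2
  have hhs : ∀ a b, h a b = h b a := fun a b => by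
    linear_combination hha.neg_eq b a + h a b * h2
  have : Nontrivial W := Module.nontrivial_of_finrank_pos (R := F) (by omega)
  have : Nontrivial U := Module.nontrivial_of_finrank_pos (R := F) (by omega)
  obtain ⟨x, hx⟩ := exists_ne (0 : U)
  obtain ⟨y, hxy⟩ := H27.exists_apply_eq_one hf hx
  have hyx : f y x = 1 := by rw [hfs, hxy]
  have hsp : ∀ z, ∃ a b : F, z = a • x + b • y := fun z => by
    have hli : LinearIndependent F ![x, y] := LinearIndependent.pair_iff.2 fun a b hab => by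
      have h3 := congrArg (f · y) hab
      have h4 := congrArg (f · x) hab
      simp only [map_add, map_smul, LinearMap.add_apply, LinearMap.smul_apply, hxy, hyx, hfa.self_eq_zero,
        smul_eq_mul, map_zero, LinearMap.zero_apply] at h3 h4
      exact ⟨by linear_combination h3, by linear_combination h4⟩
    have := hli.span_eq_top_of_card_eq_finrank' (by simp [hU])
    obtain ⟨c, hc⟩ := (Submodule.mem_span_range_iff_exists_fun F).1 (this.ge (Submodule.mem_top (x := z)))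
    exact ⟨c 0, c 1, by rw [← hc, Fin.sum_univ_two]; rfl⟩
  obtain ⟨w, hw⟩ := exists_ne (0 : W)
  obtain ⟨w₁, hw₁⟩ := H27.exists_apply_eq_one hh hw
  obtain ⟨w₂, hw₂, hw₂0⟩ := Submodule.exists_mem_ne_zero_of_ne_bot
    (LinearMap.ker_ne_bot_of_finrank_lt (f := (h w).prod (h w₁)) (by simp; omega))
  obtain ⟨e1, e2⟩ : h w w₂ = 0 ∧ h w₁ w₂ = 0 := by simpa using hw₂
  obtain ⟨w₃, e3, e4⟩ : ∃ w₃, h w w₃ = 0 ∧ h w₂ w₃ = 1 := by
    obtain ⟨z, hz⟩ := H27.exists_apply_eq_one hh hw₂0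
    exact ⟨z - h w z • w₁, by simp [hw₁], by simp [hz, hhs w₂ w₁, e2]⟩
  have hxx := hfa.self_eq_zero x
  have hyy := hfa.self_eq_zero y
  have hww := hha.self_eq_zero w
  have hww₂ := hha.self_eq_zero w₂
  let ω : End F U := H27.ro f y y + H27.ro f (x + y) x
  have hωx : ω x = y := by simp [ω, hxy, hxx]
  have hωy : ω y = x + y := by simp [ω, hyx, hyy]
  have hU2 : ∀ z : U, z + z = 0 := fun z => by rw [← two_smul F, h2, zero_smul]
  have hV2 : ∀ z : V, z + z = 0 := fun z => by rw [← two_smul F, h2, zero_smul]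
  have hωω : ∀ z, ω (ω z) + ω z + z = 0 := fun z => by
    obtain ⟨a, b, rfl⟩ := hsp z
    simp only [map_add, map_smul, hωx, hωy]
    linear_combination (norm := module) (a + 2 * b) • hU2 y + (a + b) • hU2 x
  have hωf : ∀ z z', f (ω z) (ω z') = f z z' := fun z z' => by
    obtain ⟨a, b, rfl⟩ := hsp z
    obtain ⟨c, d, rfl⟩ := hsp z'
    simp only [map_add, map_smul, hωx, hωy, LinearMap.add_apply, LinearMap.smul_apply, hxx, hyy,
      hxy, hyx, smul_eq_mul]
    linear_combination (b * d) * h2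
  have hcl : ∀ a : End F U, (∀ z, a (a z) + a z + z = 0) → a = ω ∨ a = ω + 1 := fun a ha => by
    obtain ⟨c, d, hcd⟩ := hsp (a x)
    have hd : d = 1 := hF d fun h0 => by
      have h3 := ha x
      rw [h0, zero_smul, add_zero] at hcd
      rw [hcd, map_smul, hcd] at h3
      by_cases hc : c = 0
      · exact hx (by simpa [hc] using h3)
      · rw [hF c hc, one_smul, one_smul, hU2, zero_add] at h3
        exact hx h3
    have h3 := ha x
    rw [hd, one_smul] at hcd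
    by_cases hc : c = 0
    · left
      rw [hc, zero_smul, zero_add] at hcd
      rw [hcd] at h3
      refine LinearMap.ext fun z => ?_
      obtain ⟨r, s, rfl⟩ := hsp z
      simp only [map_add, map_smul, hωx, hωy, hcd]
      linear_combination (norm := module) s • h3 - s • hU2 x - s • hU2 y
    · right
      rw [hF c hc, one_smul] at hcd
      rw [hcd, map_add, hcd] at h3
      refine LinearMap.ext fun z => ?_
      obtain ⟨r, s, rfl⟩ := hsp z
      simp only [map_add, map_smul, LinearMap.add_apply, Module.End.one_apply, hωx, hωy, hcd]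
      linear_combination (norm := module) s • h3 - (2 * s) • hU2 x - (2 * s) • hU2 y
  let σ : End F V := T.conj (ω.rTensor W)
  have hσ : ∀ p, σ (T p) = T (ω.rTensor W p) := fun p => by simp [σ, LinearEquiv.conj_apply_apply]
  have hσσ : ∀ v, σ (σ v) = σ v + v := fun v => by
    obtain ⟨p, rfl⟩ := T.surjective v
    rw [hσ, hσ, ← map_add]
    congr 1
    induction p using TensorProduct.induction_on with
    | zero => simp
    | add p q hp hq => simp only [map_add, hp, hq]; abel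
    | tmul z s =>
      simp only [LinearMap.rTensor_tmul, ← add_tmul]
      congr 1
      linear_combination (norm := module) hωω z - hU2 (ω z) - hU2 z
  have hσb : ∀ v v', polar Q (σ v) (σ v') = polar Q v v' := fun v v' => by
    obtain ⟨p, rfl⟩ := T.surjective v
    obtain ⟨q, rfl⟩ := T.surjective v'
    rw [hσ, hσ, hT, hT, H27.tB_iso_rTensor hωf]
  refine nonMax_of_ops hQ {s | ∃ a : End F U, (∀ z, a (a z) + a z + z = 0) ∧
    ∀ p, s (T p) = T (a.rTensor W p)} ?_ ?_ ?_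
  · rintro g hg s ⟨a, ha, hs⟩
    obtain ⟨α, β, hαβ⟩ := hH g hg
    obtain ⟨d, hd⟩ := exists_sim_left hT hh hαβ
    have hinj : Function.Injective α := by
      rw [← LinearMap.ker_eq_bot, LinearMap.ker_eq_bot']
      exact fun m hm => hf.1 m fun y => by rw [hd, hm]; simp
    let α' := LinearEquiv.ofInjectiveEndo α hinj
    have hα' : ∀ z, α'.conj a (α z) = α (a z) := fun z => by
      rw [LinearEquiv.conj_apply_apply]
      exact congrArg (fun u => α (a u)) (α'.symm_apply_apply z)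
    refine ⟨T.conj ((α'.conj a).rTensor W), ⟨α'.conj a, fun z => ?_, fun p => by
      simp [LinearEquiv.conj_apply_apply]⟩, fun v => ?_⟩
    · obtain ⟨z, rfl⟩ := LinearMap.injective_iff_surjective.1 hinj z
      rw [hα', hα', ← map_add, ← map_add, ha, map_zero]
    · obtain ⟨p, rfl⟩ := T.surjective v
      rw [hs, hαβ, hαβ, LinearEquiv.conj_apply_apply, T.symm_apply_apply]
      congr 1
      induction p using TensorProduct.induction_on with
      | zero => simp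
      | add p q hp hq => simp only [map_add, hp, hq]
      | tmul z s => simp only [LinearMap.rTensor_tmul, map_tmul, hα']
  · set u := T (x ⊗ₜ w) + T (y ⊗ₜ w₂) with hu
    have hσu : σ u = T (y ⊗ₜ w) + T ((x + y) ⊗ₜ w₂) := by
      rw [hu, map_add, hσ, hσ, LinearMap.rTensor_tmul, LinearMap.rTensor_tmul, hωx, hωy]
    have a1 : Q u = 0 := by rw [hu, Q_add, hp, hp, hb, e1]; simp
    have a2 : Q (σ u) = 0 := by rw [hσu, Q_add, hp, hp, hb, e1]; simp
    have a3 : polar Q u (σ u) = 0 := by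
      rw [hσu, hu]
      simp only [polar_add_left, polar_add_right, hb, e1, hww, hww₂, hyy]
      simp
    have a4 : ∀ v, (eich Q u (σ u)).1 (σ v) = σ ((eich Q u (σ u)).1 v) := fun v => by
      have h3 : polar Q (σ v) u = polar Q v u + polar Q v (σ u) := by
        have h4 := hσb v (σ u)
        rw [hσσ, polar_add_right, hσb] at h4
        linear_combination h4 - polar Q v u * h2
      rw [eich_apply a1 a3, eich_apply a1 a3, a2, hσb, h3]
      simp only [map_sub, map_add, map_smul, hσσ, zero_mul, zero_smul, sub_zero]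
      linear_combination (norm := module) polar Q v (σ u) • hV2 (σ u) - polar Q v u • hV2 u
    refine ⟨_, eich_mem_kerDS hQ u (σ u), ?_, fun hg => ?_⟩
    · rintro s ⟨a, ha, hs⟩
      refine ⟨s, ⟨a, ha, hs⟩, fun v => ?_⟩
      rcases hcl a ha with rfl | rfl
      · have : ∀ v, s v = σ v := fun v => by
          obtain ⟨p, rfl⟩ := T.surjective v
          rw [hs, hσ]
        rw [this, this, a4]
      · have : ∀ v, s v = σ v + v := fun v => by
          obtain ⟨p, rfl⟩ := T.surjective v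
          rw [hs, hσ, LinearMap.rTensor_add, LinearMap.add_apply, map_add]
          simp [Module.End.one_eq_id]
        rw [this, this, map_add, a4]
    · obtain ⟨w', hw'⟩ := (hH _ hg).right_of_fix hh hw (fun z => eich_apply_of_orth
        (by simp [hu, polar_add_right, hb, e1, hww]) (by simp [hσu, polar_add_right, hb, e1, hww])) x w₁
      rw [eich_apply a1 a3, a2, hσu, hu] at hw'
      have h3 := congrArg (fun z => polar Q z (T (x ⊗ₜ w₃))) hw'
      simp only [polar_add_left, polar_add_right, polar_sub_left, polar_smul_left', hb, hxx, hxy,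
        hyx, e2, e3, e4, hhs w₁ w, hw₁] at h3
      simp at h3
  · have a1 : polar Q (T (x ⊗ₜ w₁)) (T (x ⊗ₜ w₂)) = 0 := by rw [hb, hxx, zero_mul]
    refine ⟨_, eich_mem_kerDS hQ (T (x ⊗ₜ w₁)) (T (x ⊗ₜ w₂)), σ, ⟨ω, hωω, hσ⟩, T (x ⊗ₜ w), ?_⟩
    rintro s ⟨a, -, hs⟩ h3
    rw [eich_apply_of_orth (x := T (x ⊗ₜ w)) (by rw [hb, hxx, zero_mul]) (by rw [hb, hxx, zero_mul]),
      hs, hσ, LinearMap.rTensor_tmul, LinearMap.rTensor_tmul, hωx, eich_apply (hp _ _) a1] at h3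
    have h4 := congrArg (fun z => polar Q z (T (y ⊗ₜ w₃))) h3
    simp only [polar_add_left, polar_sub_left, polar_smul_left', hb, hp, hxy, hyx, hyy, e1, e3, e4,
      hw₁] at h4
    simp at h4

end Two

section Geo

variable {F : Type*} [Field F] [Fintype F] {ι : Type} [Fintype ι] [DecidableEq ι]

omit [Fintype F] in
theorem presTen_of_mem [Nonempty ι] {Q : QuadraticForm F (ι → F)} {a b : ℕ}
    {e : ι ≃ Fin a × Fin b} {P : GL ι F} {g : O Q}
    (hg : g ∈ (Geo.tensorProductSubgroup a b e P).comap (toGL Q)) :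
    PresTen (H27.tenFrame e P) g := by
  obtain ⟨α, β, h⟩ := (H27.mem_tensorProductSubgroup_iff e P _).1 hg
  exact ⟨α, β, fun p => by rw [← h, toGL_mulVec]⟩

omit [Fintype F] [Fintype ι] [DecidableEq ι] in
theorem nondegenerate_smul {B : LinearMap.BilinForm F (ι → F)} (hB : B.Nondegenerate) {c : F}
    (hc : c ≠ 0) : (c • B).Nondegenerate :=
  ⟨fun x hx => hB.1 x fun y => by simpa [hc] using hx y,
    fun x hx => hB.2 x fun y => by simpa [hc] using hx y⟩

/-- `O₃(3) ⊗ O_n(3)` is not maximal. -/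
theorem omega_nonmax_ten_three {Q : (ι → F) → F} (hQ : Geo.IsNondegenerateQuadraticForm Q)
    (hq : Fintype.card F = 3) {n₂ : ℕ} (h3 : 3 ≤ n₂) (e : ι ≃ Fin 3 × Fin n₂) (P : GL ι F)
    {f₁ : (Fin 3 → F) → (Fin 3 → F) → F} {f₂ : (Fin n₂ → F) → (Fin n₂ → F) → F}
    (hf₁ : Geo.IsSymmetricForm f₁) (hf₂ : Geo.IsSymmetricForm f₂)
    (hT : Geo.IsTensorFormStructure id (polar Q) f₁ f₂ e P) :
    ∃ K : Subgroup (GL ι F),
      Geo.tensorProductSubgroup 3 n₂ e P ⊓ Geo.omegaGL Q < K ∧ K < Geo.omegaGL Q := by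
  obtain ⟨Q, hQ', rfl⟩ := exists_quadraticForm_of_geo hQ
  have h2 : (2 : F) ≠ 0 := two_ne_zero_of_card_odd (by rw [hq]; decide)
  have : Nonempty ι := ⟨e.symm (0, ⟨0, by omega⟩)⟩
  obtain ⟨c, hc, h⟩ := H27.exists_tenFrame_form hf₁.bilinear hf₂.bilinear hT
  have p1 := H27.polarBilin_halfQ (h := c • H27.geoBilin hf₁.bilinear) h2 fun x y => by
    simp [H27.geoBilin_apply, hf₁.symm x y]
  have p2 := H27.polarBilin_halfQ (h := H27.geoBilin hf₂.bilinear) h2 hf₂.symm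
  exact NonMax.geo hQ' (not_isExc_of_two h2) (nonMax_ten_three hQ' h2
    (fun a => mul_self_eq_one_of_card_le_three hq.le)
    (p1.symm ▸ nondegenerate_smul (H27.geoBilin_nondegenerate _ hf₁.nondegenerate) hc)
    (p2.symm ▸ H27.geoBilin_nondegenerate _ hf₂.nondegenerate) (by simp) (by simpa)
    (by rw [p1, p2]; exact h) fun g => presTen_of_mem)

/-- `Sp₂(2) ⊗ Sp_n(2)` is not maximal. -/
theorem omega_nonmax_ten_two {Q : (ι → F) → F} (hQ : Geo.IsNondegenerateQuadraticForm Q)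
    (hq : Fintype.card F = 2) {n₂ : ℕ} (h3 : 3 ≤ n₂) (e : ι ≃ Fin 2 × Fin n₂) (P : GL ι F)
    {f₁ : (Fin 2 → F) → (Fin 2 → F) → F} {f₂ : (Fin n₂ → F) → (Fin n₂ → F) → F}
    (hf₁ : Geo.IsSymplecticForm f₁) (hf₂ : Geo.IsSymplecticForm f₂)
    (hT : Geo.IsTensorFormStructure id (polar Q) f₁ f₂ e P)
    (hp : ∀ (x₁ : Fin 2 → F) (x₂ : Fin n₂ → F), Q ((P : Matrix ι ι F) *ᵥ
      ((fun a : Fin 2 × Fin n₂ => x₁ a.1 * x₂ a.2) ∘ e)) = 0) :
    ∃ K : Subgroup (GL ι F),
      Geo.tensorProductSubgroup 2 n₂ e P ⊓ Geo.omegaGL Q < K ∧ K < Geo.omegaGL Q := by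
  obtain ⟨Q, hQ', rfl⟩ := exists_quadraticForm_of_geo hQ
  have : Nonempty ι := ⟨e.symm (0, ⟨0, by omega⟩)⟩
  obtain ⟨c, hc, h⟩ := H27.exists_tenFrame_form hf₁.bilinear hf₂.bilinear hT
  have hd : finrank F (ι → F) = 2 * n₂ := by rw [finrank_pi', Fintype.card_congr e]; simp
  refine NonMax.geo hQ' (not_isExc_of_finrank (by omega)) (nonMax_ten_two hQ' (isF2_iff_card.2 hq)
    (nondegenerate_smul (H27.geoBilin_nondegenerate _ hf₁.nondegenerate) hc)
    (H27.geoBilin_nondegenerate _ hf₂.nondegenerate) (fun x => ?_) (H27.geoBilin_isAlt hf₂)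
    (by simp) (by simpa) h (fun x w => ?_) fun g => presTen_of_mem)
  · simp [H27.geoBilin_apply, hf₁.alternating]
  · simp only [H27.tenFrame, LinearEquiv.trans_apply, H27.tenEquiv_tmul, H25.frameEquiv_apply]
    exact hp x w

end Geo

end Cfsg.Agent.H30
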