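import Cfsg.Agent.H30.U4Sub
import Cfsg.Agent.H30.DecTwo
import Cfsg.Agent.H26.PC1Low

/-!
# Orthogonal subfield subgroups of `SU₄(q)`, `q ≥ 5` odd
-/

set_option autoImplicit false
set_option linter.unusedSectionVars false

namespace Cfsg.Agent.H30

open Module QuadraticMap Cfsg.Agent.H26 Cfsg.Agent.H26.PForm

section Gram

variable {K V₀ : Type*} [Field K] [AddCommGroup V₀] [Module K V₀] [FiniteDimensional K V₀]
  {Q : QuadraticForm K V₀} {x y : V₀} (h : polar Q x y * polar Q x y ≠ 4 * Q x * Q y)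
include h

theorem comb_eq_zero_of_gram {s t : K} (h1 : polar Q (s • x + t • y) x = 0)
    (h2 : polar Q (s • x + t • y) y = 0) : s = 0 ∧ t = 0 := by
  rw [polar_add_left, polar_smul_left', polar_smul_left', polar_self'] at h1 h2
  rw [polar_comm Q y x] at h1
  have h3 := sub_ne_zero.2 h
  exact ⟨(mul_eq_zero.1 (show (_ - _) * s = 0 by
      linear_combination polar Q x y * h2 - 2 * Q y * h1)).resolve_left h3,
    (mul_eq_zero.1 (show (_ - _) * t = 0 by
      linear_combination polar Q x y * h1 - 2 * Q x * h2)).resolve_left h3⟩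

theorem linearIndependent_of_gram : LinearIndependent K ![x, y] :=
  LinearIndependent.pair_iff.2 fun _ _ h0 =>
    comb_eq_zero_of_gram h (by rw [h0, polar_zero_left]) (by rw [h0, polar_zero_left])

theorem plane_of_gram (hQ : (polarBilin Q).Nondegenerate) (h4 : finrank K V₀ = 4) :
    NondegOn Q (hperp Q x y) ∧ finrank K (hperp Q x y) = 2 := by
  have h1 : hperp Q x y = H30.perp Q (Submodule.span K {x, y}) := by
    ext v
    rw [H30.mem_perp_span]
    simp [hperp, polar_comm Q v]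
  have h2 := finrank_span_eq_card (linearIndependent_of_gram h)
  rw [Matrix.range_cons_cons_empty, Fintype.card_fin] at h2
  have h3 := finrank_add_finrank_perp hQ (Submodule.span K {x, y})
  rw [h1]
  refine ⟨NondegOn.perp hQ fun v hv hv' => ?_, by omega⟩
  obtain ⟨s, t, rfl⟩ := Submodule.mem_span_pair.1 hv
  obtain ⟨rfl, rfl⟩ := comb_eq_zero_of_gram h (hv' x (Submodule.subset_span (by simp)))
    (hv' y (Submodule.subset_span (by simp)))
  simp

end Gram

/-- In dimension four, three singular vectors orthogonal to a non-zero singular vector are not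
pairwise non-orthogonal. -/
theorem not_three_sing {K V₀ : Type*} [Field K] [AddCommGroup V₀] [Module K V₀]
    [FiniteDimensional K V₀] {Q : QuadraticForm K V₀} (hQ : (polarBilin Q).Nondegenerate)
    (h4 : finrank K V₀ = 4) {u a b c : V₀} (hu0 : u ≠ 0) (hu : Q u = 0) (ha : Q a = 0)
    (hb : Q b = 0) (hc : Q c = 0) (hau : polar Q a u = 0) (hbu : polar Q b u = 0)
    (hcu : polar Q c u = 0) (hab : polar Q a b ≠ 0) (hac : polar Q a c ≠ 0)
    (hbc : polar Q b c ≠ 0) : False := by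
  obtain ⟨h1, h2⟩ := plane_of_gram (x := a) (y := b) (by simpa [ha] using hab) hQ h4
  refine hu0 (h1.eq_zero_of_plane h2 (x := polar Q a b • c - polar Q b c • a - polar Q a c • b)
    ⟨?_, ?_⟩ ?_ ⟨by rwa [polar_comm], by rwa [polar_comm]⟩ hu ?_)
  all_goals simp only [Q_sub, Q_smul, polar_sub_left, polar_smul_left', polar_smul_right',
    polar_self', ha, hb, hc, hau, hbu, hcu, polar_comm Q c, polar_comm Q b a]
  · ring
  · ring
  · convert neg_ne_zero.2 (mul_ne_zero hab (mul_ne_zero hac hbc)) using 1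
    ring
  · ring

variable {K F : Type*} [Field K] [Field F] [Algebra K F] {V₀ V : Type*} [AddCommGroup V₀]
  [Module K V₀] [AddCommGroup V] [Module F V] [Module K V] [IsScalarTower K F V]
  {P : PForm F V} {j : V₀ →ₗ[K] V} {M : Subgroup (V ≃ₗ[F] V)}
  [FiniteDimensional K V₀] [Finite V]

theorem ei_of_eq {e y y' : V} {ν : F} (h : P.Ei M e y ν) (h' : y = y') : ∃ ν, P.Ei M e y' ν :=
  ⟨ν, h' ▸ h⟩

section Rat

variable {P₀ : PForm K V₀} (R : PForm.Rat P₀ P j)
include R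

theorem exists_lift (A₀ : V₀ →ₗ[K] V₀) : ∃ A : V →ₗ[F] V, (∀ x, A (j x) = j (A₀ x)) ∧
    LinearMap.det A = algebraMap K F (LinearMap.det A₀) := by
  classical
  have h1 : ∀ x, R.basis.constr F (fun i => j (A₀ (finBasis K V₀ i))) (j x) = j (A₀ x) := fun x => by
    rw [← (finBasis K V₀).sum_repr x]
    simp only [map_sum]
    refine Finset.sum_congr rfl fun i _ => ?_
    rw [A₀.map_smul, j_smul (F := F) j, j_smul (F := F) j, map_smul, ← R.basis_apply,
      Basis.constr_basis]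
  refine ⟨_, h1, ?_⟩
  rw [← LinearMap.det_toMatrix R.basis, ← LinearMap.det_toMatrix (finBasis K V₀), RingHom.map_det]
  congr 1
  ext i k
  rw [LinearMap.toMatrix_apply, R.basis_apply, h1, ← (finBasis K V₀).sum_repr (A₀ _), map_sum]
  simp [-algebraMap_smul, j_smul (F := F), ← R.basis_apply, Finsupp.single_apply,
    LinearMap.toMatrix_apply]

theorem mem_range_of_smul {x y : V₀} (hx : x ≠ 0) {c : F} (h : j y = c • j x) :
    c ∈ Set.range (algebraMap K F) := by
  obtain ⟨z, hz⟩ := P₀.exists_f_right_eq hx 1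
  exact ⟨P₀.f y z, by rw [← R.f_alg, h, P.f_smul_left, R.f_alg, hz, map_one, mul_one]⟩

theorem rat_of_fix {g : V ≃ₗ[F] V} (hg : g ∈ ratNorm F j) {u : V₀} (hu : u ≠ 0)
    (h : g (j u) = j u) (x : V₀) : ∃ y, j y = g (j x) := by
  obtain ⟨c, hc0, hc⟩ := exists_of_mem_ratNorm hg
  obtain ⟨w, hw⟩ := hc u
  obtain ⟨c, rfl⟩ := mem_range_of_smul R hu (h ▸ hw)
  obtain ⟨y, hy⟩ := hc x
  exact ⟨c⁻¹ • y, by rw [j_smul (F := F), hy, smul_smul, map_inv₀, inv_mul_cancel₀ hc0, one_smul]⟩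

/-- The ratio of two eigenvalues of an element of the subfield group on a rational flag. -/
theorem ratio_mem {g : V ≃ₗ[F] V} (hg : g ∈ ratNorm F j) {u w : V₀} (hu : u ≠ 0) (hw : w ∉ K ∙ u)
    {a b c : F} (h : g (j u) = a • j u) (h' : g (j w) = b • j w + c • j u) :
    ∃ k : K, b = algebraMap K F k * a := by
  obtain ⟨d, hd0, hd⟩ := exists_of_mem_ratNorm hg
  obtain ⟨u', hu'⟩ := hd u
  obtain ⟨w', hw'⟩ := hd w
  rw [h, smul_smul] at hu'
  obtain ⟨k, hk⟩ := mem_range_of_smul R hu hu'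
  obtain ⟨z, hz, h1⟩ := P₀.exists_perp_f_right hw 1
  have h2 := congrArg (P.f · (j z)) hw'
  simp only [h', P.f_smul_left, P.f_add_left, R.f_alg, h1, map_one, map_zero,
    f_symm_zero (mem_perp_span_singleton.1 hz)] at h2
  have ha : a ≠ 0 := by
    rintro rfl
    exact hu (R.j_eq_zero.1 (g.map_eq_zero_iff.1 (by rw [h, zero_smul])))
  refine ⟨P₀.f w' z / k, ?_⟩
  rw [map_div₀, h2, hk]
  field_simp
  ring

end Rat

/-- An overgroup of an orthogonal subfield subgroup of `SU₄(q)`. -/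
structure O8 [Finite K] (Q : QuadraticForm K V₀) (hQ : (polarBilin Q).Nondegenerate) (P : PForm F V)
    (j : V₀ →ₗ[K] V) (M : Subgroup (V ≃ₗ[F] V)) (ρ : F) (r : K) :
    Prop extends PForm.Rat (ofQuad Q hQ) P j where
  uni : Uni P
  four : finrank K V₀ = 4
  two : (2 : K) ≠ 0
  five : 5 ≤ Nat.card K
  fix : ∀ c, P.σ c = c → c ∈ Set.range (algebraMap K F)
  memE : ∀ g : V ≃ₗ[F] V, (∀ x y, P.f (g x) (g y) = P.f x y) →
    LinearMap.det (g : V →ₗ[F] V) = 1 → g ∈ P.E
  σρ : P.σ ρ = -ρ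
  ρ_ne : ρ ≠ 0
  ρ_sq : ρ * ρ = algebraMap K F r
  r_ne : r ≠ -1
  le : ratNorm F j ⊓ P.E ≤ M
  le_E : M ≤ P.E

namespace O8

variable [Finite K] {Q : QuadraticForm K V₀} {hQ : (polarBilin Q).Nondegenerate} {ρ : F} {r : K}
  (C : O8 Q hQ P j M ρ r)
include C

theorem fj (x y : V₀) : P.f (j x) (j y) = algebraMap K F (polar Q x y) := C.f_alg x y

theorem σa (c : K) : P.σ (algebraMap K F c) = algebraMap K F c := C.σ_alg c

theorem two' : (2 : F) ≠ 0 := by
  rw [← map_ofNat (algebraMap K F)]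
  exact (map_ne_zero _).2 C.two

theorem sing {x : V₀} (h : Q x = 0) : P.Sing (j x) := C.toRat.sing_iff.2 h

theorem comp_eq_zero {a b : K} (h : algebraMap K F a + ρ * algebraMap K F b = 0) :
    a = 0 ∧ b = 0 := by
  have h1 := congrArg P.σ h
  rw [map_add, map_mul, C.σa, C.σa, C.σρ, map_zero] at h1
  have h2 : algebraMap K F a = 0 :=
    (mul_eq_zero.1 (by linear_combination h + h1)).resolve_left C.two'
  rw [h2, zero_add, mul_eq_zero, or_iff_right C.ρ_ne] at h
  exact ⟨(map_eq_zero _).1 h2, (map_eq_zero _).1 h⟩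

theorem nonsq {a b : K} (h : a * a = r * (b * b)) : a = 0 ∧ b = 0 := by
  have h1 : (algebraMap K F a + ρ * algebraMap K F b) *
      (algebraMap K F a + ρ * algebraMap K F (-b)) = 0 := by
    have := congrArg (algebraMap K F) h
    simp only [map_mul, map_neg, ← C.ρ_sq] at this ⊢
    linear_combination this
  rcases mul_eq_zero.1 h1 with h2 | h2
  · exact C.comp_eq_zero h2
  · simpa using C.comp_eq_zero h2

theorem r_ne_zero : r ≠ 0 := fun h => C.ρ_ne (mul_self_eq_zero.1 (by rw [C.ρ_sq, h, map_zero]))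

theorem exists_comp (c : F) : ∃ a b : K, c = algebraMap K F a + ρ * algebraMap K F b := by
  have h1 := C.two'
  have h2 := C.ρ_ne
  obtain ⟨a, ha⟩ := C.fix ((c + P.σ c) / 2) (by rw [map_div₀, map_add, P.σσ, map_ofNat, add_comm])
  obtain ⟨b, hb⟩ := C.fix ((c - P.σ c) / (2 * ρ)) (by
    rw [map_div₀, map_sub, map_mul, P.σσ, map_ofNat, C.σρ]; field_simp; ring)
  exact ⟨a, b, by rw [ha, hb]; field_simp; ring⟩

theorem exists_eq (v : V) : ∃ x y, v = j x + ρ • j y := by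
  have hv : v ∈ Submodule.span F (Set.range j) := by rw [C.span]; trivial
  induction hv using Submodule.span_induction with
  | mem v hv => obtain ⟨x, rfl⟩ := hv; exact ⟨x, 0, by simp⟩
  | zero => exact ⟨0, 0, by simp⟩
  | add _ _ _ _ h h' =>
    obtain ⟨x, y, rfl⟩ := h
    obtain ⟨x', y', rfl⟩ := h'
    exact ⟨x + x', y + y', by simp only [map_add]; module⟩
  | smul c _ _ h =>
    obtain ⟨x, y, rfl⟩ := h
    obtain ⟨a, b, rfl⟩ := C.exists_comp c
    refine ⟨a • x + (r * b) • y, b • x + a • y, ?_⟩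
    simp only [map_add, j_smul (F := F), map_mul, ← C.ρ_sq]
    module

theorem f_comb (x y x' y' : V₀) : P.f (j x + ρ • j y) (j x' + ρ • j y') =
    algebraMap K F (polar Q x x' - r * polar Q y y') +
      ρ * algebraMap K F (polar Q y x' - polar Q x y') := by
  simp only [P.f_add_left, f_add_right, P.f_smul_left, f_smul_right, C.fj, C.σρ, map_sub, map_mul,
    ← C.ρ_sq]
  ring

theorem Q_eq_of_sing {x y : V₀} (h : P.f (j x + ρ • j y) (j x + ρ • j y) = 0) : Q x = r * Q y := by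
  rw [C.f_comb, polar_self', polar_self'] at h
  exact mul_left_cancel₀ C.two (by linear_combination (C.comp_eq_zero h).1)

theorem gram {x y : V₀} (h : Q x = r * Q y) (h' : ¬ (polar Q x y = 0 ∧ Q y = 0)) :
    polar Q x y * polar Q x y ≠ 4 * Q x * Q y := fun h1 => by
  have := C.nonsq (a := polar Q x y) (b := 2 * Q y) (by rw [h1, h]; ring)
  exact h' ⟨this.1, (mul_eq_zero.1 this.2).resolve_left C.two⟩

theorem lift (s : O Q) (hs : LinearMap.det (s.1 : V₀ →ₗ[K] V₀) = 1) :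
    ∃ h ∈ ratNorm F j ⊓ P.E, ∀ x, h (j x) = j (s.1 x) := by
  have := C.toRat.finiteDimensional
  obtain ⟨A, h1, h2⟩ := exists_lift C.toRat (s.1 : V₀ →ₗ[K] V₀)
  have h3 : ∀ v w, P.f (A v) (A w) = P.f v w := fun v w => by
    obtain ⟨x, y, rfl⟩ := C.exists_eq v
    obtain ⟨x', y', rfl⟩ := C.exists_eq w
    simp only [map_add, map_smul, h1, C.f_comb, LinearEquiv.coe_coe, O_polar]
  have h4 : Function.Injective A := (injective_iff_map_eq_zero A).2 fun v hv =>
    P.nondeg v fun w => by rw [← h3, hv, f_zero_right]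
  refine ⟨LinearEquiv.ofInjectiveEndo A h4, ⟨mem_ratNorm_of one_ne_zero fun x =>
    ⟨_, by rw [one_smul]; exact (h1 x).symm⟩, C.memE _ h3 ?_⟩, h1⟩
  rw [hs, map_one] at h2
  exact h2

theorem lift' (s : O Q) {z : V₀} (hz : Q z ≠ 0) :
    ∃ h ∈ ratNorm F j ⊓ P.E, ∀ x, polar Q x z = 0 → h (j x) = j (s.1 x) := by
  rcases det_eq_one_or_neg_one hQ s with h1 | h1
  · obtain ⟨h, hh, h2⟩ := C.lift s h1
    exact ⟨h, hh, fun x _ => h2 x⟩
  · obtain ⟨h, hh, h2⟩ := C.lift (s * refl Q z) (by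
      rw [Subgroup.coe_mul, LinearEquiv.coe_toLinearMap_mul, map_mul, h1, det_refl hz]; ring)
    exact ⟨h, hh, fun x hx => by rw [h2, O_mul_apply, refl_apply_of_orth hx]⟩

theorem le_isom : M ≤ P.isom := C.le_E.trans E_le_isom

theorem ρ_mem (c : K) : ρ * algebraMap K F c ∈ P.Λ :=
  (C.uni.Λ _).2 (by rw [map_mul, C.σρ, C.σa]; ring)

theorem ei {e y : V₀} (he : Q e = 0) (hy : polar Q y e = 0) :
    P.Ei M (j e) (j y) (algebraMap K F (Q y)) :=
  C.toRat.ei C.le (EV.of_h (P := ofQuad Q hQ) he hy)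

/-- One non-trivial transvection with a rational centre gives all of them. -/
theorem tv_all {u : V₀} (hu0 : u ≠ 0) {ν₀ : F} (h0 : ν₀ ≠ 0) (h : P.Ei M (j u) 0 ν₀) {e : V₀}
    (he : Q e = 0) (he0 : e ≠ 0) {ν : F} (hν : ν ∈ P.Λ) : P.Ei M (j e) 0 ν := by
  have R := C.toRat
  let S : AddSubgroup F :=
    { carrier := {ν | ZZ (ofQuad Q hQ) P j M ν}
      add_mem' := fun ha hb e he he0 => (ha e he he0).add_zero (hb e he he0)
      zero_mem' := fun e he _ => Ei.zero (R.sing_iff.2 he)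
      neg_mem' := fun ha e he he0 => (ha e he he0).neg_zero }
  have h1 : ν₀ ∈ S := fun e' he' he0' => by
    refine (quad_W2' hQ (W := ⊥) (inf_bot_eq _) (by rw [finrank_perp_bot', C.four])).trans
      (p := fun z => P.Ei M (j z) 0 ν₀) ?_ (by rw [PForm.perp_bot]; trivial)
      (by rw [PForm.perp_bot]; trivial) (by simpa using hu0) (by simpa using he0')
      (R.sing_iff.1 h.ev.sing) he' h
    intro a b μ hv _ _ z hz
    have := (R.ei C.le hv).conj_ei hz
    rwa [map_zero, R.eich_j] at this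
  obtain ⟨m, hm⟩ := C.fix (ν / ν₀) (by
    rw [map_div₀, C.uni.σ_of_mem hν, C.uni.σ_of_mem h.ev.mem_Λ, neg_div_neg_eq])
  have h2 := smul_mem_of_sq (F := K) (S := S) (fun a x hx e he he0 => ?_) m h1 e he he0
  · rwa [Algebra.smul_def, hm, div_mul_cancel₀ _ h0] at h2
  by_cases ha : a = 0
  · simpa [ha] using Ei.zero (R.sing_iff.2 he)
  have h2 := hx (a • e) (he.smul a) (smul_ne_zero ha he0)
  rw [j_smul (F := F)] at h2
  simpa [C.σa, Algebra.smul_def] using h2.smul_left _ (R.sing_iff.2 he)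

theorem full (h : ∀ e, Q e = 0 → e ≠ 0 → ∀ ν ∈ P.Λ, P.Ei M (j e) 0 ν) {a b : V₀}
    (hab : IsHyp Q a b) : P.Full M (j a) := by
  have R := C.toRat
  have hba : polar Q b a = 1 := by rw [polar_comm, hab.pol]
  have haa : polar Q a a = 0 := by rw [polar_self', hab.left, mul_zero]
  have hbb : polar Q b b = 0 := by rw [polar_self', hab.right, mul_zero]
  have ha0 : a ≠ 0 := by rintro rfl; simp at hba
  have hb0 : b ≠ 0 := by rintro rfl; simp at hba
  obtain ⟨hN, hN2⟩ := plane_of_gram (Q := Q) (x := a) (y := b) (by simp [hab.pol, hab.left]) hQ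
    C.four
  obtain ⟨y, hy, hQy⟩ := hN.exists_Q_eq hN2.ge r
  obtain ⟨z, hz, hQz, hn⟩ : ∃ z ∈ hperp Q a b, Q z = 1 ∧ polar Q y z - r - 1 ≠ 0 := by
    obtain ⟨z, hz, hQz⟩ := hN.exists_Q_eq hN2.ge 1
    by_cases h1 : polar Q y z - r - 1 = 0
    · refine ⟨-z, neg_mem hz, by rwa [QuadraticMap.map_neg], fun h2 => C.r_ne ?_⟩
      rw [polar_neg_right] at h2
      exact mul_left_cancel₀ C.two (by linear_combination -h1 - h2)
    · exact ⟨z, hz, hQz, h1⟩
  obtain ⟨hya, hyb⟩ := hy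
  obtain ⟨hza, hzb⟩ := hz
  have hg := C.gram (x := y) (y := z) (by rw [hQy, hQz, mul_one]) (by simp [hQz])
  have hc : Q (a + y - r • b) = 0 := by
    simp [Q_sub, Q_add, Q_smul, polar_comm Q a y, hya, hyb, hab.pol, hab.left, hab.right, hQy]
  have hd : Q (a + z - b) = 0 := by
    simp [Q_sub, Q_add, polar_comm Q a z, hza, hzb, hab.pol, hab.left, hab.right, hQz]
  have hcd : polar Q (a + y - r • b) (a + z - b) = polar Q y z - r - 1 := by
    simp [polar_comm Q a z, polar_comm Q b z, hya, hyb, hza, hzb, hab.pol, haa, hbb, hba]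
    ring
  have hw : ∀ ν ∈ P.Λ, P.Ei M ((1 + ρ) • j a + (j y + ρ • j z)) 0 ν := fun ν hν => by
    have h1 := (h b hab.right hb0 _ (C.ρ_mem (-1))).conj_ei
      ((h _ hd (by rintro h; simp [h] at hcd; exact hn hcd.symm) _
        (C.ρ_mem (-(polar Q y z - r - 1)⁻¹))).conj_ei
      (h _ hc (by rintro h; simp [h] at hcd; exact hn hcd.symm) ν hν))
    rw [map_zero, map_zero] at h1
    convert h1 using 1
    rw [eich_zero_apply, eich_zero_apply, C.fj, hcd, C.uni.ε, mul_assoc ρ, ← map_mul,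
      neg_mul, inv_mul_cancel₀ hn, f_sub_left, P.f_smul_left, C.fj, C.fj]
    simp [-algebraMap_smul, j_smul (F := F), hyb, hzb, hab.pol, hbb, ← C.ρ_sq]
    module
  have hs := C.sing hab.left
  have h1 : ∀ x, polar Q x a = 0 →
      ∃ ν, P.Ei M (j a) (ρ • j (polar Q x y • y - (r * polar Q x z) • z)) ν := fun x hx => by
    obtain ⟨_, h1⟩ := (C.ei hab.left hx).diff (hw _ (C.ρ_mem (-1))) (by
      simp [f_add_right, f_smul_right, C.fj, haa, polar_comm Q a, hya, hza]) (P.f_zero_right _)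
    have h2 := (h1.add (C.ei hab.left (y := (r * polar Q x z) • y - (r * polar Q x y) • z)
      (by simp [hya, hza]))).add_smul_self
      (-((1 + ρ) * ρ * (algebraMap K F (polar Q x y) - ρ * algebraMap K F (polar Q x z))))
    refine ei_of_eq h2 ?_
    simp [-algebraMap_smul, j_smul (F := F), f_add_right, f_smul_right, f_zero_right, C.fj, hx, C.σρ,
      C.uni.ε, ← C.ρ_sq]
    module
  have h2 : ∀ x, polar Q x a = 0 → ∃ ν, P.Ei M (j a) (ρ • j x) ν := fun x hx => by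
    obtain ⟨s, t, h2⟩ := exists_comb_of_notMem hN2 (a := y) (b := z) ⟨hya, hyb⟩ ⟨hza, hzb⟩
      (by rintro rfl; simp at hg) (by rintro t rfl; simp [Q_smul] at hg; exact hg (by ring))
      (z := x - polar Q x b • a) ⟨by simp [hx, haa], by simp [hab.pol]⟩
    obtain ⟨x', h3, h4, h5⟩ : ∃ x', polar Q x' a = 0 ∧ polar Q x' y = s ∧ r * polar Q x' z = -t := by
      have h4 := C.r_ne_zero
      obtain ⟨d, h3⟩ : ∃ d, d * (polar Q y z * polar Q y z - 4 * r) = 1 :=
        ⟨_, inv_mul_cancel₀ (by simpa [hQy, hQz] using sub_ne_zero.2 hg)⟩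
      refine ⟨d • (s • (polar Q y z • z - (2 : K) • y) -
        (t / r) • (polar Q y z • y - (2 * r) • z)), by simp [hya, hza], ?_, ?_⟩
      all_goals simp only [polar_smul_left', polar_sub_left, polar_self', polar_comm Q z y, hQy, hQz]
      · linear_combination s * h3
      · field_simp
        linear_combination -t * h3
    obtain ⟨_, h6⟩ := h1 x' h3
    refine ei_of_eq (h6.add_smul_self (ρ * algebraMap K F (polar Q x b))) ?_
    rw [mul_smul ρ, ← j_smul, ← smul_add, ← map_add, h4, h5, neg_smul, sub_neg_eq_add, h2,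
      sub_add_cancel]
  refine ⟨hs, fun y ν hv => ?_⟩
  obtain ⟨ν', h3⟩ := ei_of_forall_smul R (M := M) hab.left ha0 (fun c x hx => by
    obtain ⟨c₀, c₁, rfl⟩ := C.exists_comp c
    obtain ⟨_, h3⟩ := h2 (c₁ • x) (by rw [polar_smul_left', show polar Q x a = 0 from hx, mul_zero])
    exact ei_of_eq ((C.ei hab.left (y := c₀ • x) (by
      rw [polar_smul_left', show polar Q x a = 0 from hx, mul_zero])).add h3) (by
        simp only [j_smul (F := F)]; module)) hv.orth
  simpa using h3.add_zero (h a hab.left ha0 _ (hv.sub_mem h3.ev))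

theorem E_le {u : V₀} (hu0 : u ≠ 0) {ν : F} (h0 : ν ≠ 0) (h : P.Ei M (j u) 0 ν) : P.E ≤ M := by
  have := C.toRat.finiteDimensional
  obtain ⟨a, b, hab⟩ := exists_isHyp_of_three_le hQ (by rw [C.four]; omega)
  have h1 : ∀ e, Q e = 0 → e ≠ 0 → ∀ ν ∈ P.Λ, P.Ei M (j e) 0 ν :=
    fun e he he0 ν hν => C.tv_all hu0 h0 h he he0 hν
  exact (C.full h1 hab.symm).E_le (C.full h1 hab) (by rw [C.fj, hab.pol, map_one]; exact one_ne_zero)

theorem toC3 (hE : ¬ P.E ≤ M) : C3 (ofQuad Q hQ) P j M :=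
  ⟨C.toRat, C.le, C.le_E, by rw [C.four]; omega, fun e he0 y ν h => by
    have h1 : ∀ ν, P.Ei M (j e) 0 ν → ν = 0 := fun ν h => by_contra fun h0 => hE (C.E_le he0 h0 h)
    refine rat_eich_of C.toRat C.le he0 h (fun a ha => C.fix _ ?_) fun ν h => ⟨0, ?_⟩
    · have := h1 _ (h.comm (C.ei (C.toRat.sing_iff.1 h.ev.sing) ha))
      rw [σ_f, C.uni.ε, one_mul, ← sub_eq_zero.1 this]
    · rw [h1 ν h, map_zero]⟩

variable (hE : ¬ P.E ≤ M) {g : V ≃ₗ[F] V} (hg : g ∈ M) {u : V₀} (hu : Q u = 0) (hu0 : u ≠ 0)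
include hE hg hu hu0

theorem conj_mem {k : V ≃ₗ[F] V} (hk : k ∈ ratNorm F j ⊓ P.E) {c : F}
    (h : k (g (j u)) = c • g (j u)) : g⁻¹ * k * g ∈ ratNorm F j :=
  (C.toC3 hE).mem_of_map (M.mul_mem (M.mul_mem (M.inv_mem hg) (C.le hk)) hg) hu hu0 (c := c)
    (e₂ := u) (by rw [mul_apply', mul_apply', h, map_smul, inv_apply_apply])

theorem conj_rat {k : V ≃ₗ[F] V} (hk : k ∈ ratNorm F j ⊓ P.E) (h : k (g (j u)) = g (j u))
    (x : V₀) : ∃ y, g (j y) = k (g (j x)) := by
  obtain ⟨y, hy⟩ := rat_of_fix C.toRat (C.conj_mem hE hg hu hu0 hk (c := 1) (by rwa [one_smul]))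
    hu0 (by rw [mul_apply', mul_apply', h, inv_apply_apply]) x
  exact ⟨y, by rw [hy, mul_apply', mul_apply', apply_inv_apply]⟩

theorem mem_of_ts {x y : V₀} (h : g (j u) = j x + ρ • j y) (hxy : polar Q x y = 0) (hy : Q y = 0) :
    g ∈ ratNorm F j := by
  have R := C.toRat
  have hgi := C.le_isom hg
  have hx : Q x = 0 := by
    rw [C.Q_eq_of_sing (h ▸ ((C.sing hu).map hgi).f_self), hy, mul_zero]
  by_contra hn
  have h1 : ∀ s t : K, s • x + t • y = 0 → s = 0 ∧ t = 0 := fun s t hst => by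
    by_contra h1
    by_cases hs : s = 0
    · have hy0 : y = 0 := by simpa [hs, show t ≠ 0 by tauto] using hst
      exact hn ((C.toC3 hE).mem_of_map hg hu hu0 (c := 1) (e₂ := x) (by simp [h, hy0]))
    · refine hn ((C.toC3 hE).mem_of_map hg hu hu0 (c := ρ - algebraMap K F (s⁻¹ * t)) (e₂ := y) ?_)
      rw [h, show x = -((s⁻¹ * t) • y) by
        rw [mul_smul, ← smul_neg, eq_inv_smul_iff₀ hs, eq_neg_of_add_eq_zero_left hst], map_neg,
        j_smul (F := F)]
      module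
  have h2 : ∀ s t : F, s • j x + t • j y = 0 → s = 0 ∧ t = 0 := LinearIndependent.pair_iff.1 (by
    rw [show ![j x, j y] = j ∘ ![x, y] by ext i; fin_cases i <;> rfl]
    exact R.linearIndependent (LinearIndependent.pair_iff.2 h1))
  have hr1 : 1 - r ≠ 0 := fun h => one_ne_zero (C.nonsq (a := 1) (b := 1) (by linear_combination h)).1
  obtain ⟨s, hs1, hs2⟩ := witt_two hQ (LinearIndependent.pair_iff.2 h1) (v := x + r • y)
    (v' := x + y) (LinearIndependent.pair_iff.2 fun a b hab => by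
      obtain ⟨h3, h4⟩ := h1 (a + b) (a * r + b) (by rw [← hab]; module)
      have h5 : a = 0 := (mul_eq_zero.1 (by linear_combination h3 - h4)).resolve_left hr1
      exact ⟨h5, by simpa [h5] using h3⟩)
    (by simp [Q_add, Q_smul, hx, hy, hxy]) (by simp [Q_add, hx, hy, hxy])
    (by simp [hx, hy, hxy, polar_comm Q y x])
  obtain ⟨k, hk, hks⟩ := C.lift (s * s) (by
    rw [Subgroup.coe_mul, LinearEquiv.coe_toLinearMap_mul, map_mul, det_sq_eq_one hQ])
  have h3 : k (j x) = (1 + ρ * ρ) • j x + (2 * (ρ * ρ)) • j y := by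
    simp only [hks, O_mul_apply, hs1, hs2, map_add, map_smul, j_smul (F := F) j, ← C.ρ_sq]
    module
  have h4 : k (j y) = (2 : F) • j x + (1 + ρ * ρ) • j y := by
    simp only [hks, O_mul_apply, hs1, hs2, map_add, j_smul (F := F) j, ← C.ρ_sq]
    module
  have h5 : k (g (j u)) = ((1 + ρ) * (1 + ρ)) • g (j u) := by
    rw [h, map_add, map_smul, h3, h4]
    module
  have hv := EV.of_sing (P := ofQuad Q hQ) hx hy (f_symm_zero hxy)
  obtain ⟨v, hv0⟩ := R.exists_f_ne_zero (x := g⁻¹ (j x - ρ • j y)) fun h => by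
    simpa using (h2 1 (-ρ) (by simpa [sub_eq_add_neg] using g⁻¹.map_eq_zero_iff.1 h)).1
  rw [← isom_f_left hgi, f_sub_right, f_smul_right, C.σρ] at hv0
  obtain ⟨w, hw⟩ := C.conj_rat hE hg hu hu0 (R.equiv_mem hv) (by
    rw [EV.equiv_apply, h, eich_apply_of_orth₂] <;>
      simp [P.f_add_left, P.f_smul_left, C.fj, hx, hy, hxy, polar_comm Q y x]) v
  rw [EV.equiv_apply, PForm.eich_apply, map_zero, zero_mul, add_zero, C.uni.ε, one_mul] at hw
  generalize P.f (g (j v)) (j x) = α at hv0 hw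
  generalize P.f (g (j v)) (j y) = β at hv0 hw
  have h6 : g (j (w - v)) = α • j y - β • j x := by rw [map_sub, map_sub, hw]; abel
  obtain ⟨m, hm⟩ := ratio_mem R (C.conj_mem hE hg hu hu0 hk h5) hu0 (w := w - v) (fun h7 => by
      obtain ⟨t, h7⟩ := Submodule.mem_span_singleton.1 h7
      rw [← h7, j_smul (F := F), map_smul, h] at h6
      obtain ⟨h8, h9⟩ := h2 (algebraMap K F t + β) (algebraMap K F t * ρ - α)
        (by linear_combination (norm := module) h6)
      exact hv0 (by linear_combination ρ * h8 - h9))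
    (a := (1 + ρ) * (1 + ρ)) (b := (1 - ρ) * (1 - ρ)) (c := 2 * α - 2 * ρ * β)
    (by rw [mul_apply', mul_apply', h5, map_smul, inv_apply_apply]) (by
      apply g.injective
      rw [mul_apply', mul_apply', apply_inv_apply, map_add, map_smul, map_smul, h6, h, map_sub,
        map_smul, map_smul, h3, h4]
      module)
  obtain ⟨h7, h8⟩ := C.comp_eq_zero (a := (1 - m) * (1 + r)) (b := -(2 * (1 + m))) (by
    simp only [map_mul, map_sub, map_add, map_neg, map_one, map_ofNat, ← C.ρ_sq]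
    linear_combination hm)
  have h9 : m = -1 := mul_left_cancel₀ C.two (by linear_combination -h8)
  exact C.r_ne (mul_left_cancel₀ C.two (by rw [h9] at h7; linear_combination h7))

theorem mem_of_orth {a : V₀} (ha : Q a = 0) (ha0 : a ≠ 0) (h : P.f (g (j u)) (j a) = 0) :
    g ∈ ratNorm F j := by
  have R := C.toRat
  have hgi := C.le_isom hg
  obtain ⟨x, y, hxy⟩ := C.exists_eq (g (j u))
  by_cases h0 : polar Q x y = 0 ∧ Q y = 0
  · exact C.mem_of_ts hE hg hu hu0 hxy h0.1 h0.2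
  obtain ⟨hN, -⟩ := plane_of_gram (C.gram (C.Q_eq_of_sing
    (hxy ▸ ((C.sing hu).map hgi).f_self)) h0) hQ C.four
  have h1 := h
  rw [hxy, P.f_add_left, P.f_smul_left, C.fj, C.fj] at h1
  obtain ⟨d, ⟨hdx, hdy⟩, had⟩ := hN.exists_isHyp (e := a) ⟨by
    rw [polar_comm, (C.comp_eq_zero h1).1], by rw [polar_comm, (C.comp_eq_zero h1).2]⟩ ha ha0
  have h2 : P.f (g (j u)) (j d) = 0 := by
    simp [hxy, P.f_add_left, P.f_smul_left, C.fj, polar_comm Q x, polar_comm Q y, hdx, hdy]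
  obtain ⟨t, ht0, ht⟩ : ∃ t : K, t ≠ 0 ∧ t * t ≠ 1 := by
    classical
    cases nonempty_fintype K
    obtain ⟨t, -, ht⟩ := Finset.exists_mem_notMem_of_card_lt_card (s := ({0, 1, -1} : Finset K))
      (t := Finset.univ) (Finset.card_le_three.trans_lt (by
        have := C.five
        rw [Nat.card_eq_fintype_card] at this
        rw [Finset.card_univ]; omega))
    exact ⟨t, by simpa [mul_self_eq_one_iff] using ht⟩
  have h3 : P.f (j a) (j d) = 1 := by rw [C.fj, had.pol, map_one]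
  have ht0' : algebraMap K F t ≠ 0 := (map_ne_zero _).2 ht0
  obtain ⟨k, hkE, hk⟩ := C.uni.exists_torus (C.σa t) ht0' (C.sing ha) (C.sing had.right) h3
  have hkH : k ∈ ratNorm F j ⊓ P.E := ⟨mem_ratNorm_of one_ne_zero fun x =>
    ⟨x + ((t - 1) * polar Q x d) • a + ((t⁻¹ - 1) * polar Q x a) • d, by
      simp [-algebraMap_smul, j_smul (F := F), hk, C.fj]⟩, hkE⟩
  have h4 := C.conj_rat hE hg hu hu0 hkH (by simp [hk, h, h2])
  obtain ⟨v, hv⟩ := R.exists_f_ne_zero (x := g⁻¹ (j d)) fun h => by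
    rw [g⁻¹.map_eq_zero_iff.1 h, f_zero_right] at h3
    exact zero_ne_one h3
  rw [← isom_f_left hgi] at hv
  obtain ⟨v₁, h5⟩ := h4 v
  obtain ⟨v₂, h6⟩ := h4 v₁
  have h7 : algebraMap K F t * algebraMap K F t - 1 ≠ 0 := by
    rw [← map_mul, ← map_one (algebraMap K F), ← map_sub]
    exact (map_ne_zero _).2 (sub_ne_zero.2 ht)
  have h8 : algebraMap K F t - 1 ≠ 0 := fun h => h7 (by linear_combination (_ + 1) * h)
  refine inv_mem_iff.1 ((C.toC3 hE).mem_of_smul (M.inv_mem hg) ha ha0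
    (w := t • v₂ - (t + 1) • v₁ + v) (mul_ne_zero hv (mul_ne_zero h8 h7)) ?_)
  apply g.injective
  simp only [map_add, map_sub, j_smul (F := F) j, map_smul, h6, h5, apply_inv_apply, hk,
    P.f_add_left, P.f_smul_left, h3, C.uni.symm_one h3, (C.sing ha).f_self,
    (C.sing had.right).f_self, map_one]
  match_scalars <;> field_simp <;> ring

omit hE hg hu hu0 in
theorem orbit {Θ : V →+ V} (hΘ : ∀ (c : F) x, Θ (c • x) = P.σ c • Θ x) (hΘj : ∀ x, Θ (j x) = j x)
    {v v' : V} (hv : P.f v v = 0) (hv' : P.f v' v' = 0) (h : P.f v' (Θ v') = P.f v (Θ v))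
    (h0 : P.f v (Θ v) ≠ 0) : ∃ k ∈ ratNorm F j ⊓ P.E, k v = v' := by
  have h1 : ∀ x y, P.f (j x + ρ • j y) (Θ (j x + ρ • j y)) = algebraMap K F (2 * Q x + r * (2 * Q y))
      + ρ * algebraMap K F (2 * polar Q x y) := fun x y => by
    rw [map_add, hΘ, hΘj, hΘj, C.σρ, neg_smul, ← smul_neg, ← map_neg, C.f_comb, polar_neg_right,
      polar_neg_right, polar_self', polar_self', polar_comm Q y x, mul_neg, sub_neg_eq_add,
      sub_neg_eq_add, ← two_mul]
  obtain ⟨x, y, rfl⟩ := C.exists_eq v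
  obtain ⟨x', y', rfl⟩ := C.exists_eq v'
  have h2 := C.Q_eq_of_sing hv
  have h3 := C.Q_eq_of_sing hv'
  rw [h1] at h0
  rw [h1, h1] at h
  obtain ⟨h4, h5⟩ := C.comp_eq_zero (a := 2 * 2 * r * (Q y - Q y'))
    (b := 2 * (polar Q x y - polar Q x' y')) (by
      simp only [h2, h3, map_mul, map_sub, map_add, map_ofNat] at h ⊢
      linear_combination -h)
  replace h4 := sub_eq_zero.1 ((mul_eq_zero.1 h4).resolve_left
    (mul_ne_zero (mul_ne_zero C.two C.two) C.r_ne_zero))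
  replace h5 := sub_eq_zero.1 ((mul_eq_zero.1 h5).resolve_left C.two)
  have h6 := C.gram h2 fun h => h0 (by simp [h2, h.1, h.2])
  obtain ⟨s, hs1, hs2⟩ := witt_two hQ (linearIndependent_of_gram h6) (linearIndependent_of_gram
    (x := x') (y := y') (by rwa [h3, ← h4, ← h5, ← h2])) (by rw [h2, h3, h4]) h4 h5
  obtain ⟨hN, hN2⟩ := plane_of_gram h6 hQ C.four
  obtain ⟨z, ⟨hzx, hzy⟩, hz⟩ := hN.exists_Q_eq hN2.ge 1
  obtain ⟨k, hk, h7⟩ := C.lift' s (z := z) (by rw [hz]; exact one_ne_zero)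
  exact ⟨k, hk, by rw [map_add, map_smul, h7 x (by rwa [polar_comm]), h7 y (by rwa [polar_comm]),
    hs1, hs2]⟩

theorem mem_ratNorm : g ∈ ratNorm F j := by
  have R := C.toRat
  have hgi := C.le_isom hg
  obtain ⟨x, y, hxy⟩ := C.exists_eq (g (j u))
  by_cases h0 : polar Q x y = 0 ∧ Q y = 0
  · exact C.mem_of_ts hE hg hu hu0 hxy h0.1 h0.2
  exfalso
  have hω := ((C.sing hu).map hgi).f_self
  have h1 := C.Q_eq_of_sing (hxy ▸ hω)
  obtain ⟨hN, hN2⟩ := plane_of_gram (C.gram h1 h0) hQ C.four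
  obtain ⟨z, ⟨hzx, hzy⟩, hz⟩ := hN.exists_Q_eq hN2.ge 1
  obtain ⟨Θ, hΘ, hΘj⟩ := R.exists_semilinear (AlgEquiv.ofRingEquiv (f := P.σ) C.σa)
  replace hΘ : ∀ (c : F) x, Θ (c • x) = P.σ c • Θ x := hΘ
  have hD : P.f (g (j u)) (Θ (g (j u))) ≠ 0 := fun h => by
    rw [hxy, map_add, hΘ, hΘj, hΘj, C.σρ, neg_smul, ← smul_neg, ← map_neg, C.f_comb] at h
    obtain ⟨h2, h3⟩ := C.comp_eq_zero h
    simp only [polar_neg_right, polar_self', polar_comm Q y x, h1] at h2 h3
    exact h0 ⟨mul_left_cancel₀ C.two (by linear_combination h3), mul_left_cancel₀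
      (mul_ne_zero (mul_ne_zero C.two C.two) C.r_ne_zero) (by linear_combination h2)⟩
  have h2 : ∀ n ∈ hperp Q x y, P.f (g (j u)) (j n) = 0 ∧ P.f (j n) (Θ (g (j u))) = 0 :=
    fun n hn => by simp [hxy, hΘ, hΘj, P.f_add_left, P.f_smul_left, f_add_right, f_smul_right, C.fj,
      polar_comm Q x, polar_comm Q y, hn.1, hn.2]
  have h3 : ∀ n ∈ hperp Q x y, P.f (g (j u)) (j n + ρ • j z) = 0 := fun n hn => by
    simp [f_add_right, f_smul_right, h2 n hn, h2 z ⟨hzx, hzy⟩]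
  have h4 : ∀ n, Q n = r → P.f (j n + ρ • j z) (j n + ρ • j z) = 0 := fun n hn => by
    rw [C.f_comb, polar_self', polar_self', hn, hz, polar_comm Q z n]
    simp [mul_comm]
  have key : ∀ n ∈ hperp Q x y, Q n = r → ∃ (a : V₀) (c s : F), s ≠ 0 ∧
      g (j a) = c • g (j u) + s • (j n + ρ • j z) := fun n hn hQn => by
    have h5 := h3 n hn
    have h6 := h4 n hQn
    have h7 : P.f (g (j u)) (Θ (j n + ρ • j z)) = 0 := by
      simp [hΘ, hΘj, f_add_right, f_smul_right, h2 n hn, h2 z ⟨hzx, hzy⟩]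
    have h8 : P.f (j n + ρ • j z) (Θ (g (j u))) = 0 := by
      simp [P.f_add_left, P.f_smul_left, h2 n hn, h2 z ⟨hzx, hzy⟩]
    generalize j n + ρ • j z = η at h5 h6 h7 h8
    obtain ⟨κ, hκ⟩ : ∃ κ, P.f η (Θ η) = κ * P.f (g (j u)) (Θ (g (j u))) :=
      ⟨_, (div_mul_cancel₀ _ hD).symm⟩
    obtain ⟨m, hm0, hm⟩ : ∃ m : F, m ≠ 0 ∧ 1 + κ * m ^ 2 ≠ 0 := by
      by_cases h : 1 + κ * 1 ^ 2 = 0
      · refine ⟨ρ, C.ρ_ne, fun h' => one_ne_zero (C.nonsq (a := 1) (b := 1) ?_).1⟩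
        apply (algebraMap K F).injective
        simp only [map_mul, map_one, ← C.ρ_sq]
        linear_combination h' - ρ * ρ * h
      · exact ⟨1, one_ne_zero, h⟩
    obtain ⟨k, hk, h9⟩ := C.orbit hΘ hΘj hω (v' := ((1 - κ * m ^ 2) / (1 + κ * m ^ 2)) • g (j u) +
      (2 * m / (1 + κ * m ^ 2)) • η)
      (by simp [P.f_add_left, P.f_smul_left, f_add_right, f_smul_right, hω, h5, h6, f_symm_zero h5])
      (by
        simp only [map_add, hΘ, P.f_add_left, P.f_smul_left, f_add_right, f_smul_right, h7, h8, hκ,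
          P.σσ]
        field_simp
        ring) hD
    obtain ⟨c, hc0, hc⟩ := exists_of_mem_ratNorm (C.mem_of_orth hE
      (M.mul_mem (M.mul_mem (M.inv_mem hg) (C.le hk)) hg) hu hu0 hu hu0 (by
        rw [mul_apply', mul_apply', ← isom_f_right hgi, h9, P.f_add_left, P.f_smul_left,
          P.f_smul_left, hω, f_symm_zero h5, mul_zero, mul_zero, add_zero]))
    obtain ⟨a, ha⟩ := hc u
    exact ⟨a, _, _, mul_ne_zero hc0 (div_ne_zero (mul_ne_zero C.two' hm0) hm), by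
      rw [ha, map_smul, mul_apply', mul_apply', apply_inv_apply, h9, smul_add, smul_smul, smul_smul]⟩
  choose! a c s hs ha using key
  have h5 : ∀ n ∈ hperp Q x y, Q n = r → ∀ n' ∈ hperp Q x y, Q n' = r →
      algebraMap K F (polar Q (a n) (a n')) =
        s n * P.σ (s n') * P.f (j n + ρ • j z) (j n' + ρ • j z) := fun n hn hQ n' hn' hQ' => by
    rw [← C.fj, ← isom_f hgi, ha n hn hQ, ha n' hn' hQ', P.f_add_left, f_add_right, f_add_right]
    simp only [P.f_smul_left, f_smul_right, hω, h3 n' hn', f_symm_zero (h3 n hn)]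
    ring
  have h6 : ∀ n ∈ hperp Q x y, Q n = r → Q (a n) = 0 ∧ polar Q (a n) u = 0 := fun n hn hQ => by
    have h6 := h5 n hn hQ n hn hQ
    rw [h4 n hQ, mul_zero, map_eq_zero, polar_self', mul_eq_zero, or_iff_right C.two] at h6
    refine ⟨h6, (map_eq_zero (algebraMap K F)).1 ?_⟩
    rw [← C.fj, ← isom_f hgi, ha n hn hQ, P.f_add_left, P.f_smul_left, P.f_smul_left, hω,
      f_symm_zero (h3 n hn), mul_zero, mul_zero, add_zero]
  have h7 : ∀ n, n ∈ hperp Q x y ∧ Q n = r → ∀ n', n' ∈ hperp Q x y ∧ Q n' = r → n ≠ n' →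
      polar Q (a n) (a n') ≠ 0 := fun n hn n' hn' hne h => by
    have h7 := h5 n hn.1 hn.2 n' hn'.1 hn'.2
    rw [h, map_zero, eq_comm, mul_eq_zero, or_iff_right (mul_ne_zero (hs n hn.1 hn.2)
      (P.σ_ne_zero (hs n' hn'.1 hn'.2))), C.f_comb, polar_self', hz] at h7
    exact hne (hN.eq_of_Q_sub_eq_zero hN2 hn.1 hn'.1 (hn.2 ▸ C.r_ne_zero) (by rw [hn.2, hn'.2])
      (by rw [Q_sub, hn.2, hn'.2]; linear_combination -(C.comp_eq_zero h7).1)).symm
  cases nonempty_fintype K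
  obtain ⟨S, hS, h8, -⟩ := hN.exists_finset_norm hN2 C.r_ne_zero
  obtain ⟨n₁, n₂, n₃, h₁, h₂, h₃, h₁₂, h₁₃, h₂₃⟩ := Finset.two_lt_card_iff.1 (show 2 < S.card by
    have := C.five
    rw [Nat.card_eq_fintype_card] at this
    omega)
  exact not_three_sing hQ C.four hu0 hu (h6 _ (hS _ h₁).1 (hS _ h₁).2).1
    (h6 _ (hS _ h₂).1 (hS _ h₂).2).1 (h6 _ (hS _ h₃).1 (hS _ h₃).2).1
    (h6 _ (hS _ h₁).1 (hS _ h₁).2).2 (h6 _ (hS _ h₂).1 (hS _ h₂).2).2
    (h6 _ (hS _ h₃).1 (hS _ h₃).2).2 (h7 _ (hS _ h₁) _ (hS _ h₂) h₁₂)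
    (h7 _ (hS _ h₁) _ (hS _ h₃) h₁₃) (h7 _ (hS _ h₂) _ (hS _ h₃) h₂₃)

omit hE hg hu hu0 in
theorem le_or_le : M ≤ ratNorm F j ∨ P.E ≤ M := by
  obtain ⟨u, hu0, hu⟩ := exists_singular Q (by rw [C.four]; omega)
  exact or_iff_not_imp_right.2 fun hE g hg => C.mem_ratNorm hE hg hu hu0

omit hE hg hu hu0 in
theorem not_E_le : ¬ P.E ≤ ratNorm F j := fun h => by
  obtain ⟨a, b, hab⟩ := exists_isHyp_of_three_le hQ (by rw [C.four]; omega)
  have ha0 : a ≠ 0 := by rintro rfl; simpa using hab.pol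
  have hv := EV.of_mem (C.sing hab.left) (C.ρ_mem 1)
  obtain ⟨y, hy⟩ := rat_of_fix C.toRat (h hv.equiv_mem_E) ha0 hv.eich_self b
  obtain ⟨c, hc⟩ := mem_range_of_smul C.toRat ha0 (y := b - y) (c := ρ) (by
    rw [map_sub, hy, EV.equiv_apply, eich_zero_apply, C.fj, hab.symm.pol, C.uni.ε]; simp)
  exact one_ne_zero (C.comp_eq_zero (a := -c) (b := 1) (by simp [hc])).2

end O8

section Geo

variable {ι : Type} [Fintype ι] [DecidableEq ι] {F : Type*} [Field F] [Fintype F] {F₀ : Subfield F}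

/-- The orthogonal subfield subgroups of `SU₄(q)` are maximal for odd `q ≥ 5`. -/
theorem su_c5_o_four (h2 : (2 : F) ≠ 0) (hcard : Fintype.card F = Nat.card F₀ ^ 2)
    (h5 : 5 ≤ Nat.card F₀) {σ : F ≃+* F} {f : (ι → F) → (ι → F) → F}
    (hf : Geo.IsUnitaryForm σ f) (h4 : Fintype.card ι = 4) {P : GL ι F}
    (hP : Geo.IsFormRationalStructure f F₀ 1 P) :
    Geo.IsMaximalIn (preserving (glToMat ι F) f ⊓ Geo.specialLinear ι F)
      (Geo.subfieldSubgroup F₀ P ⊓ (preserving (glToMat ι F) f ⊓ Geo.specialLinear ι F)) := by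
  have hP' : ∀ u v, f (jmap F₀ P u) (jmap F₀ P v) ∈ F₀ := fun u v => by
    simpa only [one_mul, jmap_apply] using hP (up u) (up v) (fun i => (u i).2) fun i => (v i).2
  have hF₀ := H25.eq_fixedSub_of_card hf.ne_refl hf.involutive hcard
  have hσ : ∀ x ∈ F₀, σ x = x := fun x hx => by rwa [hF₀] at hx
  have hσ' : ∀ x, σ x = x → x ∈ F₀ := fun x hx => by rwa [hF₀]
  have hl : (2 : F)⁻¹ + σ 2⁻¹ = 1 := by
    rw [map_inv₀, map_ofNat]; field_simp; ring
  set Pf := unitP hf _ hl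
  have h2' : (2 : F₀) ≠ 0 := fun h => h2 (congrArg Subtype.val h)
  set f₀ := restF Pf hP'
  have hb : Geo.IsBilinearForm f₀ := restF_bilin Pf hP' hσ
  have hs : ∀ x y, f₀ y x = f₀ x y := fun x y =>
    Subtype.ext ((hf.herm _ _).trans (hσ _ (hP' x y)))
  have hp : polar (fun x => 2⁻¹ * f₀ x x) = f₀ := by
    funext x y
    rw [polar, hb.add_left, hb.add_right, hb.add_right, hs x y]
    field_simp
    ring
  have hQ₀ : Geo.IsNondegenerateQuadraticForm fun x => 2⁻¹ * f₀ x x :=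
    ⟨fun c v => by rw [hb.smul_left, hb.smul_right]; ring, hp.symm ▸ hb,
      hp.symm ▸ restF_nondeg Pf hP'⟩
  have R : PForm.Rat (quadP hQ₀) Pf (jmap F₀ P) := by
    refine ⟨fun c => hσ c c.2, (map_one _).symm, fun x y => ?_, fun x => ?_, fun a => ?_, jmap_span P⟩
    · exact congrArg Subtype.val (congrFun (congrFun hp x) y).symm
    · exact Eq.mpr (congrArg (· ∈ _) (sub_self _)) (zero_mem _)
    · change (a : F) + σ a = 0 ↔ a = 0
      rw [hσ a a.2, ← two_mul, mul_eq_zero, or_iff_right h2, ZeroMemClass.coe_eq_zero]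
  obtain ⟨ρ, hρ, hρ0, hρ1⟩ : ∃ ρ : F, σ ρ = -ρ ∧ ρ ≠ 0 ∧ ρ * ρ ≠ -1 := by
    obtain ⟨a, ha⟩ := exists_ne_of_ne_refl hf.ne_refl
    have h1 : σ (σ a - a) = -(σ a - a) := by rw [map_sub, hf.involutive, neg_sub]
    have h3 := sub_ne_zero.2 ha
    generalize σ a - a = ρ at h1 h3
    by_cases h : ρ * ρ = -1
    · classical
      cases nonempty_fintype F₀
      obtain ⟨t, -, ht⟩ := Finset.exists_mem_notMem_of_card_lt_card (s := ({0, 1, -1} : Finset F₀))
        (t := Finset.univ) (Finset.card_le_three.trans_lt (by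
          rw [Nat.card_eq_fintype_card] at h5
          rw [Finset.card_univ]; omega))
      simp only [Finset.mem_insert, Finset.mem_singleton, not_or] at ht
      refine ⟨t * ρ, by rw [map_mul, hσ t t.2, h1, mul_neg], mul_ne_zero (by simpa using ht.1) h3,
        fun h' => ?_⟩
      rcases mul_self_eq_one_iff.1 (show (t : F) * t = 1 by linear_combination t * t * h - h')
        with h6 | h6
      · exact ht.2.1 (Subtype.ext h6)
      · exact ht.2.2 (Subtype.ext h6)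
    · exact ⟨ρ, h1, h3, h⟩
  have hE := mem_SU_iff_unitP hf _ hl (Or.inl (by omega))
  have C : ∀ M, ratNorm F (jmap F₀ P) ⊓ Pf.E ≤ M → M ≤ Pf.E → O8 (ofGeo hQ₀)
      (ofGeo_nondegenerate hQ₀) Pf (jmap F₀ P) M ρ ⟨ρ * ρ, hσ' _ (by simp [hρ])⟩ := fun M h1 h3 =>
    ⟨R, uni_unitP _ _ _, by rw [finrank_pi_card, h4], h2', h5, fun c hc => ⟨⟨c, hσ' c hc⟩, rfl⟩,
      fun g hg hd => by
        simpa using (hE (gl.symm g)).1 ⟨fun x y => by
          rw [← show f (g x) (g y) = f x y from hg x y, ← gl_symm_mulVec, ← gl_symm_mulVec]; rfl,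
          (mem_specialLinear_iff_det _).2 (by simpa using hd)⟩,
      hρ, hρ0, rfl, fun h => hρ1 (congrArg Subtype.val h), h1, h3⟩
  exact isMaximalIn_of_E Pf hE _ (mem_subfieldSubgroup_iff P) (C _ inf_le_right le_rfl).not_E_le
    fun M h1 h3 => (C M h1 h3).le_or_le

end Geo

end Cfsg.Agent.H30
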