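import Cfsg.Agent.H30.U4Ts

/-!
# Subfield subgroups of odd prime index in `SU₄(q)`
-/

set_option autoImplicit false
set_option linter.unusedSectionVars false

namespace Cfsg.Agent.H30

open Module Cfsg.Agent.H26 Cfsg.Agent.H26.PForm

variable {K F : Type*} [Field K] [Field F] [Algebra K F] {V₀ V : Type*} [AddCommGroup V₀]
  [Module K V₀] [AddCommGroup V] [Module F V] [Module K V] [IsScalarTower K F V]
  {P₀ : PForm K V₀} {P : PForm F V} {j : V₀ →ₗ[K] V} {M : Subgroup (V ≃ₗ[F] V)}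
  [FiniteDimensional K V₀] [Finite V]

theorem rat_eich_of (R : PForm.Rat P₀ P j) (hH : ratNorm F j ⊓ P.E ≤ M) {e : V₀} (he0 : e ≠ 0)
    {y : V} {ν : F} (h : P.Ei M (j e) y ν)
    (hY : ∀ a, P₀.f a e = 0 → P.f y (j a) ∈ Set.range (algebraMap K F))
    (hZ : ∀ ν, P.Ei M (j e) 0 ν → ν ∈ Set.range (algebraMap K F)) (x : V₀) :
    ∃ z, j z = P.eich (j e) y ν (j x) := by
  have he := R.sing_iff.1 h.ev.sing
  obtain ⟨e', h2⟩ := P₀.exists_f_right_eq he0 1
  obtain ⟨w, hw⟩ := R.dual' (x := y - P.f y (j e') • j e) fun x => by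
    have h3 : P₀.f (x - (P₀.ε * P₀.f x e) • e') e = 0 := by
      rw [f_sub_left, P₀.f_smul_left, f_symm_one h2]
      linear_combination (-P₀.f x e) * P₀.ε_sq
    obtain ⟨c, hc⟩ := hY _ h3
    refine ⟨c, hc.trans ?_⟩
    rw [map_sub, j_smul (F := F), f_sub_left, f_sub_right, P.f_smul_left, f_smul_right, R.σ_alg,
      R.f_alg, P₀.herm x e, map_mul P₀.σ, σ_ε, mul_comm]
  rw [eq_sub_iff_add_eq] at hw
  generalize P.f y (j e') = k at hw
  subst hw
  have h1 := h.of_add_smul_self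
  obtain ⟨c, hc⟩ := hZ _ (h1.sub_same (R.ei hH (EV.of_h he (R.f_eq_zero.1 h1.ev.orth))))
  rw [eich_add_smul_self, show ν - P.ε * k + P.σ k = algebraMap K F (c + P₀.h w) by
    rw [map_add, hc, sub_add_cancel], R.eich_j]
  exact ⟨_, rfl⟩

/-- An overgroup of a subfield subgroup whose Eichler transformations with a rational centre are
rational. -/
structure C3 (P₀ : PForm K V₀) (P : PForm F V) (j : V₀ →ₗ[K] V) (M : Subgroup (V ≃ₗ[F] V)) :
    Prop extends PForm.Rat P₀ P j where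
  le : ratNorm F j ⊓ P.E ≤ M
  le_E : M ≤ P.E
  three : 3 ≤ finrank K V₀
  rat : ∀ e, e ≠ 0 → ∀ y ν, P.Ei M (j e) y ν → ∀ x, ∃ z, j z = P.eich (j e) y ν (j x)

namespace C3

variable (C : C3 P₀ P j M)
include C

theorem le_isom : M ≤ P.isom := C.le_E.trans E_le_isom

theorem exists_eq_of_ei {e : V₀} (he0 : e ≠ 0) {y : V} {ν : F} (h : P.Ei M (j e) y ν) :
    ∃ (x : V₀) (k : F), y = j x + k • j e := by
  obtain ⟨e', h1⟩ := P₀.exists_f_left_eq he0 1
  obtain ⟨z, hz⟩ := C.rat e he0 y ν h e'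
  rw [PForm.eich_apply, C.f_alg, h1, map_one] at hz
  exact ⟨z - e', P.ε * (P.f (j e') y + ν * 1), by rw [map_sub, hz]; module⟩

/-- An element of `M` mapping a rational singular point to a rational point lies in the subfield
group. -/
theorem mem_of_map {g : V ≃ₗ[F] V} (hg : g ∈ M) {e e₂ : V₀} (he : P₀.Sing e)
    (he0 : e ≠ 0) {c : F} (h : g (j e) = c • j e₂) : g ∈ ratNorm F j := by
  have R := C.toRat
  have hgi := C.le_isom hg
  have h0 : c • j e₂ ≠ 0 := by
    rw [← h]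
    exact fun h0 => he0 (R.j_eq_zero.1 (g.map_eq_zero_iff.1 h0))
  have hc : c ≠ 0 := left_ne_zero_of_smul h0
  have he₂0 : e₂ ≠ 0 := fun h1 => right_ne_zero_of_smul h0 (R.j_eq_zero.2 h1)
  have hs₂ : P.Sing (j e₂) := Sing.of_smul hc (h ▸ (R.sing_iff.2 he).map hgi)
  have h1 : ∀ y, P₀.f y e = 0 → ∃ (x : V₀) (k : F), P.f (j x) (j e₂) = 0 ∧
      P.σ c • g (j y) = j x + k • j e₂ := by
    intro y hy
    have h2 := (R.ei C.le (EV.of_h he hy)).conj hg hgi
    rw [h] at h2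
    have h3 := h2.smul_left c hs₂
    obtain ⟨x, k, h4⟩ := C.exists_eq_of_ei he₂0 h3
    refine ⟨x, k, ?_, h4⟩
    simpa [h4, P.f_add_left, P.f_smul_left, hs₂.f_self] using h3.ev.orth
  obtain ⟨N, hN⟩ : P.σ c * c ∈ Set.range (algebraMap K F) := by
    obtain ⟨y, h2, z, h3, h4⟩ := exists_f_eq_of_lt (P := P₀) (S := K ∙ e) (by
      have := finrank_span_singleton_le (F := K) e
      have := C.three
      omega) 1
    obtain ⟨x, k, h5, h6⟩ := h1 y (mem_perp_span_singleton.1 h2)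
    obtain ⟨x', k', h7, h8⟩ := h1 z (mem_perp_span_singleton.1 h3)
    have h9 : P.f (P.σ c • g (j z)) (P.σ c • g (j y)) = P.σ c * c := by
      rw [P.f_smul_left, f_smul_right, isom_f hgi, R.f_alg, h4, map_one, mul_one, P.σσ]
    rw [h6, h8] at h9
    refine ⟨P₀.f x' x, ?_⟩
    rw [← h9, ← R.f_alg]
    simp [P.f_add_left, f_add_right, P.f_smul_left, f_smul_right, h7, f_symm_zero h5, hs₂.f_self]
  obtain ⟨e', he', h2⟩ := he.exists_partner' he0
  obtain ⟨e₃, he₃, h3⟩ := (R.sing_iff.1 hs₂).exists_partner' he₂0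
  have h4 : P.f (j e₃) (j e₂) = 1 := by rw [R.f_alg, h3, map_one]
  obtain ⟨hv, h5⟩ := exists_eich_map hs₂ (((R.sing_iff.2 he').map hgi).smul (P.σ c))
    (R.sing_iff.2 he₃) (by rw [P.f_smul_left, ← f_smul_right, ← h, isom_f hgi, R.f_alg, h2,
      map_one]) h4
  rw [← hv.equiv_apply] at h5
  have h6 : hv.equiv * g ∈ ratNorm F j := by
    refine mem_ratNorm_of (P.σ_ne_zero hc) fun x => ?_
    obtain ⟨y, k, h6, h7⟩ := h1 (x - P₀.f x e • e')
      (by rw [f_sub_left, P₀.f_smul_left, h2, mul_one, sub_self])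
    obtain ⟨k', h8⟩ : ∃ k' : F, hv.equiv (P.σ c • g (j (x - P₀.f x e • e'))) = j y + k' • j e₂ := by
      rw [h7, map_add, map_smul, EV.equiv_apply, EV.equiv_apply, hv.eich_self,
        PForm.eich_apply_of_orth _ _ h6, sub_eq_add_neg, ← neg_smul, add_assoc, ← add_smul]
      exact ⟨_, rfl⟩
    have h9 := isom_f hv.equiv_mem_isom (P.σ c • g (j (x - P₀.f x e • e'))) (P.σ c • g (j e'))
    rw [h8, h5, P.f_add_left, P.f_smul_left, P.f_smul_left, f_smul_right, isom_f hgi, P.σσ,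
      ← mul_assoc, ← hN, f_symm_one h4, R.f_alg, R.f_alg, R.ε_alg] at h9
    have h10 : k' = algebraMap K F (P₀.ε * (N * P₀.f (x - P₀.f x e • e') e' - P₀.f y e₃)) := by
      have := congrArg (algebraMap K F) P₀.ε_sq
      rw [map_mul, map_one] at this
      rw [map_mul, map_sub, map_mul]
      linear_combination algebraMap K F P₀.ε * h9 - k' * this
    rw [h10, ← j_smul, ← map_add] at h8
    generalize y + (P₀.ε * (N * P₀.f (x - P₀.f x e • e') e' - P₀.f y e₃)) • e₂ = w at h8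
    refine ⟨w + P₀.f x e • e₃, ?_⟩
    generalize hv.equiv = t at h5 h8
    rw [map_add, ← h8, j_smul (F := F), ← h5, mul_apply', map_sub, j_smul (F := F)]
    simp only [map_smul, map_sub]
    module
  have h7 : P.Ei M _ _ _ := ⟨hv, (M.mul_mem_cancel_right hg).1
    (C.le ⟨h6, P.E.mul_mem hv.equiv_mem_E (C.le_E hg)⟩)⟩
  refine ((ratNorm F j).mul_mem_cancel_left (mem_ratNorm_of one_ne_zero fun x => ?_)).1 h6
  rw [one_smul]
  exact C.rat _ he₂0 _ _ h7 x

theorem mem_of_smul {g : V ≃ₗ[F] V} (hg : g ∈ M) {e w : V₀} (he : P₀.Sing e)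
    (he0 : e ≠ 0) {c : F} (hc : c ≠ 0) (h : j w = c • g (j e)) : g ∈ ratNorm F j :=
  C.mem_of_map hg he he0 (c := c⁻¹) (e₂ := w)
    (by rw [h, smul_smul, inv_mul_cancel₀ hc, one_smul])

theorem mem_of_fix {g : V ≃ₗ[F] V} (hg : g ∈ M) {e : V₀} (he : P₀.Sing e)
    (he0 : e ≠ 0) (h : g (j e) = j e) : g ∈ ratNorm F j :=
  C.mem_of_map hg he he0 (c := 1) (e₂ := e) (by rw [h, one_smul])

theorem le_of_tv [Finite F] (hΛ : P₀.Λ ≠ ⊥) (hd : P₀.d + 2 ≤ finrank K V₀)
    (hrat : ∀ g ∈ ratNorm F j ⊓ P.E, ∀ x, ∃ y, j y = g (j x)) : M ≤ ratNorm F j := by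
  have R := C.toRat
  have := R.finiteDimensional
  have : Finite (V ≃ₗ[F] V) := DFunLike.finite _
  have h5 := C.three
  obtain ⟨e, -, he0, he⟩ := P₀.exists_sing ⊤ (by rw [finrank_top]; omega)
  obtain ⟨ν₀, hν₀, hν₀'⟩ := exists_mem_Λ hΛ
  have hs := R.ei le_rfl (EV.of_mem he hν₀)
  rw [map_zero] at hs
  have hν : algebraMap K F ν₀ ≠ 0 := by simpa using hν₀'
  generalize algebraMap K F ν₀ = ν at hs hν
  have hje : j e ≠ 0 := fun h => he0 (R.j_eq_zero.1 h)
  have hc : ∀ g ∈ M, ∀ x, (g * hs.ev.equiv * g⁻¹) x =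
      x - (P.ε * (ν * P.f x (g (j e)))) • g (j e) := fun g hg x => by
    rw [hs.ev.conj_equiv (C.le_isom hg), EV.equiv_apply, map_zero, eich_zero_apply]
  have hE : ∀ g ∈ M, g * hs.ev.equiv * g⁻¹ ∈ M := fun g hg =>
    M.mul_mem (M.mul_mem hg (C.le hs.mem)) (M.inv_mem hg)
  refine (le_of_counting _ M C.le hs.ev.equiv hs.mem ?_ ?_ ?_).trans inf_le_left
  · intro g hg h
    refine ⟨?_, C.le_E hg⟩
    obtain ⟨x, hx⟩ := R.exists_f_ne_zero (g.map_ne_zero_iff.2 hje)
    obtain ⟨z, hz⟩ := hrat _ h x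
    exact C.mem_of_smul hg he he0 (mul_ne_zero P.ε_ne_zero (mul_ne_zero hν hx)) (w := x - z)
      (by rw [map_sub, hz, hc g hg, sub_sub_cancel])
  · intro g hg k hk hgk h
    have hdM := hE g hg
    refine ⟨?_, C.le_E hdM⟩
    have hdH : g ∈ ratNorm F j → g * hs.ev.equiv * g⁻¹ ∈ ratNorm F j :=
      fun h => mul_mem (mul_mem h hs.mem.1) (inv_mem h)
    have h1 := hc g hg
    have h2 := hc k hk
    generalize g * hs.ev.equiv * g⁻¹ = d at *
    generalize k * hs.ev.equiv * k⁻¹ = t at *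
    have h3 : ∀ I : Submodule F V, g (j e) ∈ I → k (j e) ∈ I → ∀ x, (t⁻¹ * d) x - x ∈ I :=
      fun I ha hb => inv_mul_sub_mem
        (fun x => by rw [h1, sub_sub_cancel_left]; exact neg_mem (I.smul_mem _ ha))
        (fun x => by rw [h2, sub_sub_cancel_left]; exact neg_mem (I.smul_mem _ hb))
    have h4 := h3 ((F ∙ g (j e)) ⊔ F ∙ k (j e))
      (Submodule.mem_sup_left (Submodule.mem_span_singleton_self _))
      (Submodule.mem_sup_right (Submodule.mem_span_singleton_self _))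
    have h6 := finrank_sup_span_le (F ∙ g (j e)) (k (j e))
    have h7 := finrank_span_singleton_le (F := F) (g (j e))
    have h8 : ∀ x, ∃ y, j y = (t⁻¹ * d) (j x) - j x := fun x => by
      obtain ⟨y, hy⟩ := hrat _ h x
      exact ⟨y - x, by rw [map_sub, hy]⟩
    obtain ⟨u, hu0, hu, h9⟩ := R.exists_sing_ker ((t⁻¹ * d).toLinearMap - LinearMap.id) h8 h4
      (by omega)
    have h10 : d (j u) = t (j u) := by
      rw [← apply_inv_apply t (d (j u))]
      exact congrArg t (sub_eq_zero.1 h9)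
    by_cases h11 : P.f (j u) (g (j e)) = 0
    · exact C.mem_of_fix hdM hu hu0 (by rw [h1, h11]; simp)
    rw [h1, h2, sub_right_inj] at h10
    have h12 : P.ε * (ν * P.f (j u) (k (j e))) ≠ 0 := fun h => by
      rw [h, zero_smul, smul_eq_zero] at h10
      exact h10.elim (mul_ne_zero P.ε_ne_zero (mul_ne_zero hν h11)) (g.map_ne_zero_iff.2 hje)
    obtain ⟨x, hx⟩ := R.exists_apply_ne hgk
    obtain ⟨w, hw⟩ := h8 x
    obtain ⟨c, hc⟩ := Submodule.mem_span_singleton.1 (h3 (F ∙ g (j e))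
      (Submodule.mem_span_singleton_self _) ((Submodule.smul_mem_iff _ h12).1
        (h10 ▸ Submodule.smul_mem _ _ (Submodule.mem_span_singleton_self _))) (j x))
    exact hdH (C.mem_of_smul hg he he0 (c := c) (by rintro rfl; exact hx (by simpa using hc.symm))
      (hw.trans hc.symm))
  · obtain ⟨e', he', h1⟩ := Sing.exists_partner' he he0
    obtain ⟨h, hh, h2⟩ := R.exists_map hd he he0 he' (by
      rintro rfl; rw [f_zero_left] at h1; exact zero_ne_one h1)
    refine ⟨h, hh, fun h3 => ?_⟩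
    have h4 := congrArg (fun g : V ≃ₗ[F] V => g (j e)) h3
    simp only [mul_apply', EV.equiv_apply, hs.ev.eich_self, h2, eich_zero_apply, R.f_alg, h1,
      map_one] at h4
    rw [eq_comm, sub_eq_self] at h4
    simp [P.ε_ne_zero, hν, hje] at h4

end C3

/-- If all multiples of the rational vectors orthogonal to `e` occur then all vectors occur. -/
theorem ei_of_forall_smul (R : PForm.Rat P₀ P j) {e : V₀} (he : P₀.Sing e) (he0 : e ≠ 0)
    (h : ∀ (c : F) x, P₀.f x e = 0 → ∃ ν, P.Ei M (j e) (c • j x) ν) {y : V}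
    (hy : P.f y (j e) = 0) : ∃ ν, P.Ei M (j e) y ν := by
  obtain ⟨e', -, h1⟩ := he.exists_partner' he0
  have h2 : ∀ z ∈ Submodule.span F (Set.range j), ∀ c : F,
      ∃ ν, P.Ei M (j e) (c • (z - P.f z (j e) • j e')) ν := by
    intro z hz
    induction hz using Submodule.span_induction with
    | mem z hz =>
      obtain ⟨x, rfl⟩ := hz
      intro c
      have := h c (x - P₀.f x e • e') (by rw [f_sub_left, P₀.f_smul_left, h1, mul_one, sub_self])
      rwa [map_sub, j_smul (F := F), ← R.f_alg] at this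
    | zero => exact fun c => ⟨0, by simpa [f_zero_left] using Ei.zero (R.sing_iff.2 he)⟩
    | add x y _ _ hx hy =>
      intro c
      obtain ⟨_, hx⟩ := hx c
      obtain ⟨_, hy⟩ := hy c
      exact ⟨_, by convert hx.add hy using 1; rw [P.f_add_left]; module⟩
    | smul a x _ hx =>
      intro c
      obtain ⟨_, hx⟩ := hx (c * a)
      exact ⟨_, by convert hx using 1; rw [P.f_smul_left]; module⟩
  simpa [hy] using h2 y (by rw [R.span]; trivial) 1

variable (P₀ P j M) in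
/-- `ν` is the parameter of transvections in `M` with arbitrary rational centres. -/
def ZZ (ν : F) : Prop := ∀ e, P₀.Sing e → e ≠ 0 → P.Ei M (j e) 0 ν

variable (P₀ P j M) in
/-- The multiples by `c` of rational singular vectors occur in Eichler transformations in `M`. -/
def LL (c : F) : Prop :=
  ∀ e a, P₀.Sing e → e ≠ 0 → P₀.Sing a → P₀.f a e = 0 → ∃ ν, P.Ei M (j e) (c • j a) ν

theorem LL.add {c c' : F} (h : LL P₀ P j M c) (h' : LL P₀ P j M c') : LL P₀ P j M (c + c') :=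
  fun e a he he0 ha hae => by
  obtain ⟨_, h1⟩ := h e a he he0 ha hae
  obtain ⟨_, h2⟩ := h' e a he he0 ha hae
  exact ⟨_, by rw [add_smul]; exact h1.add h2⟩

theorem LL.smul {c : F} (h : LL P₀ P j M c) (k : K) : LL P₀ P j M (algebraMap K F k * c) :=
  fun e a he he0 ha hae => by
  have := h e (k • a) he he0 (ha.smul k) (by rw [P₀.f_smul_left, hae, mul_zero])
  rwa [j_smul (F := F), smul_smul, mul_comm] at this

/-- An overgroup of a unitary subfield subgroup of a unitary group. -/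
structure U6 (P₀ : PForm K V₀) (P : PForm F V) (j : V₀ →ₗ[K] V) (M : Subgroup (V ≃ₗ[F] V)) :
    Prop extends PForm.Rat P₀ P j where
  uni₀ : Uni P₀
  uni : Uni P
  four : 4 ≤ finrank K V₀
  d_le : P₀.d + 2 ≤ finrank K V₀
  le : ratNorm F j ⊓ P.E ≤ M
  le_E : M ≤ P.E
  not_le : ¬ P.E ≤ M
  simple : ∀ L : Subalgebra K F, L = ⊥ ∨ L = ⊤

namespace U6

variable (C : U6 P₀ P j M)
include C

theorem Z_of {e : V₀} (he0 : e ≠ 0) {ν : F} (h : P.Ei M (j e) 0 ν) : ZZ P₀ P j M ν :=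
  fun e' he' he0' => by
  refine trans_sing C.d_le (p := fun z => P.Ei M (j z) 0 ν) ?_ he0 he0'
    (C.toRat.sing_iff.1 h.ev.sing) he' h
  intro a b μ hv z hz
  have := (C.toRat.ei C.le hv).conj_ei hz
  rwa [map_zero, C.toRat.eich_j] at this

theorem L_of_Z {ν : F} (h : ZZ P₀ P j M ν) : LL P₀ P j M ν := fun e a he he0 ha hae => by
  by_cases h1 : a ∈ K ∙ e
  · obtain ⟨c, rfl⟩ := Submodule.mem_span_singleton.1 h1
    rw [j_smul (F := F), smul_smul]
    exact ⟨_, by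
      simpa using (Ei.zero (M := M) (C.toRat.sing_iff.2 he)).add_smul_self (ν * algebraMap K F c)⟩
  have h2 := h (e + a) (he.add ha (f_symm_zero hae)) fun h => h1 (by
    rw [eq_neg_of_add_eq_zero_right h]
    exact neg_mem (Submodule.mem_span_singleton_self e))
  rw [map_add] at h2
  exact ⟨_, by simpa [C.uni.ε] using ((h e he he0).of_tv_add (h a ha (by
    rintro rfl; exact h1 (zero_mem _))) h2 (C.toRat.f_eq_zero.2 hae)).neg⟩

theorem exists_comb {e a : V₀} (he0 : e ≠ 0) (ha : a ∉ K ∙ e) {c ν : F}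
    (h : P.Ei M (j e) (c • j a) ν) : ∃ ν₁ ν₂, ZZ P₀ P j M ν₁ ∧ ZZ P₀ P j M ν₂ ∧ ∃ k₁ k₂ : K,
      c = algebraMap K F k₁ * ν₁ + algebraMap K F k₂ * ν₂ := by
  obtain ⟨b, hb, h1⟩ := P₀.exists_perp_f_right ha 1
  have h2 : ∀ l : K, ZZ P₀ P j M (c * algebraMap K F (P₀.σ l) - algebraMap K F l * P.σ c) :=
    fun l => by
    have := C.Z_of he0 (h.comm (C.toRat.ei C.le (EV.of_h (C.toRat.sing_iff.1 h.ev.sing)
      (y := l • b) (by rw [P₀.f_smul_left, mem_perp_span_singleton.1 hb, mul_zero]))))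
    rwa [P.f_smul_left, f_smul_right, C.f_alg, C.f_alg, f_smul_right, P₀.f_smul_left, h1,
      C.uni₀.symm_one h1, mul_one, mul_one, mul_comm (P.σ c)] at this
  obtain ⟨θ, hθ⟩ := C.uni₀.σ
  refine ⟨_, _, h2 θ, h2 1, (P₀.σ θ - θ)⁻¹, -((P₀.σ θ - θ)⁻¹ * θ), ?_⟩
  have h3 : algebraMap K F (P₀.σ θ) - algebraMap K F θ ≠ 0 := by
    rw [← map_sub]; exact (map_ne_zero _).2 (sub_ne_zero.2 hθ)
  simp only [map_one, map_neg, map_mul, map_inv₀, map_sub]
  field_simp
  ring

theorem L_of {e a : V₀} (he0 : e ≠ 0) (ha : a ∉ K ∙ e) {c ν : F}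
    (h : P.Ei M (j e) (c • j a) ν) : LL P₀ P j M c := by
  obtain ⟨_, _, h1, h2, k₁, k₂, rfl⟩ := C.exists_comb he0 ha h
  exact ((C.L_of_Z h1).smul k₁).add ((C.L_of_Z h2).smul k₂)

theorem diff {e a : V₀} (ha : P₀.Sing a) (hae : P₀.f a e = 0) (ha' : a ∉ K ∙ e) {y : V} {ν μ : F}
    (h : P.Ei M (j e) y μ) (hν : ZZ P₀ P j M ν) :
    ∃ ν', P.Ei M (j e) ((ν * P.f y (j a)) • j a) ν' := by
  obtain ⟨_, h1⟩ := h.diff (hν a ha (by rintro rfl; exact ha' (zero_mem _)))
    (C.toRat.f_eq_zero.2 (f_symm_zero hae)) (P.f_zero_right _)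
  exact ⟨_, by simpa [C.uni.ε, f_zero_right] using h1.neg⟩

theorem Z_mem {ν : F} (h : ZZ P₀ P j M ν) : ν ∈ Set.range (algebraMap K F) := by
  have R := C.toRat
  have := R.finiteDimensional
  have hd := C.d_le
  obtain ⟨e, -, he0, he⟩ := P₀.exists_sing ⊤ (by rw [finrank_top]; omega)
  let L : Subalgebra K F :=
    { carrier := {t | ∀ c, LL P₀ P j M c → LL P₀ P j M (t * c)}
      add_mem' := fun ha hb c hc => by rw [add_mul]; exact (ha c hc).add (hb c hc)
      mul_mem' := fun ha hb c hc => by rw [mul_assoc]; exact ha _ (hb c hc)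
      algebraMap_mem' := fun k c hc => hc.smul k }
  rcases C.simple L with h1 | h1
  · refine Algebra.mem_bot.1 (h1 ▸ show ν ∈ L from fun c hc => ?_)
    obtain ⟨a, ha, hae, ha'⟩ := exists_sing_orth hd e
    obtain ⟨b, hb, hb', h2⟩ := ha.exists_partner (mem_perp_span_singleton.2 hae) ha'
    obtain ⟨_, h3⟩ := hc e b he he0 hb' (mem_perp_span_singleton.1 hb)
    obtain ⟨_, h4⟩ := C.diff ha hae ha' h3 h
    rw [P.f_smul_left, R.f_alg, h2, map_one, mul_one] at h4
    exact C.L_of he0 ha' h4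
  have h2 : ∀ c, LL P₀ P j M c := fun c => by
    simpa using (h1 ▸ Algebra.mem_top : c ∈ L) 1 fun e a he _ _ hae =>
      ⟨_, by rw [one_smul]; exact R.ei C.le (EV.of_h he hae)⟩
  have h3 : ∀ e, P₀.Sing e → e ≠ 0 → P.Full M (j e) := fun e he he0 => by
    have h3 : ∀ y, P.f y (j e) = 0 → ∃ ν, P.Ei M (j e) y ν := fun y =>
      ei_of_forall_smul R he he0 fun c x hx => mem_of_sing_perp hd (U :=
        { carrier := {x | ∀ c : F, ∃ ν, P.Ei M (j e) (c • j x) ν}
          add_mem' := fun hx hy c => by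
            obtain ⟨_, h1⟩ := hx c
            obtain ⟨_, h2⟩ := hy c
            exact ⟨_, by rw [map_add, smul_add]; exact h1.add h2⟩
          zero_mem' := fun c => ⟨0, by simpa using Ei.zero (R.sing_iff.2 he)⟩
          smul_mem' := fun k x hx c => by rw [j_smul (F := F), smul_smul]; exact hx _ })
        (fun a ha hae c => h2 c e a he he0 ha hae) hx c
    refine ⟨R.sing_iff.2 he, fun y ν hv => ?_⟩
    obtain ⟨ν', h4⟩ := h3 y hv.orth
    obtain ⟨a, ha⟩ := C.uni.min _ (hv.sub_mem h4.ev)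
    obtain ⟨y', hy, z, hz, h5⟩ := exists_f_eq_of_lt (P := P) (S := F ∙ j e) (by
      have := finrank_span_singleton_le (F := F) (j e)
      have := C.four
      rw [R.finrank_eq]; omega) a
    obtain ⟨_, h6⟩ := h3 y' (mem_perp_span_singleton.1 hy)
    obtain ⟨_, h7⟩ := h3 z (mem_perp_span_singleton.1 hz)
    have h8 := h7.comm h6
    rw [P.herm z y', h5, ← ha] at h8
    simpa using h4.add_zero h8
  obtain ⟨e', he', h4⟩ := Sing.exists_partner' he he0
  refine absurd ((h3 e he he0).E_le (h3 e' he' ?_) ?_) C.not_le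
  · rintro rfl
    exact zero_ne_one ((P₀.f_zero_left _).symm.trans h4)
  · rw [R.f_alg, h4, map_one]
    exact one_ne_zero

theorem toC3 : C3 P₀ P j M := ⟨C.toRat, C.le, C.le_E, by have := C.four; omega, fun e he0 y ν h => by
  have R := C.toRat
  refine rat_eich_of R C.le he0 h (fun x hx => ?_) fun ν h => C.Z_mem (C.Z_of he0 h)
  refine mem_of_sing_perp C.d_le (U :=
    { carrier := {x | P.f y (j x) ∈ (algebraMap K F).range}
      add_mem' := fun hx hy => by
        rw [Set.mem_ofPred_eq, map_add, f_add_right]; exact add_mem hx hy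
      zero_mem' := by rw [Set.mem_ofPred_eq, map_zero, f_zero_right]; exact zero_mem _
      smul_mem' := fun c x hx => by
        rw [Set.mem_ofPred_eq, j_smul (F := F), f_smul_right, R.σ_alg]
        exact mul_mem ⟨_, rfl⟩ hx }) (fun a ha hae => ?_) hx
  change P.f y (j a) ∈ Set.range (algebraMap K F)
  by_cases h1 : a ∈ K ∙ e
  · obtain ⟨c, rfl⟩ := Submodule.mem_span_singleton.1 h1
    exact ⟨0, by rw [j_smul (F := F), f_smul_right, h.ev.orth, mul_zero, map_zero]⟩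
  obtain ⟨ν₀, hν₀, h2⟩ := exists_mem_Λ C.uni₀.Λ_ne_bot
  obtain ⟨_, h3⟩ := C.diff ha hae h1 h (ν := algebraMap K F ν₀) fun e he _ => by
    simpa using R.ei C.le (EV.of_mem he hν₀)
  obtain ⟨_, _, h4, h5, k₁, k₂, h6⟩ := C.exists_comb he0 h1 h3
  obtain ⟨ν₁, rfl⟩ := C.Z_mem h4
  obtain ⟨ν₂, rfl⟩ := C.Z_mem h5
  refine ⟨ν₀⁻¹ * (k₁ * ν₁ + k₂ * ν₂), ?_⟩
  rw [map_mul, map_add, map_mul, map_mul, ← h6, map_inv₀, inv_mul_cancel_left₀ (by simpa using h2)]⟩

end U6

theorem not_E_le_of_rat (R : PForm.Rat P₀ P j) (hd : P₀.d + 2 ≤ finrank K V₀)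
    (hrat : ∀ g ∈ ratNorm F j ⊓ P.E, ∀ x, ∃ y, j y = g (j x))
    (hne : ∃ c : F, c ∉ Set.range (algebraMap K F)) : ¬ P.E ≤ ratNorm F j := by
  intro h
  obtain ⟨c, hc⟩ := hne
  obtain ⟨e, -, he0, he⟩ := P₀.exists_sing ⊤ (by rw [finrank_top]; omega)
  obtain ⟨y, -, hye, hy⟩ := exists_sing_orth hd e
  have hv := EV.of_h (R.sing_iff.2 he) (y := c • j y)
    (by rw [P.f_smul_left, R.f_eq_zero.2 hye, mul_zero])
  obtain ⟨x, hx⟩ := P₀.exists_f_left_eq he0 1
  obtain ⟨z, hz, h1⟩ := P₀.exists_perp_f_right hy 1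
  obtain ⟨w, hw⟩ := hrat _ ⟨h hv.equiv_mem_E, hv.equiv_mem_E⟩ x
  have h2 := congrArg (P.f · (j z)) hw
  simp only [EV.equiv_apply, PForm.eich_apply, f_sub_left, P.f_add_left, P.f_smul_left, R.f_alg, hx,
    h1, f_symm_zero (mem_perp_span_singleton.1 hz), map_one, map_zero] at h2
  exact hc ⟨P₀.f w z - P₀.f x z, by rw [map_sub]; linear_combination h2⟩

/-- The determinant of a rational endomorphism is rational. -/
theorem det_mem_of_rat (R : PForm.Rat P₀ P j) (A : V →ₗ[F] V) (hA : ∀ x, ∃ y, j y = A (j x)) :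
    LinearMap.det A ∈ Set.range (algebraMap K F) := by
  classical
  choose A₀ hA₀ using hA
  refine ⟨(Matrix.of fun i k => (finBasis K V₀).repr (A₀ (finBasis K V₀ k)) i).det, ?_⟩
  rw [← LinearMap.det_toMatrix R.basis, RingHom.map_det]
  congr 1
  ext i k
  rw [LinearMap.toMatrix_apply, R.basis_apply, ← hA₀, ← (finBasis K V₀).sum_repr (A₀ _), map_sum]
  simp [-algebraMap_smul, j_smul (F := F), ← R.basis_apply, Finsupp.single_apply]

section Geo

variable {ι : Type} [Fintype ι] [DecidableEq ι] {F : Type*} [Field F] [Fintype F] {F₀ : Subfield F}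

/-- Subfield subgroups of odd prime index are maximal in `SU₄(q)`. -/
theorem su_c5_four {r : ℕ} (hr : r.Prime) (hro : Odd r)
    (hcard : Fintype.card F = Nat.card F₀ ^ r) {σ : F ≃+* F} {f : (ι → F) → (ι → F) → F}
    (hf : Geo.IsUnitaryForm σ f) (h4 : Fintype.card ι = 4) {P : GL ι F}
    (hP : Geo.IsFormRationalStructure f F₀ 1 P) :
    Geo.IsMaximalIn (preserving (glToMat ι F) f ⊓ Geo.specialLinear ι F)
      (Geo.subfieldSubgroup F₀ P ⊓ (preserving (glToMat ι F) f ⊓ Geo.specialLinear ι F)) := by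
  have hP' : ∀ u v, f (jmap F₀ P u) (jmap F₀ P v) ∈ F₀ := fun u v => by
    simpa only [one_mul, jmap_apply] using hP (up u) (up v) (fun i => (u i).2) fun i => (v i).2
  obtain ⟨l', hl'⟩ := exists_trace_one hf
  have hf₀ : Geo.IsUnitaryForm (restrictAut σ F₀) (restF (unitP hf l' hl') hP') := by
    refine ⟨fun h => ?_, fun a => Subtype.ext (hf.involutive a), restF_add_left _ _,
      restF_smul_left _ _, fun v w => Subtype.ext (hf.herm _ _), restF_nondeg _ _⟩
    have h1 : ∀ x : F₀, σ x = x := fun x => congrArg Subtype.val (RingEquiv.congr_fun h x)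
    rcases subalgebra_eq_bot_or_top hr hcard
      { (H25.fixedSub σ).toSubring with algebraMap_mem' := h1 } with h2 | h2
    · have h3 : H25.fixedSub σ = F₀ := by
        refine le_antisymm (fun x hx => ?_) fun x hx => h1 ⟨x, hx⟩
        obtain ⟨y, rfl⟩ := Algebra.mem_bot.1 ((SetLike.ext_iff.1 h2 x).1 hx)
        exact y.2
      have h4 := H25.card_fixedSub hf.ne_refl hf.involutive
      rw [h3, hcard] at h4
      rw [Nat.pow_right_injective (H25.two_le_card_subfield F₀) h4] at hro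
      exact absurd hro (by decide)
    · exact H25.fixedSub_ne_top hf.ne_refl
        (eq_top_iff.2 fun x _ => (SetLike.ext_iff.1 h2 x).2 Algebra.mem_top)
  obtain ⟨l, hl⟩ := exists_trace_one hf₀
  have hl' : (l : F) + σ l = 1 := congrArg Subtype.val hl
  have R : PForm.Rat (unitP hf₀ l hl) (unitP hf l hl') (jmap F₀ P) :=
    ⟨fun _ => rfl, (map_one _).symm, fun _ _ => rfl,
      fun x => Eq.mpr (congrArg (· ∈ _) (sub_self _)) (zero_mem _),
      fun a => ⟨fun h => Subtype.ext h, fun h => congrArg Subtype.val h⟩, jmap_span P⟩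
  have h5 : finrank F₀ (ι → F₀) = 4 := by rw [finrank_pi_card, h4]
  have hodd : ∀ c : F, c * c ∈ F₀ → c ∈ F₀ := fun c h3 => by
    obtain ⟨s, ⟨k, rfl⟩, hs⟩ := H25.exists_odd_pow_mem hro hcard
    by_cases hc0 : c = 0
    · exact hc0 ▸ F₀.zero_mem
    convert F₀.div_mem (hs c) (F₀.pow_mem h3 k) using 1
    field_simp
    ring
  have hrat : ∀ g ∈ ratNorm F (jmap F₀ P) ⊓ (unitP hf l hl').E, ∀ x, ∃ y,
      jmap F₀ P y = g (jmap F₀ P x) := fun g hg x => by
    obtain ⟨c, hc0, hc⟩ := exists_of_mem_ratNorm hg.1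
    obtain ⟨d, hd⟩ := det_mem_of_rat R (c • g.toLinearMap) hc
    rw [LinearMap.det_smul, det_of_mem_E hg.2, finrank_pi_card, h4] at hd
    have h1 := hodd c (hodd _ (by convert d.2 using 1; exact (hd.trans (by ring)).symm))
    obtain ⟨y, hy⟩ := hc x
    exact ⟨(⟨c, h1⟩ : F₀)⁻¹ • y, by rw [jmap_smul, hy]; simp [smul_smul, hc0]⟩
  refine isMaximalIn_of_E _ (mem_SU_iff_unitP hf l hl' (Or.inl (by omega))) _
    (mem_subfieldSubgroup_iff P) (not_E_le_of_rat R h5.ge hrat ?_) fun M h1 h2 =>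
      or_iff_not_imp_right.2 fun h => (U6.toC3 ⟨R, uni_unitP _ _ _, uni_unitP _ _ _, h5.ge, h5.ge,
        h1, h2, h, subalgebra_eq_bot_or_top hr hcard⟩).le_of_tv (unitP_Λ_ne_bot _ _ _) h5.ge hrat
  obtain ⟨c, hc⟩ := exists_notMem_subfield hr hcard
  exact ⟨c, fun ⟨x, hx⟩ => hc (hx ▸ x.2)⟩

end Geo

end Cfsg.Agent.H30
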