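import Cfsg.Agent.H26.PC5Geo

/-!
# The stabiliser of a pair of complementary totally isotropic planes in `SU₄(q)`, `q ≥ 4`
-/

set_option autoImplicit false

namespace Cfsg.Agent.H30

open Module Cfsg.Agent.H26 Cfsg.Agent.H26.PForm

variable {F : Type*} [Field F] {V : Type*} [AddCommGroup V] [Module F V] {P : PForm F V}
  {M : Subgroup (V ≃ₗ[F] V)}

/-- The form is unitary. -/
structure Uni (P : PForm F V) : Prop where
  ε : P.ε = 1
  Λ : ∀ a, a ∈ P.Λ ↔ a + P.σ a = 0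
  σ : ∃ a, P.σ a ≠ a
  min : ∀ ν ∈ P.Λ, ∃ a, ν = a - P.ε * P.σ a

namespace Uni

variable (U : Uni P)
include U

theorem Λ_ne_bot : P.Λ ≠ ⊥ := fun h => U.σ.elim fun a ha => ha (σ_eq_of_Λ h a)

theorem σ_of_mem {ν : F} (h : ν ∈ P.Λ) : P.σ ν = -ν := eq_neg_of_add_eq_zero_right ((U.Λ ν).1 h)

theorem symm_one {x y : V} (h : P.f x y = 1) : P.f y x = 1 := (f_symm_one h).trans U.ε

theorem sing {x : V} (h : P.f x x = 0) : P.Sing x :=
  (U.Λ _).2 (by simpa [U.ε, h] using (P.f_self x).symm)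

theorem eq_zero_of_forall {x : F} (h : ∀ c, P.σ (c * x) = c * x) : x = 0 := by
  obtain ⟨a, ha⟩ := U.σ
  have h1 := h a
  rw [map_mul, ← one_mul x, h 1] at h1
  simpa [ha] using h1

theorem exists_weyl {ν : F} (hν : ν ∈ P.Λ) (h0 : ν ≠ 0) {e e' : V} (he : P.Sing e)
    (he' : P.Sing e') (h : P.f e e' = 1) : ∃ g ∈ P.E, ∀ x, g x = x - P.f x e' • e - P.f x e • e' +
      (ν⁻¹ * P.f x e') • e' - (ν * P.f x e) • e := by
  have h1 := EV.of_mem he hν
  have h2 := EV.of_mem he' (ν := -ν⁻¹) ((U.Λ _).2 (by simp [U.σ_of_mem hν]))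
  refine ⟨h1.equiv * h2.equiv * h1.equiv, P.E.mul_mem (P.E.mul_mem h1.equiv_mem_E h2.equiv_mem_E)
    h1.equiv_mem_E, fun x => ?_⟩
  simp only [mul_apply', EV.equiv_apply, eich_zero_apply, f_sub_left, P.f_smul_left, h,
    U.symm_one h, he.f_self, U.ε]
  match_scalars <;> field_simp <;> ring

/-- The torus of a hyperbolic pair. -/
theorem exists_torus {t : F} (ht : P.σ t = t) (h0 : t ≠ 0) {e e' : V} (he : P.Sing e)
    (he' : P.Sing e') (h : P.f e e' = 1) : ∃ g ∈ P.E, ∀ x,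
      g x = x + ((t - 1) * P.f x e') • e + ((t⁻¹ - 1) * P.f x e) • e' := by
  obtain ⟨ν, hν, hν0⟩ := exists_mem_Λ U.Λ_ne_bot
  obtain ⟨g, hg, h1⟩ := U.exists_weyl hν hν0 he he' h
  obtain ⟨k, hk, h2⟩ := U.exists_weyl (ν := -(t * ν)) ((U.Λ _).2 (by simp [U.σ_of_mem hν, ht]))
    (by simp [h0, hν0]) he he' h
  refine ⟨k * g, P.E.mul_mem hk hg, fun x => ?_⟩
  simp only [mul_apply', h1, h2, f_sub_left, P.f_add_left, P.f_smul_left, h, U.symm_one h,
    he.f_self, he'.f_self]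
  match_scalars <;> field_simp <;> ring

end Uni

variable [FiniteDimensional F V] {A B : Submodule F V}

theorem span_pair_eq (h2 : finrank F A = 2) {e a : V} (he : e ∈ A) (ha : a ∈ A) (h0 : e ≠ 0)
    (hae : a ∉ F ∙ e) : (F ∙ e) ⊔ (F ∙ a) = A :=
  Submodule.eq_of_le_of_finrank_le (sup_le ((Submodule.span_singleton_le_iff_mem _ _).2 he)
    ((Submodule.span_singleton_le_iff_mem _ _).2 ha))
    (by rw [finrank_sup_span_of_notMem hae, finrank_span_singleton h0, h2])

/-- The hypotheses on an overgroup of the stabiliser of a pair of totally isotropic planes. -/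
structure TS4 (P : PForm F V) (M : Subgroup (V ≃ₗ[F] V)) (A B : Submodule F V) : Prop where
  uni : Uni P
  ts : P.TSPair A B
  two : finrank F A = 2
  le : pairStab A B ⊓ P.E ≤ M
  isom : M ≤ P.isom
  not_le : ¬ P.E ≤ M
  four : ∃ t, P.σ t = t ∧ t ≠ 0 ∧ t * t ≠ 1

namespace TS4

variable (T : TS4 P M A B)
include T

omit [FiniteDimensional F V] in
theorem symm : TS4 P M B A :=
  ⟨T.uni, T.ts.symm, T.ts.dim ▸ T.two, pairStab_comm A B ▸ T.le, T.isom, T.not_le, T.four⟩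

theorem frame {e e' : V} (he : e ∈ A) (he' : e' ∈ B) (h : P.f e e' = 1) :
    ∃ a ∈ A, ∃ b ∈ B, P.f a b = 1 ∧ P.f a e' = 0 ∧ P.f b e = 0 ∧
      ∀ x, x = P.f x e' • e + P.f x b • a + P.f x e • e' + P.f x a • b := by
  have h1 := finrank_le_inf_perp (P := P) A e'
  have h2 := T.two
  obtain ⟨a, ⟨ha, hae⟩, ha0⟩ := exists_mem_ne_zero_of_finrank (A := A ⊓ P.perp (F ∙ e')) (by omega)
  replace hae : P.f a e' = 0 := mem_perp_span_singleton.1 hae
  have hn : ∀ {x y z : V}, P.f x y = 1 → P.f z y = 0 → z ≠ 0 → z ∉ F ∙ x := fun h1 h2 h3 h4 => by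
    obtain ⟨c, rfl⟩ := Submodule.mem_span_singleton.1 h4
    rw [P.f_smul_left, h1, mul_one] at h2
    exact h3 (by rw [h2, zero_smul])
  have h0 : ∀ {x y : V}, P.f x y = 1 → x ≠ 0 := fun h => by
    rintro rfl
    exact zero_ne_one ((P.f_zero_left _).symm.trans h)
  obtain ⟨b, hb, hbe, hab⟩ := T.ts.exists_f ((Submodule.span_singleton_le_iff_mem _ _).2 he) ha
    (hn h hae ha0) 1
  rw [mem_perp_span_singleton] at hbe
  refine ⟨a, ha, b, hb, hab, hae, hbe, fun x => sub_eq_zero.1 (T.ts.eq_zero (T.ts.mem_of_perp ?_)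
    (T.ts.symm.mem_of_perp ?_))⟩
  · rw [← span_pair_eq h2 he ha (h0 h) (hn h hae ha0), mem_perp_sup_span, mem_perp_span_singleton]
    simp [f_sub_left, P.f_add_left, P.f_smul_left, T.ts.orthA he e he, T.ts.orthA he a ha,
      T.ts.orthA ha e he, T.ts.orthA ha a ha, hbe, T.uni.symm_one h, T.uni.symm_one hab,
      f_symm_zero hae]
  · rw [← span_pair_eq T.symm.two he' hb (h0 (T.uni.symm_one h))
      (hn (T.uni.symm_one h) hbe (h0 (T.uni.symm_one hab))), mem_perp_sup_span,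
      mem_perp_span_singleton]
    simp [f_sub_left, P.f_add_left, P.f_smul_left, T.ts.orthB he' e' he', T.ts.orthB he' b hb,
      T.ts.orthB hb e' he', T.ts.orthB hb b hb, hae, h, hab, f_symm_zero hbe]

theorem exists_swap : ∃ s ∈ pairStab A B ⊓ P.E, (∀ a ∈ A, s a ∈ B) ∧ ∀ b ∈ B, s b ∈ A := by
  obtain ⟨s, hs, h1, h2⟩ := T.ts.exists_swap (Or.inl T.uni.Λ_ne_bot)
  exact ⟨s, ⟨mem_pairStab_of_swap T.ts.dim h1 h2, hs⟩, h1, h2⟩

theorem tv_zero {e : V} {ν : F} (he : e ∈ A) (he0 : e ≠ 0) (hi : P.Ei M e 0 ν) : ν = 0 := by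
  by_contra hν
  have h := T.ts
  have h2 := T.two
  have h1 : ∀ e' ∈ A, e' ≠ 0 → P.Ei M e' 0 ν := fun e' he' h0 => by
    obtain ⟨g, hg, hgi, rfl⟩ := h.trans T.le h2.ge he he' he0 h0
    simpa using hi.conj hg hgi
  have h3 : ∀ z ∈ A, ∃ μ, P.Ei M e z μ := fun z hz => by
    by_cases hze : z ∈ F ∙ e
    · obtain ⟨c, rfl⟩ := Submodule.mem_span_singleton.1 hze
      exact ⟨_, by simpa using (Ei.zero (M := M) hi.ev.sing).add_smul_self c⟩
    have h4 := A.smul_mem (-ν⁻¹) hz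
    rw [← Submodule.smul_mem_iff _ (neg_ne_zero.2 (inv_ne_zero hν))] at hze
    have := hi.of_tv_add (h1 _ h4 (fun h => hze (h ▸ zero_mem _)))
      (h1 _ (A.add_mem he h4) fun h => hze (by
        rw [eq_neg_of_add_eq_zero_right h]
        exact neg_mem (Submodule.mem_span_singleton_self e))) (h.orthA h4 e he)
    rw [T.uni.ε, one_mul, smul_smul, neg_mul_neg, mul_inv_cancel₀ hν, one_smul] at this
    exact ⟨_, this⟩
  have h4 : ∀ y, P.f y e = 0 → ∃ ν, P.Ei M e y ν := fun y hy => by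
    obtain ⟨a', ha', b, hb, rfl⟩ := h.exists_add y
    rw [P.f_add_left, h.orthA ha' e he, zero_add] at hy
    obtain ⟨_, h5⟩ := h3 a' ha'
    exact ⟨_, h5.add (h.ei T.le he hb hy)⟩
  obtain ⟨a, ha, hae⟩ := exists_mem_notMem_of_finrank_lt (A := A) (S := F ∙ e)
    (by have := finrank_span_singleton_le (F := F) e; omega)
  have h5 : P.Full M e := ⟨h.singA e he, fun y ν hv => by
    obtain ⟨ν', h5⟩ := h4 y hv.orth
    obtain ⟨c, hc⟩ := T.uni.min _ (hv.sub_mem h5.ev)
    obtain ⟨z, hz, hz1, hz2⟩ := h.exists_f ((Submodule.span_singleton_le_iff_mem _ _).2 he) ha hae c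
    obtain ⟨_, h6⟩ := h3 a ha
    have h6 := h6.comm (h.ei T.le he hz (mem_perp_span_singleton.1 hz1))
    rw [P.herm a z, hz2, ← hc] at h6
    have := h5.add_zero h6
    rwa [add_sub_cancel] at this⟩
  obtain ⟨s, hs, hsA, -⟩ := T.exists_swap
  obtain ⟨e', he', -, h6⟩ := h.symm.exists_f bot_le (hsA e he) (by simpa using he0) 1
  obtain ⟨g, hg, hgi, hge⟩ := h.trans T.le h2.ge he he' he0
    (by rintro rfl; rw [f_zero_right] at h6; exact zero_ne_one h6)
  exact T.not_le ((hge ▸ h5.conj hg hgi).E_le (h5.conj (T.le hs) (E_le_isom hs.2))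
    (by rw [h6]; exact one_ne_zero))

/-- An element of `M` fixing a vector of `A` stabilises `B`. -/
theorem map_mem_of_fix {g : V ≃ₗ[F] V} (hg : g ∈ M) {e : V} (he : e ∈ A) (he0 : e ≠ 0)
    (hge : g e = e) : ∀ x ∈ B, g x ∈ B := by
  have h := T.ts
  have hε := T.uni.ε
  obtain ⟨e', he', -, h1⟩ := h.exists_f bot_le he (by simpa using he0) 1
  obtain ⟨a, ha, b, hb, hab, hae, hbe, hx⟩ := T.frame he he' h1
  have hgi := T.isom hg
  have h2 : P.f (g b) e = 0 := by rw [← hge, isom_f hgi, hbe]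
  have h3 : ∀ c, P.Ei M e (c • g b) 0 := fun c => by
    simpa [hge] using (h.ei T.le he (B.smul_mem c hb) (by rw [P.f_smul_left, hbe, mul_zero])).conj
      hg hgi
  have h4 : P.f (g b) b = 0 := T.uni.eq_zero_of_forall fun c => by
    have := T.tv_zero he he0 ((h3 c).comm (h.ei T.le he hb hbe))
    rw [P.herm (c • g b) b, P.f_smul_left, hε, one_mul, sub_eq_zero] at this
    exact this.symm
  have h5 : g b = P.f (g b) a • b + P.f (g b) e' • e := by
    conv_lhs => rw [hx (g b), h2, h4]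
    module
  have h6 : P.f (g b) e' = 0 := T.uni.eq_zero_of_forall fun c => by
    have h6 := h3 c
    rw [h5, smul_add, smul_smul c _ e] at h6
    have := T.tv_zero he he0 (h6.of_add_smul_self.sub_same (h.ei T.le he
      (B.smul_mem _ (B.smul_mem _ hb)) (by simp [P.f_smul_left, hbe])))
    rw [hε] at this
    linear_combination this
  rw [h6, zero_smul, add_zero] at h5
  have h7 : P.f (g e') e = 1 := by rw [← hge, isom_f hgi, T.uni.symm_one h1]
  have h8 : P.f (g e') b = 0 := by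
    have h8 := (isom_f hgi e' b).trans (h.orthB he' b hb)
    rw [h5, f_smul_right] at h8
    refine (mul_eq_zero.1 h8).resolve_left (P.σ_ne_zero fun h9 => ?_)
    rw [h9, zero_smul, g.map_eq_zero_iff] at h5
    rw [h5, f_zero_right] at hab
    exact zero_ne_one hab
  have h9 : P.f (g e') e' = 0 := by
    obtain ⟨t, ht, ht0, ht1⟩ := T.four
    obtain ⟨τ, hτ, h9⟩ := T.uni.exists_torus ht ht0 (h.singA e he) (h.singB e' he') h1
    have hτM : τ ∈ M := T.le ⟨mem_pairStab_of_fix (fun x hx => by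
      simpa [h9, h.orthA hx e he] using A.add_mem hx (A.smul_mem _ he)) fun x hx => by
      simpa [h9, h.orthB hx e' he'] using B.add_mem hx (B.smul_mem _ he'), hτ⟩
    have hu := h.ei T.le he (B.smul_mem (-P.f (g e') a) hb)
      (by rw [P.f_smul_left, hbe, mul_zero])
    have hk := M.mul_mem hu.mem hg
    have hki := T.isom hk
    have k1 : (hu.ev.equiv * g) e = e := by rw [mul_apply', hge, EV.equiv_apply, hu.ev.eich_self]
    have k2 : (hu.ev.equiv * g) e' = e' + P.f (g e') e' • e := by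
      rw [mul_apply', EV.equiv_apply, PForm.eich_apply, h7, f_smul_right, h8]
      have := hx (g e')
      rw [h7, h8] at this
      linear_combination (norm := module) this
    generalize hu.ev.equiv * g = k at hk hki k1 k2
    generalize P.f (g e') e' = x at k2 ⊢
    have k3 : P.σ x = -x := by
      have := (isom_f hki e' e').trans (h.orthB he' e' he')
      simp only [k2, P.f_add_left, f_add_right, P.f_smul_left, f_smul_right, h1, T.uni.symm_one h1,
        h.orthA he e he, h.orthB he' e' he'] at this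
      linear_combination this
    have := T.tv_zero he he0 (Ei.of_eq (EV.of_mem (h.singA e he) (ν := x * (t * t - 1))
      ((T.uni.Λ _).2 (by simp [k3, ht]))) (M.mul_mem (M.mul_mem (M.mul_mem hk hτM) (M.inv_mem hk))
      (M.inv_mem hτM)) fun v => by
        obtain ⟨v, rfl⟩ := τ.surjective v
        rw [mul_apply', inv_apply_apply, mul_apply', mul_apply', h9, map_add, map_add, map_smul,
          map_smul, apply_inv_apply, ← isom_f_right hki, ← isom_f_right hki, k1, k2, h9,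
          eich_zero_apply]
        simp only [P.f_add_left, f_add_right, P.f_smul_left, f_smul_right, T.uni.symm_one h1,
          h.orthA he e he, k3, hε]
        match_scalars <;> field_simp <;> ring)
    exact (mul_eq_zero.1 this).resolve_right (sub_ne_zero.2 ht1)
  intro x hxB
  rw [hx x, h.orthB hxB e' he', h.orthB hxB b hb, zero_smul, zero_smul, zero_add, zero_add,
    map_add, map_smul, map_smul, h5, hx (g e'), h8, h9, zero_smul, zero_smul, zero_add, zero_add]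
  exact B.add_mem (B.smul_mem _ (B.add_mem (B.smul_mem _ he') (B.smul_mem _ hb)))
    (B.smul_mem _ (B.smul_mem _ hb))

theorem map_mem {g : V ≃ₗ[F] V} (hg : g ∈ M) {e : V} (he : e ∈ A) (he0 : e ≠ 0)
    (hge : g e ∈ A) : ∀ x ∈ B, g x ∈ B := by
  obtain ⟨s, hs, h1, h2⟩ := T.exists_swap
  obtain ⟨k, hk, -, h3⟩ := T.ts.trans le_rfl T.two.ge hge he (by simpa using he0) he0
  have h4 := T.map_mem_of_fix (M.mul_mem (T.le hk) hg) he he0 h3
  rcases hk.1 with h5 | h5
  · exact fun x hx => (h5.2 _).2 (h4 x hx)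
  · exact absurd (T.ts.eq_zero he (h3 ▸ (h5.1 _).1 hge)) he0

theorem mem_of_AA {g : V ≃ₗ[F] V} (hg : g ∈ M) {e : V} (he : e ∈ A) (he0 : e ≠ 0)
    (hge : g e ∈ A) : (∀ x ∈ A, g x ∈ A) ∧ ∀ x ∈ B, g x ∈ B := by
  obtain ⟨b, hb, hb0⟩ := exists_mem_ne_zero_of_finrank (A := B) (by rw [T.symm.two]; omega)
  exact ⟨T.symm.map_mem hg hb hb0 (T.map_mem hg he he0 hge b hb), T.map_mem hg he he0 hge⟩

theorem mem_of_A {g : V ≃ₗ[F] V} (hg : g ∈ M) {e : V} (he : e ∈ A ∨ e ∈ B) (he0 : e ≠ 0)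
    (hge : g e ∈ A) : g ∈ pairStab A B := by
  rcases he with he | he
  · exact mem_pairStab_of_fix (T.mem_of_AA hg he he0 hge).1 (T.mem_of_AA hg he he0 hge).2
  obtain ⟨s, hs, h1, -⟩ := T.exists_swap
  have h2 := T.symm.mem_of_AA (M.mul_mem (T.le hs) hg) he he0 (h1 _ hge)
  exact ((pairStab A B).mul_mem_cancel_left hs.1).1 (mem_pairStab_of_fix h2.2 h2.1)

theorem mem_of_B {g : V ≃ₗ[F] V} (hg : g ∈ M) {e : V} (he : e ∈ A ∨ e ∈ B) (he0 : e ≠ 0)
    (hge : g e ∈ B) : g ∈ pairStab A B :=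
  pairStab_comm A B ▸ T.symm.mem_of_A hg he.symm he0 hge

theorem le_pairStab : M ≤ pairStab A B := fun g hg => by
  have h := T.ts
  have hgi := T.isom hg
  obtain ⟨e, he, he0⟩ := exists_mem_ne_zero_of_finrank (A := A) (by rw [T.two]; omega)
  obtain ⟨a₀, ha₀, b₀, hb₀, hge⟩ := h.exists_add (g e)
  have key : ∀ k ∈ pairStab A B ⊓ P.E, k a₀ = a₀ → k b₀ = b₀ →
      (∀ x ∈ A, g⁻¹ (k (g x)) ∈ A) ∧ ∀ x ∈ B, g⁻¹ (k (g x)) ∈ B := fun k hk h1 h2 =>
    T.mem_of_AA (M.mul_mem (M.mul_mem (M.inv_mem hg) (T.le hk)) hg) he he0 (by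
      rwa [mul_apply', mul_apply', ← hge, map_add k, h1, h2, hge, inv_apply_apply])
  by_cases h0 : P.f a₀ b₀ = 0
  · by_cases h1 : a₀ = 0
    · exact T.mem_of_B hg (Or.inl he) he0 (by rwa [← hge, h1, zero_add])
    by_cases h2 : b₀ = 0
    · exact T.mem_of_A hg (Or.inl he) he0 (by rwa [← hge, h2, add_zero])
    have h3 : ∀ c, ∀ x ∈ B, (P.f (g x) a₀ * c) • g⁻¹ b₀ - (P.σ c * P.f (g x) b₀) • g⁻¹ a₀ ∈ B :=
      fun c x hx => by
      have h3 := h.ei le_rfl ha₀ (B.smul_mem c hb₀) (by rw [P.f_smul_left, f_symm_zero h0, mul_zero])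
      have h4 := B.sub_mem ((key _ h3.mem h3.ev.eich_self (P.eich_apply_of_orth₂ _ (f_symm_zero h0)
        (h.orthB hb₀ _ (B.smul_mem c hb₀)))).2 x hx) hx
      simp only [EV.equiv_apply, PForm.eich_apply, map_sub, map_add, map_smul, inv_apply_apply,
        f_smul_right, T.uni.ε] at h4
      convert h4 using 1
      module
    obtain ⟨θ, hθ⟩ := T.uni.σ
    by_cases h4 : g⁻¹ a₀ ∈ B
    · exact T.mem_of_A hg (Or.inr h4) (by simpa using h1) (by rwa [apply_inv_apply])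
    by_cases h5 : g⁻¹ b₀ ∈ B
    · exact T.mem_of_B hg (Or.inr h5) (by simpa using h2) (by rwa [apply_inv_apply])
    refine absurd (h.eq_zero he (h.symm.mem_of_perp (PForm.mem_perp'.2 fun x hx => ?_))) he0
    have h6 : P.f (g x) b₀ = 0 := by
      by_contra h6
      refine h4 ((B.smul_mem_iff (mul_ne_zero (sub_ne_zero.2 hθ) h6)).1 ?_)
      convert B.sub_mem (B.smul_mem θ (h3 1 x hx)) (h3 θ x hx) using 1
      rw [map_one]
      module
    have h7 : P.f (g x) a₀ = 0 := by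
      by_contra h7
      exact h5 ((B.smul_mem_iff h7).1 (by simpa [h6] using h3 1 x hx))
    rw [← isom_f hgi, ← hge, f_add_right, h6, h7, add_zero]
  obtain ⟨a, ha, b, hb, hab, hae, hbe, -⟩ := T.frame ha₀ (B.smul_mem _ hb₀) (f_smul_inv h0)
  rw [f_smul_right, mul_eq_zero, or_iff_right (P.σ_ne_zero (P.σ_ne_zero (inv_ne_zero h0)))] at hae
  obtain ⟨t, ht, ht0, ht1⟩ := T.four
  obtain ⟨τ, hτ, h1⟩ := T.uni.exists_torus ht ht0 (h.singA a ha) (h.singB b hb) hab
  obtain ⟨h2, h3⟩ := key τ ⟨mem_pairStab_of_fix (fun x hx => by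
      simpa [h1, h.orthA hx a ha] using A.add_mem hx (A.smul_mem _ ha)) fun x hx => by
      simpa [h1, h.orthB hx b hb] using B.add_mem hx (B.smul_mem _ hb), hτ⟩
    (by simp [h1, f_symm_zero hbe, h.orthA ha₀ a ha]) (by simp [h1, f_symm_zero hae, h.orthB hb₀ b hb])
  have h4 : ∀ v, τ v = t • v → v ∈ A := fun v hv => by
    have h4 := congrArg (P.f · a) hv
    simp only [h1, P.f_add_left, P.f_smul_left, h.orthA ha a ha, T.uni.symm_one hab] at h4
    have h5 : P.f v a = 0 := (mul_eq_zero.1 (show (t * t - 1) * P.f v a = 0 by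
      field_simp at h4; linear_combination -h4)).resolve_left (sub_ne_zero.2 ht1)
    rw [h1, h5, mul_zero, zero_smul, add_zero] at hv
    refine (A.smul_mem_iff (sub_ne_zero.2 fun h => ht1 (by rw [h, mul_one]) : t - 1 ≠ 0)).1 ?_
    convert A.smul_mem ((t - 1) * P.f v b) ha using 1
    linear_combination (norm := module) -hv
  obtain ⟨p, hp, r, hr, h5⟩ := h.exists_add (g⁻¹ a)
  have h6 : g⁻¹ (τ (g p)) - t • p = -(g⁻¹ (τ (g r)) - t • r) := by
    have h6 : τ (g (p + r)) = g (t • (p + r)) := by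
      rw [h5, map_smul, apply_inv_apply, h1, hab, h.orthA ha a ha]
      module
    have h7 := congrArg (g⁻¹ : V ≃ₗ[F] V) h6
    simp only [map_add, inv_apply_apply] at h7
    linear_combination (norm := module) h7
  have h7 := h.eq_zero (A.sub_mem (h2 p hp) (A.smul_mem t hp))
    (h6 ▸ B.neg_mem (B.sub_mem (h3 r hr) (B.smul_mem t hr)))
  have h8 : ∀ x, g⁻¹ (τ (g x)) - t • x = 0 → g x ∈ A := fun x hx => h4 _ (by
    rw [← map_smul, ← sub_eq_zero.1 hx, apply_inv_apply])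
  by_cases h9 : p = 0
  · refine T.mem_of_A hg (Or.inr hr) (fun h10 => ?_) (h8 r (by rwa [h7, eq_comm, neg_eq_zero] at h6))
    rw [h9, h10, add_zero, eq_comm, LinearEquiv.map_eq_zero_iff] at h5
    rw [h5, f_zero_left] at hab
    exact zero_ne_one hab
  · exact T.mem_of_A hg (Or.inl hp) h9 (h8 p h7)

end TS4

section Geo

variable {F : Type*} [Field F]

theorem uni_unitP {ι : Type} [Finite F] {σ : F ≃+* F} {f : (ι → F) → (ι → F) → F}
    (hf : Geo.IsUnitaryForm σ f) (l : F) (hl : l + σ l = 1) : Uni (unitP hf l hl) :=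
  ⟨rfl, fun _ => Iff.rfl, exists_ne_of_ne_refl hf.ne_refl, unitP_Λ_min hf l hl⟩

theorem exists_fixed_sq_ne_one [Fintype F] {q : ℕ} (hF : Fintype.card F = q ^ 2) (hq : 4 ≤ q) :
    ∃ t : F, t ^ q = t ∧ t ≠ 0 ∧ t * t ≠ 1 := by
  classical
  have h := H31.card_pow_q_eq_self hF
  rw [Nat.card_eq_fintype_card, Fintype.card_subtype] at h
  obtain ⟨t, ht, h1⟩ := Finset.exists_mem_notMem_of_card_lt_card (s := ({0, 1, -1} : Finset F))
    (Finset.card_le_three.trans_lt (h ▸ hq))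
  simp only [Finset.mem_insert, Finset.mem_singleton, not_or] at h1
  exact ⟨t, by simpa using ht, h1.1, fun h => (mul_self_eq_one_iff.1 h).elim h1.2.1 h1.2.2⟩

/-- The stabiliser in `SU₄(q)`, `q ≥ 4`, of a pair of complementary totally isotropic planes is
maximal. -/
theorem su_c2_ts_four [Fintype F] {q : ℕ} (hF : Fintype.card F = q ^ 2) (hq : 4 ≤ q)
    {D : Fin 2 → Submodule F (Fin 4 → F)} (hD : Geo.IsMDecomposition 2 D)
    (hts : ∀ i, Geo.IsTotallySingularFor (hermForm 4 F q) (D i)) :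
    Geo.IsMaximalIn (GU 4 F q ⊓ Geo.specialLinear (Fin 4) F)
      (Geo.decompositionStabilizer D ⊓ (GU 4 F q ⊓ Geo.specialLinear (Fin 4) F)) := by
  obtain ⟨l, hl⟩ := exists_trace_one (isUnitaryForm_hermForm hF 4)
  have h : (unitP (isUnitaryForm_hermForm hF 4) l hl).TSPair (D 0) (D 1) :=
    ⟨fun x hx => (unitP_sing_iff _ l hl x).2 (hts 0 x hx x hx),
      fun x hx => (unitP_sing_iff _ l hl x).2 (hts 1 x hx x hx), fun u hu v hv => hts 0 u hu v hv,
      fun u hu v hv => hts 1 u hu v hv, isCompl_of_isMDecomposition hD,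
      by rw [hD.finrank_eq, hD.finrank_eq]⟩
  exact isMaximalIn_of_E _ (mem_GU_inf_iff hF (by omega) l hl) _ (mem_decompositionStabilizer_two D)
    (h.not_E_le (hD.finrank_eq 0).ge) fun M h1 h2 => or_iff_not_imp_right.2 fun h3 =>
      TS4.le_pairStab ⟨uni_unitP _ l hl, h, hD.finrank_eq 0, h1, h2.trans E_le_isom, h3,
        exists_fixed_sq_ne_one hF hq⟩

end Geo

end Cfsg.Agent.H30
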